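import Cfsg.Agent.LargeFischer.ThompsonCalc
import Cfsg.Agent.LargeFischer.Coords
import Cfsg.Agent.JFourType.CoverData

/-!
Permutations of the vectors given by lists of images, and the named elements used for the triple
cover of `M22` inside the semilinear isometries.
-/

set_option autoImplicit false
set_option maxRecDepth 100000

namespace Cfsg.Agent.JFourType

open Cfsg.Agent.GFour25 Cfsg.Agent.CosetCert
open Cfsg.Agent.SporB.FischerU (Vec vecN enc vecN_enc enc_lt hs hs_eq)
open Cfsg.Agent.LargeFischer (IsSemi semiU twist)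
open Cfsg.Agent.LargeFischer.Thompson
open Cfsg.Agent.TTClass
open Data

/-- The primitive scalar. -/
abbrev w4 : F4 := ⟨false, true⟩

/-- The permutation of a checked pair of lists. -/
noncomputable def mkPerm (g h : List ℕ) : Equiv.Perm Vec :=
  if e : comp h g = idL ∧ comp g h = idL ∧ comp g idL = g ∧ (g.all fun x => Nat.blt x 4096) = true ∧
      (h.all fun x => Nat.blt x 4096) = true then
    { toFun := fun v => vecN (apL g (enc v))
      invFun := fun v => vecN (apL h (enc v))
      left_inv := fun v => by
        have hlt : ∀ (l : List ℕ), (l.all fun x => Nat.blt x 4096) = true → ∀ x, apL l x < 4096 := by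
          intro l
          induction l with
          | nil => intro _ x; rw [apL_nil]; norm_num
          | cons a l ih =>
            intro hl x
            rw [List.all_cons, Bool.and_eq_true] at hl
            rw [apL_cons]
            refine Nat.xor_lt_two_pow (n := 12) ?_ (ih hl.2 _)
            cases x.testBit 0
            · norm_num
            · exact Nat.blt_eq.mp hl.1
        show vecN (apL h (enc (vecN (apL g (enc v))))) = v
        rw [enc_vecN (hlt g e.2.2.2.1 _), ← apL_comp, e.1, apL_idL (enc_lt v), vecN_enc]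
      right_inv := fun v => by
        have hlt : ∀ (l : List ℕ), (l.all fun x => Nat.blt x 4096) = true → ∀ x, apL l x < 4096 := by
          intro l
          induction l with
          | nil => intro _ x; rw [apL_nil]; norm_num
          | cons a l ih =>
            intro hl x
            rw [List.all_cons, Bool.and_eq_true] at hl
            rw [apL_cons]
            refine Nat.xor_lt_two_pow (n := 12) ?_ (ih hl.2 _)
            cases x.testBit 0
            · norm_num
            · exact Nat.blt_eq.mp hl.1
        show vecN (apL g (enc (vecN (apL h (enc v))))) = v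
        rw [enc_vecN (hlt h e.2.2.2.2 _), ← apL_comp, e.2.1, apL_idL (enc_lt v), vecN_enc] }
  else 1

/-- The check that makes a pair a permutation. -/
noncomputable def pairOK (g h : List ℕ) : Bool :=
  (comp h g == idL) && (comp g h == idL) && (comp g idL == g) && (g.all fun x => Nat.blt x 4096) &&
    (h.all fun x => Nat.blt x 4096)

theorem apL_lt {l : List ℕ} (hl : (l.all fun x => Nat.blt x 4096) = true) (x : ℕ) : apL l x < 4096 := by
  induction l generalizing x with
  | nil => rw [apL_nil]; norm_num
  | cons a l ih =>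
    rw [List.all_cons, Bool.and_eq_true] at hl
    rw [apL_cons]
    refine Nat.xor_lt_two_pow (n := 12) ?_ (ih hl.2 _)
    cases x.testBit 0
    · norm_num
    · exact Nat.blt_eq.mp hl.1

theorem rep_mkPerm {g h : List ℕ} (e : pairOK g h = true) :
    Rep g (mkPerm g h) ∧ Rep h (mkPerm g h)⁻¹ := by
  simp only [pairOK, Bool.and_eq_true, beq_iff_eq] at e
  obtain ⟨⟨⟨⟨e1, e2⟩, e3⟩, e4⟩, e5⟩ := e
  have hr : Rep g (mkPerm g h) := fun v => by
    rw [mkPerm, dif_pos ⟨e1, e2, e3, e4, e5⟩]
    exact enc_vecN (apL_lt e4 _)
  exact ⟨hr, hr.inv e1⟩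

/-- Multiplication by the primitive scalar. -/
noncomputable def omP : Equiv.Perm Vec := mkPerm omL omI
/-- The element of order 11. -/
noncomputable def aP : Equiv.Perm Vec := mkPerm aL aI
/-- The element of order 5. -/
noncomputable def bP : Equiv.Perm Vec := mkPerm bL bI
/-- The element of order 4. -/
noncomputable def cP : Equiv.Perm Vec := mkPerm cL cI
/-- The semilinear involution. -/
noncomputable def gP : Equiv.Perm Vec := mkPerm gL gL
/-- The element centralising the elements of order 11 and 5. -/
noncomputable def yP : Equiv.Perm Vec := mkPerm yL yI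

theorem pairs_ok : (pairOK omL omI && pairOK aL aI && pairOK bL bI && pairOK cL cI && pairOK gL gL &&
    pairOK yL yI) = true := by decide +kernel

theorem rep_omP : Rep omL omP := by
  have h := pairs_ok; simp only [Bool.and_eq_true] at h; exact (rep_mkPerm h.1.1.1.1.1).1
theorem rep_aP : Rep aL aP ∧ Rep aI aP⁻¹ := by
  have h := pairs_ok; simp only [Bool.and_eq_true] at h; exact rep_mkPerm h.1.1.1.1.2
theorem rep_bP : Rep bL bP ∧ Rep bI bP⁻¹ := by
  have h := pairs_ok; simp only [Bool.and_eq_true] at h; exact rep_mkPerm h.1.1.1.2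
theorem rep_cP : Rep cL cP ∧ Rep cI cP⁻¹ := by
  have h := pairs_ok; simp only [Bool.and_eq_true] at h; exact rep_mkPerm h.1.1.2
theorem rep_gP : Rep gL gP ∧ Rep gL gP⁻¹ := by
  have h := pairs_ok; simp only [Bool.and_eq_true] at h; exact rep_mkPerm h.1.2
theorem rep_yP : Rep yL yP ∧ Rep yI yP⁻¹ := by
  have h := pairs_ok; simp only [Bool.and_eq_true] at h; exact rep_mkPerm h.2

theorem omP_apply (v : Vec) : omP v = w4 • v := by
  have h : basisOK (fun v i => w4 * v i) omL = true := by decide +kernel
  let t : Equiv.Perm Vec :=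
    { toFun := fun v i => w4 * v i
      invFun := fun v i => w4 ^ 2 * v i
      left_inv := fun v => funext fun i => by
        show w4 ^ 2 * (w4 * v i) = v i
        generalize v i = x; revert x; decide
      right_inv := fun v => funext fun i => by
        show w4 * (w4 ^ 2 * v i) = v i
        generalize v i = x; revert x; decide }
  have ht : Rep omL t := rep_of_basis (σ := t) (fun u v => funext fun i => mul_add _ _ _)
    (fun _ => rfl) h
  rw [rep_omP.eq ht]
  rfl

theorem rep_add {g : List ℕ} {σ : Equiv.Perm Vec} (h : Rep g σ) (u v : Vec) :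
    σ (u + v) = σ u + σ v := by
  rw [h.apply, h.apply u, h.apply v, enc_add, apL_xor, vecN_xor]

theorem f4_cases (c : F4) : c = 0 ∨ c = 1 ∨ c = w4 ∨ c = 1 + w4 := by revert c; decide

theorem smul_of_om {g : Equiv.Perm Vec} (hadd : ∀ x y, g (x + y) = g x + g y) (b : Bool)
    (hom : ∀ x, g (w4 • x) = twist b w4 • g x) (c : F4) (x : Vec) : g (c • x) = twist b c • g x := by
  have h0 : g 0 = 0 := by simpa using hadd 0 0
  rcases f4_cases c with rfl | rfl | rfl | rfl
  · rw [zero_smul, h0, show twist b 0 = 0 by cases b <;> rfl, zero_smul]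
  · rw [one_smul, show twist b 1 = 1 by cases b <;> rfl, one_smul]
  · exact hom x
  · rw [add_smul, one_smul, hadd, hom, show twist b (1 + w4) = 1 + twist b w4 by cases b <;> decide,
      add_smul, one_smul]

/-- The norm of a code. -/
noncomputable def qN (v : ℕ) : Bool := decide (hs (vecN v) (vecN v) = 0)

theorem qN_enc (v : Vec) : qN (enc v) = true ↔ UnitF4.H v v = 0 := by
  rw [qN, vecN_enc, hs_eq, decide_eq_true_eq]

theorem H_self_of_qN {x y : Vec} (h : qN (enc x) = qN (enc y)) : UnitF4.H x x = UnitF4.H y y := by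
  rw [Bool.eq_iff_iff, qN_enc, qN_enc] at h
  rcases UnitF4.h_self GFour25.card_F4 x with a | a <;> rcases UnitF4.h_self GFour25.card_F4 y with b | b
  · rw [a, b]
  · exact absurd ((h.1 a).symm.trans b) zero_ne_one
  · exact absurd ((h.2 b).symm.trans a) zero_ne_one
  · rw [a, b]

/-- The check that a listed map is a semilinear isometry. -/
noncomputable def semiOK (b : Bool) (g : List ℕ) : Bool :=
  (comp g omL == comp (bif b then omI else omL) g) &&
    allB (fun v => qN (apL g v) == qN v) 12 0

theorem isSemi_of_rep {b : Bool} {g : List ℕ} {σ : Equiv.Perm Vec} (h : Rep g σ)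
    (ok : semiOK b g = true) : IsSemi b σ := by
  simp only [semiOK, Bool.and_eq_true, beq_iff_eq] at ok
  refine ⟨rep_add h, smul_of_om (rep_add h) b fun x => ?_, fun x => H_self_of_qN ?_⟩
  · cases b
    · have e : σ * omP = omP * σ := (h.mul rep_omP).eq (by
        rw [ok.1]; exact rep_omP.mul h)
      have e2 := Equiv.Perm.ext_iff.1 e x
      simpa [omP_apply, twist] using e2
    · have hinv : Rep omI omP⁻¹ :=
        rep_omP.inv (by decide +kernel)
      have e : σ * omP = omP⁻¹ * σ := (h.mul rep_omP).eq (by
        rw [ok.1]; exact hinv.mul h)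
      have e2 : σ (omP x) = omP⁻¹ (σ x) := Equiv.Perm.ext_iff.1 e x
      rw [← omP_apply, e2, Equiv.Perm.inv_eq_iff_eq, omP_apply, smul_smul,
        show w4 * twist true w4 = 1 by decide, one_smul]
  · rw [h x]
    exact eq_of_beq (allB_spec_zero ok.2 (by norm_num : 4096 ≤ 2 ^ 12) (enc_lt x))

theorem semi_facts : IsSemi false omP ∧ IsSemi false aP ∧ IsSemi false bP ∧ IsSemi false cP ∧
    IsSemi false yP ∧ IsSemi true gP := by
  have h : (semiOK false omL && semiOK false aL && semiOK false bL && semiOK false cL &&
      semiOK false yL && semiOK true gL) = true := by decide +kernel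
  simp only [Bool.and_eq_true] at h
  exact ⟨isSemi_of_rep rep_omP h.1.1.1.1.1, isSemi_of_rep rep_aP.1 h.1.1.1.1.2,
    isSemi_of_rep rep_bP.1 h.1.1.1.2, isSemi_of_rep rep_cP.1 h.1.1.2, isSemi_of_rep rep_yP.1 h.1.2,
    isSemi_of_rep rep_gP.1 h.2⟩

/-- The linear isometries. -/
def linU : Subgroup (Equiv.Perm Vec) where
  carrier := {g | IsSemi false g}
  one_mem' := IsSemi.one
  mul_mem' := fun hg hh => by simpa using hg.mul hh
  inv_mem' := fun hg => hg.inv

theorem mem_linU {g : Equiv.Perm Vec} : g ∈ linU ↔ IsSemi false g := Iff.rfl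

theorem conj_linear {b : Bool} {g x : Equiv.Perm Vec} (hg : IsSemi b g) (hx : IsSemi false x) :
    IsSemi false (g * x * g⁻¹) := by
  have h := (hg.mul hx).mul hg.inv
  rwa [Bool.xor_false, Bool.xor_self] at h

theorem scalar_comm {b : Equiv.Perm Vec} (hb : IsSemi false b) : Commute b omP :=
  Equiv.ext fun v => by
    rw [Equiv.Perm.mul_apply, Equiv.Perm.mul_apply, omP_apply, omP_apply, hb.2.1]
    rfl

/-- Multiplication by scalars. -/
noncomputable def scal : Subgroup (Equiv.Perm Vec) := Subgroup.zpowers omP

theorem omP_pow_three : omP ^ 3 = 1 := by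
  rw [pow_succ, pow_two]
  exact ((rep_omP.mul rep_omP).mul rep_omP).eq
    ((show comp (comp omL omL) omL = idL by decide +kernel) ▸ Rep.one)

theorem mem_scal {s : Equiv.Perm Vec} (h : s ∈ scal) : ∃ j < 3, s = omP ^ j := by
  classical
  have hf : IsOfFinOrder omP := isOfFinOrder_of_finite _
  obtain ⟨n, hn⟩ := (hf.mem_powers_iff_mem_zpowers).2 h
  exact ⟨n % 3, Nat.mod_lt _ (by norm_num), by rw [← hn, ← pow_eq_pow_mod n omP_pow_three]⟩

theorem scal_pow_three {s : Equiv.Perm Vec} (h : s ∈ scal) : s ^ 3 = 1 := by
  obtain ⟨j, -, rfl⟩ := mem_scal h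
  rw [← pow_mul, mul_comm, pow_mul, omP_pow_three, one_pow]

theorem scal_commute {s g : Equiv.Perm Vec} (h : s ∈ scal) (hg : IsSemi false g) : Commute g s := by
  obtain ⟨j, -, rfl⟩ := mem_scal h
  exact (scalar_comm hg).pow_right j

/-- Additive maps agreeing on a spanning family are equal. -/
noncomputable def comboL : List ℕ → ℕ → ℕ
  | [], _ => 0
  | a :: l, m => (bif Nat.beq (Nat.mod m 2) 1 then a else 0) ^^^ comboL l (Nat.div m 2)

theorem eq_of_span {g h : Equiv.Perm Vec} (hg : IsSemi false g) (hh : IsSemi false h)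
    {base masks : List ℕ}
    (hm : ((List.range 12).all fun j => Nat.beq
      (comboL (base ++ base.map (apL omL)) (masks.getD j 0)) (idL.getD j 0)) = true)
    (hlt : (base.all fun x => Nat.blt x 4096) = true)
    (hb : ∀ x ∈ base, g (vecN x) = h (vecN x)) : g = h := by
  have hl : ∀ x ∈ base ++ base.map (apL omL), g (vecN x) = h (vecN x) := by
    intro x hx
    rcases List.mem_append.1 hx with hx | hx
    · exact hb x hx
    · obtain ⟨y, hy, rfl⟩ := List.mem_map.1 hx
      have e : vecN (apL omL y) = w4 • vecN y := by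
        rw [← omP_apply, rep_omP.apply, enc_vecN (Nat.blt_eq.mp (List.all_eq_true.1 hlt y hy))]
      rw [e, hg.2.1, hh.2.1, hb y hy]
  have h0 : ∀ {f : Equiv.Perm Vec}, IsSemi false f → f (vecN 0) = vecN 0 := fun {f} hf => by
    rw [show vecN 0 = 0 by decide]
    simpa using hf.1 0 0
  have hc : ∀ l : List ℕ, (∀ x ∈ l, g (vecN x) = h (vecN x)) → ∀ m,
      g (vecN (comboL l m)) = h (vecN (comboL l m)) := by
    intro l
    induction l with
    | nil => intro _ m; rw [comboL, h0 hg, h0 hh]
    | cons a l ih =>
      intro hl m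
      rw [comboL, vecN_xor, hg.1, hh.1, ih (fun x hx => hl x (List.mem_cons_of_mem _ hx))]
      congr 1
      cases Nat.beq (Nat.mod m 2) 1
      · rw [cond_false, h0 hg, h0 hh]
      · exact hl a List.mem_cons_self
  have hid : ∀ e ∈ idL, g (vecN e) = h (vecN e) := by
    intro e he
    obtain ⟨j, hj, rfl⟩ := List.getElem_of_mem he
    have hj' : j < 12 := hj
    have h1 := Nat.eq_of_beq_eq_true (List.all_eq_true.1 hm j (List.mem_range.2 hj'))
    rw [List.getD_eq_getElem idL 0 hj] at h1
    rw [← h1]
    exact hc _ hl _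
  refine Equiv.ext fun x => ?_
  conv_lhs => rw [← vecN_enc x]
  conv_rhs => rw [← vecN_enc x]
  rw [← apL_idL (enc_lt x)]
  generalize enc x = n
  have key : ∀ (l : List ℕ), (∀ e ∈ l, g (vecN e) = h (vecN e)) → ∀ n,
      g (vecN (apL l n)) = h (vecN (apL l n)) := by
    intro l
    induction l with
    | nil => intro _ n; rw [apL_nil, h0 hg, h0 hh]
    | cons a l ih =>
      intro hl n
      rw [apL_cons, vecN_xor, hg.1, hh.1, ih (fun e he => hl e (List.mem_cons_of_mem _ he))]
      congr 1
      cases n.testBit 0
      · rw [cond_false, h0 hg, h0 hh]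
      · exact hl a List.mem_cons_self
  exact key idL hid n

end Cfsg.Agent.JFourType
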