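import Cfsg.Agent.JFourType.Isometries
import Cfsg.Agent.PSU62Mult.Upper

/-!
The triple cover of `M22` in the linear isometries is unique up to semilinear isometries, and a
semilinear extension of it contains the concrete semilinear involution.
-/

set_option autoImplicit false
set_option maxRecDepth 100000

namespace Cfsg.Agent.JFourType

open Cfsg.Agent.GFour25 Cfsg.Agent.CosetCert
open Cfsg.Agent.SporB.FischerU (Vec SUSix vecN enc vecN_enc enc_lt)
open Cfsg.Agent.LargeFischer (IsSemi semiU twist actHom actHom_semi actHom_injective herm_of_norm)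
open Cfsg.Agent.LargeFischer.Thompson
open Cfsg.Agent.TTClass
open Data

/-! ### Letters and words -/

/-- A letter. -/
noncomputable def letter : ℕ → Equiv.Perm Vec
  | 0 => aP
  | 1 => aP⁻¹
  | 2 => bP
  | 3 => bP⁻¹
  | 4 => cP
  | _ => cP⁻¹

/-- The list of a letter. -/
noncomputable def letterL : ℕ → List ℕ
  | 0 => aL
  | 1 => aI
  | 2 => bL
  | 3 => bI
  | 4 => cL
  | _ => cI

theorem rep_letter : ∀ i, Rep (letterL i) (letter i)
  | 0 => rep_aP.1
  | 1 => rep_aP.2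
  | 2 => rep_bP.1
  | 3 => rep_bP.2
  | 4 => rep_cP.1
  | _ + 5 => rep_cP.2

/-- The value of a word. -/
noncomputable def wPerm (w : List ℕ) : Equiv.Perm Vec := (w.map letter).prod

/-- The list of the value of a word. -/
noncomputable def wImg (w : List ℕ) : List ℕ := (w.map letterL).foldr comp idL

theorem rep_word : ∀ w : List ℕ, Rep (wImg w) (wPerm w) := by
  intro w
  induction w with
  | nil => exact Rep.one
  | cons a w ih => exact (rep_letter a).mul ih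

/-- The triple cover. -/
noncomputable def K22 : Subgroup (Equiv.Perm Vec) := Subgroup.closure {aP, bP, cP}

theorem gens_mem : aP ∈ K22 ∧ bP ∈ K22 ∧ cP ∈ K22 :=
  ⟨Subgroup.subset_closure (Or.inl rfl), Subgroup.subset_closure (Or.inr (Or.inl rfl)),
    Subgroup.subset_closure (Or.inr (Or.inr rfl))⟩

theorem letter_mem : ∀ i, letter i ∈ K22
  | 0 => gens_mem.1
  | 1 => inv_mem gens_mem.1
  | 2 => gens_mem.2.1
  | 3 => inv_mem gens_mem.2.1
  | 4 => gens_mem.2.2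
  | _ + 5 => inv_mem gens_mem.2.2

theorem word_mem (w : List ℕ) : wPerm w ∈ K22 := by
  refine list_prod_mem fun x hx => ?_
  obtain ⟨i, -, rfl⟩ := List.mem_map.1 hx
  exact letter_mem i

theorem K22_linear {g : Equiv.Perm Vec} (h : g ∈ K22) : IsSemi false g := by
  have hle : K22 ≤ linU := by
    rw [K22, Subgroup.closure_le]
    rintro x (rfl | rfl | rfl)
    exacts [semi_facts.2.1, semi_facts.2.2.1, semi_facts.2.2.2.1]
  exact hle h

theorem omP_mem : omP ∈ K22 := by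
  have h : wImg omWord = omL := by decide +kernel
  exact (h ▸ rep_word omWord).eq rep_omP ▸ word_mem omWord

theorem scal_le : scal ≤ K22 := Subgroup.zpowers_le.2 omP_mem

/-! ### Basic relations -/

theorem aP_pow : aP ^ 11 = 1 ∧ aP ≠ 1 := by
  have h : pwL aL 11 = idL ∧ ¬ aL = idL ∧ comp aL idL = aL ∧ comp idL idL = idL := by decide +kernel
  exact ⟨(rep_pow rep_aP.1 11).eq (h.1 ▸ Rep.one),
    fun e => h.2.1 ((e ▸ rep_aP.1).list_eq Rep.one h.2.2.1 h.2.2.2)⟩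

theorem orderOf_aP : orderOf aP = 11 := by
  haveI : Fact (Nat.Prime 11) := ⟨by norm_num⟩
  exact orderOf_eq_prime aP_pow.1 aP_pow.2

theorem bP_rel : bP * aP = aP ^ 3 * bP ∧ bP ^ 5 = 1 ∧ Commute gP bP ∧ gP * aP = aP⁻¹ * gP ∧
    gP * gP = 1 := by
  have h : comp bL aL = comp (pwL aL 3) bL ∧ pwL bL 5 = idL ∧ comp gL bL = comp bL gL ∧
      comp gL aL = comp aI gL ∧ comp gL gL = idL := by decide +kernel
  obtain ⟨h1, h2, h3, h4, h5⟩ := h
  exact ⟨(rep_bP.1.mul rep_aP.1).eq (h1 ▸ (rep_pow rep_aP.1 3).mul rep_bP.1),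
    (rep_pow rep_bP.1 5).eq (h2 ▸ Rep.one), (rep_gP.1.mul rep_bP.1).eq (h3 ▸ rep_bP.1.mul rep_gP.1),
    (rep_gP.1.mul rep_aP.1).eq (h4 ▸ rep_aP.2.mul rep_gP.1),
    (rep_gP.1.mul rep_gP.1).eq (h5 ▸ Rep.one)⟩

theorem conj_powers {j : ℕ} (hj : 1 ≤ j) (hj' : j ≤ 10) :
    ∃ h : Equiv.Perm Vec, h ∈ semiU ∧ h * aP ^ j * h⁻¹ = aP ∧
      (∃ e i, h = gP ^ e * bP ^ i) := by
  have hb : ((List.range 10).all fun j =>
      (comp (comp (pwL gL (conjTab.getD j (0, 0)).1) (pwL bL (conjTab.getD j (0, 0)).2)) (pwL aL (j + 1)) ==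
        comp aL (comp (pwL gL (conjTab.getD j (0, 0)).1) (pwL bL (conjTab.getD j (0, 0)).2)))) = true := by
    decide +kernel
  have h1 := List.all_eq_true.1 hb (j - 1) (List.mem_range.2 (by omega))
  rw [beq_iff_eq, show j - 1 + 1 = j by omega] at h1
  set e := (conjTab.getD (j - 1) (0, 0)).1
  set i := (conjTab.getD (j - 1) (0, 0)).2
  refine ⟨gP ^ e * bP ^ i, mul_mem (pow_mem (show gP ∈ semiU from ⟨true, semi_facts.2.2.2.2.2⟩) _)
    (pow_mem (show bP ∈ semiU from ⟨false, semi_facts.2.2.1⟩) _), ?_, e, i, rfl⟩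
  rw [mul_inv_eq_iff_eq_mul]
  have hh := (rep_pow rep_gP.1 e).mul (rep_pow rep_bP.1 i)
  exact (hh.mul (rep_pow rep_aP.1 j)).eq (h1 ▸ rep_aP.1.mul hh)

theorem bP_conj_pow (m : ℕ) : bP * aP ^ m = aP ^ (3 * m) * bP := by
  rw [comm_power bP_rel.1 m, ← pow_mul]

/-! ### Classification -/

theorem linear_det {g : Equiv.Perm Vec} (hg : IsSemi false g) (h11 : g ^ 11 = 1) :
    g ∈ actHom.range := by
  let L : Module.End F4 Vec := { toFun := g, map_add' := hg.1, map_smul' := hg.2.1 }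
  have hpow : ∀ n : ℕ, ∀ x, (L ^ n) x = (g ^ n) x := by
    intro n
    induction n with
    | zero => intro x; rfl
    | succ n ih =>
      intro x
      rw [pow_succ, pow_succ, Module.End.mul_apply, Equiv.Perm.mul_apply, ih]
      rfl
  have h1 : L ^ 11 = 1 := LinearMap.ext fun x => by
    rw [hpow, h11]
    rfl
  have hdet : LinearMap.det L = 1 := by
    have h2 : LinearMap.det L ^ 11 = 1 := by rw [← map_pow, h1, map_one]
    revert h2
    generalize LinearMap.det L = d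
    revert d
    decide
  have hH := herm_of_norm (g := g) hg.1 hg.2.1 hg.2.2
  let A : Matrix.SpecialLinearGroup (Fin 6) F4 :=
    ⟨LinearMap.toMatrix' L, by rw [LinearMap.det_toMatrix', hdet]⟩
  have hA : ∀ x, (A : Matrix (Fin 6) (Fin 6) F4).mulVec x = g x := fun x =>
    LinearMap.toMatrix'_mulVec L x
  have hmem : A ∈ SUSix := fun u v => by
    show Cfsg.hermForm 6 F4 2 ((A : Matrix (Fin 6) (Fin 6) F4).mulVec u)
      ((A : Matrix (Fin 6) (Fin 6) F4).mulVec v) = _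
    rw [hA, hA]
    exact hH u v
  exact ⟨⟨A, hmem⟩, Equiv.ext fun x => hA x⟩

theorem SUSix_eleven : (Nat.card SUSix).factorization 11 = 1 := by
  rw [PSU62Mult.card_SUSix, show (27590492160 : ℕ) = 11 * 2508226560 by norm_num,
    Nat.factorization_mul (by norm_num) (by norm_num), Finsupp.add_apply,
    Nat.Prime.factorization_self (by norm_num),
    Nat.factorization_eq_zero_of_not_dvd (by norm_num)]

/-- An element of order 11 is conjugate to `aP`. -/
theorem conj_to_aP {a : Equiv.Perm Vec} (ha : IsSemi false a) (h11 : a ^ 11 = 1) (hne : a ≠ 1) :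
    ∃ g ∈ semiU, g * a * g⁻¹ = aP := by
  haveI : Fact (Nat.Prime 11) := ⟨by norm_num⟩
  obtain ⟨x, rfl⟩ := linear_det ha h11
  obtain ⟨x0, hx0⟩ := linear_det semi_facts.2.1 aP_pow.1
  have ox : orderOf x = 11 := by
    rw [← orderOf_injective actHom actHom_injective]
    exact orderOf_eq_prime h11 hne
  have ox0 : orderOf x0 = 11 := by
    rw [← orderOf_injective actHom actHom_injective, hx0]
    exact orderOf_aP
  have hcard : ∀ z : SUSix, orderOf z = 11 →
      Nat.card (Subgroup.zpowers z) = 11 ^ (Nat.card SUSix).factorization 11 := fun z hz => by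
    rw [Nat.card_zpowers, hz, SUSix_eleven, pow_one]
  let S := Sylow.ofCard (Subgroup.zpowers x) (hcard x ox)
  let S0 := Sylow.ofCard (Subgroup.zpowers x0) (hcard x0 ox0)
  obtain ⟨h, hh⟩ := MulAction.exists_smul_eq SUSix S S0
  have hmem : h * x * h⁻¹ ∈ Subgroup.zpowers x0 := by
    have h1 : h * x * h⁻¹ ∈ ((h • S : Sylow 11 SUSix) : Subgroup SUSix) := by
      rw [Sylow.smul_def, Sylow.pointwise_smul_def, Subgroup.mem_pointwise_smul_iff_inv_smul_mem]
      show (MulAut.conj h)⁻¹ (h * x * h⁻¹) ∈ _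
      rw [show (MulAut.conj h)⁻¹ (h * x * h⁻¹) = x by simp [mul_assoc]]
      exact Subgroup.mem_zpowers x
    rwa [hh] at h1
  obtain ⟨n, hn⟩ := ((isOfFinOrder_of_finite x0).mem_powers_iff_mem_zpowers).2 hmem
  have hn' : x0 ^ n = h * x * h⁻¹ := hn
  rw [← pow_mod_orderOf, ox0] at hn'
  have hj : n % 11 ≠ 0 := by
    intro e
    rw [e, pow_zero] at hn'
    have : x = 1 := by
      have := congrArg (fun t => h⁻¹ * t * h) hn'.symm
      simpa [mul_assoc] using this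
    rw [this, orderOf_one] at ox
    exact absurd ox (by norm_num)
  obtain ⟨k, hk, hk2, -⟩ := conj_powers (j := n % 11) (Nat.pos_of_ne_zero hj) (by omega)
  refine ⟨k * actHom h, mul_mem hk ⟨false, actHom_semi h⟩, ?_⟩
  rw [mul_inv_rev, ← hk2, ← hx0, ← map_pow, hn', map_mul, map_mul, map_inv]
  group

/-- The second element. -/
theorem conj_to_bP {b : Equiv.Perm Vec} (hb : IsSemi false b) (h5 : b ^ 5 = 1)
    (hrel : b * aP = aP ^ 3 * b) : ∃ g ∈ semiU, g * aP * g⁻¹ = aP ∧ g * b * g⁻¹ = bP := by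
  have hlin : IsSemi false (b * bP⁻¹) := mem_linU.1 (mul_mem hb (inv_mem semi_facts.2.2.1))
  have hc : b * bP⁻¹ * aP = aP * (b * bP⁻¹) := by
    have h3 : bP⁻¹ * aP ^ 3 = aP * bP⁻¹ := by
      rw [inv_mul_eq_iff_eq_mul, ← mul_assoc, bP_rel.1, mul_inv_cancel_right]
    have h4 : bP⁻¹ * (aP ^ 3) ^ 4 = aP ^ 4 * bP⁻¹ := comm_power h3 4
    rw [← pow_mul, pow_eq_pow_mod (3 * 4) aP_pow.1, show 3 * 4 % 11 = 1 from rfl, pow_one] at h4
    rw [mul_assoc, h4, ← mul_assoc, comm_power hrel 4, ← pow_mul, pow_eq_pow_mod (3 * 4) aP_pow.1,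
      show 3 * 4 % 11 = 1 from rfl, pow_one, mul_assoc]
  obtain ⟨i, hi, j, -, l, -, he⟩ := centralizer_aP hlin hc
  have hb' : b = aP ^ i * omP ^ j * yP ^ l * bP := mul_inv_eq_iff_eq_mul.1 he
  set t := omP ^ j * yP ^ l with ht
  have htl : IsSemi false t :=
    mem_linU.1 (mul_mem (pow_mem (mem_linU.2 semi_facts.1) _) (pow_mem (mem_linU.2 semi_facts.2.2.2.2.1) _))
  have hta : Commute aP t :=
    ((scalar_comm semi_facts.2.1).pow_right j).mul_right (yP_comm.1.pow_right l)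
  have htb : Commute bP t :=
    ((scalar_comm semi_facts.2.2.1).pow_right j).mul_right (yP_comm.2.1.pow_right l)
  set m := 5 * i with hm
  have hab : aP ^ m * bP * (aP ^ m)⁻¹ = aP ^ i * bP := by
    rw [mul_inv_eq_iff_eq_mul, mul_assoc, bP_conj_pow, ← mul_assoc, ← pow_add,
      pow_eq_pow_mod (i + 3 * m) aP_pow.1, pow_eq_pow_mod m aP_pow.1,
      show (i + 3 * m) % 11 = m % 11 by omega]
  have hbt : b = aP ^ m * bP * (aP ^ m)⁻¹ * t := by
    rw [hab, hb', mul_assoc _ (omP ^ j) (yP ^ l), ← ht, mul_assoc _ t bP, ← htb.eq, mul_assoc]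
  have hct : Commute (aP ^ m * bP * (aP ^ m)⁻¹) t :=
    (((hta.pow_left m).mul_left htb)).mul_left (hta.pow_left m).inv_left
  have ht1 : t = 1 := by
    have h5' : t ^ 5 = 1 := by
      rw [hbt, hct.mul_pow, conj_pow, bP_rel.2.1, mul_one, mul_inv_cancel, one_mul] at h5
      exact h5
    have h3 : t ^ 3 = 1 := by
      rw [ht, ((scalar_comm semi_facts.2.2.2.2.1).symm.pow_pow j l).mul_pow, ← pow_mul, ← pow_mul,
        mul_comm j, mul_comm l, pow_mul, pow_mul, omP_pow_three, yP_comm.2.2, one_pow, one_pow, one_mul]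
    calc t = (t ^ 3) ^ 2 * ((t ^ 5) ^ 1)⁻¹ := by group
      _ = 1 := by rw [h3, h5']; group
  rw [ht1, mul_one] at hbt
  refine ⟨(aP ^ m)⁻¹, inv_mem (pow_mem (show aP ∈ semiU from ⟨false, semi_facts.2.1⟩) m), ?_, ?_⟩
  · rw [((Commute.refl aP).pow_left m).inv_left.eq, inv_inv, mul_assoc, inv_mul_cancel, mul_one]
  · rw [hbt]; group

/-- The relator. -/
noncomputable def relL (g : List ℕ) : List ℕ := pwL (comp g aL) 6

/-- The three powers of the scalar. -/
noncomputable def scalL : List (List ℕ) := [idL, omL, comp omL omL]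

theorem survivors_ok : (cTab.all fun t =>
    !(pwL t.2.2.2 4 == idL) || !(scalL.contains (relL t.2.2.2)) ||
      (List.range 3).any fun l => t.2.2.2 == comp (comp (pwL yL l) cL) (pwL yI l)) = true ∧
    (cTab.all fun t => (comp (pwL t.2.2.2 4) idL == pwL t.2.2.2 4) &&
      (comp (relL t.2.2.2) idL == relL t.2.2.2)) = true ∧
    (scalL.all fun g => comp g idL == g) = true := by
  decide +kernel

/-- The third element. -/
theorem conj_to_cP {c : Equiv.Perm Vec} (hc : IsSemi false c) (h4 : c ^ 4 = 1)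
    (hrel : c * bP = bP ^ 2 * c) (hw : (c * aP) ^ 6 ∈ scal) :
    ∃ g ∈ semiU, g * aP * g⁻¹ = aP ∧ g * bP * g⁻¹ = bP ∧ g * c * g⁻¹ = cP := by
  obtain ⟨t, ht, hr⟩ := normal_bP hc hrel
  obtain ⟨hs, hn, hn2⟩ := survivors_ok
  have hs' := List.all_eq_true.1 hs t ht
  have hn' := List.all_eq_true.1 hn t ht
  simp only [Bool.and_eq_true, beq_iff_eq] at hn'
  have hid : comp idL idL = idL := by decide +kernel
  have e4 : pwL t.2.2.2 4 = idL :=
    (rep_pow hr 4).list_eq (h4 ▸ Rep.one) hn'.1 hid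
  obtain ⟨j, hj, hj2⟩ := mem_scal hw
  have hsl : ∃ s ∈ scalL, Rep s (omP ^ j) := by
    interval_cases j
    · exact ⟨idL, by simp [scalL], by rw [pow_zero]; exact Rep.one⟩
    · exact ⟨omL, by simp [scalL], by rw [pow_one]; exact rep_omP⟩
    · exact ⟨comp omL omL, by simp [scalL], by rw [pow_two]; exact rep_omP.mul rep_omP⟩
  obtain ⟨s, hsm, hsr⟩ := hsl
  have es : relL t.2.2.2 = s :=
    (rep_pow (hr.mul rep_aP.1) 6).list_eq (hj2 ▸ hsr) hn'.2
      (eq_of_beq (List.all_eq_true.1 hn2 s hsm))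
  simp only [Bool.or_eq_true, Bool.not_eq_true', beq_eq_false_iff_ne, beq_iff_eq, e4, es,
    ne_eq, not_true_eq_false, false_or, List.any_eq_true] at hs'
  rcases hs' with hs' | ⟨l, -, hl⟩
  · rw [List.contains_iff_mem.2 hsm] at hs'
    exact absurd hs' Bool.false_ne_true.symm
  have hyinv : Rep (pwL yI l) (yP ^ l)⁻¹ := by rw [← inv_pow]; exact rep_pow rep_yP.2 l
  have e : c = yP ^ l * cP * (yP ^ l)⁻¹ :=
    hr.eq (hl ▸ ((rep_pow rep_yP.1 l).mul rep_cP.1).mul hyinv)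
  refine ⟨(yP ^ l)⁻¹, inv_mem (pow_mem (show yP ∈ semiU from ⟨false, semi_facts.2.2.2.2.1⟩) l), ?_, ?_, ?_⟩
  · rw [inv_inv, mul_assoc, (yP_comm.1.pow_right l).eq, inv_mul_cancel_left]
  · rw [inv_inv, mul_assoc, (yP_comm.2.1.pow_right l).eq, inv_mul_cancel_left]
  · rw [e]; group

/-- Three linear isometries satisfying the relations are conjugate to the concrete ones. -/
theorem classify {a b c : Equiv.Perm Vec} (ha : IsSemi false a) (hb : IsSemi false b)
    (hc : IsSemi false c) (a11 : a ^ 11 = 1) (ane : a ≠ 1) (b5 : b ^ 5 = 1) (c4 : c ^ 4 = 1)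
    (hba : b * a = a ^ 3 * b) (hcb : c * b = b ^ 2 * c) (hw : (c * a) ^ 6 ∈ scal) :
    ∃ g ∈ semiU, g * a * g⁻¹ = aP ∧ g * b * g⁻¹ = bP ∧ g * c * g⁻¹ = cP := by
  have hscal : ∀ g ∈ semiU, ∀ s ∈ scal, g * s * g⁻¹ ∈ scal := by
    rintro g ⟨e, hg⟩ s hs
    obtain ⟨n, -, rfl⟩ := mem_scal hs
    rw [← conj_pow]
    refine pow_mem ?_ n
    have hx : g * omP * g⁻¹ = omP ∨ g * omP * g⁻¹ = omP ^ 2 := by
      cases e
      · left; rw [(scalar_comm hg).eq, mul_inv_cancel_right]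
      · right
        rw [mul_inv_eq_iff_eq_mul]
        refine Equiv.ext fun v => ?_
        rw [Equiv.Perm.mul_apply, omP_apply, hg.2.1, Equiv.Perm.mul_apply, pow_two,
          Equiv.Perm.mul_apply, omP_apply, omP_apply, smul_smul]
        congr 1
    rcases hx with hx | hx <;> rw [hx]
    · exact Subgroup.mem_zpowers _
    · exact pow_mem (Subgroup.mem_zpowers _) _
  obtain ⟨g1, hg1, e1⟩ := conj_to_aP ha a11 ane
  obtain ⟨f1, hf1⟩ := hg1
  have hb1 := conj_linear hf1 hb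
  have hba1 : g1 * b * g1⁻¹ * aP = aP ^ 3 * (g1 * b * g1⁻¹) := by
    have h := congrArg (MulAut.conj g1) hba
    simpa only [map_mul, map_pow, MulAut.conj_apply, e1] using h
  obtain ⟨g2, hg2, e2a, e2b⟩ := conj_to_bP hb1 (by rw [conj_pow, b5, mul_one, mul_inv_cancel]) hba1
  have hg21 : g2 * g1 ∈ semiU := mul_mem hg2 ⟨f1, hf1⟩
  obtain ⟨f2, hf2⟩ := hg21
  have ea : g2 * g1 * a * (g2 * g1)⁻¹ = aP := by
    rw [show g2 * g1 * a * (g2 * g1)⁻¹ = g2 * (g1 * a * g1⁻¹) * g2⁻¹ by group, e1, e2a]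
  have eb : g2 * g1 * b * (g2 * g1)⁻¹ = bP := by
    rw [show g2 * g1 * b * (g2 * g1)⁻¹ = g2 * (g1 * b * g1⁻¹) * g2⁻¹ by group, e2b]
  have hc2 := conj_linear hf2 hc
  have hcb2 : g2 * g1 * c * (g2 * g1)⁻¹ * bP = bP ^ 2 * (g2 * g1 * c * (g2 * g1)⁻¹) := by
    rw [← eb, conj_pow, show g2 * g1 * c * (g2 * g1)⁻¹ * (g2 * g1 * b * (g2 * g1)⁻¹) =
      g2 * g1 * (c * b) * (g2 * g1)⁻¹ by group, hcb]
    group
  have hw2 : (g2 * g1 * c * (g2 * g1)⁻¹ * aP) ^ 6 ∈ scal := by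
    rw [← ea, show g2 * g1 * c * (g2 * g1)⁻¹ * (g2 * g1 * a * (g2 * g1)⁻¹) =
      g2 * g1 * (c * a) * (g2 * g1)⁻¹ by group, conj_pow]
    exact hscal _ ⟨f2, hf2⟩ _ hw
  obtain ⟨g3, hg3, e3a, e3b, e3c⟩ := conj_to_cP hc2 (by rw [conj_pow, c4, mul_one, mul_inv_cancel]) hcb2 hw2
  refine ⟨g3 * (g2 * g1), mul_mem hg3 ⟨f2, hf2⟩, ?_, ?_, ?_⟩
  · rw [show g3 * (g2 * g1) * a * (g3 * (g2 * g1))⁻¹ = g3 * (g2 * g1 * a * (g2 * g1)⁻¹) * g3⁻¹ by group,
      ea, e3a]
  · rw [show g3 * (g2 * g1) * b * (g3 * (g2 * g1))⁻¹ = g3 * (g2 * g1 * b * (g2 * g1)⁻¹) * g3⁻¹ by group,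
      eb, e3b]
  · rw [show g3 * (g2 * g1) * c * (g3 * (g2 * g1))⁻¹ = g3 * (g2 * g1 * c * (g2 * g1)⁻¹) * g3⁻¹ by group,
      e3c]

end Cfsg.Agent.JFourType
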