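import Cfsg.Agent.JFourType.TenCert
import Cfsg.Agent.JFourType.DecadData

/-!
Finite checks for the orbits on the elementary abelian subgroup of order `2^10`: the stabiliser of a vector
of the longer orbit on the singular subspace of dimension six, and what it leaves invariant.
-/

set_option autoImplicit false
set_option maxRecDepth 100000
set_option maxHeartbeats 8000000

namespace Cfsg.Agent.JFourType.Decad

open Cfsg.Agent.GFour25 Cfsg.Agent.CosetCert
open Cfsg.Agent.SporB.FischerU (Vec vecN enc vecN_enc enc_lt)
open Cfsg.Agent.LargeFischer.Thompson
open Cfsg.Agent.JFourType.Data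
open Cfsg.Agent.JFourType.TenData
open Cfsg.Agent.JFourType.DecadData

/-- Bit of a mask. -/
noncomputable def mbit (s i : ℕ) : Bool := Nat.beq (Nat.land (Nat.shiftRight s i) 1) 1

/-- A vector of the subspace, read from the mask. -/
noncomputable def inU (v : ℕ) : Bool := mbit tUmask v

/-- The mask, the involutions and the chosen vector agree with the data of the subspace. -/
noncomputable def sameOK : Bool :=
  Nat.beq (wCodes.foldr (fun v m => Nat.lor m (2 ^ v)) 0) tUmask &&
  Nat.beq tA.length 7 && distinctB tA && (tA.all fun g => sList.contains g) &&
  restL.contains uTwo && orbTwo.all fun u => restL.contains u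

theorem sameOK_true : sameOK = true := by decide +kernel

/-- Every vector of the fixed space of the distinguished subgroup goes into the subspace. -/
noncomputable def toTenOK : Bool :=
  uList.all fun u => Nat.beq u 0 || toTen.any fun t =>
    Nat.beq (t.getD 0 0) u && inU (apL (wImg (t.drop 1)) u)

theorem toTenOK_true : toTenOK = true := by decide +kernel

/-- The closure of a list under the sum. -/
noncomputable def spanX : List ℕ → List ℕ :=
  List.rec (motive := fun _ => List ℕ) [0]
    (fun a _ ih => bif ih.any (Nat.beq a) then ih else ih ++ ih.map (Nat.xor a))

/-- The longer orbit spans the subspace. -/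
theorem orbSpan_ok : (wCodes.all fun u => (spanX orbTwo).any (Nat.beq u)) = true := by decide +kernel

/-- The generators of the stabiliser of the chosen vector. -/
noncomputable def stabOK : Bool :=
  (List.range 3).all fun k =>
    (wImg (sWords.getD k []) == sImgs.getD k []) && (wImg (xWords.getD k []) == xImgs.getD k []) &&
    Nat.beq (apL (sImgs.getD k []) uTwo) uTwo && Nat.beq (apL (xImgs.getD k []) uTwo) uTwo &&
    (wBas.all fun u => inU (apL (sImgs.getD k []) u) && inU (apL (xImgs.getD k []) u))

theorem stabOK_true : stabOK = true ∧ Nat.beq xImgs.length 3 = true ∧ Nat.blt aFix 7 = true := by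
  decide +kernel

/-- The only invariant subgroups of the image. -/
noncomputable def invariantOK : Bool :=
  (List.range 128).all fun s =>
    !((List.range 7).all fun i => !(mbit s i) || (List.range 7).all fun j => !(mbit s j) || Nat.beq i j ||
        (List.range 7).any fun l => mbit s l && (comp (tA.getD i []) (tA.getD j []) == tA.getD l [])) ||
    !((List.range 3).all fun k => (List.range 7).all fun i => !(mbit s i) ||
        (List.range 7).any fun l => mbit s l &&
          (comp (sImgs.getD k []) (tA.getD i []) == comp (tA.getD l []) (sImgs.getD k []))) ||
    Nat.beq s 0 || Nat.beq s (2 ^ aFix) || Nat.beq s 127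

theorem invariantOK_true : invariantOK = true := by decide +kernel

/-- Orthogonality to the chosen vector. -/
noncomputable def perpTwo (v : ℕ) : Bool := Nat.blt v 4096 && Ten.orth v uTwo

/-- Seventeen different displacements. -/
noncomputable def wideOK : Bool :=
  Nat.beq wideVals.length 17 && (wideVals.all fun t => Nat.blt t.1 7 && perpTwo t.2) &&
  nodupB (wideVals.map fun t => Nat.xor (apL (tA.getD t.1 []) t.2) t.2)

theorem wideOK_true : wideOK = true := by decide +kernel

/-- The displacements of the fixed element. -/
noncomputable def thinList : List ℕ := thinVals.map fun e => Nat.xor (apL (tA.getD aFix []) e) e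

/-- No invariant subgroup between. -/
noncomputable def thinOK : Bool :=
  (thinVals.all perpTwo) && Nat.beq thinSub.length 16 &&
  wCodes.all fun x => thinSub.contains x ||
    wCodes.all fun u => (spanX (thinList ++ x :: xImgs.map fun g => apL g x)).any (Nat.beq u)

theorem thinOK_true : thinOK = true := by decide +kernel

/-- Two commutations for each vector. -/
noncomputable def flipOK : Bool :=
  wCodes.all fun u => Nat.beq u 0 || flipVals.any fun t =>
    Nat.beq (t.getD 0 0) u && inU (t.getD 1 0) && Nat.blt (t.getD 2 0) 4096 &&
      Ten.orth (t.getD 2 0) u && !(Ten.orth (t.getD 2 0) (t.getD 1 0))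

theorem flipOK_true : flipOK = true := by decide +kernel

/-- The small primes used: none divides `2^i - 1` for `i` at most ten. -/
theorem primes_ok : ([13, 43, 67, 89, 313, 379, 491].all fun p => (List.range 10).all fun i =>
    !(Nat.beq ((2 ^ (i + 1) - 1) % p) 0)) = true := by decide +kernel

end Cfsg.Agent.JFourType.Decad
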