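import Cfsg.Agent.JFourType.Main
import Cfsg.Agent.JFourType.FusionData
import Cfsg.Agent.H49.Top

/-!
Fusion in a simple group of Janko-four type: the involution is fused to another involution of the
extraspecial group lying in an elementary abelian subgroup of order `2^11`, whose normalizer is
therefore not in the centralizer of the involution.
-/

set_option autoImplicit false
set_option maxRecDepth 100000

namespace Cfsg.Agent.JFourType

open Cfsg
open Cfsg.Agent.GFour25 Cfsg.Agent.CosetCert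
open Cfsg.Agent.SporB.FischerU (Vec vecN enc vecN_enc enc_lt)
open Cfsg.Agent.LargeFischer (IsSemi semiU)
open Cfsg.Agent.LargeFischer.Thompson
open Cfsg.Agent.TTClass
open Cfsg.Agent.LargeExtra (Setting)

/-- The entry of a vector in the table of paths. -/
noncomputable def planeAt (v : ℕ) : ℕ := (Data.planeCode.getD (v / 64) []).getD (v % 64) 255

/-- The letter undoing the last step of the path. -/
noncomputable def backLetter : ℕ → ℕ
  | 0 => 1
  | 1 => 0
  | 2 => 3
  | 3 => 2
  | 4 => 5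
  | _ => 4

/-- Every singular vector has a path to the fixed space. -/
noncomputable def planeOK : Bool :=
  allB (fun v => bif qN v then
    (bif Nat.beq (planeAt v / 8) 0 then Data.uList.contains v
      else qN (apL (letterL (backLetter (planeAt v % 8))) v) &&
        Nat.blt (apL (letterL (backLetter (planeAt v % 8))) v) 4096 &&
        Nat.blt (planeAt (apL (letterL (backLetter (planeAt v % 8))) v) / 8) (planeAt v / 8))
    else true) 12 0

set_option maxHeartbeats 4000000 in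
theorem planeOK_true : planeOK = true := by decide +kernel

/-- Every singular vector is moved into the fixed space by the triple cover. -/
theorem plane_cover (v : Vec) (hv : UnitF4.H v v = 0) : ∃ k ∈ K22, k v ∈ uSet := by
  suffices h : ∀ d, ∀ w : Vec, planeAt (enc w) / 8 = d → qN (enc w) = true → ∃ k ∈ K22, k w ∈ uSet from
    h _ v rfl ((qN_enc v).2 hv)
  intro d
  induction d using Nat.strong_induction_on with
  | _ d ih =>
    intro w hd hq
    have h := allB_spec_zero (show planeOK = true from planeOK_true) (by norm_num : 4096 ≤ 2 ^ 12) (enc_lt w)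
    simp only [hq, cond_true, hd] at h
    cases hb : Nat.beq d 0
    · rw [hb] at h
      simp only [cond_false, Bool.and_eq_true] at h
      obtain ⟨⟨hq', -⟩, hlt⟩ := h
      set j := backLetter (planeAt (enc w) % 8)
      have hr : enc (letter j w) = apL (letterL j) (enc w) := rep_letter j w
      obtain ⟨k, hk, hkU⟩ := ih _ (Nat.blt_eq.mp hlt) (letter j w) (by rw [hr]) (by rw [hr]; exact hq')
      exact ⟨k * letter j, mul_mem hk (letter_mem j), hkU⟩
    · rw [hb] at h
      simp only [cond_true] at h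
      exact ⟨1, one_mem _, by simpa [uSet] using h⟩

/-- Homomorphic images of elementary abelian groups. -/
theorem elem_map {A B : Type*} [Group A] [Group B] (f : A →* B) {L : Subgroup A}
    (hL : IsElementaryAbelian 2 L) : IsElementaryAbelian 2 (L.map f) :=
  by
  refine ⟨⟨⟨fun u v => ?_⟩⟩, ?_⟩
  · obtain ⟨a, ha, hua⟩ := u.2
    obtain ⟨b, hb, hvb⟩ := v.2
    apply Subtype.ext
    show (u : B) * v = v * u
    rw [← hua, ← hvb, ← map_mul, ← map_mul]
    exact congrArg f (congrArg Subtype.val (hL.1.is_comm.comm ⟨a, ha⟩ ⟨b, hb⟩))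
  · rintro _ ⟨a, ha, rfl⟩
    rw [← map_pow, hL.2 a ha, map_one]

variable {G : Type*} [Group G] [Finite G] {z : G} {P : Subgroup G}

/-- The model with its fixed space named, and the image containing the triple cover. -/
theorem exists_ext_full (hJ : IsOfJankoFourTypeWith z P) :
    ∃ (rho : Subgroup.centralizer ({z} : Set G) →* Equiv.Perm Vec)
      (psi : pCore 2 (Subgroup.centralizer ({z} : Set G)) → Vec)
      (_ : Ext (pCore 2 (Subgroup.centralizer ({z} : Set G)))
        ⟨z, Subgroup.mem_centralizer_singleton_iff.2 rfl⟩ rho psi)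
      (Mo : Model rho.range), K22 ≤ rho.range ∧ Mo.U = uSet ∧ Mo.A = aGrp ∧
        Nat.card rho.range = 2661120 ∧ ∃ M : Subgroup (Subgroup.centralizer ({z} : Set G)), M.index = 2 := by
  obtain ⟨rho, psi, M, q, D, -, hlin, hsqM, hconjM, ⟨h0, hh0, hs0⟩, hlift, hscal, hker, hcM, hcR⟩ :=
    exists_frame hJ
  obtain ⟨g, hg, hgK⟩ := exists_conjugate rho M q hlin hlift hscal hker hcM
  have hKR : K22 ≤ ((MulAut.conj g).toMonoidHom.comp rho).range := by
    rw [← hgK, MonoidHom.range_comp]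
    exact Subgroup.map_mono (Subgroup.map_le_range _ _)
  have hcK : Nat.card K22 = 1330560 := by
    rw [← hgK, Subgroup.card_map_of_injective (MulAut.conj g).injective, hcM]
  have hsemi : IsSemi true (g * rho h0 * g⁻¹) := by
    obtain ⟨b, hb⟩ := hg
    have h := (hb.mul hs0).mul hb.inv
    rwa [show ∀ b, xor (xor b true) b = true by decide] at h
  have hgP := gP_mem hKR hcK (s := g * rho h0 * g⁻¹) ⟨h0, rfl⟩ hsemi (fun k hk => by
    rw [← hgK] at hk ⊢
    obtain ⟨_, ⟨m, hm, rfl⟩, rfl⟩ := hk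
    refine ⟨rho (h0 * m * h0⁻¹), ⟨_, hconjM m hm h0, rfl⟩, ?_⟩
    simp [mul_assoc])
  refine ⟨_, _, ext_conj D hg, model ⟨hKR⟩ candJ candJ_ok gP rep_gP.1 hgP, hKR, rfl, rfl, ?_, M, ?_⟩
  · rw [MonoidHom.range_comp, Subgroup.card_map_of_injective (MulAut.conj g).injective, hcR]
  · refine Subgroup.index_eq_two_iff.2 ⟨h0, fun b => ?_⟩
    by_cases hb : b ∈ M
    · refine Or.inr ⟨hb, fun h => hh0 ?_⟩
      simpa using mul_mem (inv_mem hb) h
    · exact Or.inl ⟨hsqM b h0 hb hh0, hb⟩

/-- **The involution is not weakly closed in the extraspecial group.** -/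
theorem exists_fused [IsSimpleGroup G] (hJ : IsOfJankoFourTypeWith z P) :
    ∃ g : G, g * z * g⁻¹ ∈ twoCoreOfCentralizer z ∧ g * z * g⁻¹ ≠ z := by
  obtain ⟨-, -, -, -, -, -, -, -, M, hM⟩ := exists_ext_full hJ
  obtain ⟨hz, hEx, hcardE, hself, -, hP3, -⟩ := hJ
  have h3 : 3 ∣ Nat.card G := hP3 ▸ Subgroup.card_subgroup_dvd_card P
  have hres := H49.pResidual_eq_top_of_simple h3
  set E := twoCoreOfCentralizer z with hE
  have hzE : z ∈ E := by
    refine hself ⟨Subgroup.mem_centralizer_singleton_iff.2 rfl, Subgroup.mem_centralizer_iff.2 ?_⟩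
    intro e he
    obtain ⟨y, -, rfl⟩ := he
    exact Subgroup.mem_centralizer_singleton_iff.1 y.2
  have hcent : Subgroup.centralizer (E : Set G) ≤ E := fun g hg => hself
    ⟨Subgroup.mem_centralizer_singleton_iff.2 (Subgroup.mem_centralizer_iff.1 hg z hzE).symm, hg⟩
  obtain ⟨n, -, S⟩ := LargeExtra.exists_setting hz rfl hEx hcent
  obtain rfl : n = 6 := by
    have h : 2 ^ 13 = 2 ^ (2 * n + 1) := hcardE.symm.trans S.card
    have := Nat.pow_right_injective (le_refl 2) h
    omega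
  by_contra hnf
  push Not at hnf
  obtain ⟨ν, hν⟩ := Setting.index_two_hom hM
  have h1 := S.hom_eq_one_of_not_fused (by norm_num) hres hnf ν Setting.mul_self_multiplicative
  have htop : M = ⊤ := (Subgroup.eq_top_iff' _).2 fun h => (hν h).1 (DFunLike.congr_fun h1 h)
  rw [htop, Subgroup.index_top] at hM
  exact absurd hM (by norm_num)

/-- The elementary abelian subgroups of order `2^11` of the centralizer are conjugate in it. -/
theorem elementary_conj (hJ : IsOfJankoFourTypeWith z P)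
    {A B : Subgroup (Subgroup.centralizer ({z} : Set G))} (hA : IsElementaryAbelian 2 A)
    (hAc : Nat.card A = 2 ^ 11) (hB : IsElementaryAbelian 2 B) (hBc : Nat.card B = 2 ^ 11) :
    ∃ c, B = A.map (MulAut.conj c).toMonoidHom := by
  haveI : Fact (Nat.Prime 2) := ⟨Nat.prime_two⟩
  obtain ⟨rho, psi, D, ⟨Mo⟩, hfac⟩ := exists_ext_model hJ
  obtain ⟨S, hS⟩ := (IsPGroup.of_card hAc).exists_le_sylow
  obtain ⟨T, hT⟩ := (IsPGroup.of_card hBc).exists_le_sylow
  obtain ⟨c, hc⟩ := MulAction.exists_smul_eq (Subgroup.centralizer ({z} : Set G)) S T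
  obtain ⟨K, -, -, -, -, -, hmax⟩ := D.unique_max Mo hfac T
  have hmap : A.map (MulAut.conj c).toMonoidHom ≤ T := by
    rw [← hc, Sylow.smul_def, Sylow.pointwise_smul_def]
    exact Subgroup.map_mono hS
  have hAel : IsElementaryAbelian 2 (A.map (MulAut.conj c).toMonoidHom) :=
    elem_map _ hA
  exact ⟨c, ((hmax B hT hB).2 hBc).trans ((hmax _ hmap hAel).2 (by
    rw [Subgroup.card_map_of_injective (MulAut.conj c).injective, hAc])).symm⟩

/-- **An elementary abelian subgroup of order `2^11` of the centralizer contains the involution, and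
its normalizer moves the involution inside the extraspecial group.** -/
theorem exists_fused_normalizer [IsSimpleGroup G] (hJ : IsOfJankoFourTypeWith z P) {V : Subgroup G}
    (hV : IsElementaryAbelian 2 V) (hVc : Nat.card V = 2 ^ 11)
    (hVH : V ≤ Subgroup.centralizer ({z} : Set G)) :
    z ∈ V ∧ ∃ n ∈ Subgroup.normalizer (V : Set G),
      n * z * n⁻¹ ≠ z ∧ n * z * n⁻¹ ∈ V ∧ n * z * n⁻¹ ∈ twoCoreOfCentralizer z := by
  classical
  obtain ⟨rho, psi, D, Mo, hKR, hU, -, -, -⟩ := exists_ext_full hJ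
  obtain ⟨g, hgE, hgne⟩ := exists_fused hJ
  have hKel : IsElementaryAbelian 2 (D.K Mo) := by
    refine ⟨⟨⟨fun u v => Subtype.ext ?_⟩⟩, fun a ha => by rw [pow_two]; exact D.K_sq Mo a ha⟩
    exact comm_of_sq (D.K_sq Mo _ u.2) (D.K_sq Mo _ v.2) (D.K_sq Mo _ ((D.K Mo).mul_mem u.2 v.2))
  have hzK : (⟨z, Subgroup.mem_centralizer_singleton_iff.2 rfl⟩ : (Subgroup.centralizer ({z} : Set G))) ∈ D.K Mo :=
    ((D.K_inf Mo).ge (D.z_mem_P0 Mo)).1
  obtain ⟨s, hsQ, hse⟩ := hgE
  -- move the conjugate into the fixed space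
  have hs2 : (⟨s, hsQ⟩ : pCore 2 (Subgroup.centralizer ({z} : Set G))) * ⟨s, hsQ⟩ = 1 := Subtype.ext (Subtype.ext (by
    show (s : G) * s = 1
    have hzz : z * z = 1 := by simpa using congrArg Subtype.val D.z_sq
    rw [show (s : G) = g * z * g⁻¹ from hse]
    calc g * z * g⁻¹ * (g * z * g⁻¹) = g * (z * z) * g⁻¹ := by group
      _ = 1 := by rw [hzz]; group))
  obtain ⟨k, hk, hkU⟩ := plane_cover _ ((D.psi_norm _).2 hs2)
  obtain ⟨h, rfl⟩ := hKR hk
  have hs'P : h * s * h⁻¹ ∈ D.P0 Mo :=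
    ⟨(inferInstance : (pCore 2 (Subgroup.centralizer ({z} : Set G))).Normal).conj_mem _ hsQ h, by
      rw [hU, show psi _ = rho h (psi ⟨s, hsQ⟩) from D.psi_conj h ⟨s, hsQ⟩]
      exact hkU⟩
  obtain ⟨hs'K, hs'Q⟩ := (D.K_inf Mo).ge hs'P
  -- transport to the given subgroup
  have hVc' : Nat.card (V.subgroupOf (Subgroup.centralizer ({z} : Set G))) = 2 ^ 11 := by
    rw [Nat.card_congr (Subgroup.subgroupOfEquivOfLe hVH).toEquiv, hVc]
  have hVel : IsElementaryAbelian 2 (V.subgroupOf (Subgroup.centralizer ({z} : Set G))) := by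
    refine ⟨⟨⟨fun u v => Subtype.ext (Subtype.ext ?_)⟩⟩, fun a ha => Subtype.ext (hV.2 _ (Subgroup.mem_subgroupOf.1 ha))⟩
    show ((u : (Subgroup.centralizer ({z} : Set G))) : G) * (v : (Subgroup.centralizer ({z} : Set G))) = ((v : (Subgroup.centralizer ({z} : Set G))) : G) * (u : (Subgroup.centralizer ({z} : Set G)))
    exact congrArg Subtype.val (hV.1.is_comm.comm ⟨_, Subgroup.mem_subgroupOf.1 u.2⟩ ⟨_, Subgroup.mem_subgroupOf.1 v.2⟩)
  obtain ⟨c, hc⟩ := elementary_conj hJ hKel (D.K_card Mo) hVel hVc'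
  have hin : ∀ y ∈ D.K Mo, ((c * y * c⁻¹ : (Subgroup.centralizer ({z} : Set G))) : G) ∈ V := fun y hy =>
    Subgroup.mem_subgroupOf.1 (hc.ge ⟨y, hy, rfl⟩)
  have hzc : ∀ a : (Subgroup.centralizer ({z} : Set G)), (a : G) * z * (a : G)⁻¹ = z := fun a =>
    mul_inv_eq_iff_eq_mul.2 (Subgroup.mem_centralizer_singleton_iff.1 a.2)
  have hzV : z ∈ V := by
    have := hin _ hzK
    simpa [hzc] using this
  refine ⟨hzV, ?_⟩
  set g' : G := (c : G) * (h : G) * g with hg'
  set t : G := g' * z * g'⁻¹ with ht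
  have htV : t ∈ V := by
    have := hin _ hs'K
    rw [ht, hg']
    simp only [Subgroup.coe_mul, Subgroup.coe_inv] at this
    rw [show (s : G) = g * z * g⁻¹ from hse] at this
    simpa [mul_assoc] using this
  have htE : t ∈ twoCoreOfCentralizer z := by
    refine ⟨c * (h * s * h⁻¹) * c⁻¹, (inferInstance : (pCore 2 (Subgroup.centralizer ({z} : Set G))).Normal).conj_mem _ hs'Q c, ?_⟩
    show (c : G) * ((h : G) * (s : G) * (h : G)⁻¹) * (c : G)⁻¹ = t
    rw [show (s : G) = g * z * g⁻¹ from hse, ht, hg']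
    group
  have htne : t ≠ z := fun e => hgne <| by
    have e1 := hzc (h⁻¹ * c⁻¹)
    simp only [Subgroup.coe_mul, Subgroup.coe_inv] at e1
    calc g * z * g⁻¹ = (h : G)⁻¹ * (c : G)⁻¹ * t * ((h : G)⁻¹ * (c : G)⁻¹)⁻¹ := by rw [ht, hg']; group
      _ = z := by rw [e, e1]
  -- the conjugate of `V` in the centralizer
  set W : Subgroup G := V.map (MulAut.conj g'⁻¹).toMonoidHom with hW
  have hWH : W ≤ (Subgroup.centralizer ({z} : Set G)) := by
    rintro _ ⟨v, hv, rfl⟩
    refine Subgroup.mem_centralizer_singleton_iff.2 ?_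
    have hcomm : v * t = t * v := congrArg Subtype.val (hV.1.is_comm.comm ⟨v, hv⟩ ⟨t, htV⟩)
    show g'⁻¹ * v * (g'⁻¹)⁻¹ * z = z * (g'⁻¹ * v * (g'⁻¹)⁻¹)
    calc g'⁻¹ * v * (g'⁻¹)⁻¹ * z = g'⁻¹ * (v * t) * g' := by rw [ht]; group
      _ = z * (g'⁻¹ * v * (g'⁻¹)⁻¹) := by rw [hcomm, ht]; group
  have hWel : IsElementaryAbelian 2 W := elem_map _ hV
  have hWel' : IsElementaryAbelian 2 (W.subgroupOf (Subgroup.centralizer ({z} : Set G))) := by
    refine ⟨⟨⟨fun u v => Subtype.ext (Subtype.ext ?_)⟩⟩, fun a ha => Subtype.ext (hWel.2 _ (Subgroup.mem_subgroupOf.1 ha))⟩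
    show ((u : (Subgroup.centralizer ({z} : Set G))) : G) * (v : (Subgroup.centralizer ({z} : Set G))) = ((v : (Subgroup.centralizer ({z} : Set G))) : G) * (u : (Subgroup.centralizer ({z} : Set G)))
    exact congrArg Subtype.val (hWel.1.is_comm.comm ⟨_, Subgroup.mem_subgroupOf.1 u.2⟩ ⟨_, Subgroup.mem_subgroupOf.1 v.2⟩)
  obtain ⟨d, hd⟩ := elementary_conj hJ hVel hVc' hWel' (by
    rw [Nat.card_congr (Subgroup.subgroupOfEquivOfLe hWH).toEquiv, hW,
      Subgroup.card_map_of_injective (MulAut.conj g'⁻¹).injective, hVc])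
  refine ⟨g' * d, ?_, ?_⟩
  · rw [Subgroup.mem_normalizer_iff_map_conj_eq]
    refine Subgroup.eq_of_le_of_card_ge ?_ (by rw [Subgroup.card_map_of_injective (MulAut.conj _).injective])
    rintro _ ⟨v, hv, rfl⟩
    obtain ⟨v', hv', he⟩ := Subgroup.mem_subgroupOf.1
      (hd.ge ⟨⟨v, hVH hv⟩, Subgroup.mem_subgroupOf.2 hv, rfl⟩ :
        ((MulAut.conj d).toMonoidHom ⟨v, hVH hv⟩) ∈ W.subgroupOf (Subgroup.centralizer ({z} : Set G)))
    have he' : g'⁻¹ * v' * (g'⁻¹)⁻¹ = (d : G) * v * (d : G)⁻¹ := he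
    show g' * (d : G) * v * (g' * (d : G))⁻¹ ∈ V
    rwa [show g' * (d : G) * v * (g' * (d : G))⁻¹ = v' by
      calc _ = g' * ((d : G) * v * (d : G)⁻¹) * g'⁻¹ := by group
        _ = v' := by rw [← he']; group]
  · have e : g' * (d : G) * z * (g' * (d : G))⁻¹ = t := by
      calc _ = g' * ((d : G) * z * (d : G)⁻¹) * g'⁻¹ := by group
        _ = t := by rw [hzc]
    rw [e]
    exact ⟨htne, htV, htE⟩

/-- The elementary abelian subgroup exists. -/
theorem exists_elementary (hJ : IsOfJankoFourTypeWith z P) :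
    ∃ V : Subgroup G, V ≤ Subgroup.centralizer ({z} : Set G) ∧ IsElementaryAbelian 2 V ∧
      Nat.card V = 2 ^ 11 := by
  haveI : Fact (Nat.Prime 2) := ⟨Nat.prime_two⟩
  obtain ⟨rho, psi, D, ⟨Mo⟩, hfac⟩ := exists_ext_model hJ
  obtain ⟨S⟩ : Nonempty (Sylow 2 (Subgroup.centralizer ({z} : Set G))) := inferInstance
  obtain ⟨K, -, hKel, hKc, -⟩ := D.unique_max Mo hfac S
  exact ⟨_, Subgroup.map_subtype_le K, elem_map _ hKel, by
    rw [Subgroup.card_map_of_injective (Subgroup.centralizer ({z} : Set G)).subtype_injective, hKc]⟩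

end Cfsg.Agent.JFourType
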