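import Cfsg.Agent.JFourType.DecadSwap
import Cfsg.Agent.JFourType.Fusion

/-!
The lengths 155 and 868 of the two orbits on the elementary abelian subgroup of order `2^10`: divisibility
by primes not occurring in the linear group, a double count with the cores of centralizers, and the
normalizer of a Sylow 31-subgroup.
-/

set_option autoImplicit false
set_option maxRecDepth 100000
set_option maxHeartbeats 1000000

namespace Cfsg.Agent.JFourType.Decad

open Cfsg
open Cfsg.Agent.GFour25 Cfsg.Agent.CosetCert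
open Cfsg.Agent.SporB.FischerU (Vec vecN enc vecN_enc enc_lt)
open Cfsg.Agent.LargeFischer (IsSemi semiU)
open Cfsg.Agent.LargeFischer.Thompson
open Cfsg.Agent.TTClass
open Ten TenData DecadData
open Data (uList)

/-- The centralizer of an element. -/
local notation "Cz[" z "]" => Subgroup.centralizer (({z} : Set _))

set_option quotPrecheck false
/-- The involution in its centralizer. -/
local notation "zC[" z "]" => (⟨z, Subgroup.mem_centralizer_singleton_iff.2 rfl⟩ : Subgroup.centralizer (({z} : Set _)))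

section Generic

variable {G : Type*} [Group G] [Finite G]

/-- An element of prime order permuting a set fixes a congruent number of its members. -/
theorem fixed_modEq {p : ℕ} [Fact p.Prime] {g : G} (hg : orderOf g = p) (X : Set G)
    (hX : ∀ k ∈ Subgroup.zpowers g, ∀ x ∈ X, k * x * k⁻¹ ∈ X) :
    X.ncard ≡ {x : G | x ∈ X ∧ g * x = x * g}.ncard [MOD p] := by
  classical
  letI : MulAction (Subgroup.zpowers g) X :=
    { smul := fun k x => ⟨(k : G) * x * (k : G)⁻¹, hX k k.2 x x.2⟩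
      one_smul := fun x => Subtype.ext (show ((1 : Subgroup.zpowers g) : G) * x *
        ((1 : Subgroup.zpowers g) : G)⁻¹ = x by simp)
      mul_smul := fun k l x => Subtype.ext (show ((k * l : Subgroup.zpowers g) : G) * x *
        ((k * l : Subgroup.zpowers g) : G)⁻¹ = (k : G) * ((l : G) * x * (l : G)⁻¹) * (k : G)⁻¹ by
          rw [Subgroup.coe_mul]; group) }
  have hP : IsPGroup p (Subgroup.zpowers g) := IsPGroup.of_card (n := 1) (by rw [Nat.card_zpowers, hg, pow_one])
  have h := hP.card_modEq_card_fixedPoints X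
  rw [Nat.card_coe_set_eq] at h
  have e : Nat.card (MulAction.fixedPoints (Subgroup.zpowers g) X) =
      {x : G | x ∈ X ∧ g * x = x * g}.ncard := by
    rw [← Nat.card_coe_set_eq {x : G | x ∈ X ∧ g * x = x * g}]
    refine Nat.card_congr
      { toFun := fun x => ⟨x.1.1, x.1.2, mul_inv_eq_iff_eq_mul.1
          (congrArg Subtype.val (x.2 ⟨g, Subgroup.mem_zpowers g⟩))⟩
        invFun := fun x => ⟨⟨x.1, x.2.1⟩, fun k => Subtype.ext (by
          have hc : Commute g x.1 := x.2.2
          obtain ⟨i, hi⟩ := Subgroup.mem_zpowers_iff.1 k.2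
          show (k : G) * x.1 * (k : G)⁻¹ = x.1
          rw [← hi, (hc.zpow_left i).eq, mul_inv_cancel_right])⟩
        left_inv := fun x => rfl
        right_inv := fun x => rfl }
  rwa [e] at h

/-- An element of prime order normalising a self-centralising elementary abelian group of order `2^10`. -/
theorem ten_fixed {A : Subgroup G} (hA : TenMain.Ten A) {p : ℕ} [Fact p.Prime] (hp2 : p ≠ 2) {g : G}
    (hg : g ∈ Subgroup.normalizer (A : Set G)) (hgo : orderOf g = p) :
    ∃ j < 10, {x : G | x ∈ A ∧ g * x = x * g}.ncard = 2 ^ j ∧ p ∣ 2 ^ (10 - j) - 1 := by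
  classical
  set C := A ⊓ Subgroup.centralizer ({g} : Set G) with hC
  have hset : {x : G | x ∈ A ∧ g * x = x * g}.ncard = Nat.card C := by
    show {x : G | x ∈ A ∧ g * x = x * g}.ncard = Nat.card (C : Set G)
    rw [Nat.card_coe_set_eq]
    congr 1
    ext x
    refine ⟨fun h => ⟨h.1, Subgroup.mem_centralizer_singleton_iff.2 h.2.symm⟩, fun h => ⟨h.1, ?_⟩⟩
    exact (Subgroup.mem_centralizer_singleton_iff.1 h.2).symm
  have hmod := fixed_modEq hgo (A : Set G) fun k hk x hx =>
    (Subgroup.mem_normalizer_iff.1 ((Subgroup.zpowers_le.2 hg) hk) x).1 hx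
  rw [show (A : Set G).ncard = Nat.card A from (Nat.card_coe_set_eq _).symm, hA.card] at hmod
  change 2 ^ 10 ≡ {x : G | x ∈ A ∧ g * x = x * g}.ncard [MOD p] at hmod
  rw [hset] at hmod ⊢
  obtain ⟨j, hj, hjc⟩ := (Nat.dvd_prime_pow Nat.prime_two).1
    (hA.card ▸ Subgroup.card_dvd_of_le (inf_le_left : C ≤ A))
  refine ⟨j, lt_of_le_of_ne hj fun e => ?_, hjc, ?_⟩
  · have hCA : C = A := Subgroup.eq_of_le_of_card_ge inf_le_left (by rw [hjc, e, hA.card])
    have hgA : g ∈ A := by
      rw [← hA.self]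
      intro x hx
      exact (Subgroup.mem_centralizer_singleton_iff.1 (hCA.ge hx).2)
    have h := Subgroup.orderOf_dvd_natCard A hgA
    rw [hgo, hA.card] at h
    exact hp2 ((Nat.prime_dvd_prime_iff_eq Fact.out Nat.prime_two).1 (Fact.out (p := p.Prime).dvd_of_dvd_pow h))
  · rw [hjc] at hmod
    have hle : 2 ^ j ≤ 2 ^ 10 := Nat.pow_le_pow_right (by norm_num) hj
    have h := (Nat.modEq_iff_dvd' hle).1 hmod.symm
    rw [show 2 ^ 10 - 2 ^ j = 2 ^ j * (2 ^ (10 - j) - 1) by
      rw [Nat.mul_sub, mul_one, ← pow_add, Nat.add_sub_cancel' hj]] at h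
    refine (Fact.out (p := p.Prime).dvd_mul.1 h).resolve_left fun h2 => hp2 ?_
    exact (Nat.prime_dvd_prime_iff_eq Fact.out Nat.prime_two).1 (Fact.out (p := p.Prime).dvd_of_dvd_pow h2)

/-- Primes that do not divide the order of the normalizer. -/
theorem prime_excluded {A : Subgroup G} (hA : TenMain.Ten A) {p : ℕ} (hp : p.Prime) (hp2 : p ≠ 2)
    (hno : ∀ i ≤ 10, 1 ≤ i → ¬ p ∣ 2 ^ i - 1) : ¬ p ∣ Nat.card (Subgroup.normalizer (A : Set G)) := by
  intro h
  haveI := Fact.mk hp
  obtain ⟨x, hx⟩ := exists_prime_orderOf_dvd_card' p h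
  obtain ⟨j, hj, -, hd⟩ := ten_fixed hA hp2 x.2 (by rw [Subgroup.orderOf_coe, hx])
  exact hno (10 - j) (by omega) (by omega) hd

end Generic

variable {G : Type*} [Group G] [Finite G] {z : G} {P : Subgroup G}
variable (hJ : IsOfJankoFourTypeWith z P) (S : Invol.Setup z P)

include hJ in
theorem base_ten : TenMain.Ten (base S) :=
  ⟨(base_elem hJ S).1, (base_elem hJ S).2.1, base_self hJ S⟩

include hJ in
/-- The involution is moved by the normalizer to another element of the preimage. -/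
theorem exists_moved [IsSimpleGroup G]
    (hclass : ∀ A : Subgroup G, TenMain.Ten A → z ∈ A →
      ∃ g ∈ Subgroup.centralizer ({z} : Set G), A = (base S).map (MulAut.conj g).toMonoidHom) :
    ∃ s ∈ pre S, s ≠ zC[z] ∧ s ∈ orbY S z := by
  classical
  obtain ⟨g, ⟨e, heQ, hee⟩, hgne⟩ := exists_fused hJ
  replace hee : (e : G) = g * z * g⁻¹ := hee
  have he2 : (⟨e, heQ⟩ : pCore 2 Cz[z]) * ⟨e, heQ⟩ = 1 := Subtype.ext (Subtype.ext (by
    show (e : G) * e = 1
    have hzz : z * z = 1 := by simpa using congrArg Subtype.val S.D.z_sq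
    rw [hee]
    calc g * z * g⁻¹ * (g * z * g⁻¹) = g * (z * z) * g⁻¹ := by group
      _ = 1 := by rw [hzz]; group))
  have hne0 : S.psi ⟨e, heQ⟩ ≠ 0 := fun h0 => by
    rcases (S.D.psi_ker _).1 h0 with h | h
    · replace h : (e : G) = 1 := congrArg Subtype.val h
      rw [hee, mul_inv_eq_one] at h
      exact S.D.z_ne (Subtype.ext (mul_eq_left.1 h))
    · exact hgne (hee.symm.trans (congrArg Subtype.val h))
  obtain ⟨k, hk, hkU⟩ := plane_cover _ ((S.D.psi_norm _).2 he2)
  obtain ⟨h1, rfl⟩ := S.K22_le hk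
  set v := S.rho h1 (S.psi ⟨e, heQ⟩) with hv
  have hv0 : v ≠ 0 := fun h0 => hne0 ((S.rho h1).injective (h0.trans (S.D.rho_zero h1).symm))
  have hvU : enc v ∈ uList := hkU
  have ht := List.all_eq_true.1 toTenOK_true _ hvU
  simp only [Bool.or_eq_true, List.any_eq_true, Bool.and_eq_true] at ht
  obtain ⟨t, -, -, htw⟩ := ht.resolve_left fun h0 =>
    hv0 (enc_injective ((Nat.eq_of_beq_eq_true h0).trans enc_zero'.symm))
  obtain ⟨h2, hh2⟩ := S.K22_le (word_mem (t.drop 1))
  set h := h2 * h1 with hh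
  set s : Cz[z] := h * e * h⁻¹ with hs
  have hsQ : s ∈ pCore 2 Cz[z] := (inferInstance : (pCore 2 Cz[z]).Normal).conj_mem _ heQ h
  have hsp : s ∈ pre S := by
    refine ⟨hsQ, ?_⟩
    show enc (S.psi ⟨h * e * h⁻¹, hsQ⟩) ∈ wCodes
    rw [conj_psi S h ⟨e, heQ⟩, hh, map_mul, Equiv.Perm.mul_apply, ← hv, hh2, rep_word _ v]
    exact inU_iff.1 htw
  set g1 : G := (h : G) * g with hg1
  have hs1 : (s : G) = g1 * z * g1⁻¹ := by
    show (h : G) * (e : G) * (h : G)⁻¹ = _
    rw [hee, hg1]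
    group
  have hzh : ∀ c : Cz[z], (c : G) * z * (c : G)⁻¹ = z := fun c =>
    mul_inv_eq_iff_eq_mul.2 (Subgroup.mem_centralizer_singleton_iff.1 c.2)
  have hsne : s ≠ zC[z] := fun e1 => hgne (by
    have e2 : g1 * z * g1⁻¹ = z := hs1.symm.trans (congrArg Subtype.val e1)
    have e3 := hzh h⁻¹
    rw [Subgroup.coe_inv] at e3
    calc g * z * g⁻¹ = (h : G)⁻¹ * (g1 * z * g1⁻¹) * (h : G)⁻¹⁻¹ := by rw [hg1]; group
      _ = z := by rw [e2, e3])
  refine ⟨s, hsp, hsne, ?_⟩
  set B := (base S).map (MulAut.conj g1⁻¹).toMonoidHom with hB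
  have hzB : z ∈ B := ⟨s, (mem_base S).2 (pre_le_baseH S hsp), by
    show g1⁻¹ * (s : G) * g1⁻¹⁻¹ = z
    rw [hs1]
    group⟩
  obtain ⟨c, hc, hBc⟩ := hclass B (TenMain.ten_map (base_ten hJ S) _) hzB
  refine ⟨g1 * c, ?_, ?_⟩
  · rw [Subgroup.mem_normalizer_iff_map_conj_eq]
    have e := congrArg (Subgroup.map (MulAut.conj g1).toMonoidHom) hBc
    rw [hB, Subgroup.map_map, Subgroup.map_map,
      show (MulAut.conj g1).toMonoidHom.comp (MulAut.conj g1⁻¹).toMonoidHom = MonoidHom.id G by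
        ext x; simp [mul_assoc],
      show (MulAut.conj g1).toMonoidHom.comp (MulAut.conj c).toMonoidHom =
        (MulAut.conj (g1 * c)).toMonoidHom by ext x; simp [mul_assoc], Subgroup.map_id] at e
    exact e.symm
  · show g1 * c * z * (g1 * c)⁻¹ = (s : G)
    rw [show g1 * c * z * (g1 * c)⁻¹ = g1 * (c * z * c⁻¹) * g1⁻¹ by group, hzh ⟨c, hc⟩, hs1]

include S in
theorem z_not_one : z ≠ 1 := fun e => S.D.z_ne (Subtype.ext e)

include hJ in
/-- The order of the normalizer. -/
theorem card_normalizer :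
    (TenMain.orbit (base S) z).ncard * (2 ^ 20 * 63) = Nat.card (Subgroup.normalizer (base S : Set G)) := by
  rw [← card_stabilizer hJ S]
  exact TenMain.orbit_ncard_mul (base S) z

include hJ in
/-- **The orbit of the involution has length 155.** -/
theorem orbit_z [IsSimpleGroup G]
    (hclass : ∀ A : Subgroup G, TenMain.Ten A → z ∈ A →
      ∃ g ∈ Subgroup.centralizer ({z} : Set G), A = (base S).map (MulAut.conj g).toMonoidHom) :
    (TenMain.orbit (base S) z).ncard = 155 ∧ above S sigL ⊆ orbY S z ∧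
      ∀ τ0, Rep (sList.getD 0 []) τ0 → (part S (orbY S z) τ0).ncard = 16 := by
  classical
  obtain ⟨τ0, -, hτ0, -⟩ := s_rep (getD_mem [] (show 0 < sList.length by rw [s_facts.1]; norm_num))
  have hX := orbY_inv S (z_mem_base S) (z_not_one S)
  have hrest := rest_disjoint hJ S
  obtain ⟨s, hs, hsne, hsO⟩ := exists_moved hJ S hclass
  have hsig : above S sigL ⊆ orbY S z := by
    refine (above_inter S hX orb_facts.2.2.2.2.2.2.1 orb_facts.2.2.2.1).resolve_left fun h => ?_
    rcases in_cases S (pre_le_baseH S hs) (fun e => hX.one (e ▸ hsO)) (pre_le S hs) with e | e | e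
    · exact hsne e
    · exact Set.eq_empty_iff_forall_notMem.1 h s ⟨hsO, e⟩
    · exact Set.eq_empty_iff_forall_notMem.1 hrest s ⟨hsO, e⟩
  have hz1 : orbY S z ∩ {zC[z]} = {zC[z]} :=
    Set.inter_eq_right.2 (Set.singleton_subset_iff.2 (TenMain.self_mem_orbit _ _))
  have hsplit := inv_split hJ S hX hτ0
  rw [hz1, Set.ncard_singleton, hrest, Set.ncard_empty, Set.inter_eq_right.2 hsig, (above_card S).1,
    orbY_ncard S (z_mem_base S)] at hsplit
  obtain ⟨k, hk⟩ := part_dvd S hX (i := 0) (by norm_num) hτ0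
  have hle := part_le S hX τ0
  have hN := card_normalizer hJ S
  have hno : ∀ p : ℕ, p.Prime → p ≠ 2 → (∀ i ≤ 10, 1 ≤ i → ¬ p ∣ 2 ^ i - 1) →
      ¬ p ∣ (TenMain.orbit (base S) z).ncard := fun p hp hp2 hpi hd =>
    prime_excluded (base_ten hJ S) hp hp2 hpi (hN ▸ hd.mul_right _)
  have hk1 : k = 1 := by
    rw [hk] at hsplit hle
    rw [hsplit] at hno
    have hk8 : k ≤ 8 := by omega
    interval_cases k
    · exact absurd (by norm_num : 43 ∣ 1 + 42 + 0 + 7 * (16 * 0)) (hno 43 (by norm_num) (by norm_num)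
        (by intro i hi hi'; interval_cases i <;> norm_num))
    · rfl
    · exact absurd (by norm_num : 89 ∣ 1 + 42 + 0 + 7 * (16 * 2)) (hno 89 (by norm_num) (by norm_num)
        (by intro i hi hi'; interval_cases i <;> norm_num))
    · exact absurd (by norm_num : 379 ∣ 1 + 42 + 0 + 7 * (16 * 3)) (hno 379 (by norm_num) (by norm_num)
        (by intro i hi hi'; interval_cases i <;> norm_num))
    · exact absurd (by norm_num : 491 ∣ 1 + 42 + 0 + 7 * (16 * 4)) (hno 491 (by norm_num) (by norm_num)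
        (by intro i hi hi'; interval_cases i <;> norm_num))
    · exact absurd (by norm_num : 67 ∣ 1 + 42 + 0 + 7 * (16 * 5)) (hno 67 (by norm_num) (by norm_num)
        (by intro i hi hi'; interval_cases i <;> norm_num))
    · exact absurd (by norm_num : 13 ∣ 1 + 42 + 0 + 7 * (16 * 6)) (hno 13 (by norm_num) (by norm_num)
        (by intro i hi hi'; interval_cases i <;> norm_num))
    · exact absurd (by norm_num : 827 ∣ 1 + 42 + 0 + 7 * (16 * 7)) (hno 827 (by norm_num) (by norm_num)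
        (by intro i hi hi'; interval_cases i <;> norm_num))
    · exact absurd (by norm_num : 313 ∣ 1 + 42 + 0 + 7 * (16 * 8)) (hno 313 (by norm_num) (by norm_num)
        (by intro i hi hi'; interval_cases i <;> norm_num))
  subst hk1
  refine ⟨by omega, hsig, fun τ hτ => ?_⟩
  rw [hτ.eq hτ0]
  omega

/-- The longer orbit on the preimage generates the preimage. -/
theorem rest_generates (K : Subgroup G) (hK : ∀ x ∈ above S restL, ((x : Cz[z]) : G) ∈ K) :
    coreIn S z ≤ K := by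
  classical
  have hur : ∀ u ∈ orbTwo, u ∈ restL := by
    have h := sameOK_true
    simp only [sameOK, Bool.and_eq_true, List.all_eq_true, List.contains_iff_mem] at h
    exact h.2
  have hlist : ∀ u ∈ orbTwo, ∃ a : pCore 2 Cz[z], ((a : Cz[z]) : G) ∈ K ∧ enc (S.psi a) = u := by
    intro u hu
    obtain ⟨a, ha⟩ := S.D.psi_surj (vecN u)
    have he : enc (S.psi a) = u := by
      rw [ha, enc_vecN (w_facts.1 _ (orb_facts.2.2.2.2.1 _ (hur u hu)).1).1]
    exact ⟨a, hK _ ((mem_above S).2 (by rw [he]; exact hur u hu)), he⟩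
  have hspan : ∀ l : List ℕ, (∀ u ∈ l, u ∈ orbTwo) → ∀ y ∈ spanX l,
      ∃ a : pCore 2 Cz[z], ((a : Cz[z]) : G) ∈ K ∧ enc (S.psi a) = y := by
    intro l
    induction l with
    | nil =>
      intro _ y hy
      rw [show spanX [] = [0] from rfl, List.mem_singleton] at hy
      exact ⟨1, K.one_mem, by rw [S.D.psi_one, enc_zero', hy]⟩
    | cons a l ih =>
      intro hl y hy
      have ih' := ih fun b hb => hl b (List.mem_cons_of_mem _ hb)
      rw [show spanX (a :: l) = bif (spanX l).any (Nat.beq a) then spanX l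
        else spanX l ++ (spanX l).map (Nat.xor a) from rfl] at hy
      cases hb : (spanX l).any (Nat.beq a) <;> rw [hb] at hy
      · rw [cond_false, List.mem_append, List.mem_map] at hy
        rcases hy with hy | ⟨b, hb', rfl⟩
        · exact ih' y hy
        · obtain ⟨p, hp, hpe⟩ := ih' b hb'
          obtain ⟨q, hq, hqe⟩ := hlist a (hl a List.mem_cons_self)
          exact ⟨q * p, K.mul_mem hq hp, by rw [S.D.psi_mul, enc_add, hpe, hqe]; rfl⟩
      · exact ih' y hy
  have hzK : z ∈ K := by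
    obtain ⟨x, hx⟩ : (above S restL).Nonempty := Set.nonempty_of_ncard_ne_zero (by
      rw [(above_card S).2.1]; norm_num)
    have hxz : x * zC[z] ∈ above S restL := by
      obtain ⟨hp, hpl⟩ := hx
      refine ⟨mul_mem hp S.D.z_mem, ?_⟩
      rw [show (⟨x * zC[z], mul_mem hp S.D.z_mem⟩ : pCore 2 Cz[z]) = ⟨x, hp⟩ * ⟨zC[z], S.D.z_mem⟩ from rfl,
        S.D.psi_mul, (S.D.psi_ker ⟨zC[z], S.D.z_mem⟩).2 (Or.inr rfl), add_zero]
      exact hpl
    have h := K.mul_mem (K.inv_mem (hK x hx)) (hK _ hxz)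
    rwa [Subgroup.coe_mul, inv_mul_cancel_left] at h
  rw [coreIn_z]
  rintro _ ⟨p, ⟨hp, hpw⟩, rfl⟩
  obtain ⟨y, hy, hye⟩ := List.any_eq_true.1 (List.all_eq_true.1 orbSpan_ok _ hpw)
  obtain ⟨a, ha, hae⟩ := hspan orbTwo (fun u hu => hu) y hy
  rcases S.D.eq_of_psi (a := ⟨p, hp⟩) (b := a)
      (enc_injective ((Nat.eq_of_beq_eq_true hye).trans hae.symm)) with h | h
  · rw [show p = (a : Cz[z]) from h]
    exact ha
  · rw [show p = (a : Cz[z]) * zC[z] from h]
    exact K.mul_mem ha hzK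

include hJ in
/-- A length of 420 is impossible. -/
theorem not_fourtwenty {y : G} (hy : y ∈ base S) (hy1 : y ≠ 1)
    (h155 : (TenMain.orbit (base S) z).ncard = 155) :
    (TenMain.orbit (base S) y).ncard ≠ 420 := by
  classical
  intro h420
  haveI : Fact (Nat.Prime 31) := ⟨by norm_num⟩
  have hA := base_ten hJ S
  set M := Subgroup.normalizer (base S : Set G) with hM
  have hN : Nat.card M = 155 * (2 ^ 20 * 63) := by
    rw [← card_normalizer hJ S, h155]
  have hC : Nat.card ↥(M ⊓ Subgroup.centralizer ({y} : Set G)) = 2 ^ 18 * 93 := by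
    have h := TenMain.orbit_ncard_mul (base S) y
    rw [h420, hN] at h
    exact Nat.eq_of_mul_eq_mul_left (by norm_num : 0 < 420) (h.trans (by norm_num))
  obtain ⟨g, hg⟩ := exists_prime_orderOf_dvd_card' (G := ↥(M ⊓ Subgroup.centralizer ({y} : Set G))) 31
    (by rw [hC]; norm_num)
  have hgo : orderOf (g : G) = 31 := by rw [Subgroup.orderOf_coe, hg]
  have hgy : (g : G) * y = y * g := Subgroup.mem_centralizer_singleton_iff.1 g.2.2
  have hgM : (g : G) ∈ M := g.2.1
  set F := {x : G | x ∈ TenMain.orbit (base S) y ∧ (g : G) * x = x * g} with hF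
  have hmod : 420 ≡ F.ncard [MOD 31] := by
    rw [← h420]
    refine fixed_modEq hgo _ fun k hk x hx => ?_
    obtain ⟨n, hn, rfl⟩ := hx
    exact ⟨k * n, M.mul_mem ((Subgroup.zpowers_le.2 hgM) hk) hn, by group⟩
  obtain ⟨j, hj, hjc, hjd⟩ := ten_fixed hA (p := 31) (by norm_num) hgM hgo
  have hF31 : F.ncard ≤ 31 := by
    have hsub : F ⊆ {x : G | x ∈ base S ∧ (g : G) * x = x * g} \ {1} := fun x hx =>
      ⟨⟨TenMain.orbit_sub hy hx.1, hx.2⟩, fun e => TenMain.one_not_mem_orbit hy1 (Set.mem_singleton_iff.1 e ▸ hx.1)⟩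
    refine (Set.ncard_le_ncard hsub (Set.toFinite _)).trans ?_
    rw [Set.ncard_sdiff_singleton_of_mem (show (1 : G) ∈ {x : G | x ∈ base S ∧ (g : G) * x = x * g} from
      ⟨(base S).one_mem, by rw [mul_one, one_mul]⟩), hjc]
    interval_cases j <;> norm_num at hjd <;> norm_num
  have hF17 : F.ncard = 17 := by
    have h : F.ncard % 31 = 17 := (show F.ncard % 31 = 420 % 31 from hmod.symm).trans (by norm_num)
    rcases Nat.lt_or_ge F.ncard 31 with h' | h'
    · rwa [Nat.mod_eq_of_lt h'] at h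
    · rw [show F.ncard = 31 by omega] at h
      norm_num at h
  -- a Sylow subgroup of the normalizer
  let gM : M := ⟨g, hgM⟩
  have hgMo : orderOf gM = 31 := by rw [← hgo, ← Subgroup.orderOf_coe gM]
  obtain ⟨Q, hQ⟩ := (IsPGroup.of_card (p := 31) (n := 1) (G := Subgroup.zpowers gM)
    (by rw [Nat.card_zpowers, hgMo, pow_one])).exists_le_sylow
  have hQe : (Q : Subgroup M) = Subgroup.zpowers gM := by
    refine (Subgroup.eq_of_le_of_card_ge hQ ?_).symm
    rw [Nat.card_zpowers, hgMo]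
    obtain ⟨e, he⟩ := IsPGroup.iff_card.1 Q.2
    have hd : 31 ^ e ∣ 155 * (2 ^ 20 * 63) := by
      rw [← hN, ← he]
      exact Subgroup.card_subgroup_dvd_card _
    rw [he]
    have he1 : e ≤ 1 := by
      by_contra hc
      have : (961 : ℕ) ∣ 155 * (2 ^ 20 * 63) := (pow_dvd_pow 31 (show 2 ≤ e by omega)).trans hd
      norm_num at this
    calc 31 ^ e ≤ 31 ^ 1 := Nat.pow_le_pow_right (by norm_num) he1
      _ = 31 := pow_one 31
  have hbM : base S ≤ M := fun x hx => Subgroup.mem_normalizer_iff.2 fun a => by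
    constructor
    · exact fun ha => mul_mem (mul_mem hx ha) (inv_mem hx)
    · intro ha
      have := mul_mem (mul_mem (inv_mem hx) ha) hx
      rwa [show x⁻¹ * (x * a * x⁻¹) * x = a by group] at this
  set NQ : Subgroup G := (Subgroup.normalizer ((Q : Subgroup M) : Set M)).map M.subtype with hNQ
  have hcomm : ∀ x : M, (g : G) * (x : G) = x * g → x ∈ Subgroup.centralizer ((Q : Subgroup M) : Set M) := by
    intro x hx
    refine Subgroup.mem_centralizer_iff.2 fun k hk => ?_
    have hk' : k ∈ Subgroup.zpowers gM := hQe.le hk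
    obtain ⟨i, rfl⟩ := Subgroup.mem_zpowers_iff.1 hk'
    exact ((show Commute gM x from Subtype.ext hx).zpow_left i).eq
  have hFN : F = conjSet NQ y := by
    ext v
    constructor
    · rintro ⟨hvO, hvg⟩
      obtain ⟨m, hm, hmy⟩ := hvO
      have hconj : (⟨m, hm⟩ : M)⁻¹⁻¹ * ⟨y, hbM hy⟩ * (⟨m, hm⟩ : M)⁻¹ = ⟨v, hmy ▸ M.mul_mem (M.mul_mem hm (hbM hy)) (M.inv_mem hm)⟩ :=
        Subtype.ext (by rw [inv_inv]; exact hmy)
      obtain ⟨n, hn, hne⟩ := Q.conj_eq_normalizer_conj_of_mem_centralizer ⟨y, hbM hy⟩ (⟨m, hm⟩ : M)⁻¹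
        (hcomm _ hgy) (by rw [hconj]; exact hcomm _ hvg)
      rw [hconj] at hne
      refine ⟨(n : G)⁻¹, ⟨n⁻¹, Subgroup.inv_mem _ hn, rfl⟩, ?_⟩
      rw [inv_inv]
      exact (congrArg Subtype.val hne).symm
    · rintro ⟨_, ⟨n, hn, rfl⟩, rfl⟩
      refine ⟨⟨n, n.2, rfl⟩, ?_⟩
      have h1 : n⁻¹ * gM * n⁻¹⁻¹ ∈ (Q : Subgroup M) :=
        (Subgroup.mem_normalizer_iff.1 (Subgroup.inv_mem _ hn) gM).1 (hQe.ge (Subgroup.mem_zpowers gM))
      rw [hQe, Subgroup.mem_zpowers_iff] at h1
      obtain ⟨i, hi⟩ := h1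
      have hc : Commute gM ⟨y, hbM hy⟩ := Subtype.ext hgy
      have h2 := congrArg Subtype.val (hc.zpow_left i).eq
      rw [hi] at h2
      simp only [Subgroup.coe_mul, Subgroup.coe_inv, inv_inv] at h2
      show (g : G) * ((n : G) * y * (n : G)⁻¹) = (n : G) * y * (n : G)⁻¹ * g
      calc (g : G) * ((n : G) * y * (n : G)⁻¹) = (n : G) * ((n : G)⁻¹ * g * n * y) * (n : G)⁻¹ := by group
        _ = (n : G) * (y * ((n : G)⁻¹ * g * n)) * (n : G)⁻¹ := by rw [h2]
        _ = (n : G) * y * (n : G)⁻¹ * g := by group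
  have h17 : 17 ∣ Nat.card NQ := Dvd.intro _ (by rw [← hF17, hFN]; exact conjSet_ncard_mul NQ y)
  have hd := h17.trans (Subgroup.card_dvd_of_le (Subgroup.map_subtype_le _ : NQ ≤ M))
  rw [hN] at hd
  norm_num at hd

include hJ in
/-- **The other orbit has length 868.** -/
theorem orbit_rest [IsSimpleGroup G]
    (hclass : ∀ A : Subgroup G, TenMain.Ten A → z ∈ A →
      ∃ g ∈ Subgroup.centralizer ({z} : Set G), A = (base S).map (MulAut.conj g).toMonoidHom) :
    ∃ y ∈ base S, (TenMain.orbit (base S) y).ncard = 868 := by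
  classical
  obtain ⟨h155, hsig, hc16⟩ := orbit_z hJ S hclass
  obtain ⟨u, hu⟩ : (above S restL).Nonempty := Set.nonempty_of_ncard_ne_zero (by
    rw [(above_card S).2.1]; norm_num)
  have hub : u ∈ baseH S := pre_le_baseH S ⟨hu.1, (orb_facts.2.2.2.2.1 _ hu.2).1⟩
  set y : G := (u : G) with hy
  have hyb : y ∈ base S := (mem_base S).2 hub
  have hy1 : y ≠ 1 := fun e => by
    obtain ⟨hp, hpl⟩ := hu
    refine (orb_facts.2.2.2.2.1 _ hpl).2 ?_
    rw [show (⟨u, hp⟩ : pCore 2 Cz[z]) = 1 from Subtype.ext (Subtype.ext e), S.D.psi_one, enc_zero']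
  refine ⟨y, hyb, ?_⟩
  have hX := orbY_inv S hyb hy1
  have hX1 := orbY_inv S (z_mem_base S) (z_not_one S)
  have hrest := rest_disjoint hJ S
  have hdisj : ∀ x, x ∈ orbY S z → x ∉ orbY S y := fun x h1 h2 => by
    have e := (TenMain.orbit_eq (show (x : G) ∈ TenMain.orbit (base S) y from h2)).symm.trans
      (TenMain.orbit_eq (show (x : G) ∈ TenMain.orbit (base S) z from h1))
    exact Set.eq_empty_iff_forall_notMem.1 hrest u ⟨show y ∈ TenMain.orbit (base S) z from
      e ▸ TenMain.self_mem_orbit _ _, hu⟩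
  have hrs : above S restL ⊆ orbY S y :=
    (above_inter S hX orb_facts.2.2.2.2.2.2.2.1 orb_facts.2.2.2.2.1).resolve_left fun h =>
      Set.eq_empty_iff_forall_notMem.1 h u ⟨TenMain.self_mem_orbit _ _, hu⟩
  have hz1 : orbY S y ∩ {zC[z]} = ∅ := Set.eq_empty_iff_forall_notMem.2 fun x hx =>
    hdisj zC[z] (TenMain.self_mem_orbit _ _) (Set.mem_singleton_iff.1 hx.2 ▸ hx.1)
  have hsig0 : orbY S y ∩ above S sigL = ∅ := Set.eq_empty_iff_forall_notMem.2 fun x hx =>
    hdisj x (hsig hx.2) hx.1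
  obtain ⟨τ0, -, hτ0, -, -, hτ1⟩ := s_rep (getD_mem [] (show 0 < sList.length by rw [s_facts.1]; norm_num))
  have hsplit := inv_split hJ S hX hτ0
  rw [hz1, hsig0, Set.ncard_empty, Set.inter_eq_right.2 hrs, (above_card S).2.1,
    orbY_ncard S hyb] at hsplit
  obtain ⟨k, hk⟩ := part_dvd S hX (i := 0) (by norm_num) hτ0
  have hboth : InvSet S (orbY S z ∪ orbY S y) :=
    ⟨fun x hx => hx.elim (hX1.sub x) (hX.sub x), fun h => h.elim hX1.one hX.one,
      fun g hg x hx => hx.imp (hX1.conj g hg x) (hX.conj g hg x)⟩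
  have hk7 : k ≤ 7 := by
    have e : part S (orbY S z ∪ orbY S y) τ0 = part S (orbY S z) τ0 ∪ part S (orbY S y) τ0 := by
      ext x
      simp only [part, Set.mem_ofPred_eq, Set.mem_union]
      tauto
    have h := part_le S hboth τ0
    rw [e, Set.ncard_union_eq (Set.disjoint_left.2 fun x h1 h2 => hdisj x h1.1 h2.1), hc16 τ0 hτ0, hk] at h
    omega
  -- the double count
  set O := TenMain.orbit (base S) z with hO
  set O2 := TenMain.orbit (base S) y with hO2
  have hzcount : {v | v ∈ O2 ∧ v ∈ coreIn S z}.ncard = 84 := by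
    rw [← (above_card S).2.1, ← Set.ncard_image_of_injective (above S restL)
      (Subgroup.subtype_injective (Subgroup.centralizer ({z} : Set G)))]
    congr 1
    ext v
    constructor
    · rintro ⟨hv, hvc⟩
      rw [coreIn_z] at hvc
      obtain ⟨p, hp, rfl⟩ := hvc
      have hpO : p ∈ orbY S y := hv
      rcases in_cases S (pre_le_baseH S hp) (fun e => hX.one (e ▸ hpO)) (pre_le S hp) with e | e | e
      · exact absurd (show p ∈ orbY S y ∩ {zC[z]} from ⟨hpO, e⟩) (Set.eq_empty_iff_forall_notMem.1 hz1 p)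
      · exact absurd (show p ∈ orbY S y ∩ above S sigL from ⟨hpO, e⟩) (Set.eq_empty_iff_forall_notMem.1 hsig0 p)
      · exact ⟨p, e, rfl⟩
    · rintro ⟨p, hp, rfl⟩
      refine ⟨hrs hp, ?_⟩
      rw [coreIn_z]
      exact ⟨p, ⟨hp.1, (orb_facts.2.2.2.2.1 _ hp.2).1⟩, rfl⟩
  have hrow : ∀ s ∈ O, {v | v ∈ O2 ∧ v ∈ coreIn S s}.ncard = 84 := by
    rintro _ ⟨n, hn, rfl⟩
    rw [← hzcount, ← Set.ncard_image_of_injective {v | v ∈ O2 ∧ v ∈ coreIn S z} (MulAut.conj n).injective]
    congr 1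
    ext v
    constructor
    · rintro ⟨⟨m, hm, hmv⟩, hvc⟩
      refine ⟨n⁻¹ * v * n⁻¹⁻¹, ⟨⟨n⁻¹ * m, mul_mem (inv_mem hn) hm, ?_⟩, ?_⟩, ?_⟩
      · rw [← hmv]; group
      · have h := coreIn_conj S (inv_mem hn) hvc
        rwa [show n⁻¹ * (n * z * n⁻¹) * n⁻¹⁻¹ = z by group] at h
      · show n * (n⁻¹ * v * n⁻¹⁻¹) * n⁻¹ = v
        group
    · rintro ⟨w, ⟨⟨m, hm, rfl⟩, hwc⟩, rfl⟩
      refine ⟨⟨n * m, mul_mem hn hm, ?_⟩, coreIn_conj S hn hwc⟩
      simp only [MulAut.conj_apply]
      group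
  set r := {s | s ∈ O ∧ y ∈ coreIn S s}.ncard with hr
  have hcol : ∀ v ∈ O2, {s | s ∈ O ∧ v ∈ coreIn S s}.ncard = r := by
    rintro _ ⟨n, hn, rfl⟩
    rw [hr, ← Set.ncard_image_of_injective {s | s ∈ O ∧ y ∈ coreIn S s} (MulAut.conj n).injective]
    congr 1
    ext s
    constructor
    · rintro ⟨⟨m, hm, hms⟩, hvc⟩
      refine ⟨n⁻¹ * s * n⁻¹⁻¹, ⟨⟨n⁻¹ * m, mul_mem (inv_mem hn) hm, ?_⟩, ?_⟩, ?_⟩
      · rw [← hms]; group
      · have h := coreIn_conj S (inv_mem hn) hvc
        rwa [show n⁻¹ * (n * y * n⁻¹) * n⁻¹⁻¹ = y by group] at h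
      · show n * (n⁻¹ * s * n⁻¹⁻¹) * n⁻¹ = s
        group
    · rintro ⟨w, ⟨⟨m, hm, rfl⟩, hwc⟩, rfl⟩
      refine ⟨⟨n * m, mul_mem hn hm, ?_⟩, coreIn_conj S hn hwc⟩
      simp only [MulAut.conj_apply]
      group
  have hOf := Set.toFinite O
  have hO2f := Set.toFinite O2
  have hdouble : 155 * 84 = O2.ncard * r := by
    have key := Finset.sum_card_bipartiteAbove_eq_sum_card_bipartiteBelow
      (s := hOf.toFinset) (t := hO2f.toFinset) (fun s v => v ∈ coreIn S s)
    have e1 : ∀ s ∈ hOf.toFinset,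
        (Finset.bipartiteAbove (fun s v => v ∈ coreIn S s) hO2f.toFinset s).card = 84 := fun s hs => by
      rw [← hrow s (hOf.mem_toFinset.1 hs), ← Set.ncard_coe_finset]
      congr 1
      ext v
      simp
    have e2 : ∀ v ∈ hO2f.toFinset,
        (Finset.bipartiteBelow (fun s v => v ∈ coreIn S s) hOf.toFinset v).card = r := fun v hv => by
      rw [← hcol v (hO2f.mem_toFinset.1 hv), ← Set.ncard_coe_finset]
      congr 1
      ext s
      simp
    rw [Finset.sum_congr rfl e1, Finset.sum_congr rfl e2, Finset.sum_const, Finset.sum_const, smul_eq_mul,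
      smul_eq_mul, ← Set.ncard_eq_toFinset_card O hOf, ← Set.ncard_eq_toFinset_card O2 hO2f, h155] at key
    exact key
  rw [hk] at hsplit
  rw [hsplit] at hdouble
  interval_cases k
  · -- the orbit is the longer one on the preimage
    exfalso
    have hr155 : r = 155 := by omega
    have hall : ∀ v ∈ O2, ∀ s ∈ O, v ∈ coreIn S s := by
      intro v hv s hs
      have h : {s | s ∈ O ∧ v ∈ coreIn S s} = O := Set.eq_of_subset_of_ncard_le (fun t ht => ht.1)
        (by rw [hcol v hv, hr155, h155]) hOf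
      exact (h.ge hs).2
    obtain ⟨x, hx⟩ : (part S (orbY S z) τ0).Nonempty := Set.nonempty_of_ncard_ne_zero (by
      rw [hc16 τ0 hτ0]; norm_num)
    obtain ⟨n, hn, hne⟩ := hx.1
    have hle : coreIn S z ≤ coreIn S (x : G) := rest_generates S _ fun p hp => hall _ (hrs hp) _ hx.1
    have heq : coreIn S z = coreIn S (x : G) := Subgroup.eq_of_le_of_card_ge hle (by
      rw [← hne, card_coreIn S hn, coreIn_z, Subgroup.card_map_of_injective (Subgroup.subtype_injective _),
        card_pre])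
    have hxx : (x : G) ∈ coreIn S (x : G) := by
      rw [← hne]
      refine coreIn_conj S hn ?_
      rw [coreIn_z]
      exact ⟨zC[z], z_mem_pre S, rfl⟩
    rw [← heq, coreIn_z] at hxx
    obtain ⟨p, hp, hpe⟩ := hxx
    have hxQ : x ∈ pCore 2 Cz[z] := (show p = x from Subtype.ext hpe) ▸ pre_le S hp
    exact hτ1 (hx.2.symm.trans (S.D.rho_q hxQ))
  all_goals first
    | omega
    | exact absurd hsplit (by simpa using not_fourtwenty hJ S hyb hy1 h155)

end Cfsg.Agent.JFourType.Decad
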