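import Cfsg.Agent.JFourType.DecadCount

/-!
The two orbit lengths for every self-centralising elementary abelian subgroup of order `2^10`, given the
classification in the centralizer of the involution.
-/

set_option autoImplicit false

namespace Cfsg.Agent.JFourType.Decad

open Cfsg Ten

variable {G : Type*} [Group G] [Finite G] {z : G} {P : Subgroup G}

/-- Conjugate subgroups have orbits of the same lengths. -/
theorem orbit_transport (A : Subgroup G) (g x : G) :
    (TenMain.orbit (A.map (MulAut.conj g).toMonoidHom) (g * x * g⁻¹)).ncard =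
      (TenMain.orbit A x).ncard := by
  rw [← Set.ncard_image_of_injective (TenMain.orbit A x) (MulAut.conj g).injective]
  congr 1
  have hmap : ∀ n, n ∈ Subgroup.normalizer ((A.map (MulAut.conj g).toMonoidHom : Subgroup G) : Set G) ↔
      g⁻¹ * n * g ∈ Subgroup.normalizer (A : Set G) := by
    intro n
    rw [← Subgroup.map_equiv_normalizer_eq, Subgroup.mem_map_equiv]
    simp [MulAut.conj_symm_apply]
  ext v
  constructor
  · rintro ⟨n, hn, rfl⟩
    exact ⟨g⁻¹ * n * g * x * (g⁻¹ * n * g)⁻¹, ⟨_, (hmap n).1 hn, rfl⟩, by simp [mul_assoc]⟩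
  · rintro ⟨_, ⟨m, hm, rfl⟩, rfl⟩
    refine ⟨g * m * g⁻¹, (hmap _).2 ?_, by simp [mul_assoc]⟩
    simpa [mul_assoc] using hm

/-- **The two orbit lengths.** -/
theorem orbit_lengths [IsSimpleGroup G] (hJ : IsOfJankoFourTypeWith z P)
    (hclass : ∀ (S : Invol.Setup z P) (A : Subgroup G), TenMain.Ten A → z ∈ A →
      ∃ g ∈ Subgroup.centralizer ({z} : Set G), A = (base S).map (MulAut.conj g).toMonoidHom)
    {A : Subgroup G} (hA : TenMain.Ten A) :
    ∃ a b : G, a ∈ A ∧ b ∈ A ∧ (TenMain.orbit A a).ncard = 155 ∧ (TenMain.orbit A b).ncard = 868 := by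
  obtain ⟨S⟩ := Invol.exists_setup hJ
  obtain ⟨g, hg⟩ := TenMain.exists_conj_mem hJ hA
  obtain ⟨c, -, hc⟩ := hclass S _ (TenMain.ten_map hA g) hg
  have hAeq : A = (base S).map (MulAut.conj (g⁻¹ * c)).toMonoidHom := by
    have e := congrArg (Subgroup.map (MulAut.conj g⁻¹).toMonoidHom) hc
    rw [Subgroup.map_map, Subgroup.map_map,
      show (MulAut.conj g⁻¹).toMonoidHom.comp (MulAut.conj g).toMonoidHom = MonoidHom.id G by
        ext v; simp [mul_assoc],
      show (MulAut.conj g⁻¹).toMonoidHom.comp (MulAut.conj c).toMonoidHom =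
        (MulAut.conj (g⁻¹ * c)).toMonoidHom by ext v; simp [mul_assoc], Subgroup.map_id] at e
    exact e
  obtain ⟨y, hy, h868⟩ := orbit_rest hJ S (hclass S)
  refine ⟨(g⁻¹ * c) * z * (g⁻¹ * c)⁻¹, (g⁻¹ * c) * y * (g⁻¹ * c)⁻¹, ?_, ?_, ?_, ?_⟩
  · rw [hAeq]; exact ⟨z, z_mem_base S, rfl⟩
  · rw [hAeq]; exact ⟨y, hy, rfl⟩
  · rw [hAeq, orbit_transport]; exact (orbit_z hJ S (hclass S)).1
  · rw [hAeq, orbit_transport]; exact h868

end Cfsg.Agent.JFourType.Decad
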