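import Cfsg.Agent.JFourType.Fusion

/-!
The frame of a group of Janko-four type with the image of the subgroup of order 3, and a Sylow
2-subgroup of the group inside the centralizer of the involution.
-/

set_option autoImplicit false
set_option maxRecDepth 100000

namespace Cfsg.Agent.JFourType.Invol

open Cfsg
open Cfsg.Agent.GFour25
open Cfsg.Agent.SporB.FischerU (Vec)
open Cfsg.Agent.LargeFischer (IsSemi semiU twist)
open Cfsg.Agent.LargeFischer.Thompson
open Cfsg.Agent.TTClass
open Cfsg.Agent.JFourType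

/-- Conjugation in `Aut M22` by inner automorphisms fixes no set of size at most three, apart from
the trivial element. -/
theorem eq_one_of_small_normal {L : Subgroup (MulAut Spor.M22)} (hL : Nat.card L ≤ 3)
    (hconj : ∀ (y : Spor.M22), ∀ l ∈ L, MulAut.conj y * l * (MulAut.conj y)⁻¹ ∈ L)
    {l : MulAut Spor.M22} (hl : l ∈ L) : l = 1 := by
  classical
  haveI := Golay.isSimpleGroup_M22
  by_contra h1
  let K : Subgroup Spor.M22 := (Subgroup.centralizer ({l} : Set (MulAut Spor.M22))).comap MulAut.conj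
  have hK : ∀ y, y ∈ K ↔ MulAut.conj y * l * (MulAut.conj y)⁻¹ = l := fun y => by
    rw [Subgroup.mem_comap, Subgroup.mem_centralizer_singleton_iff, mul_inv_eq_iff_eq_mul]
  -- at most one other value
  have htwo : ∀ a b : MulAut Spor.M22, a ∈ L → b ∈ L → a ≠ 1 → b ≠ 1 → a ≠ l → b ≠ l → a = b := by
    intro a b ha hb ha1 hb1 hal hbl
    by_contra hab
    haveI : Fintype L := Fintype.ofFinite _
    have hsub : ({1, ⟨l, hl⟩, ⟨a, ha⟩, ⟨b, hb⟩} : Finset L).card ≤ 3 := by
      refine (Finset.card_le_univ _).trans ?_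
      rwa [← Nat.card_eq_fintype_card]
    rw [Finset.card_insert_of_notMem, Finset.card_insert_of_notMem, Finset.card_pair] at hsub
    · omega
    · exact fun e => hab (congrArg Subtype.val e)
    · simp only [Finset.mem_insert, Finset.mem_singleton, Subtype.ext_iff, not_or]
      exact ⟨Ne.symm hal, Ne.symm hbl⟩
    · simp only [Finset.mem_insert, Finset.mem_singleton, Subtype.ext_iff, not_or]
      exact ⟨fun e => h1 e.symm, fun e => ha1 e.symm, fun e => hb1 e.symm⟩
  have hne1 : ∀ y, MulAut.conj y * l * (MulAut.conj y)⁻¹ ≠ 1 := fun y e => h1 (by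
    rw [mul_inv_eq_one] at e
    exact mul_eq_left.1 e)
  have hprod : ∀ y y', y ∉ K → y' ∉ K → y * y' ∈ K := by
    intro y y' hy hy'
    rw [hK] at hy hy' ⊢
    by_contra hne
    have e1 := htwo _ _ (hconj y l hl) (hconj (y * y') l hl) (hne1 _) (hne1 _) hy hne
    rw [map_mul] at e1
    refine hy' ?_
    calc MulAut.conj y' * l * (MulAut.conj y')⁻¹
        = (MulAut.conj y)⁻¹ * (MulAut.conj y * MulAut.conj y' * l *
            (MulAut.conj y * MulAut.conj y')⁻¹) * MulAut.conj y := by group
      _ = l := by rw [← e1]; group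
  haveI : K.Normal := ⟨fun k hk g => by
    by_cases hg : g ∈ K
    · exact mul_mem (mul_mem hg hk) (inv_mem hg)
    · refine hprod _ _ (fun hc => hg ?_) (fun hc => hg (inv_mem_iff.1 hc))
      simpa using mul_mem hc (inv_mem hk)⟩
  have htop : K = ⊤ := by
    rcases IsSimpleGroup.eq_bot_or_eq_top_of_normal K inferInstance with h | h
    · exfalso
      obtain ⟨y, hy⟩ := @exists_prime_orderOf_dvd_card' Spor.M22 _ _ 3 ⟨Nat.prime_three⟩
        (by rw [Golay.card_M22]; norm_num)
      have h3 : y ^ 3 = 1 := by rw [← hy, pow_orderOf_eq_one]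
      have hyK : y ∈ K := by
        by_contra hc
        have h2 := hprod y y hc hc
        refine hc ?_
        have e : y = y * y * (y * y) := by
          calc y = y ^ 3 * y := by rw [h3, one_mul]
            _ = y * y * (y * y) := by simp only [pow_succ, pow_zero, one_mul, mul_assoc]
        rw [e]
        exact mul_mem h2 h2
      rw [h, Subgroup.mem_bot] at hyK
      rw [hyK, orderOf_one] at hy
      norm_num at hy
    · exact h
  have hinj : Function.Injective (MulAut.conj : Spor.M22 →* MulAut Spor.M22) := by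
    rw [← MonoidHom.ker_eq_bot_iff]
    rcases IsSimpleGroup.eq_bot_or_eq_top_of_normal (MulAut.conj : Spor.M22 →* MulAut Spor.M22).ker
      inferInstance with h | h
    · exact h
    · exfalso
      have hc : ∀ u v : Spor.M22, u * v = v * u := fun u v => by
        have h1 := DFunLike.congr_fun (MonoidHom.mem_ker.1 (h ▸ Subgroup.mem_top u :
          u ∈ (MulAut.conj : Spor.M22 →* MulAut Spor.M22).ker)) v
        rw [MulAut.conj_apply, MulAut.one_apply, mul_inv_eq_iff_eq_mul] at h1
        exact h1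
      letI : CommGroup Spor.M22 := { (inferInstance : Group Spor.M22) with mul_comm := hc }
      have hp : (Nat.card Spor.M22).Prime := IsSimpleGroup.prime_card
      rw [Golay.card_M22] at hp
      norm_num at hp
  refine h1 (MulEquiv.ext fun y => ?_)
  have hy := (hK y).1 (htop ▸ Subgroup.mem_top y)
  rw [mul_inv_eq_iff_eq_mul] at hy
  rw [MulAut.one_apply]
  refine hinj ?_
  have e : MulAut.conj (l y) * l = l * MulAut.conj y := by
    ext v
    simp [MulAut.conj_apply]
  rw [← hy] at e
  exact mul_right_cancel e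

/-- A permutation undoes its inverse. -/
theorem apply_inv {α : Type*} (σ : Equiv.Perm α) (v : α) : σ (σ⁻¹ v) = v := σ.apply_symm_apply v

variable {G : Type*} [Group G] [Finite G] {z : G} {P : Subgroup G}

/-- Everything used about the centralizer. -/
structure Setup (z : G) (P : Subgroup G) where
  /-- the action -/
  rho : Subgroup.centralizer ({z} : Set G) →* Equiv.Perm Vec
  /-- the vector of an element of the core -/
  psi : pCore 2 (Subgroup.centralizer ({z} : Set G)) → Vec
  D : Ext (pCore 2 (Subgroup.centralizer ({z} : Set G)))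
    ⟨z, Subgroup.mem_centralizer_singleton_iff.2 rfl⟩ rho psi
  K22_le : K22 ≤ rho.range
  gP_mem : gP ∈ rho.range
  semi : ∀ h, rho h ∈ semiU
  fac : (Nat.card rho.range).factorization 2 = 8
  /-- a generator of the subgroup of order three -/
  p : Subgroup.centralizer ({z} : Set G)
  p_mem : (p : G) ∈ P
  p_order : orderOf (p : G) = 3
  /-- the scalar of the generator -/
  c : F4
  c_ne : c ≠ 0 ∧ c ≠ 1
  p_apply : ∀ v, rho p v = c • v

theorem exists_setup (hJ : IsOfJankoFourTypeWith z P) : Nonempty (Setup z P) := by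
  classical
  haveI : Fact (Nat.Prime 3) := ⟨Nat.prime_three⟩
  set C := Subgroup.centralizer ({z} : Set G) with hC
  obtain ⟨rho, psi, M, q, D, hsemiU, hlin, hsqM, hconjM, ⟨h0, hh0, hs0⟩, hlift, hscal, hker, hcM, hcR⟩ :=
    exists_frame hJ
  obtain ⟨g, hg, hgK⟩ := exists_conjugate rho M q hlin hlift hscal hker hcM
  have hKR : K22 ≤ ((MulAut.conj g).toMonoidHom.comp rho).range := by
    rw [← hgK, MonoidHom.range_comp]
    exact Subgroup.map_mono (Subgroup.map_le_range _ _)
  have hcK : Nat.card K22 = 1330560 := by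
    rw [← hgK, Subgroup.card_map_of_injective (MulAut.conj g).injective, hcM]
  have hsemi : IsSemi true (g * rho h0 * g⁻¹) := by
    obtain ⟨b, hb⟩ := hg
    have h := (hb.mul hs0).mul hb.inv
    rwa [show ∀ b, xor (xor b true) b = true by decide] at h
  have hgP := gP_mem hKR hcK (s := g * rho h0 * g⁻¹) ⟨h0, rfl⟩ hsemi (fun k hk => by
    rw [← hgK] at hk ⊢
    obtain ⟨_, ⟨m, hm, rfl⟩, rfl⟩ := hk
    refine ⟨rho (h0 * m * h0⁻¹), ⟨_, hconjM m hm h0, rfl⟩, ?_⟩
    simp [mul_assoc])
  obtain ⟨-, -, hcardE, -, ⟨N, hEN, hNH, -, hN3, ⟨hNn, -⟩, hPN⟩, hP3, hfixE, -, -⟩ := hJ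
  haveI := hNn
  obtain ⟨⟨x0, hx0P⟩, hx3⟩ := exists_prime_orderOf_dvd_card' (G := P) 3 (by rw [hP3])
  rw [Subgroup.orderOf_mk] at hx3
  set x : C := ⟨x0, hNH (hPN hx0P)⟩ with hxdef
  have hx1 : x ^ 3 = 1 := Subtype.ext (by
    show x0 ^ 3 = 1
    rw [← hx3, pow_orderOf_eq_one])
  have hxM : x ∈ M := by
    by_contra hc
    have h2 := hsqM x x hc hc
    refine hc ?_
    have e : x = x * x * (x * x) := by
      calc x = x ^ 3 * x := by rw [hx1, one_mul]
        _ = x * x * (x * x) := by simp only [pow_succ, pow_zero, one_mul, mul_assoc]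
    rw [e]
    exact mul_mem h2 h2
  set N' := N.subgroupOf C with hN'
  have hQN' : pCore 2 C ≤ N' := fun h hh => Subgroup.mem_subgroupOf.2 (hEN ⟨h, hh, rfl⟩)
  have hxN' : x ∈ N' := Subgroup.mem_subgroupOf.2 (hPN hx0P)
  have hqx : q x = 1 := by
    refine eq_one_of_small_normal (L := N'.map q) ?_ (fun y l hl => ?_) ⟨x, hxN', rfl⟩
    · let f := q.comp N'.subtype
      have hr : f.range = N'.map q := by rw [MonoidHom.range_comp, Subgroup.range_subtype]
      have hk : (pCore 2 C).subgroupOf N' ≤ f.ker := fun y hy =>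
        hker _ (D.rho_q (Subgroup.mem_subgroupOf.1 hy))
      rw [← hr, ← Subgroup.index_ker]
      refine (Nat.le_of_dvd (Nat.pos_of_ne_zero ?_) (Subgroup.index_dvd_of_le hk)).trans (le_of_eq ?_)
      · exact Subgroup.index_ne_zero_of_finite
      · have h := ((pCore 2 C).subgroupOf N').card_mul_index
        rw [Nat.card_congr (Subgroup.subgroupOfEquivOfLe hQN').toEquiv, D.card_q,
          Nat.card_congr (Subgroup.subgroupOfEquivOfLe hNH).toEquiv, hN3, hcardE] at h
        omega
    · obtain ⟨m, -, hm⟩ := hlift y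
      obtain ⟨n, hn, rfl⟩ := hl
      rw [← hm]
      exact ⟨m * n * m⁻¹, hNn.conj_mem n hn m, by rw [map_mul, map_mul, map_inv]⟩
  have hxne : rho x ≠ 1 := fun e => by
    have hxQ := D.mem_q e
    have := (pCore 2 C).orderOf_dvd_natCard hxQ
    rw [hxdef, Subgroup.orderOf_mk, hx3, D.card_q] at this
    norm_num at this
  obtain ⟨j, hj, hje⟩ := mem_scal (hscal x hxM hqx)
  have hsc : ∀ v, rho x v = (bif Nat.beq j 1 then w4 else w4 * w4) • v := by
    intro v
    rw [hje]
    interval_cases j
    · exact absurd (by rw [hje, pow_zero]) hxne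
    · rw [pow_one, omP_apply]; rfl
    · rw [pow_two, Equiv.Perm.mul_apply, omP_apply, omP_apply, smul_smul]; rfl
  obtain ⟨b, hb⟩ := hg
  refine ⟨⟨_, _, ext_conj D ⟨b, hb⟩, hKR, hgP, fun h => ?_, ?_, x, hx0P, hx3,
    twist b (bif Nat.beq j 1 then w4 else w4 * w4), ?_, fun v => ?_⟩⟩
  · exact semiU.mul_mem (semiU.mul_mem ⟨b, hb⟩ (hsemiU h)) (semiU.inv_mem ⟨b, hb⟩)
  · rw [MonoidHom.range_comp, Subgroup.card_map_of_injective (MulAut.conj g).injective, hcR,
      show (2661120 : ℕ) = 2 ^ 8 * 10395 by norm_num,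
      Nat.factorization_mul (by norm_num) (by norm_num), Finsupp.add_apply, Nat.factorization_pow,
      Finsupp.smul_apply, Nat.Prime.factorization_self Nat.prime_two,
      Nat.factorization_eq_zero_of_not_dvd (show ¬ 2 ∣ 10395 by norm_num)]
    norm_num
  · cases b <;> cases Nat.beq j 1 <;> exact ⟨by decide, by decide⟩
  · show g (rho x (g⁻¹ v)) = _
    rw [hsc, hb.2.1, apply_inv]

namespace Setup

variable (S : Setup z P)

/-- The model. -/
noncomputable def Mo : Model S.rho.range := model ⟨S.K22_le⟩ candJ candJ_ok gP rep_gP.1 S.gP_mem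

theorem Mo_P : S.Mo.P = candP gP := rfl
theorem Mo_A : S.Mo.A = aGrp := rfl
theorem Mo_U : S.Mo.U = uSet := rfl

/-- A Sylow subgroup of the centraliser. -/
noncomputable def T0 : Subgroup (Subgroup.centralizer ({z} : Set G)) := (candP gP).comap S.rho

theorem q_le_T0 : pCore 2 (Subgroup.centralizer ({z} : Set G)) ≤ S.T0 := fun q hq => by
  rw [T0, Subgroup.mem_comap, S.D.rho_q hq]
  exact one_mem _

theorem card_T0 : Nat.card S.T0 = 2 ^ 21 := by
  rw [S.D.card_split S.T0, inf_eq_right.2 S.q_le_T0, S.D.card_q, T0, Subgroup.map_comap_eq,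
    inf_eq_right.2 (show candP gP ≤ S.rho.range from S.Mo.P_le), card_candP candJ_ok rep_gP.1]
  norm_num

include S in
theorem fac_centralizer :
    (Nat.card (Subgroup.centralizer ({z} : Set G))).factorization 2 = 21 := by
  have h := S.D.card_split (⊤ : Subgroup (Subgroup.centralizer ({z} : Set G)))
  rw [Subgroup.card_top, top_inf_eq, S.D.card_q, ← MonoidHom.range_eq_map] at h
  rw [h, Nat.factorization_mul Nat.card_pos.ne' (by norm_num), Finsupp.add_apply, S.fac,
    show (8192 : ℕ) = 2 ^ 13 by norm_num, Nat.factorization_pow, Finsupp.smul_apply,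
    Nat.Prime.factorization_self Nat.prime_two]
  norm_num

/-- The Sylow subgroup of the centraliser is one of the group. -/
theorem exists_sylow (hJ : IsOfJankoFourTypeWith z P) :
    ∃ T : Sylow 2 G, (T : Subgroup G) = S.T0.map (Subgroup.centralizer ({z} : Set G)).subtype := by
  haveI : Fact (Nat.Prime 2) := ⟨Nat.prime_two⟩
  obtain ⟨hz, hEx, -, hself, -⟩ := hJ
  set C := Subgroup.centralizer ({z} : Set G) with hC
  set E := twoCoreOfCentralizer z with hE
  have hzE : z ∈ E := hself ⟨Subgroup.mem_centralizer_singleton_iff.2 rfl,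
    Subgroup.mem_centralizer_iff.2 fun e he =>
      Subgroup.mem_centralizer_singleton_iff.1 (Subgroup.map_subtype_le _ he)⟩
  have hcent : Subgroup.centralizer (E : Set G) ≤ E := fun g hg => hself
    ⟨Subgroup.mem_centralizer_singleton_iff.2 (Subgroup.mem_centralizer_iff.1 hg z hzE).symm, hg⟩
  obtain ⟨n, -, St⟩ := LargeExtra.exists_setting hz rfl hEx hcent
  have hp : IsPGroup 2 (S.T0.map C.subtype) := (IsPGroup.of_card S.card_T0).map _
  obtain ⟨T, hT⟩ := hp.exists_le_sylow
  have hET : E ≤ T := fun e he => by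
    obtain ⟨y, hy, rfl⟩ := he
    exact hT ⟨y, S.q_le_T0 hy, rfl⟩
  have hTC : (T : Subgroup G) ≤ C := by
    haveI : Nontrivial ↥(T : Subgroup G) :=
      ⟨⟨⟨z, hET hzE⟩, 1, fun e => St.ci.ne_one (congrArg Subtype.val e)⟩⟩
    haveI := T.2.center_nontrivial
    obtain ⟨c, hc⟩ := exists_ne (1 : Subgroup.center ↥(T : Subgroup G))
    have hcc := Subgroup.mem_center_iff.1 c.2
    have hm : ((c : ↥(T : Subgroup G)) : G) ∈ Subgroup.centralizer (E : Set G) := fun e he =>
      congrArg Subtype.val (hcc ⟨e, hET he⟩)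
    rcases St.ci.of_central _ (hcent hm) (fun e he => hm e he) with e | e
    · exact absurd (Subtype.ext (Subtype.ext e)) hc
    · intro x hx
      rw [Subgroup.mem_centralizer_singleton_iff, ← e]
      exact congrArg Subtype.val (hcc ⟨x, hx⟩)
  refine ⟨T, (Subgroup.eq_of_le_of_card_ge hT ?_).symm⟩
  rw [Subgroup.card_map_of_injective C.subtype_injective, S.card_T0,
    ← Nat.card_congr (Subgroup.subgroupOfEquivOfLe hTC).toEquiv]
  have h2 : IsPGroup 2 ((T : Subgroup G).subgroupOf C) :=
    T.2.comap_of_injective _ C.subtype_injective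
  obtain ⟨U, hU⟩ := h2.exists_le_sylow
  refine (Subgroup.card_le_of_le hU).trans (le_of_eq ?_)
  rw [Sylow.card_eq_multiplicity, S.fac_centralizer]

end Setup

end Cfsg.Agent.JFourType.Invol
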