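import Cfsg.Agent.SporRec.Transvection

/-!
A group acting on an elementary abelian 2-group with an orbit of length 155 which carries the lines of the
projective space of dimension four over the field with two elements is a subgroup of `SL(5, 2)`.

The points are the subgroups of order 16 whose non-identity elements lie in the orbit. Two points meet in
exactly one element of the orbit, their line, and on every line there are three points.
-/

set_option autoImplicit false

namespace Cfsg.Agent.JFourType.TenGeometry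

open scoped Classical

variable {N M : Type*} [Group N] [CommGroup M] [Finite M] {φ : N →* MulAut M} {O : Set M} {z : M}
  {S : Fin 3 → Subgroup M}

/-- The conditions at one element of the orbit. -/
structure Geo (φ : N →* MulAut M) (O : Set M) (z : M) (S : Fin 3 → Subgroup M) : Prop where
  sq : ∀ x : M, x * x = 1
  one : (1 : M) ∉ O
  card : O.ncard = 155
  inv : ∀ n, ∀ x ∈ O, φ n x ∈ O
  trans : ∀ x ∈ O, ∃ n, φ n z = x
  line : ∀ i, z ∈ S i ∧ Nat.card (S i) = 16 ∧ ∀ x ∈ S i, x ≠ 1 → x ∈ O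
  meet : ∀ i j, i ≠ j → ∀ x ∈ S i, x ∈ S j → x = 1 ∨ x = z
  only : ∀ T : Subgroup M, Nat.card T = 16 → z ∈ T → (∀ x ∈ T, x ≠ 1 → x ∈ O) → ∃ i, T = S i
  plane : ∀ i j, i ≠ j → ∀ x ∈ O, x ∈ S i ⊔ S j → ∃ k, x ∈ S k
  gen : Subgroup.closure O = ⊤

/-- The points. -/
abbrev Pt (O : Set M) : Type _ := {T : Subgroup M // Nat.card T = 16 ∧ ∀ x ∈ T, x ≠ 1 → x ∈ O}

/-- The points on a line. -/
def on (O : Set M) (w : M) : Set (Pt O) := {T | w ∈ T.1}

theorem mem_on {w : M} {T : Pt O} : T ∈ on O w ↔ w ∈ T.1 := Iff.rfl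

/-- The action on the points. -/
def act (hg : Geo φ O z S) (n : N) (T : Pt O) : Pt O :=
  ⟨T.1.map (φ n).toMonoidHom, by
    rw [Subgroup.card_map_of_injective (φ n).injective]
    refine ⟨T.2.1, ?_⟩
    rintro _ ⟨x, hx, rfl⟩ h1
    exact hg.inv n x (T.2.2 x hx fun e => h1 (by rw [e, map_one]))⟩

theorem mem_act (hg : Geo φ O z S) (n : N) {T : Pt O} {x : M} : φ n x ∈ (act hg n T).1 ↔ x ∈ T.1 :=
  Subgroup.mem_map_iff_mem (φ n).injective

theorem act_mul (hg : Geo φ O z S) (a b : N) (T : Pt O) : act hg (a * b) T = act hg a (act hg b T) := by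
  refine Subtype.ext ?_
  show T.1.map (φ (a * b)).toMonoidHom = (T.1.map (φ b).toMonoidHom).map (φ a).toMonoidHom
  rw [Subgroup.map_map, map_mul]
  rfl

theorem act_one (hg : Geo φ O z S) (T : Pt O) : act hg 1 T = T := by
  refine Subtype.ext ?_
  show T.1.map (φ 1).toMonoidHom = T.1
  rw [map_one]
  exact Subgroup.map_id _

theorem act_inj (hg : Geo φ O z S) (n : N) : Function.Injective (act hg n) :=
  Function.LeftInverse.injective (g := act hg n⁻¹) fun T => by rw [← act_mul, inv_mul_cancel, act_one]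

theorem z_ne (hg : Geo φ O z S) : z ≠ 1 := by
  intro e
  obtain ⟨x, hx⟩ := Set.nonempty_of_ncard_ne_zero (s := O) (by rw [hg.card]; norm_num)
  obtain ⟨n, hn⟩ := hg.trans x hx
  rw [e, map_one] at hn
  exact hg.one (hn ▸ hx)

/-- On every line there are exactly three points, and two of them share nothing else. -/
theorem on_spec (hg : Geo φ O z S) {w : M} (hw : w ∈ O) :
    (on O w).ncard = 3 ∧ ∀ T ∈ on O w, ∀ T' ∈ on O w, T ≠ T' → ∀ x ∈ T.1, x ∈ T'.1 → x = 1 ∨ x = w := by
  obtain ⟨n, rfl⟩ := hg.trans w hw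
  let f : Fin 3 → Pt O := fun i => ⟨S i, (hg.line i).2.1, (hg.line i).2.2⟩
  have hfi : Function.Injective f := by
    intro i j h
    by_contra hne
    have e : S i = S j := congrArg Subtype.val h
    have hs : (S i : Set M) ⊆ {1, z} := fun x hx => by
      rcases hg.meet i j hne x hx (e ▸ hx) with h' | h' <;> simp [h']
    have h2 := Set.ncard_le_ncard hs (Set.toFinite _)
    rw [show ((S i : Set M)).ncard = 16 by rw [← Nat.card_coe_set_eq]; exact (hg.line i).2.1] at h2
    have := Set.ncard_insert_le (1 : M) {z}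
    rw [Set.ncard_singleton] at this
    omega
  have hset : on O (φ n z) = Set.range fun i => act hg n (f i) := by
    ext T
    constructor
    · intro hT
      have hT' : z ∈ (act hg n⁻¹ T).1 := by
        rw [← mem_act hg n, ← act_mul, mul_inv_cancel, act_one]
        exact hT
      obtain ⟨i, hi⟩ := hg.only (act hg n⁻¹ T).1 (act hg n⁻¹ T).2.1 hT' (act hg n⁻¹ T).2.2
      refine ⟨i, ?_⟩
      show act hg n (f i) = T
      rw [show f i = act hg n⁻¹ T from Subtype.ext hi.symm, ← act_mul, mul_inv_cancel, act_one]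
    · rintro ⟨i, rfl⟩
      exact (mem_act hg n).2 (hg.line i).1
  refine ⟨?_, ?_⟩
  · rw [hset, Set.ncard_range_of_injective (fun i j h => hfi (act_inj hg n h)), Nat.card_fin]
  · rw [hset]
    rintro _ ⟨i, rfl⟩ _ ⟨j, rfl⟩ hne x hx hx'
    have hij : i ≠ j := fun e => hne (by rw [e])
    obtain ⟨y, hy, rfl⟩ := hx
    rcases hg.meet i j hij y hy ((Subgroup.mem_map_iff_mem (φ n).injective).1 hx') with h | h
    · left; rw [h]; exact map_one _
    · right; rw [h]; rfl

theorem card_points (hg : Geo φ O z S) : Nat.card (Pt O) = 31 := by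
  haveI := Fintype.ofFinite M
  haveI := Fintype.ofFinite (Pt O)
  have h := Finset.sum_card_bipartiteAbove_eq_sum_card_bipartiteBelow (fun (w : M) (T : Pt O) => w ∈ T.1)
    (s := O.toFinset) (t := (Finset.univ : Finset (Pt O)))
  have h1 : ∀ w ∈ O.toFinset,
      (Finset.bipartiteAbove (fun (w : M) (T : Pt O) => w ∈ T.1) Finset.univ w).card = 3 := by
    intro w hw
    rw [← (on_spec hg (Set.mem_toFinset.1 hw)).1, ← Set.ncard_coe_finset]
    congr 1
    ext T
    simp [Finset.bipartiteAbove, mem_on]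
  have h2 : ∀ T ∈ (Finset.univ : Finset (Pt O)),
      (Finset.bipartiteBelow (fun (w : M) (T : Pt O) => w ∈ T.1) O.toFinset T).card = 15 := by
    intro T _
    have hs : (↑(Finset.bipartiteBelow (fun (w : M) (T : Pt O) => w ∈ T.1) O.toFinset T) : Set M)
        = (T.1 : Set M) \ {1} := by
      ext x
      simp only [Finset.bipartiteBelow, Finset.coe_filter, Set.mem_toFinset, Set.mem_diff, SetLike.mem_coe,
        Set.mem_singleton_iff, Set.mem_ofPred_eq]
      exact ⟨fun ⟨hx, hxT⟩ => ⟨hxT, fun e => hg.one (e ▸ hx)⟩, fun ⟨hxT, hx⟩ => ⟨T.2.2 x hxT hx, hxT⟩⟩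
    rw [← Set.ncard_coe_finset, hs, Set.ncard_sdiff_singleton_of_mem T.1.one_mem, ← Nat.card_coe_set_eq]
    rw [show Nat.card (T.1 : Set M) = 16 from T.2.1]
  rw [Finset.sum_congr rfl h1, Finset.sum_congr rfl h2, Finset.sum_const, Finset.sum_const,
    ← Set.ncard_eq_toFinset_card', hg.card, Finset.card_univ, smul_eq_mul, smul_eq_mul] at h
  rw [Nat.card_eq_fintype_card]
  omega

/-- Two points span exactly one line. -/
theorem meet_unique (hg : Geo φ O z S) {T T' : Pt O} (hne : T ≠ T') {x y : M} (hx : x ∈ T.1) (hx' : x ∈ T'.1)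
    (hy : y ∈ T.1) (hy' : y ∈ T'.1) (hx1 : x ≠ 1) (hy1 : y ≠ 1) : x = y :=
  (((on_spec hg (T.2.2 x hx hx1)).2 T hx T' hx' hne y hy hy').resolve_left hy1).symm

/-- Any two points lie on a line. -/
theorem exists_meet (hg : Geo φ O z S) {T T' : Pt O} (hne : T ≠ T') :
    ∃ x ∈ O, x ∈ T.1 ∧ x ∈ T'.1 := by
  haveI := Fintype.ofFinite M
  haveI := Fintype.ofFinite (Pt O)
  let X : Finset M := (Finset.univ.filter fun x => x ∈ T.1).erase 1
  let F : M → Finset (Pt O) := fun x => (Finset.univ.filter fun U : Pt O => x ∈ U.1).erase T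
  have hXO : ∀ x ∈ X, x ∈ O ∧ x ∈ T.1 ∧ x ≠ 1 := fun x hx => by
    simp only [X, Finset.mem_erase, Finset.mem_filter] at hx
    exact ⟨T.2.2 x hx.2.2 hx.1, hx.2.2, hx.1⟩
  have hF : ∀ x ∈ X, (F x).card = 2 := fun x hx => by
    obtain ⟨hO, hT, -⟩ := hXO x hx
    have h3 : (Finset.univ.filter fun U : Pt O => x ∈ U.1).card = 3 := by
      rw [← (on_spec hg hO).1, ← Set.ncard_coe_finset]
      congr 1
      ext U
      simp [mem_on]
    simp only [F]
    rw [Finset.card_erase_of_mem (by simp [hT])]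
    convert congrArg (· - 1) h3 using 2
  have hX : X.card = 15 := by
    have h16 : (Finset.univ.filter fun x => x ∈ T.1).card = 16 := by
      rw [← Fintype.card_subtype, ← Nat.card_eq_fintype_card]
      exact T.2.1
    simp only [X]
    rw [Finset.card_erase_of_mem (by simp [T.1.one_mem])]
    convert congrArg (· - 1) h16 using 2
  have hdis : (X : Set M).PairwiseDisjoint F := by
    intro x hx y hy hxy
    refine Finset.disjoint_left.2 fun U hU hU' => hxy ?_
    obtain ⟨-, hxT, hx1⟩ := hXO x hx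
    obtain ⟨-, hyT, hy1⟩ := hXO y hy
    simp only [F, Finset.mem_erase, Finset.mem_filter] at hU hU'
    exact meet_unique hg (T := T) (T' := U) (Ne.symm hU.1) hxT hU.2.2 hyT hU'.2.2 hx1 hy1
  have hcard : (X.biUnion F).card = 30 := by
    rw [Finset.card_biUnion hdis, Finset.sum_congr rfl hF, Finset.sum_const, hX]
    rfl
  have hsub : X.biUnion F ⊆ (Finset.univ : Finset (Pt O)).erase T := fun U hU => by
    obtain ⟨x, -, hU⟩ := Finset.mem_biUnion.1 hU
    exact Finset.mem_erase.2 ⟨(Finset.mem_erase.1 hU).1, Finset.mem_univ _⟩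
  have heq : X.biUnion F = (Finset.univ : Finset (Pt O)).erase T := by
    refine Finset.eq_of_subset_of_card_le hsub ?_
    rw [hcard, Finset.card_erase_of_mem (Finset.mem_univ _), Finset.card_univ,
      ← Nat.card_eq_fintype_card, card_points hg]
  obtain ⟨x, hxX, hU⟩ := Finset.mem_biUnion.1
    (heq ▸ Finset.mem_erase.2 ⟨Ne.symm hne, Finset.mem_univ T'⟩ : T' ∈ X.biUnion F)
  obtain ⟨hO, hT, -⟩ := hXO x hxX
  exact ⟨x, hO, hT, (Finset.mem_filter.1 (Finset.mem_erase.1 hU).2).2⟩

/-- The plane axiom: a further point sees the three lines to the points of a line as a line. -/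
theorem plane_eq (hg : Geo φ O z S) {a q r s : Pt O} {v u₁ u₂ u₃ : M} (hv : v ∈ O) (hq : v ∈ q.1)
    (hr : v ∈ r.1) (hs : v ∈ s.1) (hqr : q ≠ r) (hqs : q ≠ s) (hrs : r ≠ s) (ha : v ∉ a.1)
    (h₁ : u₁ ∈ O) (h₁a : u₁ ∈ a.1) (h₁q : u₁ ∈ q.1) (h₂ : u₂ ∈ O) (h₂a : u₂ ∈ a.1) (h₂r : u₂ ∈ r.1)
    (h₃ : u₃ ∈ O) (h₃a : u₃ ∈ a.1) (h₃s : u₃ ∈ s.1) : u₁ * u₂ * u₃ = 1 := by
  have hsp := on_spec hg hv
  have hone : ∀ u ∈ O, u ≠ 1 := fun u hu e => hg.one (e ▸ hu)
  have hnv : ∀ u, u ∈ a.1 → u ≠ v := fun u hu e => ha (e ▸ hu)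
  have h12 : u₁ ≠ u₂ := fun e => by
    rcases hsp.2 q hq r hr hqr u₁ h₁q (e ▸ h₂r) with h | h
    · exact hone u₁ h₁ h
    · exact hnv u₁ h₁a h
  have hne : u₁ * u₂ ≠ 1 := fun e => h12 (mul_right_cancel (e.trans (hg.sq u₂).symm))
  have hO : u₁ * u₂ ∈ O := a.2.2 _ (a.1.mul_mem h₁a h₂a) hne
  obtain ⟨n, hn⟩ := hg.trans v hv
  have hpre : ∀ T : Pt O, v ∈ T.1 → ∃ i, (act hg n⁻¹ T).1 = S i := fun T hT => by
    refine hg.only _ (act hg n⁻¹ T).2.1 ?_ (act hg n⁻¹ T).2.2
    rw [← mem_act hg n, ← act_mul, mul_inv_cancel, act_one, hn]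
    exact hT
  obtain ⟨i, hi⟩ := hpre q hq
  obtain ⟨j, hj⟩ := hpre r hr
  have hij : i ≠ j := fun e => hqr (act_inj hg n⁻¹ (Subtype.ext (hi.trans ((congrArg S e).trans hj.symm))))
  have hprod : φ n⁻¹ (u₁ * u₂) ∈ S i ⊔ S j := by
    rw [map_mul]
    refine Subgroup.mul_mem_sup ?_ ?_
    · rw [← hi]; exact (mem_act hg n⁻¹).2 h₁q
    · rw [← hj]; exact (mem_act hg n⁻¹).2 h₂r
  obtain ⟨k, hk⟩ := hg.plane i j hij _ (hg.inv n⁻¹ _ hO) hprod
  let U : Pt O := act hg n ⟨S k, (hg.line k).2.1, (hg.line k).2.2⟩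
  have hUv : v ∈ U.1 := hn ▸ (mem_act hg n).2 (hg.line k).1
  have hUp : u₁ * u₂ ∈ U.1 := by
    have h := (mem_act hg n (T := ⟨S k, (hg.line k).2.1, (hg.line k).2.2⟩)).2 hk
    rwa [← MulAut.mul_apply, ← map_mul, mul_inv_cancel, map_one, MulAut.one_apply] at h
  have hUne : ∀ t : Pt O, v ∈ t.1 → ∀ u w, u ∈ O → u ∈ a.1 → u ∈ t.1 → w ∈ O → w ∈ a.1 →
      (∃ t' : Pt O, t' ≠ t ∧ v ∈ t'.1 ∧ w ∈ t'.1) → u * w ∈ U.1 → U ≠ t := by
    intro t ht u w hu hua hut hw hwa ht' huw e
    obtain ⟨t', htt, htv, hwt⟩ := ht'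
    have hwT : w ∈ t.1 := by
      have := t.1.mul_mem hut (e ▸ huw)
      rwa [← mul_assoc, hg.sq, one_mul] at this
    rcases hsp.2 t' htv t ht htt w hwt hwT with h | h
    · exact hone w hw h
    · exact hnv w hwa h
  have hUq : U ≠ q := hUne q hq u₁ u₂ h₁ h₁a h₁q h₂ h₂a ⟨r, Ne.symm hqr, hr, h₂r⟩ hUp
  have hUr : U ≠ r := hUne r hr u₂ u₁ h₂ h₂a h₂r h₁ h₁a ⟨q, hqr, hq, h₁q⟩ (mul_comm u₁ u₂ ▸ hUp)
  have hall : on O v = {q, r, s} := by
    refine (Set.eq_of_subset_of_ncard_le ?_ ?_ (Set.toFinite _)).symm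
    · rintro T (rfl | rfl | rfl) <;> assumption
    · rw [hsp.1, Set.ncard_insert_of_notMem (by simp [hqr, hqs]), Set.ncard_pair hrs]
  have hUs : U = s := by
    have := hall.le (show U ∈ on O v from hUv)
    simpa [hUq, hUr] using this
  have has : a ≠ s := fun e => ha (e ▸ hs)
  rw [meet_unique hg has (a.1.mul_mem h₁a h₂a) (hUs ▸ hUp) h₃a h₃s hne (hone _ h₃), hg.sq]

/-- The vectors: zero and the points. -/
abbrev Vt (O : Set M) := Option (Pt O)

/-- The third point of the line through two points. -/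
noncomputable def third (p q : Pt O) : Vt O :=
  if h : ∃ s : Pt O, s ≠ p ∧ s ≠ q ∧ ∃ x ∈ O, x ∈ p.1 ∧ x ∈ q.1 ∧ x ∈ s.1 then some h.choose else none

/-- Addition of vectors. -/
noncomputable def add : Vt O → Vt O → Vt O
  | none, q => q
  | some p, none => some p
  | some p, some q => if p = q then none else third p q

/-- The line through two points, one for equal points. -/
noncomputable def line (a q : Pt O) : M :=
  if h : a ≠ q ∧ ∃ x ∈ O, x ∈ a.1 ∧ x ∈ q.1 then h.2.choose else 1

/-- The coordinate of a vector at a point. -/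
noncomputable def coord (a : Pt O) : Vt O → M
  | none => 1
  | some q => line a q

theorem line_self (a : Pt O) : line a a = 1 := by
  rw [line, dif_neg]
  exact fun h => h.1 rfl

theorem line_spec (hg : Geo φ O z S) {a q : Pt O} (hne : a ≠ q) :
    line a q ∈ O ∧ line a q ∈ a.1 ∧ line a q ∈ q.1 := by
  rw [line, dif_pos ⟨hne, exists_meet hg hne⟩]
  exact (⟨hne, exists_meet hg hne⟩ : a ≠ q ∧ ∃ x ∈ O, x ∈ a.1 ∧ x ∈ q.1).2.choose_spec

theorem line_eq (hg : Geo φ O z S) {a q : Pt O} (hne : a ≠ q) {x : M} (hxO : x ∈ O) (hxa : x ∈ a.1)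
    (hxq : x ∈ q.1) : line a q = x := by
  obtain ⟨h1, h2, h3⟩ := line_spec hg hne
  exact meet_unique hg hne h2 h3 hxa hxq (fun e => hg.one (e ▸ h1)) (fun e => hg.one (e ▸ hxO))

theorem third_spec (hg : Geo φ O z S) {p q : Pt O} (hne : p ≠ q) :
    ∃ s, third p q = some s ∧ s ≠ p ∧ s ≠ q ∧ ∃ x ∈ O, x ∈ p.1 ∧ x ∈ q.1 ∧ x ∈ s.1 := by
  have h : ∃ s : Pt O, s ≠ p ∧ s ≠ q ∧ ∃ x ∈ O, x ∈ p.1 ∧ x ∈ q.1 ∧ x ∈ s.1 := by
    obtain ⟨x, hx, hp, hq⟩ := exists_meet hg hne
    obtain ⟨s, hs, hs'⟩ : ∃ s ∈ on O x, s ∉ ({p, q} : Set (Pt O)) :=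
      Set.exists_mem_notMem_of_ncard_lt_ncard (by rw [Set.ncard_pair hne, (on_spec hg hx).1]; norm_num)
        (Set.toFinite _)
    exact ⟨s, fun e => hs' (by simp [e]), fun e => hs' (by simp [e]), x, hx, hp, hq, hs⟩
  exact ⟨h.choose, by rw [third, dif_pos h], h.choose_spec⟩

/-- Coordinates are additive. -/
theorem coord_add (hg : Geo φ O z S) (a : Pt O) (u v : Vt O) : coord a (add u v) = coord a u * coord a v := by
  match u, v with
  | none, v => simp [add, coord]
  | some p, none => simp [add, coord]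
  | some p, some q =>
    by_cases hpq : p = q
    · subst hpq
      simp [add, coord, hg.sq]
    obtain ⟨s, hs, hsp, hsq, x, hx, hxp, hxq, hxs⟩ := third_spec hg hpq
    simp only [add, if_neg hpq, hs, coord]
    by_cases hax : x ∈ a.1
    · have key : ∀ t : Pt O, x ∈ t.1 → t ≠ a → line a t = x := fun t ht hne =>
        line_eq hg (Ne.symm hne) hx hax ht
      by_cases hap : p = a
      · subst hap
        rw [line_self, key s hxs hsp, key q hxq (Ne.symm hpq), one_mul]
      by_cases haq : q = a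
      · subst haq
        rw [line_self, key s hxs hsq, key p hxp hpq, mul_one]
      · rw [key p hxp hap, key q hxq haq, hg.sq]
        have hall : on O x = {p, q, s} := by
          refine (Set.eq_of_subset_of_ncard_le ?_ ?_ (Set.toFinite _)).symm
          · rintro T (rfl | rfl | rfl) <;> assumption
          · rw [(on_spec hg hx).1, Set.ncard_insert_of_notMem (by simp [hpq, Ne.symm hsp]),
              Set.ncard_pair (Ne.symm hsq)]
        have has : a = s := by
          have := hall.le (show a ∈ on O x from hax)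
          simpa [Ne.symm hap, Ne.symm haq] using this
        rw [has, line_self]
    · have hne : ∀ t : Pt O, x ∈ t.1 → a ≠ t := fun t ht e => hax (e ▸ ht)
      obtain ⟨a1, b1, c1⟩ := line_spec hg (hne p hxp)
      obtain ⟨a2, b2, c2⟩ := line_spec hg (hne q hxq)
      obtain ⟨a3, b3, c3⟩ := line_spec hg (hne s hxs)
      have h := plane_eq hg hx hxp hxq hxs hpq (Ne.symm hsp) (Ne.symm hsq) hax a1 b1 c1 a2 b2 c2 a3 b3 c3
      exact mul_left_cancel (h.trans (hg.sq _).symm)

/-- Coordinates separate the vectors. -/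
theorem coord_inj (hg : Geo φ O z S) {u v : Vt O} (h : ∀ a, coord a u = coord a v) : u = v := by
  have hbig : ∀ s : Set (Pt O), s.ncard ≤ 3 → ∃ a, a ∉ s := fun s hs => by
    by_contra hc
    push Not at hc
    rw [show s = Set.univ from Set.eq_univ_iff_forall.2 hc, Set.ncard_univ, card_points hg] at hs
    omega
  have hnone : ∀ q : Pt O, ∃ a, coord a (some q) ≠ 1 := fun q => by
    obtain ⟨a, ha⟩ := hbig {q} (by simp)
    exact ⟨a, fun e => hg.one (e ▸ (line_spec hg (a := a) (q := q) (by simpa using ha)).1)⟩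
  match u, v with
  | none, none => rfl
  | none, some q => obtain ⟨a, ha⟩ := hnone q; exact absurd (h a).symm ha
  | some p, none => obtain ⟨a, ha⟩ := hnone p; exact absurd (h a) ha
  | some p, some q =>
    by_contra hne
    have hpq : p ≠ q := fun e => hne (by rw [e])
    obtain ⟨x, hx, hxp, hxq⟩ := exists_meet hg hpq
    obtain ⟨a, ha⟩ := hbig (on O x) (by rw [(on_spec hg hx).1])
    obtain ⟨a1, b1, c1⟩ := line_spec hg (a := a) (q := p) (fun e => ha (e ▸ hxp))
    obtain ⟨-, -, c2⟩ := line_spec hg (a := a) (q := q) (fun e => ha (e ▸ hxq))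
    rw [← show line a p = line a q from h a] at c2
    exact ha (show x ∈ a.1 from meet_unique hg hpq c1 c2 hxp hxq (fun e => hg.one (e ▸ a1))
      (fun e => hg.one (e ▸ hx)) ▸ b1)

/-- The vectors form an elementary abelian group. -/
@[reducible] noncomputable def addGroup (hg : Geo φ O z S) : AddCommGroup (Vt O) where
  add := add
  zero := none
  neg := id
  add_assoc u v w := coord_inj hg fun a => by
    show coord a (add (add u v) w) = coord a (add u (add v w))
    simp only [coord_add hg, mul_assoc]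
  zero_add u := coord_inj hg fun a => by
    show coord a (add none u) = coord a u
    rw [coord_add hg]; simp [coord]
  add_zero u := coord_inj hg fun a => by
    show coord a (add u none) = coord a u
    rw [coord_add hg]; simp [coord]
  add_comm u v := coord_inj hg fun a => by
    show coord a (add u v) = coord a (add v u)
    rw [coord_add hg, coord_add hg, mul_comm]
  neg_add_cancel u := coord_inj hg fun a => by
    show coord a (add u u) = coord a none
    rw [coord_add hg, hg.sq]; rfl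
  nsmul := @nsmulRec _ ⟨none⟩ ⟨add⟩
  zsmul := @zsmulRec _ ⟨none⟩ ⟨add⟩ ⟨id⟩ (@nsmulRec _ ⟨none⟩ ⟨add⟩)

theorem act_add (hg : Geo φ O z S) (n : N) (u v : Vt O) :
    (add u v).map (act hg n) = add (u.map (act hg n)) (v.map (act hg n)) := by
  have hline : ∀ (a q : Pt O), line (act hg n a) (act hg n q) = φ n (line a q) := fun a q => by
    by_cases h : a = q
    · subst h
      rw [line_self, line_self, map_one]
    · obtain ⟨h1, h2, h3⟩ := line_spec hg h
      exact line_eq hg (fun e => h (act_inj hg n e)) (hg.inv n _ h1) ((mem_act hg n).2 h2) ((mem_act hg n).2 h3)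
  have hc : ∀ (a : Pt O) (w : Vt O), coord (act hg n a) (w.map (act hg n)) = φ n (coord a w) := by
    intro a w
    cases w with
    | none => exact (map_one _).symm
    | some q => exact hline a q
  refine coord_inj hg fun a => ?_
  obtain ⟨b, rfl⟩ : ∃ b, act hg n b = a :=
    ⟨act hg n⁻¹ a, by rw [← act_mul, mul_inv_cancel, act_one]⟩
  rw [hc, coord_add hg, coord_add hg, hc, hc, map_mul]

/-- **Recognition**: a faithful such group embeds in `SL(5, 2)`. -/
theorem exists_embedding (hg : Geo φ O z S) (hinj : Function.Injective φ) :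
    ∃ e : N →* Matrix.SpecialLinearGroup (Fin 5) (ZMod 2), Function.Injective e := by
  letI := addGroup hg
  have htwo : ∀ u : Vt O, 2 • u = 0 := fun u => by
    rw [two_nsmul]
    exact neg_add_cancel u
  letI : Module (ZMod 2) (Vt O) := AddCommGroup.zmodModule htwo
  haveI : Module.Finite (ZMod 2) (Vt O) := Module.Finite.of_finite
  have hdim : Module.finrank (ZMod 2) (Vt O) = 5 := by
    have h := Module.natCard_eq_pow_finrank (K := ZMod 2) (V := Vt O)
    rw [Finite.card_option, card_points hg, Nat.card_zmod] at h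
    exact (Nat.pow_right_injective (le_refl 2) (show (2 : ℕ) ^ 5 = 2 ^ _ from h)).symm
  let b : Module.Basis (Fin 5) (ZMod 2) (Vt O) := Module.finBasisOfFinrankEq _ _ hdim
  let T : N →* (Vt O →ₗ[ZMod 2] Vt O) :=
    { toFun := fun n => AddMonoidHom.toZModLinearMap 2 (AddMonoidHom.mk' (Option.map (act hg n)) (act_add hg n))
      map_one' := by
        refine LinearMap.ext fun u => ?_
        show u.map (act hg 1) = u
        cases u with
        | none => rfl
        | some q => exact congrArg some (act_one hg q)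
      map_mul' := fun m n => by
        refine LinearMap.ext fun u => ?_
        show u.map (act hg (m * n)) = (u.map (act hg n)).map (act hg m)
        cases u with
        | none => rfl
        | some q => exact congrArg some (act_mul hg m n q) }
  let R : N →* Matrix (Fin 5) (Fin 5) (ZMod 2) :=
    ((LinearMap.toMatrixAlgEquiv b).toMonoidHom).comp T
  have hdet : ∀ n, (R n).det = 1 := fun n => by
    have h : (R n).det * (R n⁻¹).det = 1 := by
      rw [← Matrix.det_mul, ← map_mul, mul_inv_cancel, map_one, Matrix.det_one]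
    revert h
    generalize (R n).det = x
    generalize (R n⁻¹).det = y
    revert x y
    decide
  refine ⟨{ toFun := fun n => ⟨R n, hdet n⟩, map_one' := Subtype.ext R.map_one,
            map_mul' := fun m n => Subtype.ext (R.map_mul m n) }, ?_⟩
  rw [injective_iff_map_eq_one]
  intro n hn
  have hR : R n = R 1 := (congrArg Subtype.val hn).trans R.map_one.symm
  have hT : T n = T 1 := (LinearMap.toMatrixAlgEquiv b).injective hR
  have hfix : ∀ q : Pt O, act hg n q = q := fun q => by
    have := DFunLike.congr_fun hT (some q)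
    exact (Option.some_injective _ this).trans (act_one hg q)
  refine hinj ?_
  rw [map_one]
  refine MulEquiv.ext fun x => ?_
  have hx : x ∈ Subgroup.closure O := hg.gen ▸ Subgroup.mem_top x
  induction hx using Subgroup.closure_induction with
  | mem y hy =>
    obtain ⟨p, hp, q, hq, hne⟩ := (Set.one_lt_ncard (Set.toFinite _)).1
      (show 1 < (on O y).ncard by rw [(on_spec hg hy).1]; norm_num)
    have h1 : φ n y ∈ p.1 := by
      have := (mem_act hg n).2 hp
      rwa [hfix p] at this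
    have h2 : φ n y ∈ q.1 := by
      have := (mem_act hg n).2 hq
      rwa [hfix q] at this
    have hy1 : y ≠ 1 := fun e => hg.one (e ▸ hy)
    rw [MulAut.one_apply, meet_unique hg hne h1 h2 hp hq (fun e => hy1 ((φ n).map_eq_one_iff.1 e)) hy1]
  | one => rw [map_one, map_one]
  | mul y w _ _ hy hw => rw [map_mul, map_mul, hy, hw]
  | inv y _ hy => rw [map_inv, map_inv, hy]

/-- **Recognition**, by the order. -/
theorem nonempty_iso [Finite N] (hg : Geo φ O z S) (hinj : Function.Injective φ)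
    (hcard : Nat.card N = 9999360) : Nonempty (N ≃* Matrix.SpecialLinearGroup (Fin 5) (ZMod 2)) := by
  obtain ⟨e, he⟩ := exists_embedding hg hinj
  exact ⟨MulEquiv.ofBijective e ((Nat.bijective_iff_injective_and_card _).2
    ⟨he, by rw [hcard, SporRec.tv_card_sl52]⟩)⟩

end Cfsg.Agent.JFourType.TenGeometry
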