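import Cfsg.Prelude.Def_JankoFourType
import Cfsg.Agent.Lib.Gaschutz
import Cfsg.Agent.JFourType.TenGeometry
import Cfsg.Agent.JFourType.InvolSetup

/-!
Self-centralizing elementary abelian subgroups of order `2^10` in a group of Janko-four type: from
the two orbits, the classification inside the centralizer of the central involution and the local
data at one such subgroup to the conjugacy, the splitting and the irreducibility.
-/

set_option autoImplicit false

namespace Cfsg.Agent.JFourType.TenMain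

open Cfsg

variable {G : Type*} [Group G]

/-- Self-centralizing elementary abelian of order `2^10`. -/
structure Ten (A : Subgroup G) : Prop where
  elem : IsElementaryAbelian 2 A
  card : Nat.card ↥A = 2 ^ 10
  self : Subgroup.centralizer (A : Set G) = A

/-- The orbit of an element under the normalizer of a subgroup. -/
def orbit (A : Subgroup G) (x : G) : Set G :=
  {v : G | ∃ n ∈ Subgroup.normalizer (A : Set G), n * x * n⁻¹ = v}

theorem self_mem_orbit (A : Subgroup G) (x : G) : x ∈ orbit A x := ⟨1, one_mem _, by simp⟩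

theorem orbit_sub {A : Subgroup G} {x : G} (hx : x ∈ A) : orbit A x ⊆ (A : Set G) := by
  rintro v ⟨n, hn, rfl⟩
  exact (Subgroup.mem_normalizer_iff.1 hn x).1 hx

theorem orbit_eq {A : Subgroup G} {x y : G} (h : y ∈ orbit A x) : orbit A y = orbit A x := by
  obtain ⟨n, hn, rfl⟩ := h
  ext v
  constructor
  · rintro ⟨m, hm, rfl⟩
    exact ⟨m * n, mul_mem hm hn, by group⟩
  · rintro ⟨m, hm, rfl⟩
    exact ⟨m * n⁻¹, mul_mem hm (inv_mem hn), by group⟩

theorem one_not_mem_orbit {A : Subgroup G} {x : G} (hx : x ≠ 1) : (1 : G) ∉ orbit A x := by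
  rintro ⟨n, -, e⟩
  rw [mul_inv_eq_one] at e
  exact hx (mul_eq_left.1 e)

/-- The orbit, as an orbit of a group action, has as length the index of the centralizer. -/
theorem orbit_ncard_mul [Finite G] (A : Subgroup G) (x : G) :
    (orbit A x).ncard * Nat.card ↥(Subgroup.normalizer (A : Set G) ⊓ Subgroup.centralizer ({x} : Set G)) =
      Nat.card ↥(Subgroup.normalizer (A : Set G)) := by
  classical
  let M := Subgroup.normalizer (A : Set G)
  let φ : ↥M →* ConjAct G := ConjAct.toConjAct.toMonoidHom.comp M.subtype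
  letI : MulAction ↥M G := MulAction.compHom G φ
  have hsm : ∀ (m : ↥M) (v : G), m • v = (m : G) * v * (m : G)⁻¹ := fun m v => by
    show ConjAct.toConjAct (m : G) • v = _
    rw [ConjAct.smul_def, ConjAct.ofConjAct_toConjAct]
  have ho : MulAction.orbit ↥M x = orbit A x := by
    ext v
    constructor
    · rintro ⟨m, rfl⟩
      exact ⟨m, m.2, (hsm m x).symm⟩
    · rintro ⟨n, hn, rfl⟩
      exact ⟨⟨n, hn⟩, hsm _ x⟩
  have hs : MulAction.stabilizer ↥M x = (Subgroup.centralizer ({x} : Set G)).subgroupOf M := by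
    ext m
    rw [MulAction.mem_stabilizer_iff, hsm, Subgroup.mem_subgroupOf,
      Subgroup.mem_centralizer_singleton_iff, mul_inv_eq_iff_eq_mul]
  have h := (MulAction.stabilizer ↥M x).index_mul_card
  rw [MulAction.index_stabilizer, ho, hs, ← Subgroup.inf_subgroupOf_left,
    Nat.card_congr (Subgroup.subgroupOfEquivOfLe (inf_le_left (a := M))).toEquiv] at h
  exact h

variable [Finite G]

/-- The two orbits exhaust the non-identity elements. -/
theorem orbit_cases {A : Subgroup G} (hA : Ten A) {a b : G} (ha : a ∈ A) (hb : b ∈ A)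
    (h1 : (orbit A a).ncard = 155) (h2 : (orbit A b).ncard = 868) {v : G} (hv : v ∈ A) (hv1 : v ≠ 1) :
    v ∈ orbit A a ∨ v ∈ orbit A b := by
  have hone : ∀ x, (1 : G) ∈ orbit A x → (orbit A x).ncard = 1 := fun x hx => by
    have hx1 : x = 1 := by
      by_contra h
      exact one_not_mem_orbit h hx
    rw [hx1, show orbit A (1 : G) = {1} from ?_, Set.ncard_singleton]
    ext v
    simp only [orbit, mul_one, mul_inv_cancel, Set.mem_setOf_eq, Set.mem_singleton_iff]
    exact ⟨fun ⟨n, _, e⟩ => e.symm, fun e => ⟨1, one_mem _, e.symm⟩⟩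
  have hdisj : Disjoint (orbit A a) (orbit A b) := Set.disjoint_left.2 fun v h h' => by
    have := (orbit_eq h).symm.trans (orbit_eq h')
    rw [this, h2] at h1
    omega
  have hcard : (orbit A a ∪ orbit A b).ncard = 1023 := by
    rw [Set.ncard_union_eq hdisj, h1, h2]
  have hsub : orbit A a ∪ orbit A b ⊆ (A : Set G) \ {1} := by
    rintro v (h | h)
    · exact ⟨orbit_sub ha h, fun e => by
        have := hone a (by simpa [Set.mem_singleton_iff.1 e] using h); omega⟩
    · exact ⟨orbit_sub hb h, fun e => by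
        have := hone b (by simpa [Set.mem_singleton_iff.1 e] using h); omega⟩
  have heq := Set.eq_of_subset_of_ncard_le hsub (by
    rw [hcard, Set.ncard_sdiff_singleton_of_mem A.one_mem,
      show (A : Set G).ncard = Nat.card ↥A from Nat.card_coe_set_eq _, hA.card]
    norm_num) (Set.toFinite _)
  exact (Set.ext_iff.1 heq v).2 ⟨hv, hv1⟩

/-- No proper non-trivial subgroup is invariant under the normalizer. -/
theorem irreducible {A : Subgroup G} (hA : Ten A) {a b : G} (ha : a ∈ A) (hb : b ∈ A)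
    (h1 : (orbit A a).ncard = 155) (h2 : (orbit A b).ncard = 868) (W : Subgroup G) (hW : W ≤ A)
    (hn : Subgroup.normalizer (A : Set G) ≤ Subgroup.normalizer (W : Set G)) : W = ⊥ ∨ W = A := by
  by_cases hbot : W = ⊥
  · exact Or.inl hbot
  refine Or.inr ?_
  have hinv : ∀ x ∈ W, orbit A x ⊆ (W : Set G) := by
    rintro x hx v ⟨n, hn', rfl⟩
    exact (Subgroup.mem_normalizer_iff.1 (hn hn') x).1 hx
  have hdvd : Nat.card ↥W ∣ 2 ^ 10 := hA.card ▸ Subgroup.card_dvd_of_le hW
  obtain ⟨k, hk, hk'⟩ := (Nat.dvd_prime_pow Nat.prime_two).1 hdvd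
  -- if `W` misses one of the two orbits, it is the other one with the identity
  have miss : ∀ x y : G, x ∈ A → y ∈ A → (∀ v ∈ A, v ≠ 1 → v ∈ orbit A x ∨ v ∈ orbit A y) →
      x ∈ W → (1 : G) ∉ orbit A x → (∀ v ∈ orbit A y, v ∉ W) →
      Nat.card ↥W = (orbit A x).ncard + 1 := by
    intro x y hx hy hcas hxW h1x hyW
    have : (W : Set G) = insert 1 (orbit A x) := by
      ext v
      constructor
      · intro hv
        by_cases hv1 : v = 1
        · exact Set.mem_insert_iff.2 (Or.inl hv1)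
        · rcases hcas v (hW hv) hv1 with h | h
          · exact Set.mem_insert_of_mem _ h
          · exact absurd hv (hyW v h)
      · rintro (rfl | hv)
        · exact W.one_mem
        · exact hinv x hxW hv
    rw [show Nat.card ↥W = (W : Set G).ncard from Nat.card_coe_set_eq _, this,
      Set.ncard_insert_of_notMem h1x (Set.toFinite _)]
  have hcases : ∀ v ∈ A, v ≠ 1 → v ∈ orbit A a ∨ v ∈ orbit A b := fun v =>
    orbit_cases hA ha hb h1 h2
  have hone : ∀ x, (orbit A x).ncard ≠ 1 → (1 : G) ∉ orbit A x := fun x hx h => by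
    refine hx ?_
    rw [← orbit_eq h, show orbit A (1 : G) = {1} from ?_, Set.ncard_singleton]
    ext v
    simp only [orbit, mul_one, mul_inv_cancel, Set.mem_setOf_eq, Set.mem_singleton_iff]
    exact ⟨fun ⟨n, _, e⟩ => e.symm, fun e => ⟨1, one_mem _, e.symm⟩⟩
  by_cases hfull : (∃ v ∈ orbit A a, v ∈ W) ∧ ∃ v ∈ orbit A b, v ∈ W
  · obtain ⟨⟨u, hu, huW⟩, v, hv, hvW⟩ := hfull
    refine le_antisymm hW fun w hw => ?_
    by_cases hw1 : w = 1
    · exact hw1 ▸ W.one_mem
    rcases hcases w hw hw1 with h | h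
    · exact hinv u huW (by rwa [orbit_eq hu])
    · exact hinv v hvW (by rwa [orbit_eq hv])
  obtain ⟨w, hw, hw1⟩ : ∃ w ∈ W, w ≠ 1 := (Subgroup.ne_bot_iff_exists_ne_one.1 hbot).elim
    fun w hw => ⟨w, w.2, fun e => hw (Subtype.ext e)⟩
  exfalso
  have hkk : k ≤ 10 := hk
  rcases hcases w (hW hw) hw1 with h | h
  · have := miss w b (hW hw) hb (fun v hv hv1 => by rw [orbit_eq h]; exact hcases v hv hv1) hw
      (hone w (by rw [orbit_eq h, h1]; norm_num)) (fun v hv hvW => hfull ⟨⟨w, h, hw⟩, v, hv, hvW⟩)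
    rw [orbit_eq h, h1, hk'] at this
    interval_cases k <;> norm_num at this
  · have := miss w a (hW hw) ha (fun v hv hv1 => by rw [orbit_eq h]; exact (hcases v hv hv1).symm) hw
      (hone w (by rw [orbit_eq h, h2]; norm_num)) (fun v hv hvW => hfull ⟨⟨v, hv, hvW⟩, w, h, hw⟩)
    rw [orbit_eq h, h2, hk'] at this
    interval_cases k <;> norm_num at this

variable {z : G} {P : Subgroup G}

/-- Every such subgroup has a conjugate containing the central involution. -/
theorem exists_conj_mem (hJ : IsOfJankoFourTypeWith z P) {A : Subgroup G} (hA : Ten A) :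
    ∃ g : G, z ∈ A.map (MulAut.conj g).toMonoidHom := by
  haveI : Fact (Nat.Prime 2) := ⟨Nat.prime_two⟩
  obtain ⟨S⟩ := Invol.exists_setup hJ
  obtain ⟨T, hT⟩ := S.exists_sylow hJ
  obtain ⟨T', hT'⟩ := (IsPGroup.of_card hA.card).exists_le_sylow
  obtain ⟨g, hg⟩ := MulAction.exists_smul_eq G T' T
  refine ⟨g, ?_⟩
  have hle : A.map (MulAut.conj g).toMonoidHom ≤ Subgroup.centralizer ({z} : Set G) := by
    rintro _ ⟨x, hx, rfl⟩
    have : (MulAut.conj g).toMonoidHom x ∈ (T : Subgroup G) := by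
      rw [← hg, Sylow.coe_subgroup_smul]
      exact Subgroup.smul_mem_pointwise_smul x (MulAut.conj g) _ (hT' hx)
    rw [hT] at this
    obtain ⟨y, -, e⟩ := this
    rw [← e]
    exact y.2
  have hz : g⁻¹ * z * g ∈ Subgroup.centralizer (A : Set G) := fun x hx => by
    have h := Subgroup.mem_centralizer_singleton_iff.1 (hle (Subgroup.mem_map_of_mem _ hx))
    simp only [MulEquiv.coe_toMonoidHom, MulAut.conj_apply] at h
    calc x * (g⁻¹ * z * g) = g⁻¹ * (g * x * g⁻¹ * z) * g := by group
      _ = g⁻¹ * (z * (g * x * g⁻¹)) * g := by rw [h]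
      _ = g⁻¹ * z * g * x := by group
  rw [hA.self] at hz
  exact ⟨_, hz, by simp [mul_assoc]⟩

theorem ten_map {A : Subgroup G} (hA : Ten A) (g : G) : Ten (A.map (MulAut.conj g).toMonoidHom) := by
  refine ⟨⟨⟨⟨fun x y => ?_⟩⟩, ?_⟩, ?_, ?_⟩
  · obtain ⟨_, a, ha, rfl⟩ := x
    obtain ⟨_, b, hb, rfl⟩ := y
    haveI := hA.elem.1
    refine Subtype.ext ?_
    have hab : a * b = b * a := congrArg Subtype.val (mul_comm' (⟨a, ha⟩ : A) ⟨b, hb⟩)
    show (MulAut.conj g).toMonoidHom a * (MulAut.conj g).toMonoidHom b = _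
    rw [← map_mul, hab]
    exact map_mul _ _ _
  · rintro _ ⟨a, ha, rfl⟩
    rw [← map_pow, hA.elem.2 a ha, map_one]
  · rw [Subgroup.card_map_of_injective (MulAut.conj g).injective, hA.card]
  · ext v
    rw [Subgroup.mem_map_equiv]
    constructor
    · intro hv
      rw [← hA.self]
      intro a ha
      have h := hv _ (Subgroup.mem_map_of_mem (MulAut.conj g).toMonoidHom ha)
      apply (MulAut.conj g).injective
      rw [map_mul, map_mul, MulEquiv.apply_symm_apply]
      exact h
    · rintro hv _ ⟨a, ha, rfl⟩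
      haveI := hA.elem.1
      have h := congrArg Subtype.val (mul_comm' (⟨a, ha⟩ : A) ⟨(MulAut.conj g).symm v, hv⟩)
      have h' := congrArg (MulAut.conj g) h
      simp only [Subgroup.coe_mul, map_mul, MulEquiv.apply_symm_apply] at h'
      exact h'

/-- Conjugacy, from the classification inside the centralizer. -/
theorem conjugate (hJ : IsOfJankoFourTypeWith z P)
    (hclass : ∀ A A' : Subgroup G, Ten A → Ten A' → z ∈ A → z ∈ A' →
      ∃ g : G, A' = A.map (MulAut.conj g).toMonoidHom)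
    {A A' : Subgroup G} (hA : Ten A) (hA' : Ten A') :
    ∃ g : G, A' = A.map (MulAut.conj g).toMonoidHom := by
  obtain ⟨g, hg⟩ := exists_conj_mem hJ hA
  obtain ⟨g', hg'⟩ := exists_conj_mem hJ hA'
  obtain ⟨k, hk⟩ := hclass _ _ (ten_map hA g) (ten_map hA' g') hg hg'
  refine ⟨g'⁻¹ * k * g, ?_⟩
  have := congrArg (Subgroup.map (MulAut.conj g'⁻¹).toMonoidHom) hk
  rw [Subgroup.map_map, Subgroup.map_map, Subgroup.map_map] at this
  have e1 : (MulAut.conj g'⁻¹).toMonoidHom.comp (MulAut.conj g').toMonoidHom = MonoidHom.id G := by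
    ext v; simp [mul_assoc]
  have e2 : ((MulAut.conj g'⁻¹).toMonoidHom.comp (MulAut.conj k).toMonoidHom).comp
      (MulAut.conj g).toMonoidHom = (MulAut.conj (g'⁻¹ * k * g)).toMonoidHom := by
    ext v; simp [mul_assoc]
  rw [e1, Subgroup.map_id] at this
  rw [← e2]
  exact this

/-- The orbit of an element, inside the subgroup. -/
def orbitIn (A : Subgroup G) (x : G) : Set ↥A := {v | (v : G) ∈ orbit A x}

/-- What is needed at one subgroup containing the central involution `z`: the order and a Sylow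
complement of the part of the normalizer inside the centralizer of `z`, and three subgroups of
order 16 at `z` with the properties of the stars of the three points of a line. -/
structure Local (z : G) (B : Subgroup G) : Prop where
  ten : Ten B
  mem : z ∈ B
  card : Nat.card ↥(Subgroup.normalizer (B : Set G) ⊓ Subgroup.centralizer ({z} : Set G)) = 66060288
  compl : ∃ C : Subgroup G, C ≤ Subgroup.normalizer (B : Set G) ∧ C ⊓ B = ⊥ ∧ Nat.card ↥C = 2 ^ 10
  geo : (orbit B z).ncard = 155 → ∃ T : Fin 3 → Subgroup G,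
    (∀ i, T i ≤ B ∧ z ∈ T i ∧ Nat.card (T i) = 16 ∧ ∀ x ∈ T i, x ≠ 1 → x ∈ orbit B z) ∧
    (∀ i j, i ≠ j → ∀ x ∈ T i, x ∈ T j → x = 1 ∨ x = z) ∧
    (∀ U : Subgroup G, U ≤ B → Nat.card U = 16 → z ∈ U → (∀ x ∈ U, x ≠ 1 → x ∈ orbit B z) →
      ∃ i, U = T i) ∧
    (∀ i j, i ≠ j → ∀ x ∈ orbit B z, x ∈ T i ⊔ T j → ∃ k, x ∈ T k)

/-- The orbit of the central involution generates, by irreducibility. -/
theorem closure_orbit {B : Subgroup G} (hL : Local z B) (hz1 : z ≠ 1) {a b : G}
    (ha : a ∈ B) (hb : b ∈ B) (h1 : (orbit B a).ncard = 155) (h2 : (orbit B b).ncard = 868) :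
    Subgroup.closure (orbitIn B z) = ⊤ := by
  have hn : Subgroup.normalizer (B : Set G) ≤
      Subgroup.normalizer ((Subgroup.closure (orbit B z) : Subgroup G) : Set G) := by
    intro n hn
    have key : ∀ n ∈ Subgroup.normalizer (B : Set G), ∀ x ∈ Subgroup.closure (orbit B z),
        n * x * n⁻¹ ∈ Subgroup.closure (orbit B z) := by
      intro n hn x hx
      induction hx using Subgroup.closure_induction with
      | mem y hy =>
        obtain ⟨m, hm, rfl⟩ := hy
        exact Subgroup.subset_closure ⟨n * m, mul_mem hn hm, by group⟩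
      | one => simp
      | mul y w _ _ hy hw => convert mul_mem hy hw using 1; group
      | inv y _ hy => convert inv_mem hy using 1; group
    refine Subgroup.mem_normalizer_iff.2 fun x => ⟨key n hn x, fun hx => ?_⟩
    have := key n⁻¹ (inv_mem hn) _ hx
    simpa [mul_assoc] using this
  rcases irreducible hL.ten ha hb h1 h2 _ ((Subgroup.closure_le B).2 (orbit_sub hL.mem)) hn with h | h
  · exfalso
    have := Subgroup.subset_closure (self_mem_orbit B z)
    rw [h] at this
    exact hz1 this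
  · apply Subgroup.map_injective (Subgroup.subtype_injective B)
    rw [MonoidHom.map_closure, ← MonoidHom.range_eq_map, Subgroup.range_subtype]
    refine Eq.trans (congrArg Subgroup.closure ?_) h
    ext v
    exact ⟨fun ⟨x, hx, e⟩ => e ▸ hx, fun hv => ⟨⟨v, orbit_sub hL.mem hv⟩, hv, rfl⟩⟩

/-- The orbit of the central involution has length 155, and the normalizer has order
`2^10 * 9999360`. -/
theorem card_normalizer (hJ : IsOfJankoFourTypeWith z P) {B : Subgroup G} (hL : Local z B) {a b : G}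
    (ha : a ∈ B) (hb : b ∈ B) (h1 : (orbit B a).ncard = 155) (h2 : (orbit B b).ncard = 868) :
    (orbit B z).ncard = 155 ∧ Nat.card ↥(Subgroup.normalizer (B : Set G)) = 2 ^ 10 * 9999360 := by
  haveI : Fact (Nat.Prime 2) := ⟨Nat.prime_two⟩
  have hz1 : z ≠ 1 := fun e => by
    have h := hJ.1
    rw [e, orderOf_one] at h
    omega
  have hm := orbit_ncard_mul B z
  rw [hL.card] at hm
  rcases orbit_cases hL.ten ha hb h1 h2 hL.mem hz1 with h | h
  · rw [orbit_eq h, h1] at hm
    exact ⟨by rw [orbit_eq h, h1], by rw [← hm]; norm_num⟩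
  · exfalso
    rw [orbit_eq h, h2] at hm
    obtain ⟨S⟩ := Invol.exists_setup hJ
    obtain ⟨T, hT⟩ := S.exists_sylow hJ
    have hdvd : 2 ^ 22 ∣ Nat.card G := by
      refine dvd_trans ?_ (Subgroup.card_subgroup_dvd_card (Subgroup.normalizer (B : Set G)))
      rw [← hm]
      norm_num
    have h22 : Nat.card (T : Subgroup G) = 2 ^ 21 := by
      rw [hT, Subgroup.card_map_of_injective (Subgroup.subtype_injective _), S.card_T0]
    rw [Sylow.card_eq_multiplicity] at h22
    have := (Nat.Prime.pow_dvd_iff_le_factorization Nat.prime_two Nat.card_pos.ne').1 hdvd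
    have := (Nat.pow_right_injective (le_refl 2) h22)
    omega

/-- The complement at the given subgroup. -/
theorem split_local (hJ : IsOfJankoFourTypeWith z P) {B : Subgroup G} (hL : Local z B) {a b : G}
    (ha : a ∈ B) (hb : b ∈ B) (h1 : (orbit B a).ncard = 155) (h2 : (orbit B b).ncard = 868) :
    ∃ K : Subgroup G, K ≤ Subgroup.normalizer (B : Set G) ∧ K ⊓ B = ⊥ ∧
      K ⊔ B = Subgroup.normalizer (B : Set G) ∧
      Nonempty (↥K ≃* Matrix.SpecialLinearGroup (Fin 5) (ZMod 2)) := by
  classical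
  obtain ⟨hO, hM⟩ := card_normalizer hJ hL ha hb h1 h2
  obtain ⟨C, hCM, hCB, hCc⟩ := hL.compl
  set M := Subgroup.normalizer (B : Set G) with hMdef
  have hBM : B ≤ M := Subgroup.le_normalizer
  haveI : (B.subgroupOf M).Normal := (Subgroup.normal_subgroupOf_iff_le_normalizer hBM).2 le_rfl
  haveI := hL.ten.elem.1
  haveI : IsMulCommutative ↥(B.subgroupOf M) := ⟨⟨fun x y => by
    have h := congrArg Subtype.val (mul_comm' (⟨((x : ↥M) : G), x.2⟩ : ↥B) ⟨((y : ↥M) : G), y.2⟩)
    exact Subtype.ext (Subtype.ext h)⟩⟩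
  have hKc : Nat.card ↥(B.subgroupOf M) = 2 ^ 10 := by
    rw [Nat.card_congr (Subgroup.subgroupOfEquivOfLe hBM).toEquiv, hL.ten.card]
  have hCc' : Nat.card ↥(C.subgroupOf M) = 2 ^ 10 := by
    rw [Nat.card_congr (Subgroup.subgroupOfEquivOfLe hCM).toEquiv, hCc]
  have hinf : C.subgroupOf M ⊓ B.subgroupOf M = ⊥ := by
    rw [eq_bot_iff]
    intro x hx
    have : (x : G) ∈ C ⊓ B := ⟨hx.1, hx.2⟩
    rw [hCB, Subgroup.mem_bot] at this
    exact Subtype.ext this
  set U := B.subgroupOf M ⊔ C.subgroupOf M with hU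
  have hcop : (Nat.card ↥(B.subgroupOf M)).Coprime U.index := by
    have hUc : Nat.card ↥U = 2 ^ 20 := by
      have h1' : Nat.card ↥U = Nat.card ↥(B.subgroupOf M) * Nat.card ↥(C.subgroupOf M) := by
        rw [← Nat.card_prod]
        refine (Nat.card_congr (Equiv.ofBijective (fun q : ↥(B.subgroupOf M) × ↥(C.subgroupOf M) =>
          (⟨(q.1 : ↥M) * q.2, mul_mem (Subgroup.mem_sup_left q.1.2) (Subgroup.mem_sup_right q.2.2)⟩ : ↥U))
          ⟨fun q r e => Subgroup.mul_injective_of_disjoint ((disjoint_iff.2 hinf).symm)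
            (congrArg Subtype.val e), fun u => ?_⟩)).symm
        obtain ⟨y, hy, k, hk, e⟩ := Subgroup.mem_sup_of_normal_left.1 u.2
        exact ⟨(⟨y, hy⟩, ⟨k, hk⟩), Subtype.ext e⟩
      rw [h1', hKc, hCc']
      norm_num
    have h := U.index_mul_card
    rw [hUc, hM] at h
    have hi : U.index = 9765 := by omega
    rw [hKc, hi]
    norm_num
  obtain ⟨H, hH⟩ := Gaschutz.exists_complement (B.subgroupOf M) U le_sup_left hcop _ hinf rfl
  refine ⟨H.map M.subtype, Subgroup.map_subtype_le H, ?_, ?_, ?_⟩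
  · rw [eq_bot_iff]
    rintro x ⟨⟨y, hy, rfl⟩, hx⟩
    have := Subgroup.disjoint_def.1 hH.disjoint (show y ∈ B.subgroupOf M from hx) hy
    rw [this]
    exact Subgroup.mem_bot.2 rfl
  · refine le_antisymm (sup_le (Subgroup.map_subtype_le H) hBM) fun x hx => ?_
    have htop : (⟨x, hx⟩ : ↥M) ∈ B.subgroupOf M ⊔ H := by
      rw [hH.sup_eq_top]; trivial
    rw [Subgroup.mem_sup_of_normal_left] at htop
    obtain ⟨y, hy, k, hk, e⟩ := htop
    rw [show x = (y : G) * (k : G) from (congrArg Subtype.val e).symm]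
    exact mul_mem (Subgroup.mem_sup_right hy)
      (Subgroup.mem_sup_left ⟨k, hk, rfl⟩)
  · have hHc : Nat.card ↥H = 9999360 := by
      have := hH.card_mul
      rw [hKc, hM] at this
      omega
    let e0 : ↥H ≃* ↥(H.map M.subtype) :=
      H.equivMapOfInjective _ M.subtype_injective
    open scoped IsMulCommutative in
    let φ : ↥M →* MulAut ↥B :=
      { toFun := fun m =>
          { toFun := fun x => ⟨(m : G) * x * (m : G)⁻¹, (Subgroup.mem_normalizer_iff.1 m.2 x).1 x.2⟩
            invFun := fun x => ⟨(m : G)⁻¹ * x * (m : G),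
              (Subgroup.mem_normalizer_iff.1 m.2 _).2 (by simpa [mul_assoc] using x.2)⟩
            left_inv := fun x => Subtype.ext (by simp [mul_assoc])
            right_inv := fun x => Subtype.ext (by simp [mul_assoc])
            map_mul' := fun x y => Subtype.ext (by simp [mul_assoc]) }
        map_one' := by ext x; simp
        map_mul' := fun m n => by ext x; simp [mul_assoc] }
    have hφ : ∀ (m : ↥M) (x : ↥B), ((φ m x : ↥B) : G) = (m : G) * x * (m : G)⁻¹ := fun _ _ => rfl
    have hsplit : ∀ m : ↥M, ∃ y ∈ B.subgroupOf M, ∃ k ∈ H, y * k = m := fun m => by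
      have htop : m ∈ B.subgroupOf M ⊔ H := by rw [hH.sup_eq_top]; trivial
      rwa [Subgroup.mem_sup_of_normal_left] at htop
    obtain ⟨T, hT, hTmeet, hTonly, hTplane⟩ := hL.geo hO
    have hz1 : z ≠ 1 := fun e => by
      have h := hJ.1
      rw [e, orderOf_one] at h
      omega
    let S : Fin 3 → Subgroup ↥B := fun i => (T i).subgroupOf B
    have hline : ∀ i, (⟨z, hL.mem⟩ : ↥B) ∈ S i ∧ Nat.card (S i) = 16 ∧
        ∀ x ∈ S i, x ≠ 1 → x ∈ orbitIn B z := fun i => by
      obtain ⟨hle, hzi, hci, hmem⟩ := hT i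
      exact ⟨hzi, (Nat.card_congr (Subgroup.subgroupOfEquivOfLe hle).toEquiv).trans hci,
        fun x hx hx1 => hmem x hx fun e => hx1 (Subtype.ext e)⟩
    have hmeet : ∀ i j, i ≠ j → ∀ x ∈ S i, x ∈ S j → x = 1 ∨ x = ⟨z, hL.mem⟩ :=
      fun i j hij x hx hx' => (hTmeet i j hij x hx hx').imp (fun e => Subtype.ext e)
        (fun e => Subtype.ext e)
    have honly : ∀ U : Subgroup ↥B, Nat.card U = 16 → (⟨z, hL.mem⟩ : ↥B) ∈ U →
        (∀ x ∈ U, x ≠ 1 → x ∈ orbitIn B z) → ∃ i, U = S i := fun U hUc hzU hUo => by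
      obtain ⟨i, hi⟩ := hTonly (U.map B.subtype) (Subgroup.map_subtype_le U)
        (by rw [Subgroup.card_map_of_injective B.subtype_injective, hUc]) ⟨_, hzU, rfl⟩
        (by
          rintro _ ⟨x, hx, rfl⟩ hx1
          exact hUo x hx fun e => hx1 (by rw [e, map_one]))
      refine ⟨i, ?_⟩
      apply Subgroup.map_injective B.subtype_injective
      rw [hi]
      exact (Subgroup.map_subgroupOf_eq_of_le (hT i).1).symm
    have hplane : ∀ i j, i ≠ j → ∀ x ∈ orbitIn B z, x ∈ S i ⊔ S j → ∃ k, x ∈ S k :=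
      fun i j hij x hx hx' => hTplane i j hij x hx
        ((sup_le (fun y hy => Subgroup.mem_sup_left hy) (fun y hy => Subgroup.mem_sup_right hy) :
          S i ⊔ S j ≤ (T i ⊔ T j).subgroupOf B) hx')
    have hgen := closure_orbit hL hz1 ha hb h1 h2
    have hgeo : TenGeometry.Geo (φ.comp H.subtype) (orbitIn B z) (⟨z, hL.mem⟩ : ↥B) S := by
      refine ⟨fun x => Subtype.ext ?_, ?_, ?_, ?_, ?_, hline, hmeet, honly, hplane, hgen⟩
      · simpa [pow_two] using hL.ten.elem.2 x x.2
      · refine one_not_mem_orbit (fun e => ?_)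
        have h := hJ.1
        rw [e, orderOf_one] at h
        omega
      · rw [← hO, ← Set.ncard_image_of_injective (orbitIn B z) (Subgroup.subtype_injective B)]
        congr 1
        ext v
        exact ⟨fun ⟨x, hx, e⟩ => e ▸ hx, fun hv => ⟨⟨v, orbit_sub hL.mem hv⟩, hv, rfl⟩⟩
      · intro k x hx
        obtain ⟨n, hn, e⟩ := hx
        exact ⟨((k : ↥M) : G) * n, mul_mem (k : ↥M).2 hn, by
          rw [MonoidHom.comp_apply, hφ, ← e]; simp [mul_assoc]⟩
      · rintro x ⟨n, hn, e⟩
        obtain ⟨y, hy, k, hk, e'⟩ := hsplit ⟨n, hn⟩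
        refine ⟨⟨k, hk⟩, Subtype.ext ?_⟩
        rw [MonoidHom.comp_apply, hφ, ← e]
        have e'' : n = (y : G) * (k : G) := (congrArg Subtype.val e').symm
        have hc := congrArg Subtype.val (mul_comm' (⟨(y : G), hy⟩ : ↥B)
          ⟨(k : G) * z * (k : G)⁻¹, (Subgroup.mem_normalizer_iff.1 k.2 z).1 hL.mem⟩)
        calc (k : G) * z * (k : G)⁻¹ = (y : G) * ((k : G) * z * (k : G)⁻¹) * (y : G)⁻¹ := by
              rw [show (y : G) * ((k : G) * z * (k : G)⁻¹) = (k : G) * z * (k : G)⁻¹ * (y : G) from hc,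
                mul_inv_cancel_right]
          _ = n * z * n⁻¹ := by rw [e'']; group
    have hinj : Function.Injective (φ.comp H.subtype) := by
      rw [injective_iff_map_eq_one]
      intro k hk
      have hkB : ((k : ↥M) : G) ∈ B := by
        rw [← hL.ten.self]
        intro x hx
        have := congrArg Subtype.val (DFunLike.congr_fun hk (⟨x, hx⟩ : ↥B))
        rw [MonoidHom.comp_apply, hφ] at this
        exact (mul_inv_eq_iff_eq_mul.1 this).symm
      exact Subtype.ext (Subgroup.disjoint_def.1 hH.disjoint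
        (show (k : ↥M) ∈ B.subgroupOf M from hkB) k.2)
    obtain ⟨e⟩ := TenGeometry.nonempty_iso hgeo hinj hHc
    exact ⟨e0.symm.trans e⟩

/-- The statement, from the classification, the orbits and the data at one subgroup. -/
theorem main (hJ : IsOfJankoFourTypeWith z P)
    (horb : ∀ A : Subgroup G, Ten A → ∃ a b : G, a ∈ A ∧ b ∈ A ∧
      (orbit A a).ncard = 155 ∧ (orbit A b).ncard = 868)
    (hclass : ∀ A A' : Subgroup G, Ten A → Ten A' → z ∈ A → z ∈ A' →
      ∃ g : G, A' = A.map (MulAut.conj g).toMonoidHom)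
    {B : Subgroup G} (hL : Local z B) :
    (∃ A : Subgroup G, Cfsg.IsElementaryAbelian 2 A ∧ Nat.card ↥A = 2 ^ 10 ∧
      Subgroup.centralizer (A : Set G) = A) ∧
    (∀ A A' : Subgroup G, Cfsg.IsElementaryAbelian 2 A → Nat.card ↥A = 2 ^ 10 →
      Subgroup.centralizer (A : Set G) = A → Cfsg.IsElementaryAbelian 2 A' → Nat.card ↥A' = 2 ^ 10 →
      Subgroup.centralizer (A' : Set G) = A' → ∃ g : G, A' = A.map (MulAut.conj g).toMonoidHom) ∧
    ∀ A : Subgroup G, Cfsg.IsElementaryAbelian 2 A → Nat.card ↥A = 2 ^ 10 →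
      Subgroup.centralizer (A : Set G) = A →
      (∃ B : Subgroup G, B ≤ Subgroup.normalizer (A : Set G) ∧ B ⊓ A = ⊥ ∧
        B ⊔ A = Subgroup.normalizer (A : Set G) ∧
        Nonempty (↥B ≃* Matrix.SpecialLinearGroup (Fin 5) (ZMod 2))) ∧
      ∀ W : Subgroup G, W ≤ A → Subgroup.normalizer (A : Set G) ≤ Subgroup.normalizer (W : Set G) →
        W = ⊥ ∨ W = A := by
  refine ⟨⟨B, hL.ten.elem, hL.ten.card, hL.ten.self⟩,
    fun A A' e c s e' c' s' => conjugate hJ hclass ⟨e, c, s⟩ ⟨e', c', s'⟩, fun A e c s => ⟨?_, ?_⟩⟩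
  · obtain ⟨a, b, ha, hb, h1, h2⟩ := horb B hL.ten
    obtain ⟨K, hKM, hKB, hKsup, ⟨iso⟩⟩ := split_local hJ hL ha hb h1 h2
    obtain ⟨g, rfl⟩ := conjugate hJ hclass hL.ten ⟨e, c, s⟩
    have hn : Subgroup.normalizer ((B.map (MulAut.conj g).toMonoidHom : Subgroup G) : Set G) =
        (Subgroup.normalizer (B : Set G)).map (MulAut.conj g).toMonoidHom :=
      (Subgroup.map_normalizer_eq_of_bijective B (f := (MulAut.conj g).toMonoidHom)
        (MulAut.conj g).bijective).symm
    refine ⟨K.map (MulAut.conj g).toMonoidHom, ?_, ?_, ?_, ?_⟩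
    · rw [hn]; exact Subgroup.map_mono hKM
    · rw [← Subgroup.map_inf _ _ _ (MulAut.conj g).injective, hKB, Subgroup.map_bot]
    · rw [hn, ← Subgroup.map_sup, hKsup]
    · exact ⟨(K.equivMapOfInjective _ (MulAut.conj g).injective).symm.trans iso⟩
  · obtain ⟨a, b, ha, hb, h1, h2⟩ := horb A ⟨e, c, s⟩
    exact irreducible ⟨e, c, s⟩ ha hb h1 h2

end Cfsg.Agent.JFourType.TenMain
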