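import Cfsg.Agent.JFourType.TenLocal
import Cfsg.Agent.JFourType.TenMain

/-!
The normalizer of the elementary abelian subgroup of order `2^10`: the parts of an invariant set on the
preimage of the singular subspace and above the seven involutions, orbits, and the core of a centralizer
of a conjugate.
-/

set_option autoImplicit false
set_option maxRecDepth 100000
set_option maxHeartbeats 1000000

namespace Cfsg.Agent.JFourType.Decad

open Cfsg
open Cfsg.Agent.GFour25 Cfsg.Agent.CosetCert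
open Cfsg.Agent.SporB.FischerU (Vec vecN enc vecN_enc enc_lt)
open Cfsg.Agent.LargeFischer (IsSemi semiU)
open Cfsg.Agent.LargeFischer.Thompson
open Cfsg.Agent.TTClass
open Ten TenData

/-- The centralizer of an element. -/
local notation "Cz[" z "]" => Subgroup.centralizer (({z} : Set _))

set_option quotPrecheck false
/-- The involution in its centralizer. -/
local notation "zC[" z "]" => (⟨z, Subgroup.mem_centralizer_singleton_iff.2 rfl⟩ : Subgroup.centralizer (({z} : Set _)))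

section Generic

variable {G : Type*} [Group G]

/-- The orbit of an element under conjugation by a subgroup. -/
def conjSet (M : Subgroup G) (x : G) : Set G := {v : G | ∃ n ∈ M, n * x * n⁻¹ = v}

theorem conjSet_ncard_mul (M : Subgroup G) (x : G) :
    (conjSet M x).ncard * Nat.card ↥(M ⊓ Subgroup.centralizer ({x} : Set G)) = Nat.card ↥M := by
  classical
  let φ : ↥M →* ConjAct G := ConjAct.toConjAct.toMonoidHom.comp M.subtype
  letI : MulAction ↥M G := MulAction.compHom G φ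
  have hsm : ∀ (m : ↥M) (v : G), m • v = (m : G) * v * (m : G)⁻¹ := fun m v => by
    show ConjAct.toConjAct (m : G) • v = _
    rw [ConjAct.smul_def, ConjAct.ofConjAct_toConjAct]
  have ho : MulAction.orbit ↥M x = conjSet M x := by
    ext v
    constructor
    · rintro ⟨m, rfl⟩
      exact ⟨m, m.2, (hsm m x).symm⟩
    · rintro ⟨n, hn, rfl⟩
      exact ⟨⟨n, hn⟩, hsm _ x⟩
  have hs : MulAction.stabilizer ↥M x = (Subgroup.centralizer ({x} : Set G)).subgroupOf M := by
    ext m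
    rw [MulAction.mem_stabilizer_iff, hsm, Subgroup.mem_subgroupOf,
      Subgroup.mem_centralizer_singleton_iff, mul_inv_eq_iff_eq_mul]
  have h := (MulAction.stabilizer ↥M x).index_mul_card
  rw [MulAction.index_stabilizer, ho, hs, ← Subgroup.inf_subgroupOf_left,
    Nat.card_congr (Subgroup.subgroupOfEquivOfLe (inf_le_left (a := M))).toEquiv] at h
  exact h

/-- The largest normal 2-subgroup of a centralizer follows conjugation. -/
theorem core_conj {z x : G} (g : G) (hx : x ∈ twoCoreOfCentralizer z) :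
    g * x * g⁻¹ ∈ twoCoreOfCentralizer (g * z * g⁻¹) := by
  obtain ⟨y, hy, rfl⟩ := hx
  have hmem : ∀ c : Subgroup.centralizer ({z} : Set G),
      g * (c : G) * g⁻¹ ∈ Subgroup.centralizer ({g * z * g⁻¹} : Set G) := fun c => by
    rw [Subgroup.mem_centralizer_singleton_iff]
    have h := Subgroup.mem_centralizer_singleton_iff.1 c.2
    calc g * (c : G) * g⁻¹ * (g * z * g⁻¹) = g * ((c : G) * z) * g⁻¹ := by group
      _ = g * (z * c) * g⁻¹ := by rw [h]
      _ = g * z * g⁻¹ * (g * (c : G) * g⁻¹) := by group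
  let e : Subgroup.centralizer ({z} : Set G) →* Subgroup.centralizer ({g * z * g⁻¹} : Set G) :=
    { toFun := fun c => ⟨g * (c : G) * g⁻¹, hmem c⟩
      map_one' := Subtype.ext (by simp)
      map_mul' := fun a b => Subtype.ext (by
        show g * ((a : G) * b) * g⁻¹ = g * (a : G) * g⁻¹ * (g * (b : G) * g⁻¹)
        group) }
  have he : Function.Surjective e := fun d => by
    have h := Subgroup.mem_centralizer_singleton_iff.1 d.2
    refine ⟨⟨g⁻¹ * (d : G) * g, Subgroup.mem_centralizer_singleton_iff.2 ?_⟩, Subtype.ext ?_⟩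
    · calc g⁻¹ * (d : G) * g * z = g⁻¹ * ((d : G) * (g * z * g⁻¹)) * g := by group
        _ = g⁻¹ * (g * z * g⁻¹ * d) * g := by rw [h]
        _ = z * (g⁻¹ * (d : G) * g) := by group
    · show g * (g⁻¹ * (d : G) * g) * g⁻¹ = d
      group
  have hle : pCore 2 (Subgroup.centralizer ({z} : Set G)) ≤
      (pCore 2 (Subgroup.centralizer ({g * z * g⁻¹} : Set G))).comap e := by
    refine sSup_le ?_
    rintro N ⟨hN, hp⟩
    exact Subgroup.map_le_iff_le_comap.1 (le_sSup ⟨hN.map e he, hp.map e⟩)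
  exact ⟨e y, hle hy, rfl⟩

end Generic

variable {G : Type*} [Group G] [Finite G] {z : G} {P : Subgroup G}
variable (hJ : IsOfJankoFourTypeWith z P) (S : Invol.Setup z P)

/-- A set of non-trivial elements of the subgroup, invariant under its normalizer in the centralizer. -/
structure InvSet (X : Set Cz[z]) : Prop where
  sub : ∀ x ∈ X, x ∈ baseH S
  one : (1 : Cz[z]) ∉ X
  conj : ∀ h ∈ stabH S, ∀ x ∈ X, h * x * h⁻¹ ∈ X

theorem tree_trans {l : List ℕ} {par : List (ℕ × ℕ)} (ht : treeUnder l par = true)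
    (hl : ∀ u ∈ l, u ∈ wCodes ∧ u ≠ 0) {i : ℕ} (hi : i < l.length) :
    ∃ g ∈ stabH S, S.rho g (vecN (l.getD 0 0)) = vecN (l.getD i 0) := by
  induction i using Nat.strongRecOn with
  | ind i ih =>
    have h := List.all_eq_true.1 ht i (List.mem_range.2 hi)
    simp only [Bool.or_eq_true, Bool.and_eq_true, Nat.blt_eq] at h
    rcases h with h | ⟨⟨hp, hk⟩, he⟩
    · refine ⟨1, one_mem _, ?_⟩
      rw [Nat.eq_of_beq_eq_true h, map_one, Equiv.Perm.one_apply]
    · obtain ⟨g, hg, hgr⟩ := exists_sg S _ hk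
      have hpl : (par.getD i (0, 0)).1 < l.length := by omega
      obtain ⟨g0, hg0, hge⟩ := ih _ hp hpl
      refine ⟨g * g0, mul_mem hg hg0, enc_injective ?_⟩
      rw [map_mul, Equiv.Perm.mul_apply, hge, hgr, enc_vecN (w_facts.1 _ (hl _ (getD_mem 0 hpl)).1).1,
        enc_vecN (w_facts.1 _ (hl _ (getD_mem 0 hi)).1).1, Nat.eq_of_beq_eq_true he]

/-- The stabiliser is transitive above each of the two lists. -/
theorem above_trans {l : List ℕ} {par : List (ℕ × ℕ)} (ht : treeUnder l par = true)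
    (hl : ∀ u ∈ l, u ∈ wCodes ∧ u ≠ 0) {p q : Cz[z]} (hp : p ∈ above S l) (hq : q ∈ above S l) :
    ∃ h ∈ stabH S, h * p * h⁻¹ = q := by
  obtain ⟨hp, hpl⟩ := hp
  obtain ⟨hq, hql⟩ := hq
  obtain ⟨i, hi, hie⟩ := exists_getD 0 hpl
  obtain ⟨j, hj, hje⟩ := exists_getD 0 hql
  obtain ⟨gi, hgi, hgie⟩ := tree_trans S ht hl hi
  obtain ⟨gj, hgj, hgje⟩ := tree_trans S ht hl hj
  rw [hie, vecN_enc] at hgie
  rw [hje, vecN_enc] at hgje
  set h0 := gj * gi⁻¹ with hh0
  have hh0S : h0 ∈ stabH S := mul_mem hgj (inv_mem hgi)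
  have hpsi : S.psi ⟨h0 * p * h0⁻¹, (inferInstance : (pCore 2 Cz[z]).Normal).conj_mem _ hp h0⟩ =
      S.psi ⟨q, hq⟩ := by
    rw [conj_psi S h0 ⟨p, hp⟩, hh0, map_mul, map_inv, Equiv.Perm.mul_apply, ← hgje, ← hgie]
    exact congrArg (S.rho gj) ((S.rho gi).symm_apply_apply _)
  rcases S.D.eq_of_psi hpsi with e | e
  · exact ⟨h0, hh0S, e⟩
  · obtain ⟨f, hf⟩ := exists_move S (y := ⟨q, hq⟩) ⟨hq, (hl _ hql).1⟩ fun e0 => (hl _ hql).2 (by
      rw [e0, enc_zero'])
    refine ⟨(f : Cz[z]) * h0, mul_mem (q_le_stabH S f.2) hh0S, ?_⟩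
    replace e : h0 * p * h0⁻¹ = q * zC[z] := e
    replace hf : (f : Cz[z]) * q * (f : Cz[z])⁻¹ = q * zC[z] := hf
    calc (f : Cz[z]) * h0 * p * ((f : Cz[z]) * h0)⁻¹ = (f : Cz[z]) * (h0 * p * h0⁻¹) * (f : Cz[z])⁻¹ := by group
      _ = (f : Cz[z]) * q * (f : Cz[z])⁻¹ * ((f : Cz[z]) * zC[z] * (f : Cz[z])⁻¹) := by rw [e]; group
      _ = q * zC[z] * zC[z] := by rw [hf, S.D.z_central (f : Cz[z]), mul_inv_cancel_right]
      _ = q := by rw [mul_assoc, S.D.z_sq, mul_one]

theorem above_inter {X : Set Cz[z]} (hX : InvSet S X) {l : List ℕ} {par : List (ℕ × ℕ)}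
    (ht : treeUnder l par = true) (hl : ∀ u ∈ l, u ∈ wCodes ∧ u ≠ 0) :
    X ∩ above S l = ∅ ∨ above S l ⊆ X := by
  by_cases h : ∃ p ∈ above S l, p ∈ X
  · obtain ⟨p, hp, hpX⟩ := h
    refine Or.inr fun q hq => ?_
    obtain ⟨g, hg, rfl⟩ := above_trans S ht hl hp hq
    exact hX.conj g hg p hpX
  · exact Or.inl (Set.eq_empty_iff_forall_notMem.2 fun p hp => h ⟨p, hp.2, hp.1⟩)

/-- The members of a set above one involution. -/
noncomputable def part (X : Set Cz[z]) (σ : Equiv.Perm Vec) : Set Cz[z] := {x | x ∈ X ∧ S.rho x = σ}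

theorem part_conj {X : Set Cz[z]} (hX : InvSet S X) {σ : Equiv.Perm Vec} {g : Cz[z]} (hg : g ∈ stabH S) :
    (part S X σ).ncard = (part S X (S.rho g * σ * (S.rho g)⁻¹)).ncard := by
  rw [← Set.ncard_image_of_injective (part S X σ) (MulAut.conj g).injective]
  congr 1
  ext y
  constructor
  · rintro ⟨x, ⟨hx, hr⟩, rfl⟩
    exact ⟨hX.conj g hg x hx, by simp [MulAut.conj_apply, hr]⟩
  · rintro ⟨hy, hr⟩
    refine ⟨g⁻¹ * y * g⁻¹⁻¹, ⟨hX.conj _ (inv_mem hg) y hy, ?_⟩, ?_⟩
    · rw [map_mul, map_mul, map_inv, hr, map_inv, map_inv]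
      group
    · rw [MulAut.conj_apply]
      group

theorem part_index {X : Set Cz[z]} (hX : InvSet S X) {i : ℕ} (hi : i < 7) {σ τ : Equiv.Perm Vec}
    (hσ : Rep (sList.getD i []) σ) (hτ : Rep (sList.getD 0 []) τ) :
    (part S X σ).ncard = (part S X τ).ncard := by
  induction i using Nat.strongRecOn generalizing σ with
  | ind i ih =>
    rcases orb_facts.2.2.2.2.2.2.2.2 i hi with h | ⟨hp, hk, he⟩
    · subst h
      rw [hσ.eq hτ]
    · obtain ⟨g, hg, hgr⟩ := exists_sg S _ hk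
      obtain ⟨υ, -, hυ, -⟩ := s_rep (getD_mem [] (show (sPar.getD i (0, 0)).1 < sList.length by
        rw [s_facts.1]; omega))
      have e : S.rho g * υ = σ * S.rho g := (hgr.mul hυ).eq (he ▸ hσ.mul hgr)
      rw [← ih _ hp (by omega) hυ, part_conj S hX hg (σ := υ), e, mul_inv_cancel_right]

/-- The extraspecial group moves an element above an involution to at least 16 places. -/
theorem part_dvd {X : Set Cz[z]} (hX : InvSet S X) {i : ℕ} (hi : i < 7) {σ : Equiv.Perm Vec}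
    (hσ : Rep (sList.getD i []) σ) : 16 ∣ (part S X σ).ncard := by
  classical
  have hq : ∀ f : pCore 2 Cz[z], ∀ x ∈ part S X σ, (f : Cz[z]) * x * (f : Cz[z])⁻¹ ∈ part S X σ :=
    fun f x hx => ⟨hX.conj _ (q_le_stabH S f.2) x hx.1, by
      rw [map_mul, map_mul, map_inv, S.D.rho_q f.2, hx.2, inv_one, one_mul, mul_one]⟩
  letI := qAct (part S X σ) hq
  obtain ⟨himl, him4, hnd⟩ := s_facts.2.2.2.2.2 i hi
  choose f hf using fun v : {v // v ∈ imPre.getD i []} => S.D.psi_surj (vecN v.1)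
  obtain ⟨τ, -, hτ, hsq, -⟩ := s_rep (getD_mem [] (show i < sList.length by rw [s_facts.1]; exact hi))
  have hσi : σ⁻¹ = σ := inv_eq_of_mul_eq_one_right (by rw [hσ.eq hτ, hsq])
  have hdiff : ∀ x ∈ part S X σ, ∀ v : {v // v ∈ imPre.getD i []},
      ∃ hm : x⁻¹ * ((f v : Cz[z]) * x * (f v : Cz[z])⁻¹) ∈ pCore 2 Cz[z],
      enc (S.psi ⟨_, hm⟩) = apL (sList.getD i []) v.1 ^^^ v.1 := by
    intro x hx v
    have hc : x⁻¹ * (f v : Cz[z]) * x⁻¹⁻¹ ∈ pCore 2 Cz[z] :=
      (inferInstance : (pCore 2 Cz[z]).Normal).conj_mem _ (f v).2 _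
    have hm : x⁻¹ * ((f v : Cz[z]) * x * (f v : Cz[z])⁻¹) ∈ pCore 2 Cz[z] := by
      rw [show x⁻¹ * ((f v : Cz[z]) * x * (f v : Cz[z])⁻¹) =
        x⁻¹ * (f v : Cz[z]) * x⁻¹⁻¹ * (f v : Cz[z])⁻¹ by group]
      exact mul_mem hc (inv_mem (f v).2)
    refine ⟨hm, ?_⟩
    have e : (⟨_, hm⟩ : pCore 2 Cz[z]) = ⟨_, hc⟩ * (f v)⁻¹ := Subtype.ext (by
      show x⁻¹ * ((f v : Cz[z]) * x * (f v : Cz[z])⁻¹) = x⁻¹ * (f v : Cz[z]) * x⁻¹⁻¹ * (f v : Cz[z])⁻¹
      group)
    have hinv : S.psi (f v)⁻¹ = S.psi (f v) := by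
      have h := S.D.psi_mul (f v) (f v)⁻¹
      rw [mul_inv_cancel, S.D.psi_one] at h
      calc S.psi (f v)⁻¹ = S.psi (f v) + (S.psi (f v) + S.psi (f v)⁻¹) := by
            rw [← add_assoc, LargeFischer.Thompson.vec_self, zero_add]
        _ = S.psi (f v) := by rw [← h, add_zero]
    rw [e, S.D.psi_mul, conj_psi S x⁻¹ (f v), map_inv, hx.2, hσi, hinv, enc_add, hσ (S.psi (f v)), hf,
      enc_vecN (him4 _ v.2)]
  have hinj : ∀ x ∈ part S X σ, Function.Injective fun v : {v // v ∈ imPre.getD i []} =>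
      (f v : Cz[z]) * x * (f v : Cz[z])⁻¹ := by
    intro x hx v w h
    obtain ⟨hv, hve⟩ := hdiff x hx v
    obtain ⟨hw, hwe⟩ := hdiff x hx w
    refine Subtype.ext (List.inj_on_of_nodup_map hnd v.2 w.2 ?_)
    show apL (sList.getD i []) v.1 ^^^ v.1 = apL (sList.getD i []) w.1 ^^^ w.1
    rw [← hve, ← hwe]
    congr 2
    exact Subtype.ext (congrArg (x⁻¹ * ·) h)
  have hv16 : Nat.card {v // v ∈ imPre.getD i []} = 16 := by
    have hn : (imPre.getD i []).Nodup := List.Nodup.of_map _ hnd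
    rw [Nat.card_congr (Equiv.subtypeEquivRight (fun i => List.mem_toFinset.symm)),
      Nat.card_eq_fintype_card, Fintype.card_coe, List.toFinset_card_of_nodup hn, himl]
  have horb : ∀ x : part S X σ, 16 ∣ Nat.card (MulAction.orbit (pCore 2 Cz[z]) x) := by
    intro x
    have hge : 16 ≤ Nat.card (MulAction.orbit (pCore 2 Cz[z]) x) := by
      refine hv16.symm.le.trans (Nat.card_le_card_of_injective (fun v => ⟨f v • x, MulAction.mem_orbit _ _⟩) ?_)
      intro v w h
      exact hinj x.1 x.2 (congrArg (fun y : MulAction.orbit (pCore 2 Cz[z]) x => ((y.1 : part S X σ) : Cz[z])) h)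
    have hd : Nat.card (MulAction.orbit (pCore 2 Cz[z]) x) ∣ 2 ^ 13 := by
      rw [Nat.card_coe_set_eq, ← MulAction.index_stabilizer, show (2 : ℕ) ^ 13 = 8192 by norm_num, ← S.D.card_q]
      exact Subgroup.index_dvd_card _
    obtain ⟨k, -, hk⟩ := (Nat.dvd_prime_pow Nat.prime_two).1 hd
    rw [hk] at hge ⊢
    have : 4 ≤ k := by
      by_contra hc
      have : 2 ^ k ≤ 2 ^ 3 := Nat.pow_le_pow_right (by norm_num) (by omega)
      omega
    exact Nat.pow_dvd_pow 2 this
  rw [← Nat.card_coe_set_eq, Nat.card_congr (MulAction.selfEquivSigmaOrbits (pCore 2 Cz[z]) (part S X σ))]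
  haveI := Fintype.ofFinite (MulAction.orbitRel.Quotient (pCore 2 Cz[z]) (part S X σ))
  rw [Nat.card_sigma]
  exact Finset.dvd_sum fun o _ => horb _

/-- There are at most 128 members above one involution. -/
theorem part_le {X : Set Cz[z]} (hX : InvSet S X) (σ : Equiv.Perm Vec) : (part S X σ).ncard ≤ 128 := by
  by_cases h : (part S X σ).Nonempty
  · obtain ⟨x0, hx0, hr0⟩ := h
    have hinj : Function.Injective fun x : Cz[z] => x0⁻¹ * x := fun a b e => mul_left_cancel e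
    rw [← Set.ncard_image_of_injective (part S X σ) hinj,
      show 128 = (pre S : Set Cz[z]).ncard from by rw [← Nat.card_coe_set_eq]; exact (card_pre S).symm]
    refine Set.ncard_le_ncard ?_ (Set.toFinite _)
    rintro _ ⟨x, ⟨hx, hr⟩, rfl⟩
    exact (baseH_inf_q S).le (Subgroup.mem_inf.2 ⟨mul_mem (inv_mem (hX.sub _ hx0)) (hX.sub _ hx),
      S.D.mem_q (by rw [map_mul, map_inv, hr0, hr, inv_mul_cancel])⟩)
  · rw [Set.not_nonempty_iff_eq_empty.1 h, Set.ncard_empty]
    omega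

theorem z_not_above {l : List ℕ} (hl : ∀ u ∈ l, u ∈ wCodes ∧ u ≠ 0) : zC[z] ∉ above S l := by
  rintro ⟨hp, hpl⟩
  exact (hl _ hpl).2 (by rw [(S.D.psi_ker _).2 (Or.inr rfl), enc_zero'])

theorem in_cases {x : Cz[z]} (hx : x ∈ baseH S) (h1 : x ≠ 1) (hq : x ∈ pCore 2 Cz[z]) :
    x = zC[z] ∨ x ∈ above S sigL ∨ x ∈ above S restL := by
  have hxp : x ∈ pre S := centralizing_q S (a := ⟨x, hq⟩) hx
  rcases orb_facts.2.2.2.2.2.1 _ ((mem_pre S (a := ⟨x, hq⟩)).1 hxp) with h | h | h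
  · rcases (S.D.psi_ker ⟨x, hq⟩).1 (enc_injective (h.trans enc_zero'.symm)) with e | e
    · exact absurd e h1
    · exact Or.inl e
  · exact Or.inr (Or.inl ⟨hq, h⟩)
  · exact Or.inr (Or.inr ⟨hq, h⟩)

theorem above_card : (above S sigL).ncard = 42 ∧ (above S restL).ncard = 84 ∧
    Disjoint (above S sigL) (above S restL) := by
  obtain ⟨hs21, hr42, hnd, hsl, hrl, -⟩ := orb_facts
  obtain ⟨hnds, hndr, hdisj⟩ := List.nodup_append.1 hnd
  refine ⟨?_, ?_, ?_⟩
  · rw [above_ncard S hnds (fun u hu => (w_facts.1 u (hsl u hu).1).1), hs21]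
  · rw [above_ncard S hndr (fun u hu => (w_facts.1 u (hrl u hu).1).1), hr42]
  · rw [Set.disjoint_left]
    rintro x ⟨hq, h1⟩ ⟨hq', h2⟩
    exact hdisj _ h1 _ h2 rfl

include hJ in
/-- The parts of an invariant set. -/
theorem inv_split {X : Set Cz[z]} (hX : InvSet S X) {τ0 : Equiv.Perm Vec}
    (hτ0 : Rep (sList.getD 0 []) τ0) :
    X.ncard = (X ∩ {zC[z]}).ncard + (X ∩ above S sigL).ncard + (X ∩ above S restL).ncard +
      7 * (part S X τ0).ncard := by
  classical
  choose τ _ hτ _ _ hτ1 using fun i : Fin 7 => s_rep (getD_mem [] (show (i : ℕ) < sList.length by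
    rw [s_facts.1]; exact i.2))
  have hout : {x | x ∈ X ∧ x ∉ pCore 2 Cz[z]} = ⋃ i, part S X (τ i) := by
    ext x
    simp only [Set.mem_ofPred_eq, Set.mem_iUnion]
    constructor
    · rintro ⟨hx, hxq⟩
      rcases (rho_baseH hJ S).le ⟨x, hX.sub x hx, rfl⟩ with h | ⟨g, hg, hr⟩
      · exact absurd (S.D.mem_q h) hxq
      · obtain ⟨i, hi, rfl⟩ := exists_getD [] hg
        rw [s_facts.1] at hi
        exact ⟨⟨i, hi⟩, hx, hr.eq (hτ ⟨i, hi⟩)⟩
    · rintro ⟨i, hx, hr⟩
      exact ⟨hx, fun hq => hτ1 i (hr ▸ S.D.rho_q hq)⟩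
  have hτinj : Function.Injective τ := fun i j hij => by
    have hn : ∀ i : Fin 7, comp (sList.getD i []) idL = sList.getD i [] := fun i => by
      rw [← (s_facts.2.2.1 i i.2).2.1]
      exact ((normal_facts candJ_ok.normal_elems).2 _ (getD_mem [] (by
        rw [(par_facts candJ_ok).1]; exact (s_facts.2.2.1 i i.2).1))).1
    have h := (hτ i).list_eq (hij ▸ hτ j) (hn i) (hn j)
    rw [List.getD_eq_getElem _ [] (by rw [s_facts.1]; exact i.2),
      List.getD_eq_getElem _ [] (by rw [s_facts.1]; exact j.2)] at h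
    exact Fin.ext ((List.Nodup.getElem_inj_iff s_facts.2.1).1 h)
  have houtc : {x | x ∈ X ∧ x ∉ pCore 2 Cz[z]}.ncard = 7 * (part S X τ0).ncard := by
    rw [hout, Set.ncard_iUnion_of_finite (fun i => Set.toFinite _), finsum_eq_sum_of_fintype]
    · rw [Finset.sum_congr rfl (fun i _ => part_index S hX i.2 (hτ i) hτ0), Finset.sum_const,
        Finset.card_univ, Fintype.card_fin, smul_eq_mul]
    · intro i j hij
      rw [Function.onFun, Set.disjoint_left]
      rintro x ⟨-, h1⟩ ⟨-, h2⟩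
      exact hij (hτinj (h1.symm.trans h2))
  have e : X = (((X ∩ {zC[z]}) ∪ (X ∩ above S sigL)) ∪ (X ∩ above S restL)) ∪
      {x | x ∈ X ∧ x ∉ pCore 2 Cz[z]} := by
    ext x
    constructor
    · intro hx
      by_cases hq : x ∈ pCore 2 Cz[z]
      · rcases in_cases S (hX.sub x hx) (fun e => hX.one (e ▸ hx)) hq with h | h | h
        · exact Or.inl (Or.inl (Or.inl ⟨hx, h⟩))
        · exact Or.inl (Or.inl (Or.inr ⟨hx, h⟩))
        · exact Or.inl (Or.inr ⟨hx, h⟩)
      · exact Or.inr ⟨hx, hq⟩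
    · rintro (((h | h) | h) | h) <;> exact h.1
  obtain ⟨-, -, -, hsl, hrl, -⟩ := orb_facts
  conv_lhs => rw [e]
  rw [Set.ncard_union_eq, Set.ncard_union_eq, Set.ncard_union_eq, houtc]
  · rw [Set.disjoint_left]
    rintro x ⟨-, rfl⟩ ⟨-, h⟩
    exact z_not_above S hsl h
  · rw [Set.disjoint_left]
    rintro x (⟨-, rfl⟩ | ⟨-, h⟩) ⟨-, h'⟩
    · exact z_not_above S hrl h'
    · exact Set.disjoint_left.1 (above_card S).2.2 h h'
  · rw [Set.disjoint_left]
    rintro x ((⟨-, rfl⟩ | ⟨-, ⟨hq, -⟩⟩) | ⟨-, ⟨hq, -⟩⟩) ⟨-, hn⟩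
    · exact hn S.D.z_mem
    · exact hn hq
    · exact hn hq

/-- The orbit of an element of the subgroup, inside the centralizer of the involution. -/
noncomputable def orbY (y : G) : Set Cz[z] := {h | (h : G) ∈ TenMain.orbit (base S) y}

theorem normalizer_of_stab {h : Cz[z]} (hh : h ∈ stabH S) : (h : G) ∈ Subgroup.normalizer (base S : Set G) :=
  ((normalizer_inf S).ge ⟨h, hh, rfl⟩).1

theorem orbY_inv {y : G} (hy : y ∈ base S) (h1 : y ≠ 1) : InvSet S (orbY S y) where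
  sub h hh := (mem_base S).1 (TenMain.orbit_sub hy hh)
  one h := TenMain.one_not_mem_orbit h1 h
  conj h hh x hx := by
    obtain ⟨n, hn, he⟩ := hx
    refine ⟨(h : G) * n, mul_mem (normalizer_of_stab S hh) hn, ?_⟩
    show (h : G) * n * y * ((h : G) * n)⁻¹ = (h : G) * (x : G) * (h : G)⁻¹
    rw [← he]
    group

theorem orbY_ncard {y : G} (hy : y ∈ base S) : (orbY S y).ncard = (TenMain.orbit (base S) y).ncard := by
  rw [← Set.ncard_image_of_injective (orbY S y) Subtype.val_injective]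
  congr 1
  ext v
  refine ⟨?_, fun hv => ⟨⟨v, base_le S (TenMain.orbit_sub hy hv)⟩, hv, rfl⟩⟩
  rintro ⟨h, hh, rfl⟩
  exact hh

theorem zOrbit_eq : zOrbit z (base S) = TenMain.orbit (base S) z := rfl

end Cfsg.Agent.JFourType.Decad
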