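import Cfsg.Agent.JFourType.DecadCheck
import Cfsg.Agent.JFourType.DecadOrbit

/-!
The orbit of the involution under the normalizer of the elementary abelian subgroup of order `2^10` avoids
the longer orbit on the preimage of the singular subspace: otherwise some element of the normalizer exchanges
the involution with such an element and leaves the preimage invariant, and a transvection would be semilinear.
-/

set_option autoImplicit false
set_option maxRecDepth 100000
set_option maxHeartbeats 1000000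

namespace Cfsg.Agent.JFourType.Decad

open Cfsg
open Cfsg.Agent.GFour25 Cfsg.Agent.CosetCert
open Cfsg.Agent.SporB.FischerU (Vec vecN enc vecN_enc enc_lt)
open Cfsg.Agent.LargeFischer (IsSemi semiU twist)
open Cfsg.Agent.LargeFischer.Thompson
open Cfsg.Agent.TTClass
open Ten TenData DecadData
open Data (omL)

/-- The centralizer of an element. -/
local notation "Cz[" z "]" => Subgroup.centralizer (({z} : Set _))

set_option quotPrecheck false
/-- The involution in its centralizer. -/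
local notation "zC[" z "]" => (⟨z, Subgroup.mem_centralizer_singleton_iff.2 rfl⟩ : Subgroup.centralizer (({z} : Set _)))

/-! ### Masks -/

theorem mbit_eq (m i : ℕ) : mbit m i = m.testBit i := by
  have h : mbit m i = Nat.beq ((m >>> i) &&& 1) 1 := rfl
  rw [h, Nat.and_one_is_mod, Nat.testBit_eq_decide_div_mod_eq, Nat.shiftRight_eq_div_pow]
  rcases Nat.mod_two_eq_zero_or_one (m / 2 ^ i) with e | e <;> rw [e] <;> rfl

theorem testBit_foldr (l : List ℕ) (i : ℕ) :
    (l.foldr (fun v m => Nat.lor m (2 ^ v)) 0).testBit i = true ↔ i ∈ l := by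
  induction l with
  | nil => simp
  | cons a l ih =>
    rw [List.foldr_cons, show ∀ p q : ℕ, Nat.lor p q = p ||| q from fun _ _ => rfl, Nat.testBit_lor,
      Bool.or_eq_true, ih, Nat.testBit_two_pow, decide_eq_true_eq, List.mem_cons, or_comm]
    exact or_congr eq_comm Iff.rfl

theorem inU_iff {v : ℕ} : inU v = true ↔ v ∈ wCodes := by
  have h := sameOK_true
  simp only [sameOK, Bool.and_eq_true] at h
  rw [inU, mbit_eq, ← Nat.eq_of_beq_eq_true h.1.1.1.1.1, testBit_foldr]

/-- A set of small numbers as a mask. -/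
theorem exists_mask (p : ℕ → Prop) (n : ℕ) : ∃ s < 2 ^ n, ∀ i < n, (mbit s i = true ↔ p i) := by
  classical
  refine ⟨((List.range n).filter fun i => decide (p i)).foldr (fun v m => Nat.lor m (2 ^ v)) 0, ?_, fun i hi => ?_⟩
  · have hb : ∀ l : List ℕ, (∀ v ∈ l, v < n) → l.foldr (fun v m => Nat.lor m (2 ^ v)) 0 < 2 ^ n := by
      intro l
      induction l with
      | nil => intro _; exact Nat.two_pow_pos n
      | cons a l ih =>
        intro h
        rw [List.foldr_cons]
        exact Nat.or_lt_two_pow (ih fun v hv => h v (List.mem_cons_of_mem _ hv))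
          (Nat.pow_lt_pow_right (by norm_num) (h a List.mem_cons_self))
    exact hb _ fun v hv => List.mem_range.1 (List.mem_filter.1 hv).1
  · rw [mbit_eq, testBit_foldr, List.mem_filter, decide_eq_true_eq, List.mem_range]
    exact and_iff_right hi

/-- The images of the generators are lists in normal form. -/
noncomputable def imgNormalOK : Bool :=
  (List.range 3).all fun k => comp (sImgs.getD k []) idL == sImgs.getD k []

theorem imgNormalOK_true : imgNormalOK = true := by decide +kernel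

/-- The subspace is closed under the scalar. -/
noncomputable def omWOK : Bool := wBas.all fun t => inU (apL omL t)

theorem omWOK_true : omWOK = true := by decide +kernel

theorem om_mem_w {w : Vec} (hw : w ∈ wSet) : w4 • w ∈ wSet := by
  rw [← omP_apply]
  exact maps_w (fun t ht => inU_iff.1 (List.all_eq_true.1 omWOK_true t ht)) rep_omP hw

/-! ### The seven involutions -/

theorem tA_facts : tA.length = 7 ∧ tA.Nodup ∧ ∀ g, g ∈ tA ↔ g ∈ sList := by
  have h := sameOK_true
  simp only [sameOK, Bool.and_eq_true, List.all_eq_true, List.contains_iff_mem] at h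
  obtain ⟨⟨⟨⟨⟨-, hl⟩, hd⟩, hsub⟩, -⟩, -⟩ := h
  have hn := distinctB_spec hd
  have hl' := Nat.eq_of_beq_eq_true hl
  refine ⟨hl', hn, fun g => ⟨hsub g, fun hg => ?_⟩⟩
  have e : tA.toFinset = sList.toFinset := Finset.eq_of_subset_of_card_le
    (fun x hx => List.mem_toFinset.2 (hsub x (List.mem_toFinset.1 hx)))
    (by rw [List.toFinset_card_of_nodup hn, List.toFinset_card_of_nodup s_facts.2.1, hl', s_facts.1])
  exact List.mem_toFinset.1 (e.ge (List.mem_toFinset.2 hg))

theorem s_normal {g : List ℕ} (hg : g ∈ sList) : comp g idL = g := by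
  obtain ⟨i, hi, rfl⟩ := exists_getD [] hg
  rw [s_facts.1] at hi
  rw [← (s_facts.2.2.1 i hi).2.1]
  exact ((normal_facts candJ_ok.normal_elems).2 _ (getD_mem [] (by
    rw [(par_facts candJ_ok).1]; exact (s_facts.2.2.1 i hi).1))).1

theorem tA_getD {i : ℕ} (hi : i < 7) : tA.getD i [] ∈ sList :=
  (tA_facts.2.2 _).1 (getD_mem [] (by rw [tA_facts.1]; exact hi))

theorem tA_inj {i j : ℕ} (hi : i < 7) (hj : j < 7) (h : tA.getD i [] = tA.getD j []) : i = j := by
  rw [List.getD_eq_getElem _ [] (by rw [tA_facts.1]; exact hi),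
    List.getD_eq_getElem _ [] (by rw [tA_facts.1]; exact hj)] at h
  exact (List.Nodup.getElem_inj_iff tA_facts.2.1).1 h

/-! ### Orthogonality is commutation -/

variable {G : Type*} [Group G] [Finite G] {z : G} {P : Subgroup G}
variable (hJ : IsOfJankoFourTypeWith z P) (S : Invol.Setup z P)

theorem orth_iff_comm {f p : pCore 2 Cz[z]} (hp : p * p = 1) :
    orth (enc (S.psi f)) (enc (S.psi p)) = true ↔ (f : Cz[z]) * p = p * f := by
  have e : Nat.xor (enc (S.psi f)) (enc (S.psi p)) = enc (S.psi f + S.psi p) := (enc_add _ _).symm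
  rw [S.D.comm_iff f p hp, orth, e, beq_iff_eq, qb_eq (enc_lt _), qb_eq (enc_lt _), Bool.eq_iff_iff,
    qN_enc, qN_enc]
  rcases UnitF4.h_self GFour25.card_F4 (S.psi f + S.psi p) with a | a <;>
    rcases UnitF4.h_self GFour25.card_F4 (S.psi f) with b | b <;> simp [a, b]

/-! ### The part of the subgroup in the core of a centralizer -/

/-- The part of the subgroup in the core of the centralizer of an element. -/
noncomputable def coreIn (s : G) : Subgroup G := base S ⊓ twoCoreOfCentralizer s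

theorem mem_normalizer_base {n : G} (hn : n ∈ Subgroup.normalizer (base S : Set G)) {x : G}
    (hx : x ∈ base S) : n * x * n⁻¹ ∈ base S :=
  (Subgroup.mem_normalizer_iff.1 hn x).1 hx

theorem coreIn_conj {n : G} (hn : n ∈ Subgroup.normalizer (base S : Set G)) {s x : G}
    (hx : x ∈ coreIn S s) : n * x * n⁻¹ ∈ coreIn S (n * s * n⁻¹) :=
  ⟨mem_normalizer_base S hn hx.1, core_conj n hx.2⟩

theorem coreIn_z : coreIn S z = (pre S).map (Subgroup.centralizer ({z} : Set G)).subtype := by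
  refine le_antisymm ?_ ?_
  · rintro x ⟨hb, c, hc, rfl⟩
    exact ⟨c, (baseH_inf_q S).le (Subgroup.mem_inf.2 ⟨(mem_base S).1 hb, hc⟩), rfl⟩
  · rintro _ ⟨c, hc, rfl⟩
    exact ⟨(mem_base S).2 (pre_le_baseH S hc), c, pre_le S hc, rfl⟩

theorem coreIn_le (s : G) : coreIn S s ≤ Subgroup.centralizer ({z} : Set G) :=
  inf_le_left.trans (base_le S)

theorem card_coreIn {n : G} (hn : n ∈ Subgroup.normalizer (base S : Set G)) :
    Nat.card (coreIn S (n * z * n⁻¹)) = 128 := by
  have e : (coreIn S z).map (MulAut.conj n).toMonoidHom = coreIn S (n * z * n⁻¹) := by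
    refine le_antisymm ?_ fun x hx => ?_
    · rintro _ ⟨x, hx, rfl⟩
      exact coreIn_conj S hn hx
    · have h := coreIn_conj S (inv_mem hn) hx
      rw [show n⁻¹ * (n * z * n⁻¹) * n⁻¹⁻¹ = z by group] at h
      exact ⟨_, h, by
        show n * (n⁻¹ * x * n⁻¹⁻¹) * n⁻¹ = x
        group⟩
  rw [← e, Subgroup.card_map_of_injective (MulAut.conj n).injective, coreIn_z,
    Subgroup.card_map_of_injective (Subgroup.subtype_injective _), card_pre]

theorem stab_cent_map (x : Cz[z]) :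
    (stabH S ⊓ Subgroup.centralizer ({x} : Set Cz[z])).map (Subgroup.centralizer ({z} : Set G)).subtype =
      Subgroup.normalizer (base S : Set G) ⊓ Subgroup.centralizer ({z} : Set G) ⊓
        Subgroup.centralizer ({(x : G)} : Set G) := by
  rw [normalizer_inf]
  refine le_antisymm ?_ ?_
  · rintro _ ⟨g, ⟨hg, hgx⟩, rfl⟩
    exact ⟨⟨g, hg, rfl⟩, Subgroup.mem_centralizer_singleton_iff.2
      (congrArg Subtype.val (Subgroup.mem_centralizer_singleton_iff.1 hgx))⟩
  · rintro _ ⟨⟨g, hg, rfl⟩, hgx⟩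
    exact ⟨g, ⟨hg, Subgroup.mem_centralizer_singleton_iff.2
      (Subtype.ext (Subgroup.mem_centralizer_singleton_iff.1 hgx))⟩, rfl⟩

include hJ in
/-- An element of the longer orbit that is conjugate to the involution can be exchanged with it. -/
theorem exists_swap {u : Cz[z]} (hu : u ∈ above S restL) (huO : u ∈ orbY S z) :
    ∃ n ∈ Subgroup.normalizer (base S : Set G), n * z * n⁻¹ = (u : G) ∧ n * (u : G) * n⁻¹ = z := by
  classical
  obtain ⟨n0, hn0, he⟩ := huO
  have hvb : n0⁻¹ * z * n0⁻¹⁻¹ ∈ base S := mem_normalizer_base S (inv_mem hn0) (z_mem_base S)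
  set v : Cz[z] := ⟨n0⁻¹ * z * n0⁻¹⁻¹, base_le S hvb⟩ with hv
  have hveq : n0 * (v : G) * n0⁻¹ = z := by
    show n0 * (n0⁻¹ * z * n0⁻¹⁻¹) * n0⁻¹ = z
    group
  have huz : u ≠ zC[z] := fun e => z_not_above S orb_facts.2.2.2.2.1 (e ▸ hu)
  have hvz : v ≠ zC[z] := fun e => huz (Subtype.ext (by
    rw [← he]
    have e' : n0⁻¹ * z * n0⁻¹⁻¹ = z := congrArg Subtype.val e
    calc n0 * z * n0⁻¹ = n0 * (n0⁻¹ * z * n0⁻¹⁻¹) * n0⁻¹ := by rw [e']
      _ = z := by group))
  -- the orbits under the stabiliser have equal length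
  have hcardC : Nat.card ↥(stabH S ⊓ Subgroup.centralizer ({v} : Set Cz[z])) =
      Nat.card ↥(stabH S ⊓ Subgroup.centralizer ({u} : Set Cz[z])) := by
    rw [← Subgroup.card_map_of_injective (K := stabH S ⊓ Subgroup.centralizer ({v} : Set Cz[z]))
        (Subgroup.subtype_injective (Subgroup.centralizer ({z} : Set G))),
      ← Subgroup.card_map_of_injective (K := stabH S ⊓ Subgroup.centralizer ({u} : Set Cz[z]))
        (Subgroup.subtype_injective (Subgroup.centralizer ({z} : Set G))),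
      stab_cent_map, stab_cent_map,
      ← Subgroup.card_map_of_injective (K := Subgroup.normalizer (base S : Set G) ⊓
        Subgroup.centralizer ({z} : Set G) ⊓ Subgroup.centralizer ({(v : G)} : Set G))
        (f := (MulAut.conj n0).toMonoidHom) (MulAut.conj n0).injective]
    have key : ∀ (p q : G), n0 * p * n0⁻¹ = q → ∀ x : G,
        x * p = p * x ↔ (n0 * x * n0⁻¹) * q = q * (n0 * x * n0⁻¹) := fun p q hpq x => by
      rw [← hpq]
      constructor
      · intro h
        calc n0 * x * n0⁻¹ * (n0 * p * n0⁻¹) = n0 * (x * p) * n0⁻¹ := by group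
          _ = n0 * (p * x) * n0⁻¹ := by rw [h]
          _ = n0 * p * n0⁻¹ * (n0 * x * n0⁻¹) := by group
      · intro h
        calc x * p = n0⁻¹ * (n0 * x * n0⁻¹ * (n0 * p * n0⁻¹)) * n0 := by group
          _ = n0⁻¹ * (n0 * p * n0⁻¹ * (n0 * x * n0⁻¹)) * n0 := by rw [h]
          _ = p * x := by group
    refine congrArg (fun K : Subgroup G => Nat.card K) (Subgroup.ext fun y => ?_)
    constructor
    · rintro ⟨x, ⟨⟨hxN, hxz⟩, hxv⟩, rfl⟩
      refine ⟨⟨Subgroup.mul_mem _ (Subgroup.mul_mem _ hn0 hxN) (Subgroup.inv_mem _ hn0), Subgroup.mem_centralizer_singleton_iff.2 ?_⟩,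
        Subgroup.mem_centralizer_singleton_iff.2 ?_⟩
      · exact (key _ _ hveq x).1 (Subgroup.mem_centralizer_singleton_iff.1 hxv)
      · exact (key _ _ he x).1 (Subgroup.mem_centralizer_singleton_iff.1 hxz)
    · rintro ⟨⟨hyN, hyz⟩, hyu⟩
      have hxe : n0 * (n0⁻¹ * y * n0⁻¹⁻¹) * n0⁻¹ = y := by group
      refine ⟨n0⁻¹ * y * n0⁻¹⁻¹, ⟨⟨Subgroup.mul_mem _ (Subgroup.mul_mem _ (Subgroup.inv_mem _ hn0) hyN) (Subgroup.inv_mem _ (Subgroup.inv_mem _ hn0)),
        Subgroup.mem_centralizer_singleton_iff.2 ((key _ _ he _).2 ?_)⟩,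
        Subgroup.mem_centralizer_singleton_iff.2 ((key _ _ hveq _).2 ?_)⟩, hxe⟩
      · rw [hxe]
        exact Subgroup.mem_centralizer_singleton_iff.1 hyu
      · rw [hxe]
        exact Subgroup.mem_centralizer_singleton_iff.1 hyz
  have hOeq : (conjSet (stabH S) v).ncard = (conjSet (stabH S) u).ncard := by
    have h1 := conjSet_ncard_mul (stabH S) v
    have h2 := conjSet_ncard_mul (stabH S) u
    rw [hcardC, ← h2] at h1
    exact Nat.eq_of_mul_eq_mul_right Nat.card_pos h1
  have hvbH : v ∈ baseH S := (mem_base S).1 hvb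
  have hv1 : v ≠ 1 := fun e => S.D.z_ne (Subtype.ext (by
    rw [← hveq, e]
    simp))
  have hInv : InvSet S (conjSet (stabH S) v) := by
    refine ⟨?_, ?_, ?_⟩
    · rintro _ ⟨g, hg, rfl⟩
      exact conj_baseH S hg hvbH
    · rintro ⟨g, -, e⟩
      exact hv1 (mul_eq_left.1 (mul_inv_eq_one.1 e))
    · rintro h hh _ ⟨g, hg, rfl⟩
      exact ⟨h * g, mul_mem hh hg, by group⟩
  by_cases hmeet : ∃ r ∈ above S restL, r ∈ conjSet (stabH S) v
  · obtain ⟨r, hr, g, hg, hgv⟩ := hmeet
    obtain ⟨g', hg', hgr⟩ := above_trans S orb_facts.2.2.2.2.2.2.2.1 orb_facts.2.2.2.2.1 hu hr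
    set h := g⁻¹ * g' with hh
    have hhu : h * u * h⁻¹ = v := by
      rw [hh]
      calc g⁻¹ * g' * u * (g⁻¹ * g')⁻¹ = g⁻¹ * (g' * u * g'⁻¹) * g := by group
        _ = v := by rw [hgr, ← hgv]; group
    refine ⟨n0 * (h : G), mul_mem hn0 (normalizer_of_stab S (mul_mem (inv_mem hg) hg')), ?_, ?_⟩
    · rw [show n0 * (h : G) * z * (n0 * (h : G))⁻¹ = n0 * ((h : G) * z * (h : G)⁻¹) * n0⁻¹ by group,
        mul_inv_eq_iff_eq_mul.2 (Subgroup.mem_centralizer_singleton_iff.1 h.2), he]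
    · rw [show n0 * (h : G) * (u : G) * (n0 * (h : G))⁻¹ = n0 * (((h * u * h⁻¹ : Cz[z])) : G) * n0⁻¹ by
        simp only [Subgroup.coe_mul, Subgroup.coe_inv]; group, hhu, hveq]
  exfalso
  -- the orbit of `u`
  have h84 : 84 ≤ (conjSet (stabH S) u).ncard := by
    rw [← (above_card S).2.1]
    exact Set.ncard_le_ncard (fun r hr => above_trans S orb_facts.2.2.2.2.2.2.2.1 orb_facts.2.2.2.2.1 hu hr)
      (Set.toFinite _)
  have hu126 : (conjSet (stabH S) u).ncard = 84 ∨ (conjSet (stabH S) u).ncard = 126 := by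
    have hsub : conjSet (stabH S) u ⊆ above S sigL ∪ above S restL := by
      rintro _ ⟨g, hg, rfl⟩
      have hq : g * u * g⁻¹ ∈ pCore 2 Cz[z] :=
        (inferInstance : (pCore 2 Cz[z]).Normal).conj_mem _ hu.1 g
      have hb : g * u * g⁻¹ ∈ baseH S :=
        conj_baseH S hg (pre_le_baseH S ⟨hu.1, (orb_facts.2.2.2.2.1 _ hu.2).1⟩)
      have h1 : g * u * g⁻¹ ≠ 1 := fun e => by
        have e' : u = 1 := mul_eq_left.1 (mul_inv_eq_one.1 e)
        obtain ⟨hp, hpl⟩ := hu
        refine (orb_facts.2.2.2.2.1 _ hpl).2 ?_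
        subst e'
        rw [show (⟨1, hp⟩ : pCore 2 Cz[z]) = 1 from rfl, S.D.psi_one, enc_zero']
      rcases in_cases S hb h1 hq with h | h | h
      · exfalso
        refine huz ?_
        calc u = g⁻¹ * (g * u * g⁻¹) * g := by group
          _ = zC[z] := by rw [h, mul_assoc, ← S.D.z_central g, inv_mul_cancel_left]
      · exact Or.inl h
      · exact Or.inr h
    have hrs : above S restL ⊆ conjSet (stabH S) u := fun r hr =>
      above_trans S orb_facts.2.2.2.2.2.2.2.1 orb_facts.2.2.2.2.1 hu hr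
    have hInvU : InvSet S (conjSet (stabH S) u) := by
      refine ⟨?_, ?_, ?_⟩
      · rintro _ ⟨g, hg, rfl⟩
        exact conj_baseH S hg (pre_le_baseH S ⟨hu.1, (orb_facts.2.2.2.2.1 _ hu.2).1⟩)
      · intro h1
        rcases hsub h1 with h | h
        · obtain ⟨hp, hpl⟩ := h
          exact (orb_facts.2.2.2.1 _ hpl).2 (by
            rw [show (⟨1, hp⟩ : pCore 2 Cz[z]) = 1 from rfl, S.D.psi_one, enc_zero'])
        · obtain ⟨hp, hpl⟩ := h
          exact (orb_facts.2.2.2.2.1 _ hpl).2 (by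
            rw [show (⟨1, hp⟩ : pCore 2 Cz[z]) = 1 from rfl, S.D.psi_one, enc_zero'])
      · rintro h hh _ ⟨g, hg, rfl⟩
        exact ⟨h * g, mul_mem hh hg, by group⟩
    rcases above_inter S hInvU orb_facts.2.2.2.2.2.2.1 orb_facts.2.2.2.1 with h | h
    · left
      rw [show conjSet (stabH S) u = above S restL from Set.Subset.antisymm (fun x hx =>
        (hsub hx).resolve_left fun hs => (Set.eq_empty_iff_forall_notMem.1 h x) ⟨hx, hs⟩) hrs]
      exact (above_card S).2.1
    · right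
      rw [show conjSet (stabH S) u = above S sigL ∪ above S restL from
        Set.Subset.antisymm hsub (Set.union_subset h hrs),
        Set.ncard_union_eq (above_card S).2.2, (above_card S).1, (above_card S).2.1]
  obtain ⟨τ0, -, hτ0, -⟩ := s_rep (getD_mem [] (show 0 < sList.length by rw [s_facts.1]; norm_num))
  have hsplit := inv_split hJ S hInv hτ0
  have h16 := part_dvd S hInv (i := 0) (by norm_num) hτ0
  have hrest : conjSet (stabH S) v ∩ above S restL = ∅ :=
    Set.eq_empty_iff_forall_notMem.2 fun r hr => hmeet ⟨r, hr.2, hr.1⟩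
  rw [hrest, Set.ncard_empty] at hsplit
  by_cases hvq : v ∈ pCore 2 Cz[z]
  · have hp : part S (conjSet (stabH S) v) τ0 = ∅ := Set.eq_empty_iff_forall_notMem.2 fun x hx => by
      obtain ⟨⟨g, hg, rfl⟩, hr⟩ := hx
      obtain ⟨τ, -, hτ, -, -, hτ1⟩ := s_rep (getD_mem [] (show 0 < sList.length by rw [s_facts.1]; norm_num))
      rw [S.D.rho_q ((inferInstance : (pCore 2 Cz[z]).Normal).conj_mem _ hvq g)] at hr
      exact hτ1 (hr.trans (hτ0.eq hτ)).symm
    have h1 : (conjSet (stabH S) v ∩ {zC[z]}).ncard ≤ 1 :=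
      (Set.ncard_le_ncard Set.inter_subset_right (Set.toFinite _)).trans_eq (Set.ncard_singleton _)
    have h2 : (conjSet (stabH S) v ∩ above S sigL).ncard ≤ 42 :=
      (Set.ncard_le_ncard Set.inter_subset_right (Set.toFinite _)).trans_eq (above_card S).1
    rw [hp, Set.ncard_empty] at hsplit
    omega
  · have hout : ∀ x ∈ conjSet (stabH S) v, x ∉ pCore 2 Cz[z] := by
      rintro _ ⟨g, hg, rfl⟩ hq
      refine hvq ?_
      have := (inferInstance : (pCore 2 Cz[z]).Normal).conj_mem _ hq g⁻¹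
      rwa [show g⁻¹ * (g * v * g⁻¹) * g⁻¹⁻¹ = v by group] at this
    have h1 : conjSet (stabH S) v ∩ {zC[z]} = ∅ := Set.eq_empty_iff_forall_notMem.2 fun x hx =>
      hout x hx.1 (by rw [Set.mem_singleton_iff.1 hx.2]; exact S.D.z_mem)
    have h2 : conjSet (stabH S) v ∩ above S sigL = ∅ := Set.eq_empty_iff_forall_notMem.2 fun x hx =>
      hout x hx.1 hx.2.1
    rw [h1, h2, Set.ncard_empty] at hsplit
    obtain ⟨d, hd⟩ := h16
    omega

/-! ### The exchanging element normalises the preimage -/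

theorem exists_word (k : ℕ) {W I : List (List ℕ)}
    (h1 : wImg (W.getD k []) = I.getD k []) (h2 : apL (I.getD k []) uTwo = uTwo)
    (h3 : ∀ t ∈ wBas, apL (I.getD k []) t ∈ wCodes) {u : Cz[z]} (hu : u ∈ pCore 2 Cz[z])
    (hue : enc (S.psi ⟨u, hu⟩) = uTwo) :
    ∃ g ∈ stabH S, g * u * g⁻¹ = u ∧ Rep (I.getD k []) (S.rho g) := by
  obtain ⟨g, hg⟩ := S.K22_le (word_mem (W.getD k []))
  have hr : Rep (I.getD k []) (S.rho g) := by rw [hg, ← h1]; exact rep_word _
  have hgs : g ∈ stabH S := mem_wStab.2 fun w hw => maps_w h3 hr hw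
  have hpsi : S.psi ⟨g * u * g⁻¹, (inferInstance : (pCore 2 Cz[z]).Normal).conj_mem _ hu g⟩ =
      S.psi ⟨u, hu⟩ := by
    rw [conj_psi S g ⟨u, hu⟩]
    refine enc_injective ?_
    rw [hr, hue, h2]
  have hur : uTwo ∈ restL := by
    have h := sameOK_true
    simp only [sameOK, Bool.and_eq_true, List.contains_iff_mem] at h
    exact h.1.2
  rcases S.D.eq_of_psi hpsi with e | e
  · exact ⟨g, hgs, e, hr⟩
  · obtain ⟨f, hf⟩ := exists_move S (y := ⟨u, hu⟩) (by
      refine ⟨hu, ?_⟩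
      show enc _ ∈ wCodes
      rw [hue]
      exact (orb_facts.2.2.2.2.1 _ hur).1) fun e0 => (orb_facts.2.2.2.2.1 _ hur).2 (by
      rw [← hue, e0, enc_zero'])
    replace e : g * u * g⁻¹ = u * zC[z] := e
    replace hf : (f : Cz[z]) * u * (f : Cz[z])⁻¹ = u * zC[z] := hf
    refine ⟨(f : Cz[z]) * g, mul_mem (q_le_stabH S f.2) hgs, ?_, ?_⟩
    · calc (f : Cz[z]) * g * u * ((f : Cz[z]) * g)⁻¹ = (f : Cz[z]) * (g * u * g⁻¹) * (f : Cz[z])⁻¹ := by group
        _ = (f : Cz[z]) * u * (f : Cz[z])⁻¹ * ((f : Cz[z]) * zC[z] * (f : Cz[z])⁻¹) := by rw [e]; group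
        _ = u * zC[z] * zC[z] := by rw [hf, S.D.z_central (f : Cz[z]), mul_inv_cancel_right]
        _ = u := by rw [mul_assoc, S.D.z_sq, mul_one]
    · rwa [map_mul, S.D.rho_q f.2, one_mul]

include hJ in
theorem swap_normalizes {u : Cz[z]} (hu : u ∈ pCore 2 Cz[z]) (hue : enc (S.psi ⟨u, hu⟩) = uTwo)
    {n : G} (hn : n ∈ Subgroup.normalizer (base S : Set G)) (hnz : n * z * n⁻¹ = (u : G))
    (hnu : n * (u : G) * n⁻¹ = z) : coreIn S (u : G) = coreIn S z := by
  classical
  set K : Subgroup Cz[z] := (coreIn S (u : G)).subgroupOf (Subgroup.centralizer ({z} : Set G)) with hK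
  have hKc : Nat.card K = 128 := by
    rw [hK, Nat.card_congr (Subgroup.subgroupOfEquivOfLe (coreIn_le S _)).toEquiv, ← hnz, card_coreIn S hn]
  have hmemK : ∀ x : Cz[z], x ∈ K ↔ (x : G) ∈ coreIn S (u : G) := fun x => Subgroup.mem_subgroupOf
  have hKb : ∀ x ∈ K, x ∈ baseH S := fun x hx => (mem_base S).1 ((hmemK x).1 hx).1
  have hpu : u ∈ pre S := by
    refine ⟨hu, ?_⟩
    show enc _ ∈ wCodes
    rw [hue]
    have h := sameOK_true
    simp only [sameOK, Bool.and_eq_true, List.contains_iff_mem] at h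
    exact (orb_facts.2.2.2.2.1 _ h.1.2).1
  have hzK : zC[z] ∈ K := by
    rw [hmemK]
    have h1 : (u : G) ∈ coreIn S z := by rw [coreIn_z]; exact ⟨u, hpu, rfl⟩
    have h2 := coreIn_conj S hn h1
    rwa [hnz, hnu] at h2
  have hinvK : ∀ g ∈ stabH S, g * u * g⁻¹ = u → ∀ x ∈ K, g * x * g⁻¹ ∈ K := fun g hg hgu x hx => by
    rw [hmemK] at hx ⊢
    have h2 := coreIn_conj S (normalizer_of_stab S hg) hx
    have e : (g : G) * (u : G) * (g : G)⁻¹ = u := congrArg Subtype.val hgu
    rwa [e] at h2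
  -- the displacements
  set Q := pCore 2 Cz[z] with hQ
  set L : Set Vec := S.psi '' {a : Q | (a : Cz[z]) ∈ K ⊓ Q} with hL
  have hLc : Nat.card ↥(K ⊓ Q) = 2 * L.ncard := (S.D.card_sub _ inf_le_right).2 ⟨hzK, S.D.z_mem⟩
  have hsplit : Nat.card (K.map S.rho) * (2 * L.ncard) = 128 := by
    rw [← hLc, ← S.D.card_split K, hKc]
  have hL0 : (0 : Vec) ∈ L := ⟨1, Subgroup.one_mem (K ⊓ Q), S.D.psi_one⟩
  have hLadd : ∀ x ∈ L, ∀ y ∈ L, x + y ∈ L := by
    rintro _ ⟨a, ha, rfl⟩ _ ⟨b, hb, rfl⟩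
    exact ⟨a * b, Subgroup.mul_mem (K ⊓ Q) ha hb, S.D.psi_mul a b⟩
  have hLw : ∀ x ∈ L, x ∈ wSet := by
    rintro _ ⟨a, ha, rfl⟩
    exact (mem_pre S).1 ((baseH_inf_q S).le (Subgroup.mem_inf.2 ⟨hKb _ ha.1, a.2⟩))
  have hLinv : ∀ g ∈ stabH S, g * u * g⁻¹ = u → ∀ x ∈ L, S.rho g x ∈ L := by
    rintro g hg hgu _ ⟨a, ha, rfl⟩
    exact ⟨_, ⟨hinvK g hg hgu _ ha.1, (inferInstance : Q.Normal).conj_mem _ a.2 g⟩, conj_psi S g a⟩
  have hdisp : ∀ x ∈ K, ∀ e : ℕ, perpTwo e = true → S.rho x (vecN e) + vecN e ∈ L := by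
    intro x hx e he
    simp only [perpTwo, Bool.and_eq_true, Nat.blt_eq] at he
    obtain ⟨f, hf⟩ := S.D.psi_surj (vecN e)
    have hfu : (f : Cz[z]) * u = u * f := by
      refine (orth_iff_comm S (f := f) (p := ⟨u, hu⟩) (Subtype.ext (pre_sq S hpu))).1 ?_
      rw [hf, enc_vecN he.1, hue]
      exact he.2
    have h1 : x * ((f : Cz[z]) * x⁻¹ * (f : Cz[z])⁻¹) ∈ K :=
      mul_mem hx (hinvK _ (q_le_stabH S f.2) (mul_inv_eq_iff_eq_mul.2 hfu) _ (inv_mem hx))
    have hc : x * (f : Cz[z]) * x⁻¹ ∈ Q := (inferInstance : Q.Normal).conj_mem _ f.2 x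
    refine ⟨⟨_, hc⟩ * f⁻¹, ⟨?_, ?_⟩, ?_⟩
    · show x * (f : Cz[z]) * x⁻¹ * (f : Cz[z])⁻¹ ∈ K
      rwa [show x * (f : Cz[z]) * x⁻¹ * (f : Cz[z])⁻¹ = x * ((f : Cz[z]) * x⁻¹ * (f : Cz[z])⁻¹) by group]
    · show x * (f : Cz[z]) * x⁻¹ * (f : Cz[z])⁻¹ ∈ Q
      exact mul_mem hc (inv_mem f.2)
    · have hinv : S.psi f⁻¹ = S.psi f := by
        have h := S.D.psi_mul f f⁻¹
        rw [mul_inv_cancel, S.D.psi_one] at h
        calc S.psi f⁻¹ = S.psi f + (S.psi f + S.psi f⁻¹) := by
              rw [← add_assoc, LargeFischer.Thompson.vec_self, zero_add]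
          _ = S.psi f := by rw [← h, add_zero]
      rw [S.D.psi_mul, conj_psi S x f, hinv, hf]
  -- the image
  choose τ hτc hτ hτsq hτom hτ1 using fun i : Fin 7 => s_rep (tA_getD i.2)
  have hrho : ∀ x ∈ K, S.rho x = 1 ∨ ∃ i : Fin 7, S.rho x = τ i := by
    intro x hx
    rcases (rho_baseH hJ S).le ⟨x, hKb x hx, rfl⟩ with h | ⟨g, hg, hr⟩
    · exact Or.inl h
    · obtain ⟨i, hi, rfl⟩ := exists_getD [] ((tA_facts.2.2 g).2 hg)
      rw [tA_facts.1] at hi
      exact Or.inr ⟨⟨i, hi⟩, hr.eq (hτ ⟨i, hi⟩)⟩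
  have hτinj : ∀ i j : Fin 7, τ i = τ j → i = j := fun i j e =>
    Fin.ext (tA_inj i.2 j.2 ((hτ i).list_eq (e ▸ hτ j) (s_normal (tA_getD i.2)) (s_normal (tA_getD j.2))))
  obtain ⟨s, hs, hbit⟩ := exists_mask (fun i => ∃ h : i < 7, τ ⟨i, h⟩ ∈ K.map S.rho) 7
  have hbit' : ∀ i : Fin 7, mbit s i = true ↔ τ i ∈ K.map S.rho := fun i => by
    rw [hbit i i.2]
    exact ⟨fun ⟨_, h⟩ => h, fun h => ⟨i.2, h⟩⟩
  have hinv3 : ∀ k < 3, ∃ g ∈ stabH S, g * u * g⁻¹ = u ∧ Rep (sImgs.getD k []) (S.rho g) := by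
    intro k hk
    have h := stabOK_true.1
    simp only [stabOK, List.all_eq_true, List.mem_range, Bool.and_eq_true, beq_iff_eq] at h
    exact exists_word S k (W := sWords) (h k hk).1.1.1.1
      (Nat.eq_of_beq_eq_true (h k hk).1.1.2) (fun t ht => inU_iff.1 ((h k hk).2 t ht).1) hu hue
  have hxinv : ∀ k < 3, ∃ g ∈ stabH S, g * u * g⁻¹ = u ∧ Rep (xImgs.getD k []) (S.rho g) := by
    intro k hk
    have h := stabOK_true.1
    simp only [stabOK, List.all_eq_true, List.mem_range, Bool.and_eq_true, beq_iff_eq] at h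
    exact exists_word S k (W := xWords) (h k hk).1.1.1.2
      (Nat.eq_of_beq_eq_true (h k hk).1.2) (fun t ht => inU_iff.1 ((h k hk).2 t ht).2) hu hue
  have hclosed : ((List.range 7).all fun i => !(mbit s i) || (List.range 7).all fun j => !(mbit s j) ||
      Nat.beq i j || (List.range 7).any fun l =>
        mbit s l && (comp (tA.getD i []) (tA.getD j []) == tA.getD l [])) = true := by
    simp only [List.all_eq_true, List.mem_range, Bool.or_eq_true, Bool.not_eq_true', List.any_eq_true,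
      Bool.and_eq_true, beq_iff_eq]
    intro i hi
    cases hbi : mbit s i
    · exact Or.inl rfl
    refine Or.inr fun j hj => ?_
    cases hbj : mbit s j
    · exact Or.inl (Or.inl rfl)
    by_cases hij : i = j
    · exact Or.inl (Or.inr (hij ▸ Nat.beq_refl i))
    refine Or.inr ?_
    have hp := mul_mem ((hbit' ⟨i, hi⟩).1 hbi) ((hbit' ⟨j, hj⟩).1 hbj)
    obtain ⟨x, hx, hxe⟩ := hp
    rcases hrho x hx with h | ⟨l, h⟩
    · exfalso
      rw [hxe] at h
      have e : τ ⟨i, hi⟩ = τ ⟨j, hj⟩ := by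
        calc τ ⟨i, hi⟩ = τ ⟨i, hi⟩ * (τ ⟨j, hj⟩ * τ ⟨j, hj⟩) := by rw [hτsq, mul_one]
          _ = τ ⟨j, hj⟩ := by rw [← mul_assoc, h, one_mul]
      exact hij (congrArg Fin.val (hτinj _ _ e))
    · refine ⟨l, l.2, (hbit' l).2 (h ▸ ⟨x, hx, rfl⟩), ?_⟩
      rw [hxe] at h
      exact ((hτ ⟨i, hi⟩).mul (hτ ⟨j, hj⟩)).list_eq (h ▸ hτ l)
        (comp_normal _ (s_normal (tA_getD hj))) (s_normal (tA_getD l.2))
  have hstable : ((List.range 3).all fun k => (List.range 7).all fun i => !(mbit s i) ||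
      (List.range 7).any fun l => mbit s l &&
        (comp (sImgs.getD k []) (tA.getD i []) == comp (tA.getD l []) (sImgs.getD k []))) = true := by
    simp only [List.all_eq_true, List.mem_range, Bool.or_eq_true, Bool.not_eq_true', List.any_eq_true,
      Bool.and_eq_true, beq_iff_eq]
    intro k hk i hi
    cases hbi : mbit s i
    · exact Or.inl rfl
    refine Or.inr ?_
    obtain ⟨x, hx, hxe⟩ := (hbit' ⟨i, hi⟩).1 hbi
    obtain ⟨g, hg, hgu, hgr⟩ := hinv3 k hk
    have hgx := hinvK g hg hgu x hx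
    have hne : S.rho (g * x * g⁻¹) ≠ 1 := fun e => by
      rw [map_mul, map_mul, map_inv, hxe, mul_inv_eq_one] at e
      exact hτ1 _ (mul_eq_left.1 e)
    obtain ⟨l, hl⟩ := (hrho _ hgx).resolve_left hne
    refine ⟨l, l.2, (hbit' l).2 (hl ▸ ⟨_, hgx, rfl⟩), ?_⟩
    have e : S.rho g * τ ⟨i, hi⟩ = τ l * S.rho g := by
      rw [← hl, map_mul, map_mul, map_inv, hxe, inv_mul_cancel_right]
    have hn : comp (sImgs.getD k []) idL = sImgs.getD k [] :=
      beq_iff_eq.1 (List.all_eq_true.1 imgNormalOK_true k (List.mem_range.2 hk))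
    exact (hgr.mul (hτ ⟨i, hi⟩)).list_eq (e ▸ (hτ l).mul hgr)
      (comp_normal _ (s_normal (tA_getD hi))) (comp_normal _ hn)
  have hall := List.all_eq_true.1 invariantOK_true s (List.mem_range.2 (by simpa using hs))
  simp only [Bool.or_eq_true, Bool.not_eq_true', hclosed, hstable, Bool.true_eq_false, false_or] at hall
  rcases hall with (h0 | ha) | h127
  · -- the image is trivial
    have hKQ : K ≤ Q := fun x hx => by
      rcases hrho x hx with h | ⟨i, h⟩
      · exact S.D.mem_q h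
      · exfalso
        have := (hbit' i).2 (h ▸ ⟨x, hx, rfl⟩)
        rw [Nat.eq_of_beq_eq_true h0, mbit_eq, Nat.zero_testBit] at this
        exact Bool.false_ne_true this
    refine Subgroup.eq_of_le_of_card_ge ?_ ?_
    · intro x hx
      have hxz := coreIn_le S _ hx
      rw [coreIn_z]
      exact ⟨⟨x, hxz⟩, (baseH_inf_q S).le (Subgroup.mem_inf.2
        ⟨hKb _ ((hmemK ⟨x, hxz⟩).2 hx), hKQ ((hmemK ⟨x, hxz⟩).2 hx)⟩), rfl⟩
    · rw [← hnz, card_coreIn S hn, coreIn_z, Subgroup.card_map_of_injective (Subgroup.subtype_injective _),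
        card_pre]
  · -- the image is the fixed involution
    exfalso
    have haF : aFix < 7 := Nat.blt_eq.mp stabOK_true.2.2
    have hmap : (K.map S.rho : Set (Equiv.Perm Vec)) = {1, τ ⟨aFix, haF⟩} := by
      ext σ
      constructor
      · rintro ⟨x, hx, rfl⟩
        rcases hrho x hx with h | ⟨i, h⟩
        · exact Or.inl h
        · have hb := (hbit' i).2 (h ▸ ⟨x, hx, rfl⟩)
          rw [Nat.eq_of_beq_eq_true ha, mbit_eq, Nat.testBit_two_pow, decide_eq_true_eq] at hb
          exact Or.inr (h.trans (congrArg τ (Fin.ext hb.symm)))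
      · rintro (rfl | rfl)
        · exact one_mem _
        · refine (hbit' _).1 ?_
          rw [Nat.eq_of_beq_eq_true ha, mbit_eq, Nat.testBit_two_pow, decide_eq_true_eq]
    have hmc : Nat.card (K.map S.rho) = 2 := by
      rw [show Nat.card (K.map S.rho) = (K.map S.rho : Set (Equiv.Perm Vec)).ncard from Nat.card_coe_set_eq _,
        hmap, Set.ncard_pair (fun e => hτ1 _ e.symm)]
    rw [hmc] at hsplit
    have hth := thinOK_true
    simp only [thinOK, Bool.and_eq_true, List.all_eq_true] at hth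
    obtain ⟨⟨hperp, hlen⟩, hspan⟩ := hth
    obtain ⟨x0, hx0L, hx0⟩ : ∃ v ∈ L, enc v ∉ thinSub := by
      by_contra hne
      push Not at hne
      have hsub : enc '' L ⊆ (thinSub.toFinset : Set ℕ) := by
        rintro _ ⟨v, hv, rfl⟩
        exact List.mem_toFinset.2 (hne v hv)
      have := Set.ncard_le_ncard hsub (Finset.finite_toSet _)
      rw [Set.ncard_image_of_injective _ enc_injective, Set.ncard_coe_finset] at this
      have h16 := List.toFinset_card_le thinSub
      rw [Nat.eq_of_beq_eq_true hlen] at h16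
      omega
    have h := hspan (enc x0) (hLw _ hx0L)
    simp only [Bool.or_eq_true, List.contains_iff_mem, hx0, false_or, List.all_eq_true,
      List.any_eq_true] at h
    have hspanL : ∀ l : List ℕ, (∀ y ∈ l, ∃ v ∈ L, enc v = y) → ∀ y ∈ spanX l, ∃ v ∈ L, enc v = y := by
      intro l
      induction l with
      | nil =>
        intro _ y hy
        rw [show spanX [] = [0] from rfl, List.mem_singleton] at hy
        exact ⟨0, hL0, hy ▸ enc_zero'⟩
      | cons a l ih =>
        intro hl y hy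
        have ih' := ih fun b hb => hl b (List.mem_cons_of_mem _ hb)
        rw [show spanX (a :: l) = bif (spanX l).any (Nat.beq a) then spanX l
          else spanX l ++ (spanX l).map (Nat.xor a) from rfl] at hy
        cases hb : (spanX l).any (Nat.beq a) <;> rw [hb] at hy
        · rw [cond_false, List.mem_append, List.mem_map] at hy
          rcases hy with hy | ⟨b, hb', rfl⟩
          · exact ih' y hy
          · obtain ⟨v, hv, hve⟩ := ih' b hb'
            obtain ⟨w, hw, hwe⟩ := hl a List.mem_cons_self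
            exact ⟨w + v, hLadd _ hw _ hv, by rw [enc_add, hwe, hve]; rfl⟩
        · exact ih' y hy
    have hgen : ∀ y ∈ thinList ++ enc x0 :: xImgs.map (fun g => apL g (enc x0)), ∃ v ∈ L, enc v = y := by
      intro y hy
      rw [List.mem_append, List.mem_cons, List.mem_map] at hy
      rcases hy with hy | rfl | ⟨g, hg, rfl⟩
      · obtain ⟨e, he, rfl⟩ := List.mem_map.1 (show y ∈ thinVals.map _ from hy)
        have he' : e < 4096 := by
          have := hperp e he
          simp only [perpTwo, Bool.and_eq_true, Nat.blt_eq] at this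
          exact this.1
        obtain ⟨x, hx, hxe⟩ := hmap.ge (Or.inr rfl : τ ⟨aFix, haF⟩ ∈ ({1, τ ⟨aFix, haF⟩} : Set _))
        refine ⟨_, hdisp x hx e (hperp e he), ?_⟩
        rw [enc_add, hxe, rep_code (hτ _) he', enc_vecN he']
        rfl
      · exact ⟨x0, hx0L, rfl⟩
      · obtain ⟨k, hk, rfl⟩ := exists_getD [] hg
        rw [Nat.eq_of_beq_eq_true stabOK_true.2.1] at hk
        obtain ⟨g', hg', hgu, hgr⟩ := hxinv k hk
        exact ⟨_, hLinv g' hg' hgu _ hx0L, hgr x0⟩
    have hsubL : wSet ⊆ L := fun w hw => by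
      obtain ⟨y, hy, hwy⟩ := h (enc w) hw
      obtain ⟨v, hv, hve⟩ := hspanL _ hgen y hy
      rwa [← enc_injective (hve.trans (Nat.eq_of_beq_eq_true hwy).symm)]
    have := Set.ncard_le_ncard hsubL (Set.toFinite _)
    rw [wSet_ncard] at this
    omega
  · -- the image is everything
    exfalso
    have hall1 : ∀ i : Fin 7, τ i ∈ K.map S.rho := fun i => (hbit' i).1 (by
      rw [Nat.eq_of_beq_eq_true h127, mbit_eq]
      revert i
      decide)
    have h8 : 8 ≤ Nat.card (K.map S.rho) := by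
      rw [show Nat.card (K.map S.rho) = (K.map S.rho : Set (Equiv.Perm Vec)).ncard from Nat.card_coe_set_eq _]
      refine le_trans ?_ (Set.ncard_le_ncard (show insert 1 (Set.range τ) ⊆ _ from ?_) (Set.toFinite _))
      · rw [Set.ncard_insert_of_notMem (by rintro ⟨i, hi⟩; exact hτ1 i hi),
          Set.ncard_range_of_injective (fun i j e => hτinj i j e), Nat.card_eq_fintype_card, Fintype.card_fin]
      · rintro σ (rfl | ⟨i, rfl⟩)
        · exact one_mem _
        · exact hall1 i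
    have hw := wideOK_true
    simp only [wideOK, Bool.and_eq_true, List.all_eq_true, Nat.blt_eq] at hw
    obtain ⟨⟨hlen, hvals⟩, hnd⟩ := hw
    have hsub : ((wideVals.map fun t => Nat.xor (apL (tA.getD t.1 []) t.2) t.2).toFinset : Set ℕ) ⊆
        enc '' L := by
      intro y hy
      obtain ⟨t, ht, rfl⟩ := List.mem_map.1 (List.mem_toFinset.1 hy)
      obtain ⟨ht1, htp⟩ := hvals t ht
      obtain ⟨x, hx, hxe⟩ := hall1 ⟨t.1, ht1⟩
      have ht2 : t.2 < 4096 := by
        simp only [perpTwo, Bool.and_eq_true, Nat.blt_eq] at htp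
        exact htp.1
      refine ⟨_, hdisp x hx t.2 htp, ?_⟩
      rw [enc_add, hxe, rep_code (hτ _) ht2, enc_vecN ht2]
      rfl
    have h17 := Set.ncard_le_ncard hsub (Set.toFinite _)
    rw [Set.ncard_coe_finset, List.toFinset_card_of_nodup (nodupB_spec hnd), List.length_map,
      Nat.eq_of_beq_eq_true hlen, Set.ncard_image_of_injective _ enc_injective] at h17
    nlinarith

include hJ in
/-- **The orbit of the involution avoids the longer orbit on the preimage.** -/
theorem rest_disjoint : orbY S z ∩ above S restL = ∅ := by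
  classical
  rcases above_inter S (orbY_inv S (z_mem_base S) (fun e => S.D.z_ne (Subtype.ext e)))
      orb_facts.2.2.2.2.2.2.2.1 orb_facts.2.2.2.2.1 with h | h
  · exact h
  exfalso
  have hur : uTwo ∈ restL := by
    have h := sameOK_true
    simp only [sameOK, Bool.and_eq_true, List.contains_iff_mem] at h
    exact h.1.2
  obtain ⟨hu0w, hu0⟩ := orb_facts.2.2.2.2.1 _ hur
  have hlt := (w_facts.1 _ hu0w).1
  obtain ⟨u', hu'⟩ := S.D.psi_surj (vecN uTwo)
  have hue : enc (S.psi u') = uTwo := by rw [hu', enc_vecN hlt]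
  have hua : (u' : Cz[z]) ∈ above S restL := (mem_above S).2 (by rw [hue]; exact hur)
  obtain ⟨n, hn, hnz, hnu⟩ := exists_swap hJ S hua (h hua)
  have hcore := swap_normalizes hJ S u'.2 hue hn hnz hnu
  have hpu : (u' : Cz[z]) ∈ pre S := ⟨u'.2, by show enc _ ∈ wCodes; rw [hue]; exact hu0w⟩
  have hnpre : ∀ y : Cz[z], y ∈ pre S → ∀ m : G, (m = n ∨ m = n⁻¹) →
      ∃ y' ∈ pre S, (y' : G) = m * (y : G) * m⁻¹ := by
    intro y hy m hm
    have h1 : (y : G) ∈ coreIn S z := by rw [coreIn_z]; exact ⟨y, hy, rfl⟩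
    have h2 : m * (y : G) * m⁻¹ ∈ coreIn S z := by
      rcases hm with rfl | rfl
      · have := coreIn_conj S hn h1
        rwa [hnz, hcore] at this
      · have h1' := h1
        rw [← hcore] at h1'
        have := coreIn_conj S (inv_mem hn) h1'
        rwa [← hnz, show n⁻¹ * (n * z * n⁻¹) * n⁻¹⁻¹ = z by group] at this
    rw [coreIn_z] at h2
    obtain ⟨y', hy', he⟩ := h2
    exact ⟨y', hy', he⟩
  -- the transvection
  have hfl := List.all_eq_true.1 flipOK_true _ hu0w
  simp only [Bool.or_eq_true, List.any_eq_true, Bool.and_eq_true, Bool.not_eq_true', Nat.blt_eq] at hfl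
  obtain ⟨t, -, ⟨⟨⟨⟨-, ht1⟩, ht2⟩, ho1⟩, ho2⟩⟩ := hfl.resolve_left fun e => hu0 (Nat.eq_of_beq_eq_true e)
  have ht1w := inU_iff.1 ht1
  obtain ⟨f, hf⟩ := S.D.psi_surj (vecN (t.getD 2 0))
  obtain ⟨y0, hy0⟩ := S.D.psi_surj (vecN (t.getD 1 0))
  have hy0e : enc (S.psi y0) = t.getD 1 0 := by rw [hy0, enc_vecN (w_facts.1 _ ht1w).1]
  have hfe : enc (S.psi f) = t.getD 2 0 := by rw [hf, enc_vecN ht2]
  have hy0p : (y0 : Cz[z]) ∈ pre S := (mem_pre S).2 (by show enc _ ∈ wCodes; rw [hy0e]; exact ht1w)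
  have hfu : (f : Cz[z]) * u' = u' * f := (orth_iff_comm S (Subtype.ext (pre_sq S hpu))).1 (by
    rw [hfe, hue]; exact ho1)
  have hfy : (f : Cz[z]) * y0 * (f : Cz[z])⁻¹ ≠ y0 := fun e => by
    have := (orth_iff_comm S (Subtype.ext (pre_sq S hy0p))).2 (mul_inv_eq_iff_eq_mul.1 e)
    rw [hfe, hy0e, ho2] at this
    exact Bool.false_ne_true this
  have hfN := normalizer_of_stab S (q_le_stabH S f.2)
  set g : G := n * ((f : Cz[z]) : G) * n⁻¹ with hg
  have hgz : g * z = z * g := by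
    have e : ((f : Cz[z]) : G) * ((u' : Cz[z]) : G) = ((u' : Cz[z]) : G) * ((f : Cz[z]) : G) :=
      congrArg Subtype.val hfu
    rw [hg]
    have hz' : z = n * ((u' : Cz[z]) : G) * n⁻¹ := hnu.symm
    suffices n * ((f : Cz[z]) : G) * n⁻¹ * (n * ((u' : Cz[z]) : G) * n⁻¹) =
        n * ((u' : Cz[z]) : G) * n⁻¹ * (n * ((f : Cz[z]) : G) * n⁻¹) by rwa [hnu] at this
    calc n * ((f : Cz[z]) : G) * n⁻¹ * (n * ((u' : Cz[z]) : G) * n⁻¹)
        = n * (((f : Cz[z]) : G) * ((u' : Cz[z]) : G)) * n⁻¹ := by group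
      _ = n * ((u' : Cz[z]) : G) * n⁻¹ * (n * ((f : Cz[z]) : G) * n⁻¹) := by rw [e]; group
  set gH : Cz[z] := ⟨g, Subgroup.mem_centralizer_singleton_iff.2 hgz⟩ with hgH
  have hconj : ∀ y ∈ pre S, ∀ y' : Cz[z], y' ∈ pre S → (y' : G) = n⁻¹ * (y : G) * n⁻¹⁻¹ →
      (((f : Cz[z]) * y' * (f : Cz[z])⁻¹ = y' → gH * y * gH⁻¹ = y) ∧
      ((f : Cz[z]) * y' * (f : Cz[z])⁻¹ = y' * zC[z] → gH * y * gH⁻¹ = y * (u' : Cz[z]))) := by
    intro y hy y' hy' hye
    have key : ((gH * y * gH⁻¹ : Cz[z]) : G) =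
        n * (((f : Cz[z]) * y' * (f : Cz[z])⁻¹ : Cz[z]) : G) * n⁻¹ := by
      simp only [Subgroup.coe_mul, Subgroup.coe_inv, hye]
      show g * (y : G) * g⁻¹ = _
      rw [hg]
      group
    constructor <;> intro e <;> refine Subtype.ext ?_ <;> rw [key, e]
    · rw [hye]; group
    · rw [Subgroup.coe_mul, Subgroup.coe_mul, hye]
      show n * (n⁻¹ * (y : G) * n⁻¹⁻¹ * z) * n⁻¹ = (y : G) * ((u' : Cz[z]) : G)
      calc n * (n⁻¹ * (y : G) * n⁻¹⁻¹ * z) * n⁻¹ = (y : G) * (n * z * n⁻¹) := by group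
        _ = _ := by rw [hnz]
  have hgS : gH ∈ stabH S := by
    have h1 : g ∈ Subgroup.normalizer (base S : Set G) ⊓ Subgroup.centralizer ({z} : Set G) :=
      ⟨Subgroup.mul_mem _ (Subgroup.mul_mem _ hn hfN) (Subgroup.inv_mem _ hn), gH.2⟩
    rw [normalizer_inf] at h1
    obtain ⟨g', hg', he⟩ := h1
    rwa [show g' = gH from Subtype.ext he] at hg'
  set σ := S.rho gH with hσ
  set ub : Vec := S.psi u' with hub
  have hpsi : ∀ (y : Cz[z]) (hyq : y ∈ pCore 2 Cz[z]) (a : Cz[z]) (haq : a ∈ pCore 2 Cz[z]),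
      gH * y * gH⁻¹ = a → σ (S.psi ⟨y, hyq⟩) = S.psi ⟨a, haq⟩ := by
    intro y hyq a haq e
    subst e
    exact (conj_psi S gH ⟨y, hyq⟩).symm
  have hd : ∀ w ∈ wSet, σ w + w = 0 ∨ σ w + w = ub := by
    intro w hw
    obtain ⟨y, rfl⟩ := S.D.psi_surj w
    have hy : (y : Cz[z]) ∈ pre S := (mem_pre S).2 hw
    obtain ⟨y', hy', hye⟩ := hnpre y hy _ (Or.inr rfl)
    obtain ⟨h1, h2⟩ := hconj y hy y' hy' hye
    have hcases := S.D.eq_of_psi (a := ⟨(f : Cz[z]) * y' * (f : Cz[z])⁻¹,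
      (inferInstance : (pCore 2 Cz[z]).Normal).conj_mem _ (pre_le S hy') f⟩) (b := ⟨y', pre_le S hy'⟩) (by
        rw [conj_psi S (f : Cz[z]) ⟨y', pre_le S hy'⟩, S.D.rho_q f.2]; rfl)
    rcases hcases with e | e
    · left
      rw [hpsi y y.2 y y.2 (h1 e)]
      exact LargeFischer.Thompson.vec_self _
    · right
      rw [hpsi y y.2 _ (mul_mem y.2 u'.2) (h2 e),
        show (⟨(y : Cz[z]) * u', mul_mem y.2 u'.2⟩ : pCore 2 Cz[z]) = y * u' from rfl, S.D.psi_mul,
        add_comm (S.psi y) (S.psi u'), add_assoc, LargeFischer.Thompson.vec_self, add_zero]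
  obtain ⟨w0, hw0, hw0d⟩ : ∃ w0 ∈ wSet, σ w0 + w0 = ub := by
    obtain ⟨y, hy, hye⟩ := hnpre y0 hy0p _ (Or.inl rfl)
    have hye' : ((y0 : Cz[z]) : G) = n⁻¹ * (y : G) * n⁻¹⁻¹ := by rw [hye]; group
    have h2 := (hconj y hy y0 hy0p hye').2 ((S.D.eq_of_psi (a := ⟨(f : Cz[z]) * y0 * (f : Cz[z])⁻¹,
      (inferInstance : (pCore 2 Cz[z]).Normal).conj_mem _ y0.2 f⟩) (b := y0) (by
        rw [conj_psi S (f : Cz[z]) y0, S.D.rho_q f.2]; rfl)).resolve_left hfy)
    refine ⟨S.psi ⟨y, pre_le S hy⟩, (mem_pre S (a := ⟨y, pre_le S hy⟩)).1 hy, ?_⟩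
    rw [hpsi y (pre_le S hy) _ (mul_mem (pre_le S hy) u'.2) h2,
      show (⟨y * (u' : Cz[z]), mul_mem (pre_le S hy) u'.2⟩ : pCore 2 Cz[z]) = ⟨y, pre_le S hy⟩ * u' from rfl,
      S.D.psi_mul, add_comm (S.psi _) (S.psi u'), add_assoc, LargeFischer.Thompson.vec_self, add_zero]
  have hub0 : ub ≠ 0 := fun e => hu0 (hue.symm.trans ((congrArg enc e).trans enc_zero'))
  obtain ⟨b, hadd, hsmul, -⟩ := S.semi gH
  cases b
  · -- linear
    have e := hd _ (om_mem_w hw0)
    rw [hsmul, show twist false w4 = w4 by decide, ← hσ, ← smul_add, hw0d] at e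
    rcases e with e | e
    · exact hub0 ((smul_eq_zero.1 e).resolve_left (by decide))
    · have e' : (w4 - 1 : F4) • ub = 0 := by rw [sub_smul, e, one_smul, sub_self]
      exact hub0 ((smul_eq_zero.1 e').resolve_left (by decide))
  · -- semilinear
    have hsub : wSet ⊆ {0, ub, (w4 * w4) • ub, ub + (w4 * w4) • ub} := by
      intro w hw
      have e : w = (σ (w4 • w) + w4 • w) + (w4 * w4) • (σ w + w) := by
        rw [hσ, hsmul, show twist true w4 = w4 * w4 by decide, smul_add]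
        have h2 : ∀ a b c : Vec, a + b + (a + c) = b + c := fun a b c => by
          rw [add_add_add_comm, LargeFischer.Thompson.vec_self, zero_add]
        rw [h2, ← add_smul, show w4 + w4 * w4 = (1 : F4) by decide, one_smul]
      rcases hd _ (om_mem_w hw) with a | a <;> rcases hd _ hw with c | c <;>
        rw [e, a, c] <;> simp
    have hle := Set.ncard_le_ncard hsub (Set.toFinite _)
    rw [wSet_ncard] at hle
    have h4 : ({0, ub, (w4 * w4) • ub, ub + (w4 * w4) • ub} : Set Vec).ncard ≤ 4 := by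
      refine (Set.ncard_insert_le _ _).trans (Nat.succ_le_succ ?_)
      refine (Set.ncard_insert_le _ _).trans (Nat.succ_le_succ ?_)
      exact (Set.ncard_insert_le _ _).trans (by simp)
    omega

end Cfsg.Agent.JFourType.Decad
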