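import Cfsg.Agent.JFourType.Coded
import Cfsg.Agent.LargeFischer.ThompsonGroup
import Cfsg.Agent.LargeExtra.Centralizer
import Cfsg.Agent.Monster.ExtraForm
import Cfsg.Agent.PGroup.Extraspecial
import Cfsg.Agent.Golay.MathieuSimple
import Cfsg.Agent.Golay.OutMathieu
import Cfsg.Prelude.Def_JankoFourType

/-!
A group of Janko-four type: `E` modulo its centre is the Hermitian space of dimension six over the
field with four elements, the subgroup of order 3 acting as scalars, and the centraliser acts by
semilinear isometries.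
-/

set_option autoImplicit false

namespace Cfsg.Agent.JFourType

open Cfsg
open Cfsg.Agent.GFour25
open Cfsg.Agent.SporB.FischerU (Vec)
open Cfsg.Agent.LargeFischer (IsSemi semiU twist exists_coords Space mk4 mk4_zero)
open Cfsg.Agent.TTClass

section

variable {W : Type*} [AddCommGroup W]

/-- An action transported to a group isomorphic to the module. -/
def conjPerm {V : Type*} [AddCommGroup V] (e : W ≃+ V) : (AddMonoid.End W)ˣ →* Equiv.Perm V where
  toFun u :=
    { toFun := fun x => e ((u : AddMonoid.End W) (e.symm x))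
      invFun := fun x => e ((↑u⁻¹ : AddMonoid.End W) (e.symm x))
      left_inv := fun x => by
        simp only [AddEquiv.symm_apply_apply]
        rw [show (↑u⁻¹ : AddMonoid.End W) ((u : AddMonoid.End W) (e.symm x)) = e.symm x from
          DFunLike.congr_fun u.inv_mul (e.symm x), AddEquiv.apply_symm_apply]
      right_inv := fun x => by
        simp only [AddEquiv.symm_apply_apply]
        rw [show (u : AddMonoid.End W) ((↑u⁻¹ : AddMonoid.End W) (e.symm x)) = e.symm x from
          DFunLike.congr_fun u.mul_inv (e.symm x), AddEquiv.apply_symm_apply] }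
  map_one' := Equiv.ext fun x => by simp
  map_mul' u v := Equiv.ext fun x => by simp

theorem conjPerm_apply {V : Type*} [AddCommGroup V] (e : W ≃+ V) (u : (AddMonoid.End W)ˣ) (x : V) :
    conjPerm e u x = e ((u : AddMonoid.End W) (e.symm x)) := rfl

theorem conjPerm_injective {V : Type*} [AddCommGroup V] (e : W ≃+ V) :
    Function.Injective (conjPerm e) := fun u v h => Units.ext (DFunLike.ext _ _ fun w => by
  have h1 := Equiv.Perm.ext_iff.1 h (e w)
  simpa [conjPerm_apply] using h1)

end

theorem card_aut_M22 : Nat.card (MulAut Spor.M22) = 887040 := by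
  haveI := Golay.isSimpleGroup_M22
  rw [Subgroup.card_eq_card_quotient_mul_card_subgroup (Inn Spor.M22)]
  have h1 : Nat.card (MulAut Spor.M22 ⧸ Inn Spor.M22) = 2 := Golay.out_M22
  have hinj : Function.Injective (MulAut.conj : Spor.M22 →* MulAut Spor.M22) := by
    rw [← MonoidHom.ker_eq_bot_iff]
    rcases IsSimpleGroup.eq_bot_or_eq_top_of_normal (MulAut.conj : Spor.M22 →* MulAut Spor.M22).ker
      inferInstance with h | h
    · exact h
    · exfalso
      have hc : ∀ u v : Spor.M22, u * v = v * u := fun u v => by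
        have h1 := DFunLike.congr_fun (MonoidHom.mem_ker.1 (h ▸ Subgroup.mem_top u :
          u ∈ (MulAut.conj : Spor.M22 →* MulAut Spor.M22).ker)) v
        rw [MulAut.conj_apply, MulAut.one_apply, mul_inv_eq_iff_eq_mul] at h1
        exact h1
      letI : CommGroup Spor.M22 := { (inferInstance : Group Spor.M22) with mul_comm := hc }
      have hp : (Nat.card Spor.M22).Prime := IsSimpleGroup.prime_card
      rw [Golay.card_M22] at hp
      norm_num at hp
  have h2 : Nat.card (Inn Spor.M22) = 443520 := by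
    rw [← Golay.card_M22]
    exact (Nat.card_congr (MonoidHom.ofInjective hinj).toEquiv).symm
  rw [h1, h2]

/-- A subgroup of index two of `Aut M22` is the group of inner automorphisms. -/
theorem index_two_eq_inn {K : Subgroup (MulAut Spor.M22)} (hsq : ∀ x, x * x ∈ K) (hne : K ≠ ⊤) :
    K = Inn Spor.M22 := by
  haveI := Golay.isSimpleGroup_M22
  haveI : K.Normal := ⟨fun k hk g => by
    have := mul_mem (mul_mem (hsq (g * k)) (inv_mem hk)) (inv_mem (hsq g))
    rwa [show g * k * (g * k) * k⁻¹ * (g * g)⁻¹ = g * k * g⁻¹ by group] at this⟩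
  have hle : Inn Spor.M22 ≤ K := by
    rcases IsSimpleGroup.eq_bot_or_eq_top_of_normal
      (K.comap (MulAut.conj : Spor.M22 →* MulAut Spor.M22)) inferInstance with h | h
    · exfalso
      obtain ⟨y, hy⟩ := @exists_prime_orderOf_dvd_card' Spor.M22 _ _ 3 ⟨Nat.prime_three⟩
        (by rw [Golay.card_M22]; norm_num)
      have hy2 : y * y ∈ K.comap (MulAut.conj : Spor.M22 →* MulAut Spor.M22) := by
        rw [Subgroup.mem_comap, map_mul]
        exact hsq _
      rw [h, Subgroup.mem_bot, ← pow_two] at hy2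
      have := orderOf_dvd_of_pow_eq_one hy2
      rw [hy] at this
      norm_num at this
    · rintro _ ⟨g, rfl⟩
      exact (show g ∈ K.comap (MulAut.conj : Spor.M22 →* MulAut Spor.M22) from h ▸ Subgroup.mem_top g)
  refine (Subgroup.eq_of_le_of_card_ge hle ?_).symm
  have h2 : 2 ≤ K.index := by
    have := Subgroup.index_ne_zero_of_finite (H := K)
    have h1 : K.index ≠ 1 := fun e => hne (Subgroup.index_eq_one.1 e)
    omega
  have hc := K.card_mul_index
  have hi := (Inn Spor.M22).card_mul_index
  rw [show (Inn Spor.M22).index = 2 from Golay.out_M22] at hi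
  nlinarith

/-- The data read off a group of Janko-four type. -/
theorem exists_frame {G : Type*} [Group G] [Finite G] {z : G} {P : Subgroup G}
    (hJ : IsOfJankoFourTypeWith z P) :
    ∃ (rho : Subgroup.centralizer ({z} : Set G) →* Equiv.Perm Vec)
      (psi : pCore 2 (Subgroup.centralizer ({z} : Set G)) → Vec)
      (M : Subgroup (Subgroup.centralizer ({z} : Set G)))
      (q : Subgroup.centralizer ({z} : Set G) →* MulAut Spor.M22),
      LargeFischer.Thompson.Ext (pCore 2 (Subgroup.centralizer ({z} : Set G)))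
        ⟨z, Subgroup.mem_centralizer_singleton_iff.2 rfl⟩ rho psi ∧
      (∀ h, rho h ∈ semiU) ∧ (∀ m ∈ M, IsSemi false (rho m)) ∧
      (∀ h h', h ∉ M → h' ∉ M → h * h' ∈ M) ∧ (∀ m ∈ M, ∀ h, h * m * h⁻¹ ∈ M) ∧
      (∃ h, h ∉ M ∧ IsSemi true (rho h)) ∧
      (∀ x : Spor.M22, ∃ m ∈ M, q m = MulAut.conj x) ∧
      (∀ m ∈ M, q m = 1 → rho m ∈ scal) ∧ (∀ h, rho h = 1 → q h = 1) ∧
      Nat.card (M.map rho) = 1330560 ∧ Nat.card rho.range = 2661120 := by
  classical
  obtain ⟨hz, hEx, hcardE, hself, ⟨N, hEN, hNH, -, hN3, ⟨hNn, ⟨e22⟩⟩, hPN⟩, hP3, hfix, hne, -⟩ := hJ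
  haveI : Fact (Nat.Prime 2) := ⟨Nat.prime_two⟩
  haveI : Fact (Nat.Prime 3) := ⟨Nat.prime_three⟩
  haveI := hNn
  set C := Subgroup.centralizer ({z} : Set G) with hC
  set Q : Subgroup C := pCore 2 C with hQdef
  have hEeq : twoCoreOfCentralizer z = Q.map C.subtype := rfl
  rw [hEeq] at hEx hcardE hself hEN hN3 hfix
  haveI hQn : Q.Normal := inferInstanceAs (pCore 2 C).Normal
  have hzC : z ∈ C := Subgroup.mem_centralizer_singleton_iff.2 rfl
  have hzQ : z ∈ Q.map C.subtype := hself ⟨hzC, Subgroup.mem_centralizer_iff.2 fun e he =>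
    Subgroup.mem_centralizer_singleton_iff.1 (Subgroup.map_subtype_le _ he)⟩
  have hcentE : Subgroup.centralizer (Q.map C.subtype : Set G) ≤ Q.map C.subtype := fun g hg =>
    hself ⟨Subgroup.mem_centralizer_singleton_iff.2
      (Subgroup.mem_centralizer_iff.1 hg z hzQ).symm, hg⟩
  obtain ⟨n, -, hS⟩ := LargeExtra.exists_setting hz (E := Q.map C.subtype) rfl hEx hcentE
  obtain rfl : n = 6 := by
    have h := hS.card
    rw [hcardE] at h
    have := Nat.pow_right_injective (le_refl 2) h
    omega
  have hci := hS.ci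
  have hE : IsExtraspecial 2 Q := by
    have e := (Q.equivMapOfInjective _ C.subtype_injective).symm
    exact LargeExtra.isExtraspecial_map_equiv hEx e
  have hQ8 : Nat.card Q = 8192 := by
    rw [Nat.card_congr (Q.equivMapOfInjective _ C.subtype_injective).toEquiv, hcardE]
    norm_num
  have hcz : ∀ q : Q, q ∈ Subgroup.center Q ↔ ((q : C) : G) = 1 ∨ ((q : C) : G) = z := by
    intro q
    constructor
    · intro hq
      refine hci.of_central _ ⟨_, q.2, rfl⟩ ?_
      rintro _ ⟨r, hr, rfl⟩
      exact congrArg (fun x : Q => ((x : C) : G)) (Subgroup.mem_center_iff.1 hq ⟨r, hr⟩)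
    · intro h
      refine Subgroup.mem_center_iff.2 fun r => Subtype.ext (Subtype.ext ?_)
      have hr := Subgroup.mem_centralizer_singleton_iff.1 (r : C).2
      show ((r : C) : G) * ((q : C) : G) = _
      rcases h with h | h
      · simp [h]
      · simp only [Subgroup.coe_mul, h, hr]
  -- the module
  have hcomm : ∀ u v : Q ⧸ Subgroup.center Q, u * v = v * u := by
    intro u v
    induction u using QuotientGroup.induction_on with | _ a => ?_
    induction v using QuotientGroup.induction_on with | _ b => ?_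
    rw [← QuotientGroup.mk_mul, ← QuotientGroup.mk_mul, QuotientGroup.eq]
    have h := Monster.extraspecial_center_mem hE b⁻¹ a⁻¹
    rwa [inv_inv, inv_inv, mul_assoc, ← mul_inv_rev] at h
  letI : CommGroup (Q ⧸ Subgroup.center Q) :=
    { (inferInstance : Group (Q ⧸ Subgroup.center Q)) with mul_comm := hcomm }
  let W := Additive (Q ⧸ Subgroup.center Q)
  let pr : Q → W := fun a => Additive.ofMul (QuotientGroup.mk a)
  have pr_surj : Function.Surjective pr := fun v => QuotientGroup.mk_surjective (Additive.toMul v)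
  have pr_add : ∀ a b, pr (a * b) = pr a + pr b := fun _ _ => rfl
  have pr_zero : ∀ a, pr a = 0 ↔ a ∈ Subgroup.center Q := fun a => QuotientGroup.eq_one_iff a
  have h2 : ∀ v : W, v + v = 0 := fun v => by
    obtain ⟨a, rfl⟩ := pr_surj v
    rw [← pr_add, pr_zero]
    exact Monster.extraspecial_sq_mem_center hE a
  have hW : Nat.card W = 4096 := by
    have h := (Subgroup.center Q).card_eq_card_quotient_mul_card_subgroup
    rw [hQ8, hE.2] at h
    show Nat.card (Q ⧸ Subgroup.center Q) = 4096
    omega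
  have hle : ∀ φ : MulAut Q, Subgroup.center Q ≤ (Subgroup.center Q).comap φ.toMonoidHom := fun φ q hq => by
    show φ q ∈ Subgroup.center Q
    rw [Monster.extraspecial_automorphism_fix hE φ hq]
    exact hq
  let actE : C →* AddMonoid.End W :=
    { toFun := fun h => MonoidHom.toAdditive (QuotientGroup.map (Subgroup.center Q) (Subgroup.center Q)
        (MulAut.conjNormal h : MulAut Q).toMonoidHom (hle _))
      map_one' := DFunLike.ext _ _ fun v => by
        obtain ⟨a, rfl⟩ := pr_surj v
        show pr ((MulAut.conjNormal (1 : C) : MulAut Q) a) = pr a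
        rw [map_one]; rfl
      map_mul' := fun h h' => DFunLike.ext _ _ fun v => by
        obtain ⟨a, rfl⟩ := pr_surj v
        show pr ((MulAut.conjNormal (h * h') : MulAut Q) a) = _
        rw [map_mul]; rfl }
  let act := actE.toHomUnits
  have hact : ∀ h a, (act h : AddMonoid.End W) (pr a) = pr ((MulAut.conjNormal h : MulAut Q) a) :=
    fun _ _ => rfl
  have hker : ∀ h, act h = 1 ↔ h ∈ Q := by
    intro h
    constructor
    · intro h1
      obtain ⟨q, hq, hqe⟩ := hS.mem_of_commutator_center (d := (h : G))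
        (Subgroup.mem_centralizer_singleton_iff.1 h.2) (by
          rintro _ ⟨r, hr, rfl⟩
          have h3 := (hact h ⟨r, hr⟩).symm
          rw [h1] at h3
          have h4 : ((MulAut.conjNormal h : MulAut Q) ⟨r, hr⟩) * (⟨r, hr⟩ : Q)⁻¹ ∈ Subgroup.center Q := by
            rw [← pr_zero, pr_add,
              show pr ((MulAut.conjNormal h : MulAut Q) ⟨r, hr⟩) = pr (⟨r, hr⟩ : Q) from h3,
              ← pr_add, mul_inv_cancel]
            rfl
          have h5 := (hcz _).1 h4
          simp only [Subgroup.coe_mul, Subgroup.coe_inv, MulAut.conjNormal_apply] at h5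
          exact h5)
      have : q = h := Subtype.ext hqe
      exact this ▸ hq
    · intro hh
      refine Units.ext (DFunLike.ext _ _ fun v => ?_)
      obtain ⟨a, rfl⟩ := pr_surj v
      rw [hact]
      have hc := Monster.extraspecial_center_mem hE ⟨h, hh⟩ a
      have he : (MulAut.conjNormal h : MulAut Q) a =
          (⟨h, hh⟩ * a * (⟨h, hh⟩ : Q)⁻¹ * a⁻¹) * a := Subtype.ext (by simp)
      rw [he, pr_add, (pr_zero _).2 hc, zero_add]
      rfl
  -- the form
  obtain ⟨B, q, hq, -, hqadd, hBself, hBsymm, hnd, hinv⟩ :=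
    Monster.exists_extraspecial_form hE (L := W) Additive.toMul (fun _ _ => rfl)
  have hqact : ∀ h v, q ((act h : AddMonoid.End W) v) = q v := fun h =>
    (hinv (MulAut.conjNormal h) (fun v => (act h : AddMonoid.End W) v) fun v a ha => by
      obtain rfl : v = pr a := ha
      exact hact h a).2
  -- the element of order 3
  obtain ⟨⟨x0, hx0P⟩, hx3⟩ := exists_prime_orderOf_dvd_card' (G := P) 3 (by rw [hP3])
  rw [Subgroup.orderOf_mk] at hx3
  have hPz : P = Subgroup.zpowers x0 := (Subgroup.eq_of_le_of_card_ge (Subgroup.zpowers_le.2 hx0P)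
    (by rw [hP3, Nat.card_zpowers, hx3])).symm
  have hxC : x0 ∈ C := hNH (hPN hx0P)
  set x : C := ⟨x0, hxC⟩ with hx
  set a := act x with ha
  have ha3 : a ^ 3 = 1 := by
    rw [ha, ← map_pow, show x ^ 3 = 1 from Subtype.ext (by
      show x0 ^ 3 = 1
      rw [← hx3, pow_orderOf_eq_one]), map_one]
  let aW : W →+ W := (a : AddMonoid.End W)
  have a3 : ∀ v, aW (aW (aW v)) = v := fun v => by
    have := congrArg (fun u : (AddMonoid.End W)ˣ => (u : AddMonoid.End W) v) ha3
    rw [pow_succ, pow_two] at this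
    exact this
  have hnofix : ∀ v, aW v = v → v = 0 := by
    intro v hv
    obtain ⟨e, rfl⟩ := pr_surj v
    rw [pr_zero, hcz]
    have h1 : pr ((MulAut.conjNormal x : MulAut Q) e) = pr e := by rw [← hact]; exact hv
    have h4 : ((MulAut.conjNormal x : MulAut Q) e) * e⁻¹ ∈ Subgroup.center Q := by
      rw [← pr_zero, pr_add, h1, ← pr_add, mul_inv_cancel]
      rfl
    have h5 := (hcz _).1 h4
    simp only [Subgroup.coe_mul, Subgroup.coe_inv, MulAut.conjNormal_apply] at h5
    set u := ((e : C) : G) with hu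
    have hzc : x0 * z = z * x0 := Subgroup.mem_centralizer_singleton_iff.1 hxC
    have hx1 : x0 ^ 3 = 1 := by rw [← hx3, pow_orderOf_eq_one]
    have hfixu : x0 * u * x0⁻¹ = u := by
      rcases h5 with h5 | h5
      · exact mul_inv_eq_one.1 h5
      · exfalso
        have hcx : x0 * u * x0⁻¹ = z * u := mul_inv_eq_iff_eq_mul.1 h5
        have hz2 : z * z = 1 := hci.sq
        have hz' : x0 * z * x0⁻¹ = z := by rw [hzc, mul_inv_cancel_right]
        have e1 : x0 ^ 3 * u * (x0 ^ 3)⁻¹ = z * u := by
          calc x0 ^ 3 * u * (x0 ^ 3)⁻¹ = x0 * (x0 * (x0 * u * x0⁻¹) * x0⁻¹) * x0⁻¹ := by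
                rw [pow_succ, pow_two]; simp only [mul_inv_rev, mul_assoc]
            _ = x0 * (x0 * (z * u) * x0⁻¹) * x0⁻¹ := by rw [hcx]
            _ = x0 * ((x0 * z * x0⁻¹) * (x0 * u * x0⁻¹)) * x0⁻¹ := by group
            _ = x0 * (z * (z * u)) * x0⁻¹ := by rw [hz', hcx]
            _ = x0 * u * x0⁻¹ := by rw [← mul_assoc z z, hz2, one_mul]
            _ = z * u := hcx
        rw [hx1, one_mul, inv_one, mul_one] at e1
        exact hci.ne_one (mul_eq_right.1 e1.symm)
    have hmem : u ∈ Q.map C.subtype ⊓ Subgroup.centralizer (P : Set G) := by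
      refine ⟨⟨_, e.2, rfl⟩, Subgroup.mem_centralizer_iff.2 fun p hp => ?_⟩
      rw [hPz] at hp
      obtain ⟨k, rfl⟩ := Subgroup.mem_zpowers_iff.1 hp
      exact ((show Commute x0 u from mul_inv_eq_iff_eq_mul.1 hfixu).zpow_left k).eq
    rw [hfix] at hmem
    obtain ⟨k, hk⟩ := ((isOfFinOrder_of_finite z).mem_powers_iff_mem_zpowers).2 hmem
    have hk' : z ^ k = u := hk
    have hz2' : z ^ 2 = 1 := by rw [pow_two]; exact hci.sq
    rw [pow_eq_pow_mod k hz2'] at hk'
    rcases Nat.mod_two_eq_zero_or_one k with h | h <;> rw [h] at hk'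
    · exact Or.inl (hk'.symm.trans (pow_zero z))
    · exact Or.inr (hk'.symm.trans (pow_one z))
  have hquad : ∀ v, aW (aW v) + aW v + v = 0 := fun v => hnofix _ (by
    rw [map_add, map_add, a3]; abel)
  have hSp : Space aW q B :=
    { two := h2, quad := hquad, q_add := hqadd, self := hBself, symm := hBsymm
      nondeg := fun v hv => hnd (fun x => ⟨Additive.ofMul x, rfl⟩) v hv
      q_a := hqact x }
  obtain ⟨e, he_a, he_q⟩ := exists_coords hW hSp
  have heq : ∀ v, UnitF4.H v v = mk4 (q (e.symm v)) 0 := fun v => by rw [← he_q, e.apply_symm_apply]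
  -- the representation
  let rho : C →* Equiv.Perm Vec := (conjPerm e).comp act
  have rho_apply : ∀ h v, rho h v = e ((act h : AddMonoid.End W) (e.symm v)) := fun _ _ => rfl
  have rho_add : ∀ h u v, rho h (u + v) = rho h u + rho h v := fun h u v => by
    simp only [rho_apply, map_add]
  have rho_norm : ∀ h v, UnitF4.H (rho h v) (rho h v) = UnitF4.H v v := fun h v => by
    rw [rho_apply, he_q, hqact, heq]
  have he_symm : ∀ v, e.symm (w4 • v) = aW (e.symm v) := fun v => by
    rw [AddEquiv.symm_apply_eq, he_a, e.apply_symm_apply]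
    rfl
  have rho_x : rho x = omP := Equiv.ext fun v => by
    rw [omP_apply, rho_apply, ← ha, show (a : AddMonoid.End W) (e.symm v) = aW (e.symm v) from rfl, he_a,
      e.apply_symm_apply]
    rfl
  have rho_ker : rho.ker = Q := by
    ext h
    rw [MonoidHom.mem_ker, ← hker h]
    exact map_eq_one_iff _ (conjPerm_injective e)
  -- the image of N
  set N' := N.subgroupOf C with hN'
  have hQN' : Q ≤ N' := fun h hh => Subgroup.mem_subgroupOf.2 (hEN ⟨h, hh, rfl⟩)
  have hxN' : x ∈ N' := Subgroup.mem_subgroupOf.2 (hPN hx0P)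
  have hN'c : Nat.card N' = 3 * 8192 := by
    rw [Nat.card_congr (Subgroup.subgroupOfEquivOfLe hNH).toEquiv, hN3, hcardE]
    norm_num
  have hNsc : ∀ h ∈ N', rho h ∈ scal := by
    have hle : N' ≤ scal.comap rho := by
      have hsup : Q ⊔ Subgroup.zpowers x = N' := by
        refine Subgroup.eq_of_le_of_card_ge (sup_le hQN' (Subgroup.zpowers_le.2 hxN')) ?_
        have hd : 8192 ∣ Nat.card ↥(Q ⊔ Subgroup.zpowers x) := hQ8 ▸ Subgroup.card_dvd_of_le le_sup_left
        have h3 : 3 ∣ Nat.card ↥(Q ⊔ Subgroup.zpowers x) := by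
          have := Subgroup.card_dvd_of_le (le_sup_right : Subgroup.zpowers x ≤ Q ⊔ Subgroup.zpowers x)
          rwa [Nat.card_zpowers, show orderOf x = 3 by rw [hx, Subgroup.orderOf_mk, hx3]] at this
        rw [hN'c]
        exact Nat.le_of_dvd Nat.card_pos (Nat.Coprime.mul_dvd_of_dvd_of_dvd (by norm_num) h3 hd)
      rw [← hsup]
      refine sup_le (fun h hh => ?_) (Subgroup.zpowers_le.2 ?_)
      · rw [← rho_ker, MonoidHom.mem_ker] at hh
        rw [Subgroup.mem_comap, hh]
        exact one_mem _
      · rw [Subgroup.mem_comap, rho_x]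
        exact Subgroup.mem_zpowers _
    exact fun h hh => hle hh
  have hxpow : ∀ h, ∃ j < 3, rho (h * x * h⁻¹) = omP ^ j := fun h =>
    mem_scal (hNsc _ (hNn.conj_mem x hxN' h))
  have homne : omP ≠ 1 := fun h => by
    have hxQ : x ∈ Q := by rw [← rho_ker, MonoidHom.mem_ker, rho_x, h]
    have := Q.orderOf_dvd_natCard hxQ
    rw [hx, Subgroup.orderOf_mk, hx3, hQ8] at this
    norm_num at this
  have hcases : ∀ h, rho h * omP = omP * rho h ∨ rho h * omP = omP ^ 2 * rho h := by
    intro h
    obtain ⟨j, hj, hje⟩ := hxpow h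
    rw [map_mul, map_mul, map_inv, rho_x, mul_inv_eq_iff_eq_mul] at hje
    interval_cases j
    · rw [pow_zero, one_mul] at hje
      exact absurd (mul_eq_left.1 hje) homne
    · rw [pow_one] at hje; exact Or.inl hje
    · exact Or.inr hje
  have rho_semi_of : ∀ h (b : Bool), rho h * omP = (bif b then omP ^ 2 else omP) * rho h →
      IsSemi b (rho h) := by
    intro h b hb
    refine ⟨rho_add h, smul_of_om (rho_add h) b fun v => ?_, rho_norm h⟩
    have h1 := Equiv.Perm.ext_iff.1 hb v
    rw [Equiv.Perm.mul_apply, omP_apply, Equiv.Perm.mul_apply] at h1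
    rw [h1]
    cases b
    · rw [cond_false, omP_apply]; rfl
    · rw [cond_true, pow_two, Equiv.Perm.mul_apply, omP_apply, omP_apply, smul_smul]
      rfl
  -- the linear part
  let M : Subgroup C := (Subgroup.centralizer {omP}).comap rho
  have hM : ∀ h, h ∈ M ↔ rho h * omP = omP * rho h := fun h => Subgroup.mem_centralizer_singleton_iff
  have hnM : ∀ h, h ∉ M → rho h * omP = omP ^ 2 * rho h := fun h hh =>
    (hcases h).resolve_left fun e => hh ((hM h).2 e)
  have hMlin : ∀ m ∈ M, IsSemi false (rho m) := fun m hm => rho_semi_of m false ((hM m).1 hm)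
  have hsq : ∀ h h', h ∉ M → h' ∉ M → h * h' ∈ M := by
    intro h h' hh hh'
    rw [hM, map_mul, mul_assoc, hnM h' hh', ← mul_assoc, comm_power' (hnM h hh) 2, ← pow_mul,
      pow_eq_pow_mod (2 * 2) omP_pow_three, show 2 * 2 % 3 = 1 from rfl, pow_one, mul_assoc]
  have hsemi : ∀ h, rho h ∈ semiU := fun h => by
    rcases hcases h with e | e
    · exact ⟨false, rho_semi_of h false e⟩
    · exact ⟨true, rho_semi_of h true e⟩
  -- an element inverting the subgroup of order three
  obtain ⟨h0, hh0⟩ : ∃ h, h ∉ M := by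
    by_contra hall
    push Not at hall
    refine hne (le_antisymm ?_ (inf_le_inf_left _ (Subgroup.centralizer_le_normalizer _)))
    rintro g ⟨hgC, hgN⟩
    refine ⟨hgC, ?_⟩
    have hconj : g * x0 * g⁻¹ ∈ P := (Subgroup.mem_normalizer_iff.1 hgN x0).1 hx0P
    rw [hPz] at hconj
    obtain ⟨k, hk⟩ := ((isOfFinOrder_of_finite x0).mem_powers_iff_mem_zpowers).2 hconj
    have hk' : x0 ^ k = g * x0 * g⁻¹ := hk
    rw [← pow_mod_orderOf, hx3] at hk'
    have hgx : (⟨g, hgC⟩ : C) * x * (⟨g, hgC⟩ : C)⁻¹ = x ^ (k % 3) := Subtype.ext hk'.symm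
    have h1 : omP ^ (k % 3) = omP := by
      have := congrArg rho hgx
      rw [map_mul, map_mul, map_inv, map_pow, rho_x, (hM _).1 (hall ⟨g, hgC⟩), mul_inv_cancel_right] at this
      exact this.symm
    have hk1 : k % 3 = 1 := by
      have h3 : orderOf omP = 3 := orderOf_eq_prime omP_pow_three homne
      have := pow_injOn_Iio_orderOf (x := omP) (show k % 3 ∈ Set.Iio (orderOf omP) by rw [h3]; exact Nat.mod_lt _ (by norm_num))
        (show 1 ∈ Set.Iio (orderOf omP) by rw [h3]; exact (by norm_num : 1 < 3)) (by simpa using h1)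
      exact this
    rw [hk1, pow_one] at hk'
    refine Subgroup.mem_centralizer_iff.2 fun p hp => ?_
    rw [hPz] at hp
    obtain ⟨l, rfl⟩ := Subgroup.mem_zpowers_iff.1 hp
    exact ((show Commute x0 g from ((mul_inv_eq_iff_eq_mul.1 hk'.symm).symm)).zpow_left l).eq
  -- the quotient
  let qh : C →* MulAut Spor.M22 := e22.toMonoidHom.comp (QuotientGroup.mk' N')
  have hqs : Function.Surjective qh := e22.surjective.comp (QuotientGroup.mk'_surjective _)
  have hqk : qh.ker = N' := by
    ext h
    rw [MonoidHom.mem_ker]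
    show e22 (QuotientGroup.mk h) = 1 ↔ _
    rw [map_eq_one_iff _ e22.injective, QuotientGroup.eq_one_iff]
  have hNM : N' ≤ M := fun h hh => by
    obtain ⟨j, -, hj⟩ := mem_scal (hNsc h hh)
    rw [hM, hj]
    exact ((Commute.refl omP).pow_left j).eq
  have hMinn : M.map qh = Inn Spor.M22 := by
    refine index_two_eq_inn (fun y => ?_) (fun htop => hh0 ?_)
    · obtain ⟨h, rfl⟩ := hqs y
      refine ⟨h * h, ?_, map_mul _ _ _⟩
      by_cases hh : h ∈ M
      · exact mul_mem hh hh
      · exact hsq h h hh hh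
    · obtain ⟨m, hm, he⟩ := (htop ▸ Subgroup.mem_top (qh h0) : qh h0 ∈ M.map qh)
      have : m⁻¹ * h0 ∈ N' := by
        rw [← hqk, MonoidHom.mem_ker, map_mul, map_inv, he, inv_mul_cancel]
      have := mul_mem hm (hNM this)
      rwa [mul_inv_cancel_left] at this
  have hconjM : ∀ m ∈ M, ∀ h, h * m * h⁻¹ ∈ M := by
    intro m hm h
    by_cases hh : h ∈ M
    · exact mul_mem (mul_mem hh hm) (inv_mem hh)
    · exact hsq _ _ (fun hc => hh (by simpa using mul_mem hc (inv_mem hm))) (fun hc => hh (inv_mem_iff.1 hc))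
  have hmap3 : N'.map rho = scal := by
    refine le_antisymm ?_ ?_
    · rintro _ ⟨h, hh, rfl⟩; exact hNsc h hh
    · exact Subgroup.zpowers_le.2 ⟨x, hxN', rho_x⟩
  have hsplit : ∀ L : Subgroup C, N' ≤ L → Nat.card (L.map rho) = 3 * Nat.card (L.map qh) := by
    intro L hL
    have h1 : Nat.card L = Nat.card (L.map rho) * 8192 := by
      let f := rho.comp L.subtype
      have hr : f.range = L.map rho := by rw [MonoidHom.range_comp, Subgroup.range_subtype]
      have hk : f.ker = Q.subgroupOf L := by
        ext y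
        rw [MonoidHom.mem_ker, Subgroup.mem_subgroupOf, ← rho_ker, MonoidHom.mem_ker]
        rfl
      have h := f.ker.card_mul_index
      rw [Subgroup.index_ker, hr, hk, Nat.card_congr (Subgroup.subgroupOfEquivOfLe (hQN'.trans hL)).toEquiv,
        hQ8] at h
      rw [← h, mul_comm]
    have h2' : Nat.card L = Nat.card (L.map qh) * (3 * 8192) := by
      let f := qh.comp L.subtype
      have hr : f.range = L.map qh := by rw [MonoidHom.range_comp, Subgroup.range_subtype]
      have hk : f.ker = N'.subgroupOf L := by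
        ext y
        rw [MonoidHom.mem_ker, Subgroup.mem_subgroupOf, ← hqk, MonoidHom.mem_ker]
        rfl
      have h := f.ker.card_mul_index
      rw [Subgroup.index_ker, hr, hk, Nat.card_congr (Subgroup.subgroupOfEquivOfLe hL).toEquiv,
        hN'c] at h
      rw [← h, mul_comm]
    omega
  have hInn : Nat.card (Inn Spor.M22) = 443520 := by
    have h := (Inn Spor.M22).card_mul_index
    rw [show (Inn Spor.M22).index = 2 from Golay.out_M22, card_aut_M22] at h
    omega
  have hcM : Nat.card (M.map rho) = 1330560 := by rw [hsplit M hNM, hMinn, hInn]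
  have hcR : Nat.card rho.range = 2661120 := by
    rw [MonoidHom.range_eq_map, hsplit ⊤ le_top, ← MonoidHom.range_eq_map,
      MonoidHom.range_eq_top.2 hqs, Subgroup.card_top, card_aut_M22]
  refine ⟨rho, fun q => e (pr q), M, qh, ?_, hsemi, hMlin, hsq, hconjM,
    ⟨h0, hh0, rho_semi_of h0 true (hnM h0 hh0)⟩, ?_, fun m _ hm => hNsc m (hqk ▸ hm),
    fun h hh => MonoidHom.mem_ker.1 (hqk ▸ hQN' (rho_ker ▸ MonoidHom.mem_ker.2 hh)), hcM, hcR⟩
  · refine ⟨?_, fun h => Subtype.ext ?_, Subtype.ext hci.sq, fun h => hci.ne_one (congrArg Subtype.val h),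
      rho_ker, fun u v => by rw [pr_add, map_add], e.surjective.comp pr_surj, fun u => ?_, fun u => ?_,
      fun h u => ?_, fun R hR => ?_⟩
    · obtain ⟨y, hy, hye⟩ := hzQ
      have : y = (⟨z, hzC⟩ : C) := Subtype.ext hye
      exact this ▸ hy
    · exact Subgroup.mem_centralizer_singleton_iff.1 h.2
    · rw [AddEquiv.map_eq_zero_iff, pr_zero, hcz, Subtype.ext_iff, Subtype.ext_iff]
      rfl
    · rw [he_q, mk4_zero, and_iff_left rfl, hq (pr u) u rfl, pow_two]
    · rw [rho_apply, e.symm_apply_apply, hact]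
      rfl
    · exact PGroup.extraspecial_card_abelian_le hE (n := 6) (by rw [hQ8]; norm_num) hR
  · intro y
    obtain ⟨m, hm, he⟩ : MulAut.conj y ∈ M.map qh := by rw [hMinn]; exact ⟨y, rfl⟩
    exact ⟨m, hm, he⟩
where
  /-- powers in a twisted commutation -/
  comm_power' {g s t : Equiv.Perm Vec} (h : g * s = t * g) (n : ℕ) : g * s ^ n = t ^ n * g :=
    SemiconjBy.pow_right h n

end Cfsg.Agent.JFourType
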