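import Cfsg.Agent.M24Sub.Index
import Cfsg.Agent.AutCert.M22
import Cfsg.Agent.M24.M22Outer
import Cfsg.Agent.JFourType.Frame

/-!
The stabiliser of a pair of points in `M24` is the automorphism group of `M22`, and so is every
subgroup of index 276.
-/

set_option autoImplicit false
set_option maxRecDepth 10000

namespace Cfsg.Agent.JFourType.Duad

open Cfsg Cfsg.Agent.Golay
open Cfsg.Agent.AutCert (m22Tau m22Tau_tested m22Tau_conj_mem m22Tau_outer)
open scoped Pointwise

/-- The stabiliser of the distinguished pair. -/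
noncomputable def duadStab : Subgroup ↥Cfsg.M24 :=
  MulAction.stabilizer Cfsg.M24 ({none, some 0} : Finset GolayPt)

theorem duad_cases (σ : duadStab) :
    ((σ : Cfsg.M24) : Equiv.Perm GolayPt) ∈ Spor.M22 ∨
      (((σ : Cfsg.M24) : Equiv.Perm GolayPt) none = some 0 ∧
        ((σ : Cfsg.M24) : Equiv.Perm GolayPt) (some 0) = none) := by
  rcases Cfsg.Agent.M24.pair_stab_cases (MulAction.mem_stabilizer_iff.1 σ.2 :
      ((σ : Cfsg.M24) : Equiv.Perm GolayPt) • ({none, some 0} : Finset GolayPt) = {none, some 0}) with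
    h | h
  · exact Or.inl (mem_M22_iff.2 ⟨σ.1.2, h.1, h.2⟩)
  · exact Or.inr h

theorem duad_conj_mem (σ : duadStab) {x : Equiv.Perm GolayPt} (hx : x ∈ Spor.M22) :
    ((σ : Cfsg.M24) : Equiv.Perm GolayPt) * x * ((σ : Cfsg.M24) : Equiv.Perm GolayPt)⁻¹ ∈ Spor.M22 := by
  rcases duad_cases σ with h | ⟨h1, h2⟩
  · exact mul_mem (mul_mem h hx) (inv_mem h)
  · exact Cfsg.Agent.M24.conj_M22 σ.1.2 h1 h2 hx

/-- Conjugation by an element of the pair stabiliser. -/
noncomputable def duadAut (σ : duadStab) : MulAut Spor.M22 where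
  toFun x := ⟨((σ : Cfsg.M24) : Equiv.Perm GolayPt) * x * ((σ : Cfsg.M24) : Equiv.Perm GolayPt)⁻¹,
    duad_conj_mem σ x.2⟩
  invFun x := ⟨((σ⁻¹ : duadStab) : Cfsg.M24).1 * x * (((σ⁻¹ : duadStab) : Cfsg.M24).1)⁻¹,
    duad_conj_mem σ⁻¹ x.2⟩
  left_inv x := Subtype.ext (by simp [mul_assoc])
  right_inv x := Subtype.ext (by simp [mul_assoc])
  map_mul' x y := Subtype.ext (by simp [mul_assoc])

theorem duadAut_apply (σ : duadStab) (x : Spor.M22) : ((duadAut σ x : Spor.M22) : Equiv.Perm GolayPt) =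
    ((σ : Cfsg.M24) : Equiv.Perm GolayPt) * x * ((σ : Cfsg.M24) : Equiv.Perm GolayPt)⁻¹ := rfl

/-- The homomorphism to the automorphism group. -/
noncomputable def duadHom : duadStab →* MulAut Spor.M22 where
  toFun := duadAut
  map_one' := MulEquiv.ext fun x => Subtype.ext (by simp [duadAut_apply])
  map_mul' σ τ := MulEquiv.ext fun x => Subtype.ext (by
    rw [MulAut.mul_apply, duadAut_apply, duadAut_apply, duadAut_apply]
    simp [mul_assoc])

theorem m22_center {a : Spor.M22} (h : ∀ x : Spor.M22, a * x = x * a) : a = 1 := by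
  haveI := Golay.isSimpleGroup_M22
  have ha : a ∈ Subgroup.center Spor.M22 := Subgroup.mem_center_iff.2 fun x => (h x).symm
  rcases IsSimpleGroup.eq_bot_or_eq_top_of_normal (Subgroup.center Spor.M22) inferInstance with e | e
  · rwa [e, Subgroup.mem_bot] at ha
  · exfalso
    letI : CommGroup Spor.M22 := { (inferInstance : Group Spor.M22) with
      mul_comm := fun u v => (Subgroup.mem_center_iff.1 (e ▸ Subgroup.mem_top v) u) }
    have hp : (Nat.card Spor.M22).Prime := IsSimpleGroup.prime_card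
    rw [Golay.card_M22] at hp
    norm_num at hp

theorem duadHom_injective : Function.Injective duadHom := by
  rw [injective_iff_map_eq_one]
  intro σ hσ
  have hc : ∀ x : Spor.M22,
      ((σ : Cfsg.M24) : Equiv.Perm GolayPt) * x = (x : Equiv.Perm GolayPt) * ((σ : Cfsg.M24) : Equiv.Perm GolayPt) :=
    fun x => mul_inv_eq_iff_eq_mul.1 (congrArg Subtype.val (DFunLike.congr_fun hσ x))
  rcases duad_cases σ with h | ⟨h1, h2⟩
  · have := m22_center (a := ⟨_, h⟩) fun x => Subtype.ext (hc x)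
    have h0 : ((σ : Cfsg.M24) : Equiv.Perm GolayPt) = 1 := congrArg (fun a : Spor.M22 => (a : Equiv.Perm GolayPt)) this
    exact Subtype.ext (Subtype.ext h0)
  · exfalso
    obtain ⟨htm, ht1, ht2⟩ := m22Tau_tested
    set s := ((σ : Cfsg.M24) : Equiv.Perm GolayPt) with hs
    have hti1 : m22Tau⁻¹ none = some 0 := Equiv.Perm.inv_eq_iff_eq.2 ht2.symm
    have hti2 : m22Tau⁻¹ (some 0) = none := Equiv.Perm.inv_eq_iff_eq.2 ht1.symm
    have ha : s * m22Tau⁻¹ ∈ Spor.M22 := mem_M22_iff.2 ⟨mul_mem σ.1.2 (inv_mem htm),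
      by rw [Equiv.Perm.mul_apply, hti1, h2], by rw [Equiv.Perm.mul_apply, hti2, h1]⟩
    refine m22Tau_outer ⟨(⟨_, ha⟩ : Spor.M22)⁻¹, fun x => ?_⟩
    have h := hc x
    simp only [Subgroup.coe_inv]
    calc m22Tau * (x : Equiv.Perm GolayPt) * m22Tau⁻¹
        = m22Tau * s⁻¹ * (s * (x : Equiv.Perm GolayPt)) * m22Tau⁻¹ := by group
      _ = (s * m22Tau⁻¹)⁻¹ * x * (s * m22Tau⁻¹)⁻¹⁻¹ := by rw [h]; group

theorem card_duadStab : Nat.card duadStab = 887040 := by
  have h := duadStab.card_mul_index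
  rw [show duadStab.index = 276 by
    rw [duadStab, MulAction.index_stabilizer]
    exact M24Sub.duad_orbit_ncard (by decide), Golay.card_M24] at h
  exact Nat.eq_of_mul_eq_mul_right (show (0 : ℕ) < 276 by norm_num) (h.trans (by norm_num))

/-- The pair stabiliser is the automorphism group of `M22`. -/
noncomputable def duadEquiv : duadStab ≃* MulAut Spor.M22 :=
  MulEquiv.ofBijective duadHom ((Nat.bijective_iff_injective_and_card _).2
    ⟨duadHom_injective, by rw [card_duadStab, card_aut_M22]⟩)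

/-- Every subgroup of index 276 is isomorphic to the automorphism group of `M22`. -/
theorem nonempty_equiv_of_index (H : Subgroup ↥Cfsg.M24) (hH : H.index = 276) :
    Nonempty (↥H ≃* MulAut Spor.M22) := by
  obtain ⟨s, hs, rfl⟩ := M24Sub.index_276 H hH
  obtain ⟨g, hg⟩ : s ∈ MulAction.orbit Cfsg.M24 ({none, some 0} : Finset GolayPt) := by
    rw [show MulAction.orbit Cfsg.M24 ({none, some 0} : Finset GolayPt) = {t : Finset GolayPt | t.card = 2}
      from M24Geo.duadFamily.orbit_eq (by decide : ({none, some 0} : Finset GolayPt).card = 2)]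
    exact hs
  exact ⟨(MulAction.stabilizerEquivStabilizer hg.symm).symm.trans duadEquiv⟩

end Cfsg.Agent.JFourType.Duad
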