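import Cfsg.Agent.JFourType.FiveFixed

/-!
The classes of the involutions of the extraspecial group centralized by an element of order 5.
-/

set_option autoImplicit false
set_option maxRecDepth 100000

namespace Cfsg.Agent.JFourType.Five

open Cfsg
open Cfsg.Agent.GFour25 Cfsg.Agent.CosetCert
open Cfsg.Agent.SporB.FischerU (Vec vecN enc vecN_enc enc_lt)
open Cfsg.Agent.LargeFischer (IsSemi semiU)
open Cfsg.Agent.LargeFischer.Thompson
open Cfsg.Agent.TTClass

/-- The orbit data of the elementary abelian subgroups of order `2^11`. -/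
def OrbitData {G : Type*} [Group G] (z : G) : Prop :=
  ∀ V : Subgroup G, IsElementaryAbelian 2 V → Nat.card ↥V = 2 ^ 11 →
    ∃ z' t : G, z' ∈ V ∧ t ∈ V ∧ t ≠ 1 ∧ IsConj z z' ∧ ¬ IsConj z t ∧
    Set.ncard {v : G | ∃ n ∈ Subgroup.normalizer (V : Set G), n * z' * n⁻¹ = v} = 1771 ∧
    Set.ncard {v : G | ∃ n ∈ Subgroup.normalizer (V : Set G), n * t * n⁻¹ = v} = 276 ∧
    Subgroup.centralizer ({t} : Set G) ≤ Subgroup.normalizer (V : Set G)

theorem om_act : omP (vecN 1360) = vecN 2720 ∧ omP (vecN 2720) = vecN 4080 ∧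
    omP (vecN 1702) = vecN 3067 ∧ omP (vecN 3067) = vecN 3421 ∧
    gP (vecN 1702) = vecN 2390 ∧ gP (vecN 3067) = vecN 2045 ∧ gP (vecN 3421) = vecN 3755 ∧
    gP (vecN 4080) = vecN 4080 ∧ cP (vecN 4080) = vecN 4080 := by
  have h := act_ok
  simp only [Bool.and_eq_true, beq_iff_eq] at h
  obtain ⟨⟨⟨⟨⟨⟨⟨⟨⟨⟨⟨⟨⟨a1, a2⟩, a3⟩, a4⟩, a5⟩, a6⟩, a7⟩, a8⟩, -⟩, -⟩, a11⟩, -⟩, -⟩, -⟩ := h
  have key : ∀ {g : List ℕ} {σ : Equiv.Perm Vec} {a b : ℕ}, Rep g σ → a < 4096 →
      Nat.beq (apL g a) b = true → σ (vecN a) = vecN b := fun hr ha hb => by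
    rw [rep_vec hr ha, Nat.eq_of_beq_eq_true hb]
  exact ⟨key rep_omP (by norm_num) a1, key rep_omP (by norm_num) a2, key rep_omP (by norm_num) a3,
    key rep_omP (by norm_num) a4, key rep_gP.1 (by norm_num) a5, key rep_gP.1 (by norm_num) a6,
    key rep_gP.1 (by norm_num) a7, key rep_gP.1 (by norm_num) a8, key rep_cP.1 (by norm_num) a11⟩

theorem om_cube (v : Vec) : omP (omP (omP v)) = v := by
  have h := Equiv.Perm.ext_iff.1 omP_pow_three v
  rwa [pow_succ, pow_two, Equiv.Perm.mul_apply, Equiv.Perm.mul_apply, Equiv.Perm.one_apply] at h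

/-- The number of fixed elements of a power of a prime in an invariant set. -/
theorem fixed_mod {G : Type*} [Group G] [Finite G] (p : ℕ) [Fact p.Prime] (x : G) (hx : x ^ p = 1)
    (S : Set G) (hinv : ∀ s ∈ S, x * s * x⁻¹ ∈ S) :
    S.ncard ≡ {s | s ∈ S ∧ x * s = s * x}.ncard [MOD p] := by
  have hp : IsPGroup p (Subgroup.zpowers x) := by
    intro g
    refine ⟨1, ?_⟩
    obtain ⟨k, hk⟩ := Subgroup.mem_zpowers_iff.1 g.2
    refine Subtype.ext ?_
    rw [Subgroup.coe_pow, ← hk, pow_one, ← zpow_natCast, ← zpow_mul, mul_comm, zpow_mul, zpow_natCast, hx,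
      one_zpow, Subgroup.coe_one]
  have hall : ∀ g : Subgroup.zpowers x, ∀ s ∈ S, (g : G) * s * (g : G)⁻¹ ∈ S := by
    intro g s hs
    obtain ⟨k, hk⟩ := ((isOfFinOrder_of_finite x).mem_powers_iff_mem_zpowers).2 g.2
    have hk' : x ^ k = (g : G) := hk
    rw [← hk']
    clear hk hk'
    induction k with
    | zero => simpa using hs
    | succ k ih =>
      rw [show x ^ (k + 1) * s * (x ^ (k + 1))⁻¹ = x * (x ^ k * s * (x ^ k)⁻¹) * x⁻¹ by rw [pow_succ']; group]
      exact hinv _ ih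
  letI : MulAction (Subgroup.zpowers x) S :=
    { smul := fun g s => ⟨(g : G) * s * (g : G)⁻¹, hall g s s.2⟩
      one_smul := fun s => Subtype.ext (by show (1 : G) * s * (1 : G)⁻¹ = s; simp)
      mul_smul := fun g h s => Subtype.ext (by
        show (g : G) * h * s * ((g : G) * h)⁻¹ = (g : G) * ((h : G) * s * (h : G)⁻¹) * (g : G)⁻¹
        group) }
  have h := hp.card_modEq_card_fixedPoints S
  have e : Nat.card (MulAction.fixedPoints (Subgroup.zpowers x) S) = {s | s ∈ S ∧ x * s = s * x}.ncard := by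
    rw [← Nat.card_coe_set_eq]
    refine Nat.card_congr
      { toFun := fun s => ⟨(s : S), s.1.2, mul_inv_eq_iff_eq_mul.1
          (congrArg Subtype.val (s.2 ⟨x, Subgroup.mem_zpowers x⟩))⟩
        invFun := fun s => ⟨⟨s.1, s.2.1⟩, fun g => Subtype.ext ?_⟩
        left_inv := fun s => rfl
        right_inv := fun s => rfl }
    obtain ⟨k, hk⟩ := Subgroup.mem_zpowers_iff.1 g.2
    show (g : G) * s.1 * (g : G)⁻¹ = s.1
    rw [← hk, ((show Commute x s.1 from s.2.2).zpow_left k).eq, mul_inv_cancel_right]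
  rwa [Nat.card_coe_set_eq, e] at h

namespace Frame

variable {G : Type*} [Group G] [Finite G] {z : G} {P : Subgroup G} (F : Frame z)

/-- A lift of the scalar of order 3 centralizing `q`. -/
theorem exists_omega : ∃ x : Subgroup.centralizer ({z} : Set G),
    x * F.q = F.q * x ∧ F.rho x = omP ∧ x ^ 3 = 1 := by
  obtain ⟨h, hc, hr⟩ := F.exists_cent_lift (n := 1) (by norm_num)
  have hr' : F.rho h = omP := by rw [hr, cP30]; simp
  refine ⟨h ^ 64, ((show Commute h F.q from hc).pow_left 64).eq, ?_, ?_⟩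
  · rw [map_pow, hr', pow_eq_pow_mod 64 omP_pow_three, show 64 % 3 = 1 from rfl, pow_one]
  · have hm : h ^ 3 ∈ F.fixed := ⟨F.ext.mem_q (by rw [map_pow, hr', omP_pow_three]),
      Subgroup.mem_centralizer_singleton_iff.2 ((show Commute h F.q from hc).pow_left 3).eq⟩
    have h2 := F.fixed.orderOf_dvd_natCard hm
    rw [F.card_fixed] at h2
    rw [← pow_mul, show 64 * 3 = 3 * 32 * 2 by norm_num, pow_mul, pow_mul, orderOf_dvd_iff_pow_eq_one.1 h2,
      one_pow]

/-- An element moves every noncentral involution of the extraspecial group to its product with `z`. -/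
theorem exists_move (a : pCore 2 (Subgroup.centralizer ({z} : Set G))) (ha : a * a = 1)
    (hne : F.psi a ≠ 0) : ∃ e ∈ pCore 2 (Subgroup.centralizer ({z} : Set G)),
      e * a * e⁻¹ = a * ⟨z, Subgroup.mem_centralizer_singleton_iff.2 rfl⟩ := by
  by_contra hcon
  push Not at hcon
  have hall : ∀ b : pCore 2 (Subgroup.centralizer ({z} : Set G)), b * a = a * b := by
    intro b
    refine Subtype.ext (mul_inv_eq_iff_eq_mul.1 ?_)
    refine (F.ext.eq_of_psi (a := ⟨(b : Subgroup.centralizer ({z} : Set G)) * a * (b : Subgroup.centralizer ({z} : Set G))⁻¹,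
      (inferInstance : (pCore 2 (Subgroup.centralizer ({z} : Set G))).Normal).conj_mem _ a.2 _⟩) (b := a) ?_).resolve_right
      (hcon _ b.2)
    rw [F.ext.psi_conj, F.ext.rho_q b.2, Equiv.Perm.one_apply]
  -- a central element has trivial vector
  have hH : ∀ v, UnitF4.H (v + F.psi a) (v + F.psi a) = UnitF4.H v v := fun v => by
    obtain ⟨b, rfl⟩ := F.ext.psi_surj v
    exact (F.ext.comm_iff b a ha).1 (congrArg Subtype.val (hall b))
  refine hne ?_
  rw [← vecN_enc (F.psi a)]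
  have hb : allB (fun v => Nat.beq v 0 || !(allB (fun w => comN w v) 12 0)) 12 0 = true := by decide +kernel
  have h := allB_spec_zero hb (by norm_num : 4096 ≤ 2 ^ 12) (enc_lt (F.psi a))
  rw [allB_complete 12 0 fun w _ hw => ?_, Bool.not_true, Bool.or_false] at h
  · rw [Nat.eq_of_beq_eq_true h]; decide
  · rw [zero_add] at hw
    rw [comN, beq_iff_eq, Bool.eq_iff_iff, ← enc_vecN hw, show Nat.xor (enc (vecN w)) (enc (F.psi a)) =
      enc (vecN w + F.psi a) from (enc_add _ _).symm, qN_enc, qN_enc, hH]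

end Frame

theorem plane_facts :
    (∀ u ∈ Data.uList, apL planeOK.qImg u ∈ Data.uList ∧
      (apL planeOK.qImg u = u → u = 0 ∨ apL (wImg Data.planeWord) u ∈ oneL)) ∧
    (∀ v ∈ oneL, apL (wImg Data.planeWordInv) v ∈ Data.uList) ∧
    comp (wImg Data.planeWordInv) (wImg Data.planeWord) = idL ∧
    comp planeOK.qInv planeOK.qImg = idL ∧
    (∀ a ∈ Data.aList, comp (comp planeOK.qImg a) planeOK.qInv ∈ Data.aList ∧
      comp planeOK.qImg a ≠ comp a planeOK.qImg) := by
  have h := planeOK_true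
  simp only [planeOK, Bool.and_eq_true, Bool.or_eq_true, List.all_eq_true, beq_iff_eq,
    List.contains_iff_mem, Bool.not_eq_true', beq_eq_false_iff_ne] at h
  obtain ⟨⟨⟨⟨h1, h2⟩, h3⟩, h4⟩, h5⟩ := h
  refine ⟨fun u hu => ⟨(h1 u hu).1, fun e => ?_⟩, h2, h3, h4, h5⟩
  rcases (h1 u hu).2 with (r | r) | r
  · rw [e, show Nat.beq u u = true from Nat.beq_refl u] at r
    exact absurd r (by decide)
  · exact Or.inl (Nat.eq_of_beq_eq_true r)
  · exact Or.inr r

namespace Frame

variable {G : Type*} [Group G] [Finite G] [IsSimpleGroup G] {z : G} {P : Subgroup G} (F : Frame z)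

theorem exists_ne_of_mem {v : Vec} {n : ℕ} (h : enc v = n) (hn : n ≠ 0) : v ≠ 0 := fun e => hn (by
  rw [← h, e, enc_zero])

/-- The involutions over the first long line. -/
theorem one_long (hJ : IsOfJankoFourTypeWith z P) (hO : OrbitData z)
    (y : pCore 2 (Subgroup.centralizer ({z} : Set G))) (hy : enc (F.psi y) ∈ oneL) :
    ¬ IsConj z ((y : Subgroup.centralizer ({z} : Set G)) : G) ∧
      ∀ g : G, g * ((y : Subgroup.centralizer ({z} : Set G)) : G) = ((y : Subgroup.centralizer ({z} : Set G)) : G) * g →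
        g * (F.q : G) = (F.q : G) * g → g * z = z * g := by
  classical
  obtain ⟨hUq, hUone, hinv, hqinv, hAq⟩ := plane_facts
  let Mo : Model F.rho.range := model ⟨F.shape.le⟩ candJ candJ_ok gP rep_gP.1 F.shape.gP_mem
  set K := F.ext.K Mo with hK
  have hKel : IsElementaryAbelian 2 K := by
    refine ⟨⟨⟨fun u v => Subtype.ext ?_⟩⟩, fun a ha => by rw [pow_two]; exact F.ext.K_sq Mo a ha⟩
    exact comm_of_sq (F.ext.K_sq Mo _ u.2) (F.ext.K_sq Mo _ v.2) (F.ext.K_sq Mo _ (K.mul_mem u.2 v.2))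
  obtain ⟨h, hh⟩ : wPerm Data.planeWord ∈ F.rho.range := F.shape.le (word_mem _)
  have rk : Rep (wImg Data.planeWord) (F.rho h) := hh ▸ rep_word _
  have rki : Rep (wImg Data.planeWordInv) (F.rho h)⁻¹ := rk.inv hinv
  set q' := h⁻¹ * F.q * h with hq'
  have rq' : Rep planeOK.qImg (F.rho q') := by
    rw [hq', map_mul, map_mul, map_inv, F.rho_q, mul_assoc]
    exact rki.mul (rep_bP.1.mul rk)
  have hqU : ∀ u ∈ Mo.U, F.rho q' u ∈ Mo.U := fun u hu => by
    show enc _ ∈ Data.uList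
    rw [rq' u]
    exact (hUq _ hu).1
  have hqA : ∀ x ∈ Mo.A, F.rho q' * x * (F.rho q')⁻¹ ∈ Mo.A := by
    rintro x (rfl | ⟨g, hg, hx⟩)
    · rw [mul_one, mul_inv_cancel]; exact Or.inl rfl
    · exact Or.inr ⟨_, (hAq g hg).1, (rq'.mul hx).mul (rq'.inv hqinv)⟩
  let e : Subgroup.centralizer ({z} : Set G) →* G :=
    (Subgroup.centralizer ({z} : Set G)).subtype.comp (MulAut.conj h).toMonoidHom
  have heinj : Function.Injective e := (Subgroup.centralizer ({z} : Set G)).subtype_injective.comp (MulAut.conj h).injective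
  have he : ∀ a, e a = ((h * a * h⁻¹ : Subgroup.centralizer ({z} : Set G)) : G) := fun _ => rfl
  set V : Subgroup G := K.map e with hV
  have hVel : IsElementaryAbelian 2 V := elem_map e hKel
  have hVc : Nat.card V = 2 ^ 11 := by
    rw [hV, Subgroup.card_map_of_injective heinj, hK, F.ext.K_card Mo]
  have hzV : z ∈ V := by
    refine ⟨⟨z, Subgroup.mem_centralizer_singleton_iff.2 rfl⟩, ((F.ext.K_inf Mo).ge (F.ext.z_mem_P0 Mo)).1, ?_⟩
    rw [he, F.ext.z_central h, mul_inv_cancel_right]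
  have hqe : (F.q : G) = e q' := by
    rw [he]
    exact congrArg Subtype.val (by rw [hq']; group)
  have hqN : ∀ v ∈ V, (F.q : G) * v * (F.q : G)⁻¹ ∈ V := by
    rintro _ ⟨a, ha, rfl⟩
    rw [hqe, ← map_inv, ← map_mul, ← map_mul]
    exact ⟨_, F.ext.conj_K Mo hqU hqA ha, rfl⟩
  -- the part of `V` centralized by `q`
  have hB : ∀ v, v ∈ V ∧ (F.q : G) * v = v * F.q ↔
      ∃ a : pCore 2 (Subgroup.centralizer ({z} : Set G)), enc (F.psi a) ∈ 0 :: oneL ∧
        ((a : Subgroup.centralizer ({z} : Set G)) : G) = v := by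
    intro v
    constructor
    · rintro ⟨⟨a, ha, rfl⟩, hc⟩
      rw [hqe, ← map_mul, ← map_mul] at hc
      have hc' := heinj hc
      have hA : F.rho a = 1 := by
        rcases ((F.ext.mem_K Mo).1 ha).2 with r | ⟨g, hg, hx⟩
        · exact r
        exfalso
        have e1 : F.rho q' * F.rho a = F.rho a * F.rho q' := by rw [← map_mul, ← map_mul, hc']
        refine (hAq g hg).2 ((e1 ▸ rq'.mul hx).list_eq (hx.mul rq') ?_ ?_)
        · exact comp_normal _ ((normal_facts (show normalB Data.aList = true by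
            have h := aGroupOK_true
            simp only [aGroupOK, Bool.and_eq_true] at h
            exact h.1.1)).2 g hg).1
        · exact comp_normal _ (by
            rw [planeOK.qImg]
            exact comp_normal _ (comp_normal _ (by
              have : comp (wImg Data.planeWord) idL = wImg Data.planeWord := by decide +kernel
              exact this)))
      have haQ := F.ext.mem_q hA
      have haP := (F.ext.K_inf Mo).le ⟨ha, haQ⟩
      obtain ⟨haQ', hau⟩ := haP
      have hfix : F.rho q' (F.psi ⟨a, haQ⟩) = F.psi ⟨a, haQ⟩ := by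
        rw [← F.ext.psi_conj]
        exact congrArg F.psi (Subtype.ext (mul_inv_eq_iff_eq_mul.2 hc'))
      refine ⟨⟨h * a * h⁻¹, (inferInstance : (pCore 2 (Subgroup.centralizer ({z} : Set G))).Normal).conj_mem _ haQ h⟩,
        ?_, rfl⟩
      rw [show F.psi ⟨h * a * h⁻¹, _⟩ = F.rho h (F.psi ⟨a, haQ⟩) from F.ext.psi_conj h ⟨a, haQ⟩, rk]
      rcases (hUq _ hau).2 (by rw [← rq', hfix]) with r | r
      · rw [r, show apL (wImg Data.planeWord) 0 = 0 by decide +kernel]
        exact List.mem_cons_self ..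
      · exact List.mem_cons_of_mem _ r
    · rintro ⟨a, ha, rfl⟩
      have hfix : bP (F.psi a) = F.psi a := by
        rcases List.mem_cons.1 ha with r | r
        · rw [show F.psi a = 0 by rw [← vecN_enc (F.psi a), r]; decide,
            ← vecN_enc (bP 0), rep_bP.1, enc_zero]
          decide +kernel
        · exact (fix_iff _).2 (line_facts (List.mem_append_left _ (List.mem_append_right _ r))).2
      refine ⟨⟨h⁻¹ * a * h, ?_, ?_⟩, congrArg Subtype.val ((F.commute_iff_fix a).2 hfix)⟩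
      · refine ((F.ext.K_inf Mo).ge ⟨by simpa using (inferInstance : (pCore 2 (Subgroup.centralizer ({z} : Set G))).Normal).conj_mem _ a.2 h⁻¹, ?_⟩).1
        show enc _ ∈ Data.uList
        have hc := F.ext.psi_conj h⁻¹ a
        simp only [inv_inv] at hc
        rw [hc, map_inv, rki]
        rcases List.mem_cons.1 ha with r | r
        · rw [r]; decide +kernel
        · exact hUone _ r
      · rw [he]
        exact congrArg Subtype.val (by group)
  -- the orbits
  obtain ⟨z', t, hz'V, htV, ht1, hzz', hzt, hcz, hct, hCt⟩ := hO V hVel hVc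
  set Oz := {v : G | ∃ n ∈ Subgroup.normalizer (V : Set G), n * z' * n⁻¹ = v} with hOz
  set Ot := {v : G | ∃ n ∈ Subgroup.normalizer (V : Set G), n * t * n⁻¹ = v} with hOt
  have hzc : ∀ v ∈ Oz, IsConj z v := by
    rintro v ⟨n, -, rfl⟩
    exact hzz'.trans (isConj_iff.2 ⟨n, rfl⟩)
  have htc : ∀ v ∈ Ot, ¬ IsConj z v := by
    rintro v ⟨n, -, rfl⟩ hc
    exact hzt (hc.trans (isConj_iff.2 ⟨n⁻¹, by group⟩))
  have hOV : Oz ∪ Ot = (V : Set G) \ {1} := by
    refine Set.eq_of_subset_of_ncard_le ?_ ?_ (Set.toFinite _)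
    · rintro v (hv | hv)
      · obtain ⟨n, hn, rfl⟩ := hv
        refine ⟨(Subgroup.mem_normalizer_iff.1 hn z').1 hz'V, fun e => ?_⟩
        rw [Set.mem_singleton_iff, conj_eq_one_iff] at e
        rw [e] at hzz'
        have := isConj_one_left.1 hzz'
        exact F.ext.z_ne (Subtype.ext this)
      · obtain ⟨n, hn, rfl⟩ := hv
        exact ⟨(Subgroup.mem_normalizer_iff.1 hn t).1 htV, fun e => ht1 (conj_eq_one_iff.1 e)⟩
    · rw [Set.ncard_sdiff_singleton_of_mem (one_mem V), ← Nat.card_coe_set_eq,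
        show Nat.card (V : Set G) = 2 ^ 11 from hVc,
        Set.ncard_union_eq (Set.disjoint_left.2 fun v h1 h2 => htc v h2 (hzc v h1)) (Set.toFinite _) (Set.toFinite _),
        hcz, hct]
      norm_num
  have hclass : ∀ v ∈ V, IsConj z v → v ∈ Oz := by
    intro v hv hc
    have hv1 : v ≠ 1 := fun e => F.ext.z_ne (Subtype.ext (isConj_one_left.1 (e ▸ hc)))
    rcases (Set.ext_iff.1 hOV v).2 ⟨hv, hv1⟩ with r | r
    · exact r
    · exact absurd hc (htc v r)
  have hqinvO : ∀ v ∈ Oz, (F.q : G) * v * (F.q : G)⁻¹ ∈ Oz := fun v hv =>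
    hclass _ (hqN v ((Set.ext_iff.1 hOV v).1 (Or.inl hv)).1) ((hzc v hv).trans (isConj_iff.2 ⟨_, rfl⟩))
  have hq5 : (F.q : G) ^ 5 = 1 := congrArg Subtype.val F.q_pow
  haveI : Fact (Nat.Prime 5) := ⟨by norm_num⟩
  haveI : Fact (Nat.Prime 3) := ⟨Nat.prime_three⟩
  have h5 := fixed_mod 5 _ hq5 Oz hqinvO
  rw [hcz] at h5
  set Z := {s | s ∈ Oz ∧ (F.q : G) * s = s * F.q} with hZ
  have hZB : ∀ v ∈ Z, ∃ a : pCore 2 (Subgroup.centralizer ({z} : Set G)), enc (F.psi a) ∈ 0 :: oneL ∧
      ((a : Subgroup.centralizer ({z} : Set G)) : G) = v := fun v hv =>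
    (hB v).1 ⟨((Set.ext_iff.1 hOV v).1 (Or.inl hv.1)).1, hv.2⟩
  have hzZ : z ∈ Z := ⟨hclass z hzV (IsConj.refl z), Subgroup.mem_centralizer_singleton_iff.1 F.q.2⟩
  -- the scalar permutes the classes of the six elements
  obtain ⟨x, hxq, hxr, hx3⟩ := F.exists_omega
  have hx3' : (x : G) ^ 3 = 1 := congrArg Subtype.val hx3
  have hxz : (x : G) * z * (x : G)⁻¹ = z :=
    mul_inv_eq_iff_eq_mul.2 (Subgroup.mem_centralizer_singleton_iff.1 x.2)
  have hxinv : ∀ v ∈ Z, (x : G) * v * (x : G)⁻¹ ∈ Z := by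
    intro v hv
    obtain ⟨a, ha, rfl⟩ := hZB v hv
    have hm : ((⟨x * a * x⁻¹, (inferInstance : (pCore 2 (Subgroup.centralizer ({z} : Set G))).Normal).conj_mem _ a.2 x⟩ :
        pCore 2 (Subgroup.centralizer ({z} : Set G))) : Subgroup.centralizer ({z} : Set G)) = x * a * x⁻¹ := rfl
    have hp := (hB _).2 ⟨⟨x * a * x⁻¹, (inferInstance : (pCore 2 (Subgroup.centralizer ({z} : Set G))).Normal).conj_mem _ a.2 x⟩, by
      rw [F.ext.psi_conj, hxr, rep_omP]
      exact (show ∀ n ∈ 0 :: oneL, apL Data.omL n ∈ 0 :: oneL by decide +kernel) _ ha, rfl⟩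
    exact ⟨hclass _ hp.1 ((hzc _ hv.1).trans (isConj_iff.2 ⟨(x : G), rfl⟩)), hp.2⟩
  have h3 := fixed_mod 3 _ hx3' Z hxinv
  have hfix1 : {s | s ∈ Z ∧ (x : G) * s = s * x} = {z} := by
    refine Set.eq_singleton_iff_unique_mem.2 ⟨⟨hzZ, Subgroup.mem_centralizer_singleton_iff.1 x.2⟩, ?_⟩
    rintro s ⟨hs, hxs⟩
    obtain ⟨a, -, rfl⟩ := hZB s hs
    have h0 : omP (F.psi a) = F.psi a := by
      rw [← hxr, ← F.ext.psi_conj]
      exact congrArg F.psi (Subtype.ext (mul_inv_eq_iff_eq_mul.2 (Subtype.ext hxs)))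
    have : F.psi a = 0 := by
      rw [omP_apply, ← sub_eq_zero] at h0
      have h1 : (w4 - 1) • F.psi a = 0 := by rw [sub_smul, one_smul, h0]
      exact (smul_eq_zero.1 h1).resolve_left (by decide)
    rcases (F.ext.psi_ker a).1 this with r | r
    · exact absurd (congrArg Subtype.val r) (fun e => F.ext.z_ne (Subtype.ext (isConj_one_left.1 (by
        have h1 := hzc _ hs.1
        rwa [show ((a : Subgroup.centralizer ({z} : Set G)) : G) = 1 from e] at h1))))
    · exact congrArg Subtype.val r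
  rw [hfix1, Set.ncard_singleton] at h3
  -- a bound on the elements centralized by `q`
  let B8 := F.pre (0 :: oneL) (List.mem_cons_self ..) one_closed
  have hB8 : Nat.card B8 = 8 := by
    rw [F.card_pre _ _ _ (by decide) (by decide)]
    rfl
  have hle : Z.ncard ≤ 7 := by
    have hsub : Z ⊆ ((B8.map (Subgroup.centralizer ({z} : Set G)).subtype : Subgroup G) : Set G) \ {1} := fun v hv => by
      obtain ⟨a, ha, rfl⟩ := hZB v hv
      exact ⟨⟨_, ⟨a.2, ha⟩, rfl⟩, ((Set.ext_iff.1 hOV _).1 (Or.inl hv.1)).2⟩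
    refine (Set.ncard_le_ncard hsub (Set.toFinite _)).trans ?_
    rw [Set.ncard_sdiff_singleton_of_mem (one_mem _), ← Nat.card_coe_set_eq,
      show Nat.card ((B8.map (Subgroup.centralizer ({z} : Set G)).subtype : Subgroup G) : Set G) = 8 from
        (Subgroup.card_map_of_injective (Subgroup.centralizer ({z} : Set G)).subtype_injective).trans hB8]
  have hZ1 : Z.ncard = 1 := by
    rw [Nat.ModEq] at h5 h3
    omega
  have hyV := (hB _).2 ⟨y, List.mem_cons_of_mem _ hy, rfl⟩
  have hyne : ((y : Subgroup.centralizer ({z} : Set G)) : G) ≠ z := fun e => by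
    have h0 : F.psi y = 0 := (F.ext.psi_ker y).2 (Or.inr (Subtype.ext e))
    rw [h0, enc_zero] at hy
    exact absurd hy (by decide)
  have huniq : ∀ v ∈ Z, v = z := fun v hv => by
    obtain ⟨c, hc⟩ := Set.ncard_eq_one.1 hZ1
    rw [hc, Set.mem_singleton_iff] at hv hzZ
    rw [hv, hzZ]
  have hynz : ¬ IsConj z ((y : Subgroup.centralizer ({z} : Set G)) : G) := fun hc =>
    hyne (huniq _ ⟨hclass _ hyV.1 hc, hyV.2⟩)
  refine ⟨hynz, fun g hgy hgq => ?_⟩
  have hy1 : ((y : Subgroup.centralizer ({z} : Set G)) : G) ≠ 1 := fun e => by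
    have h0 : F.psi y = 0 := (F.ext.psi_ker y).2 (Or.inl (Subtype.ext e))
    rw [h0, enc_zero] at hy
    exact absurd hy (by decide)
  obtain ⟨n, hn, hne⟩ := ((Set.ext_iff.1 hOV _).2 ⟨hyV.1, hy1⟩).resolve_left fun r => hynz (hzc _ r)
  have hgN : g ∈ Subgroup.normalizer (V : Set G) := by
    have h1 : n⁻¹ * g * n ∈ Subgroup.normalizer (V : Set G) := hCt (Subgroup.mem_centralizer_singleton_iff.2 (by
      have et : t = n⁻¹ * ((y : Subgroup.centralizer ({z} : Set G)) : G) * n := by rw [← hne]; group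
      rw [et]
      calc n⁻¹ * g * n * (n⁻¹ * ((y : Subgroup.centralizer ({z} : Set G)) : G) * n)
          = n⁻¹ * (g * ((y : Subgroup.centralizer ({z} : Set G)) : G)) * n := by group
        _ = _ := by rw [hgy]; group))
    have h2 := mul_mem (mul_mem hn h1) (inv_mem hn)
    rwa [show n * (n⁻¹ * g * n) * n⁻¹ = g by group] at h2
  have hm : g * z * g⁻¹ = z := huniq _ ⟨hclass _ ((Subgroup.mem_normalizer_iff.1 hgN z).1 hzV)
    (isConj_iff.2 ⟨g, rfl⟩), by
      have hzq : (F.q : G) * z = z * F.q := Subgroup.mem_centralizer_singleton_iff.1 F.q.2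
      have hqg : (F.q : G) * g = g * F.q := hgq.symm
      exact ((show Commute (F.q : G) g from hqg).mul_right hzq).mul_right (show Commute (F.q : G) g from hqg).inv_right⟩
  exact mul_inv_eq_iff_eq_mul.1 hm

end Frame

end Cfsg.Agent.JFourType.Five
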