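import Cfsg.Agent.JFourType.FiveFrame

/-!
The centralizer of the element of order 5 in the centralizer of the involution.
-/

set_option autoImplicit false
set_option maxRecDepth 100000

namespace Cfsg.Agent.JFourType.Five

open Cfsg
open Cfsg.Agent.GFour25 Cfsg.Agent.CosetCert
open Cfsg.Agent.SporB.FischerU (Vec vecN enc vecN_enc enc_lt)
open Cfsg.Agent.LargeFischer (IsSemi semiU)
open Cfsg.Agent.LargeFischer.Thompson
open Cfsg.Agent.TTClass

theorem enc_zero : enc (0 : Vec) = 0 := by decide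

theorem psi_small {a b : ℕ} (ha : a < 4096) {v : Vec} (h : v = vecN a) (hb : a = b) : enc v = b := by
  rw [h, enc_vecN ha, hb]

theorem enc_eq_iff {v : Vec} {n : ℕ} (hn : n < 4096) : enc v = n ↔ v = vecN n :=
  ⟨fun h => by rw [← vecN_enc v, h], fun h => psi_small hn h rfl⟩

theorem table_lt {n : ℕ} (h : n ∈ fixL) : n < 4096 := by
  have hl := list_ok
  simp only [Bool.and_eq_true, List.all_eq_true] at hl
  exact Nat.blt_eq.mp (hl.1.1.1.1.1.1.1.1.1.1.1.1 n h)

theorem line_facts {n : ℕ} (h : n ∈ zeroL ++ oneL ++ twoL) : qN n = true ∧ n ∈ fixL := by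
  have hl := list_ok
  simp only [Bool.and_eq_true, List.all_eq_true] at hl
  have h2 := hl.1.1.1.1.1.1.1.1.1.1.1.2 n h
  exact ⟨h2.1.2, List.contains_iff_mem.1 h2.2⟩

theorem zero_closed : ∀ a ∈ 0 :: zeroL, ∀ b ∈ 0 :: zeroL, a ^^^ b ∈ 0 :: zeroL := by decide
theorem one_closed : ∀ a ∈ 0 :: oneL, ∀ b ∈ 0 :: oneL, a ^^^ b ∈ 0 :: oneL := by decide

namespace Frame

variable {G : Type*} [Group G] [Finite G] {z : G} (F : Frame z)

theorem orderOf_q : orderOf F.q = 5 := by
  haveI : Fact (Nat.Prime 5) := ⟨by norm_num⟩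
  exact orderOf_eq_prime F.q_pow fun e => bP_ne_one (by rw [← F.rho_q, e, map_one])

include F in
theorem not_dvd : ¬ 5 ^ 2 ∣ Nat.card (Subgroup.centralizer ({z} : Set G)) := by
  rw [card_centralizer F.ext F.shape]; norm_num

/-- An element of the extraspecial group is centralized by `q` exactly when its vector is fixed. -/
theorem commute_iff_fix (a : pCore 2 (Subgroup.centralizer ({z} : Set G))) :
    F.q * a = a * F.q ↔ bP (F.psi a) = F.psi a := by
  rw [← F.rho_q, ← F.ext.psi_conj]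
  constructor
  · intro h
    congr 1
    exact Subtype.ext (mul_inv_eq_iff_eq_mul.2 h)
  · intro h
    rcases F.ext.eq_of_psi h with e | e
    · exact mul_inv_eq_iff_eq_mul.1 e
    · exfalso
      have hz := F.ext.z_central
      set zz : Subgroup.centralizer ({z} : Set G) := ⟨z, Subgroup.mem_centralizer_singleton_iff.2 rfl⟩
      set x : Subgroup.centralizer ({z} : Set G) := (a : Subgroup.centralizer ({z} : Set G))
      have step : ∀ n : ℕ, F.q ^ n * x * (F.q ^ n)⁻¹ = x * zz ^ n := by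
        intro n
        induction n with
        | zero => simp
        | succ n ih =>
          calc F.q ^ (n + 1) * x * (F.q ^ (n + 1))⁻¹ = F.q * (F.q ^ n * x * (F.q ^ n)⁻¹) * F.q⁻¹ := by
                rw [pow_succ']; group
            _ = (F.q * x * F.q⁻¹) * (F.q * zz ^ n * F.q⁻¹) := by rw [ih]; group
            _ = x * zz * zz ^ n := by
                rw [show F.q * x * F.q⁻¹ = x * zz from e, ((show Commute F.q zz from hz F.q).pow_right n).eq, mul_inv_cancel_right]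
            _ = x * zz ^ (n + 1) := by rw [pow_succ', mul_assoc]
      have h5 := step 5
      rw [F.q_pow, one_mul, inv_one, mul_one] at h5
      have : zz ^ 5 = 1 := (mul_eq_left.1 h5.symm)
      rw [show 5 = 2 * 2 + 1 from rfl, pow_succ, pow_mul, pow_two, pow_two, F.ext.z_sq, one_mul, one_mul] at this
      exact F.ext.z_ne this

/-- The part of the extraspecial group centralized by `q`. -/
def fixed : Subgroup (Subgroup.centralizer ({z} : Set G)) :=
  pCore 2 (Subgroup.centralizer ({z} : Set G)) ⊓ Subgroup.centralizer {F.q}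

theorem mem_fixed {h : Subgroup.centralizer ({z} : Set G)} :
    h ∈ F.fixed ↔ ∃ hh : h ∈ pCore 2 (Subgroup.centralizer ({z} : Set G)), enc (F.psi ⟨h, hh⟩) ∈ fixL := by
  constructor
  · rintro ⟨h1, h2⟩
    exact ⟨h1, (fix_iff _).1 ((F.commute_iff_fix ⟨h, h1⟩).1 (Subgroup.mem_centralizer_singleton_iff.1 h2).symm)⟩
  · rintro ⟨h1, h2⟩
    exact ⟨h1, Subgroup.mem_centralizer_singleton_iff.2 ((F.commute_iff_fix ⟨h, h1⟩).2 ((fix_iff _).2 h2)).symm⟩

theorem z_fixed : (⟨z, Subgroup.mem_centralizer_singleton_iff.2 rfl⟩ : Subgroup.centralizer ({z} : Set G)) ∈ F.fixed :=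
  ⟨F.ext.z_mem, Subgroup.mem_centralizer_singleton_iff.2 (F.ext.z_central F.q).symm⟩

/-- The count of a set of codes among the vectors. -/
theorem ncard_codes (L : List ℕ) (hL : ∀ n ∈ L, n < 4096) (hnd : L.Nodup) :
    {v : Vec | enc v ∈ L}.ncard = L.length := by
  classical
  have e : {v : Vec | enc v ∈ L} = ↑(L.toFinset.image vecN) := by
    ext v
    rw [Finset.coe_image]
    constructor
    · intro hv; exact ⟨enc v, List.mem_toFinset.2 hv, vecN_enc v⟩
    · rintro ⟨u, hu, rfl⟩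
      show enc (vecN u) ∈ L
      rw [enc_vecN (hL u (List.mem_toFinset.1 hu))]
      exact List.mem_toFinset.1 hu
  rw [e, Set.ncard_coe_finset, Finset.card_image_of_injOn, List.toFinset_card_of_nodup hnd]
  intro a ha b hb h
  rw [← enc_vecN (hL a (List.mem_toFinset.1 ha)), h, enc_vecN (hL b (List.mem_toFinset.1 hb))]

theorem card_fixed : Nat.card F.fixed = 32 := by
  rw [(F.ext.card_sub F.fixed inf_le_left).2 F.z_fixed]
  have : F.psi '' {a | (a : Subgroup.centralizer ({z} : Set G)) ∈ F.fixed} = {v : Vec | enc v ∈ fixL} := by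
    ext v
    constructor
    · rintro ⟨a, ha, rfl⟩
      exact (F.mem_fixed.1 ha).2
    · intro hv
      obtain ⟨a, rfl⟩ := F.ext.psi_surj v
      exact ⟨a, F.mem_fixed.2 ⟨a.2, hv⟩, rfl⟩
  rw [this, ncard_codes fixL (fun n hn => table_lt hn) (by decide)]
  rfl

/-- Elements of order dividing 5 with the same image are conjugate under the extraspecial group. -/
theorem conj_lift {a b : Subgroup.centralizer ({z} : Set G)} (ha : a ^ 5 = 1) (hb : b ^ 5 = 1)
    (he : F.rho a = F.rho b) (hne : F.rho b ≠ 1) :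
    ∃ e ∈ pCore 2 (Subgroup.centralizer ({z} : Set G)), e * a * e⁻¹ = b := by
  haveI : Fact (Nat.Prime 5) := ⟨by norm_num⟩
  have hob : orderOf b = 5 := orderOf_eq_prime hb fun e => hne (by rw [e, map_one])
  have hoa : orderOf a = 5 := orderOf_eq_prime ha fun e => hne (by rw [← he, e, map_one])
  set L := pCore 2 (Subgroup.centralizer ({z} : Set G)) ⊔ Subgroup.zpowers b with hLdef
  have hbL : b ∈ L := Subgroup.mem_sup_right (Subgroup.mem_zpowers b)
  have haL : a ∈ L := by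
    have hd : a * b⁻¹ ∈ pCore 2 (Subgroup.centralizer ({z} : Set G)) := F.ext.mem_q (by
      rw [map_mul, map_inv, he, mul_inv_cancel])
    have := mul_mem (Subgroup.mem_sup_left (T := Subgroup.zpowers b) hd) hbL
    rwa [inv_mul_cancel_right] at this
  have h25 : ¬ 5 ^ 2 ∣ Nat.card L := fun h => F.not_dvd (h.trans (Subgroup.card_subgroup_dvd_card L))
  obtain ⟨⟨l, hl⟩, hg⟩ := conj_prime h25 (Subgroup.zpowers (⟨a, haL⟩ : L)) (Subgroup.zpowers ⟨b, hbL⟩)
    (by rw [Nat.card_zpowers, Subgroup.orderOf_mk, hoa]) (by rw [Nat.card_zpowers, Subgroup.orderOf_mk, hob])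
  rw [MonoidHom.map_zpowers] at hg
  obtain ⟨j, hj⟩ := Subgroup.mem_zpowers_iff.1 (hg.ge (Subgroup.mem_zpowers _))
  have hj' : b ^ j = l * a * l⁻¹ := congrArg Subtype.val hj
  rw [hLdef, Subgroup.mem_sup_of_normal_left] at hl
  obtain ⟨e, heQ, bi, hbi, rfl⟩ := hl
  obtain ⟨i, rfl⟩ := Subgroup.mem_zpowers_iff.1 hbi
  refine ⟨(b ^ i)⁻¹ * e * b ^ i, ?_, ?_⟩
  · simpa using (inferInstance : (pCore 2 (Subgroup.centralizer ({z} : Set G))).Normal).conj_mem e heQ ((b ^ i)⁻¹)
  have hr : F.rho b ^ j = F.rho b := by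
    have h := congrArg F.rho hj'
    simp only [map_mul, map_inv, map_zpow, F.ext.rho_q heQ, one_mul, he] at h
    rw [h, ((Commute.refl (F.rho b)).zpow_left i).eq, mul_inv_cancel_right]
  have hbj : b ^ j = b := by
    have hob' : orderOf (F.rho b) = 5 := orderOf_eq_prime (by rw [← map_pow, hb, map_one]) hne
    nth_rw 2 [← zpow_one b]
    rw [zpow_eq_zpow_iff_modEq, hob, ← hob', ← zpow_eq_zpow_iff_modEq, hr, zpow_one]
  calc (b ^ i)⁻¹ * e * b ^ i * a * ((b ^ i)⁻¹ * e * b ^ i)⁻¹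
      = (b ^ i)⁻¹ * (e * b ^ i * a * (e * b ^ i)⁻¹) * b ^ i := by group
    _ = (b ^ i)⁻¹ * b * b ^ i := by rw [← hj', hbj]
    _ = b := by rw [mul_assoc, ((Commute.refl b).zpow_right i).eq, inv_mul_cancel_left]

/-- The centralizer of `q` maps onto the centralizer of `bP`. -/
theorem exists_cent_lift {n : ℕ} (hn : n < 30) :
    ∃ h : Subgroup.centralizer ({z} : Set G), h * F.q = F.q * h ∧ F.rho h = cP30 n := by
  obtain ⟨hmem, hc⟩ := (mem_cent F.shape).2 ⟨n, hn, rfl⟩
  obtain ⟨h, hh⟩ := hmem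
  obtain ⟨e, he, hee⟩ := F.conj_lift (a := h * F.q * h⁻¹) (b := F.q)
    (by rw [conj_pow, F.q_pow, mul_one, mul_inv_cancel]) F.q_pow
    (by rw [map_mul, map_mul, map_inv, hh, F.rho_q, hc, mul_inv_cancel_right])
    (by rw [F.rho_q]; exact bP_ne_one)
  refine ⟨e * h, mul_inv_eq_iff_eq_mul.1 ?_, by rw [map_mul, F.ext.rho_q he, one_mul, hh]⟩
  calc e * h * F.q * (e * h)⁻¹ = e * (h * F.q * h⁻¹) * e⁻¹ := by group
    _ = F.q := hee

theorem cent_cases {h : Subgroup.centralizer ({z} : Set G)} (hc : h * F.q = F.q * h) :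
    ∃ n < 30, F.rho h = cP30 n :=
  (mem_cent F.shape).1 ⟨⟨h, rfl⟩, by rw [← F.rho_q, ← map_mul, hc, map_mul]⟩

theorem card_cent : Nat.card (Subgroup.centralizer ({F.q} : Set (Subgroup.centralizer ({z} : Set G)))) = 960 := by
  rw [F.ext.card_split (Subgroup.centralizer {F.q}), inf_comm]
  have hm : ((Subgroup.centralizer ({F.q} : Set (Subgroup.centralizer ({z} : Set G)))).map F.rho : Set (Equiv.Perm Vec)) =
      cP30 '' (Set.Iio 30) := by
    ext g
    constructor
    · rintro ⟨h, hh, rfl⟩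
      obtain ⟨n, hn, e⟩ := F.cent_cases (Subgroup.mem_centralizer_singleton_iff.1 hh)
      exact ⟨n, hn, e.symm⟩
    · rintro ⟨n, hn, rfl⟩
      obtain ⟨h, hh, e⟩ := F.exists_cent_lift hn
      exact ⟨h, Subgroup.mem_centralizer_singleton_iff.2 hh, e⟩
  rw [show Nat.card ↥((Subgroup.centralizer ({F.q} : Set (Subgroup.centralizer ({z} : Set G)))).map F.rho) =
      ((Subgroup.centralizer ({F.q} : Set (Subgroup.centralizer ({z} : Set G)))).map F.rho : Set (Equiv.Perm Vec)).ncard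
      from Nat.card_coe_set_eq _, hm, Set.ncard_image_of_injOn (s := Set.Iio 30) (f := cP30) (fun a ha b hb h => cP30_injective ha hb h),
    Set.ncard_Iio_nat, show Nat.card ↥(pCore 2 (Subgroup.centralizer ({z} : Set G)) ⊓ Subgroup.centralizer {F.q}) = 32
      from F.card_fixed]

/-- The elements over a set of codes closed under addition. -/
def pre (L : List ℕ) (h0 : 0 ∈ L) (hc : ∀ a ∈ L, ∀ b ∈ L, a ^^^ b ∈ L) :
    Subgroup (Subgroup.centralizer ({z} : Set G)) where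
  carrier := {h | ∃ hh : h ∈ pCore 2 (Subgroup.centralizer ({z} : Set G)), enc (F.psi ⟨h, hh⟩) ∈ L}
  one_mem' := ⟨one_mem _, by
    show enc (F.psi 1) ∈ L
    rw [F.ext.psi_one, enc_zero]; exact h0⟩
  mul_mem' := fun {a b} ⟨ha, hau⟩ ⟨hb, hbu⟩ => ⟨mul_mem ha hb, by
    show enc (F.psi (⟨a, ha⟩ * ⟨b, hb⟩)) ∈ L
    rw [F.ext.psi_mul, enc_add]; exact hc _ hau _ hbu⟩
  inv_mem' := fun {a} ⟨ha, hau⟩ => ⟨inv_mem ha, by
    show enc (F.psi (⟨a, ha⟩⁻¹)) ∈ L
    have h := F.ext.psi_mul ⟨a, ha⟩ (⟨a, ha⟩⁻¹)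
    rw [mul_inv_cancel, F.ext.psi_one] at h
    rwa [← zero_add (F.psi (⟨a, ha⟩⁻¹)), ← vec_self (F.psi ⟨a, ha⟩), add_assoc, ← h, add_zero]⟩

theorem card_pre (L : List ℕ) (h0 : 0 ∈ L) (hc : ∀ a ∈ L, ∀ b ∈ L, a ^^^ b ∈ L)
    (hlt : ∀ n ∈ L, n < 4096) (hnd : L.Nodup) : Nat.card (F.pre L h0 hc) = 2 * L.length := by
  rw [(F.ext.card_sub (F.pre L h0 hc) fun h hh => hh.1).2 ⟨F.ext.z_mem, by
    rw [(F.ext.psi_ker _).2 (Or.inr rfl), enc_zero]; exact h0⟩]
  have : F.psi '' {a | (a : Subgroup.centralizer ({z} : Set G)) ∈ F.pre L h0 hc} = {v : Vec | enc v ∈ L} := by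
    ext v
    constructor
    · rintro ⟨a, ha, rfl⟩
      exact ha.2
    · intro hv
      obtain ⟨a, rfl⟩ := F.ext.psi_surj v
      exact ⟨a, ⟨a.2, hv⟩, rfl⟩
  rw [this, ncard_codes L hlt hnd]

theorem pre_sq {L : List ℕ} {h0 : 0 ∈ L} {hc : ∀ a ∈ L, ∀ b ∈ L, a ^^^ b ∈ L}
    (hq : ∀ n ∈ L, qN n = true) {h : Subgroup.centralizer ({z} : Set G)} (hh : h ∈ F.pre L h0 hc) :
    h * h = 1 :=
  congrArg Subtype.val ((F.ext.psi_norm ⟨h, hh.1⟩).1 ((qN_enc _).1 (hq _ hh.2)))

end Frame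

end Cfsg.Agent.JFourType.Five
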