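import Cfsg.Agent.JFourType.FiveModel
import Cfsg.Agent.JFourType.Fusion

/-!
The frame of a group of Janko-four type adapted to a subgroup of order 5 of the centralizer of the
involution.
-/

set_option autoImplicit false
set_option maxRecDepth 100000

namespace Cfsg.Agent.JFourType.Five

open Cfsg
open Cfsg.Agent.GFour25 Cfsg.Agent.CosetCert
open Cfsg.Agent.SporB.FischerU (Vec vecN enc vecN_enc enc_lt)
open Cfsg.Agent.LargeFischer (IsSemi semiU)
open Cfsg.Agent.LargeFischer.Thompson
open Cfsg.Agent.TTClass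

/-- A frame adapted to an element `q` of order 5. -/
structure Frame {G : Type*} [Group G] (z : G) where
  /-- the representation -/
  rho : Subgroup.centralizer ({z} : Set G) →* Equiv.Perm Vec
  /-- the coordinates of the extraspecial group -/
  psi : pCore 2 (Subgroup.centralizer ({z} : Set G)) → Vec
  ext : Ext (pCore 2 (Subgroup.centralizer ({z} : Set G)))
    ⟨z, Subgroup.mem_centralizer_singleton_iff.2 rfl⟩ rho psi
  shape : Shape rho.range
  /-- the element of order 5 -/
  q : Subgroup.centralizer ({z} : Set G)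
  q_pow : q ^ 5 = 1
  rho_q : rho q = bP

variable {G : Type*} [Group G] [Finite G] {z : G} {P : Subgroup G}

theorem bP_ne_one : bP ≠ 1 := fun e => by
  have h : ¬ Data.bL = idL ∧ comp Data.bL idL = Data.bL ∧ comp idL idL = idL := by decide +kernel
  exact h.1 ((e ▸ rep_bP.1).list_eq Rep.one h.2.1 h.2.2)

theorem orderOf_bP : orderOf bP = 5 := by
  haveI : Fact (Nat.Prime 5) := ⟨by norm_num⟩
  exact orderOf_eq_prime bP_rel.2.1 bP_ne_one

theorem exists_shape (hJ : IsOfJankoFourTypeWith z P) :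
    ∃ (rho : Subgroup.centralizer ({z} : Set G) →* Equiv.Perm Vec)
      (psi : pCore 2 (Subgroup.centralizer ({z} : Set G)) → Vec),
      Ext (pCore 2 (Subgroup.centralizer ({z} : Set G)))
        ⟨z, Subgroup.mem_centralizer_singleton_iff.2 rfl⟩ rho psi ∧ Shape rho.range := by
  obtain ⟨rho, psi, M, q, D, -, hlin, hsqM, hconjM, ⟨h0, hh0, hs0⟩, hlift, hscal, hker, hcM, hcR⟩ :=
    exists_frame hJ
  obtain ⟨g, hg, hgK⟩ := exists_conjugate rho M q hlin hlift hscal hker hcM
  have hKR : K22 ≤ ((MulAut.conj g).toMonoidHom.comp rho).range := by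
    rw [← hgK, MonoidHom.range_comp]
    exact Subgroup.map_mono (Subgroup.map_le_range _ _)
  have hcK : Nat.card K22 = 1330560 := by
    rw [← hgK, Subgroup.card_map_of_injective (MulAut.conj g).injective, hcM]
  have hsemi : IsSemi true (g * rho h0 * g⁻¹) := by
    obtain ⟨b, hb⟩ := hg
    have h := (hb.mul hs0).mul hb.inv
    rwa [show ∀ b, xor (xor b true) b = true by decide] at h
  have hgP := JFourType.gP_mem hKR hcK (s := g * rho h0 * g⁻¹) ⟨h0, rfl⟩ hsemi (fun k hk => by
    rw [← hgK] at hk ⊢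
    obtain ⟨_, ⟨m, hm, rfl⟩, rfl⟩ := hk
    refine ⟨rho (h0 * m * h0⁻¹), ⟨_, hconjM m hm h0, rfl⟩, ?_⟩
    simp [mul_assoc])
  refine ⟨_, _, ext_conj D hg, hKR, hgP, ?_, hcK⟩
  rw [MonoidHom.range_comp, Subgroup.card_map_of_injective (MulAut.conj g).injective, hcR]

theorem range_semi {R : Subgroup (Equiv.Perm Vec)} (hR : Shape R) {g : Equiv.Perm Vec} (hg : g ∈ R) :
    g ∈ semiU := by
  obtain ⟨e, -, k, hk, rfl⟩ := shape_cases hR hg
  exact mul_mem (pow_mem (show gP ∈ semiU from ⟨true, semi_facts.2.2.2.2.2⟩) _)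
    (show k ∈ semiU from ⟨false, K22_linear hk⟩)

theorem card_centralizer {rho : Subgroup.centralizer ({z} : Set G) →* Equiv.Perm Vec}
    {psi : pCore 2 (Subgroup.centralizer ({z} : Set G)) → Vec}
    (D : Ext (pCore 2 (Subgroup.centralizer ({z} : Set G)))
      ⟨z, Subgroup.mem_centralizer_singleton_iff.2 rfl⟩ rho psi) (hR : Shape rho.range) :
    Nat.card (Subgroup.centralizer ({z} : Set G)) = 2661120 * 8192 := by
  have h := D.card_split ⊤
  rw [Subgroup.card_top, top_inf_eq, D.card_q, ← MonoidHom.range_eq_map, hR.card] at h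
  exact h

/-- Two subgroups of order `p` in a group of order not divisible by `p ^ 2` are conjugate. -/
theorem conj_prime {H : Type*} [Group H] [Finite H] {p : ℕ} [Fact p.Prime] (h2 : ¬ p ^ 2 ∣ Nat.card H)
    (A B : Subgroup H) (hA : Nat.card A = p) (hB : Nat.card B = p) :
    ∃ g : H, B = A.map (MulAut.conj g).toMonoidHom := by
  have key : ∀ K : Subgroup H, Nat.card K = p → ∀ S : Sylow p H, K ≤ S → K = S := fun K hK S hKS => by
    refine Subgroup.eq_of_le_of_card_ge hKS ?_
    obtain ⟨n, hn⟩ := IsPGroup.iff_card.1 S.2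
    have hd : p ^ n ∣ Nat.card H := hn ▸ Subgroup.card_subgroup_dvd_card _
    have hn1 : n ≤ 1 := by
      by_contra hc
      exact h2 ((pow_dvd_pow p (by omega : 2 ≤ n)).trans hd)
    rw [hK, hn]
    exact (Nat.pow_le_pow_right (Fact.out : p.Prime).pos hn1).trans (pow_one p).le
  obtain ⟨S, hS⟩ := (IsPGroup.of_card (n := 1) (by rw [pow_one, hA])).exists_le_sylow
  obtain ⟨T, hT⟩ := (IsPGroup.of_card (n := 1) (by rw [pow_one, hB])).exists_le_sylow
  obtain ⟨g, hg⟩ := MulAction.exists_smul_eq H S T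
  refine ⟨g, ?_⟩
  rw [key B hB T hT, ← hg, Sylow.smul_def, Sylow.pointwise_smul_def, key A hA S hS]
  rfl

/-- The frame adapted to a subgroup of order 5. -/
theorem exists_five (hJ : IsOfJankoFourTypeWith z P) {Q : Subgroup G} (hQ : Nat.card Q = 5)
    (hQz : Q ≤ Subgroup.centralizer ({z} : Set G)) :
    ∃ F : Frame z, Subgroup.zpowers (F.q : G) = Q := by
  haveI : Fact (Nat.Prime 5) := ⟨by norm_num⟩
  obtain ⟨rho, psi, D, hR⟩ := exists_shape hJ
  obtain ⟨h0, hh0⟩ : bP ∈ rho.range := hR.le gens_mem.2.1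
  set q0 := h0 ^ 24576 with hq0
  have hr0 : rho q0 = bP := by
    rw [hq0, map_pow, hh0, ← pow_mod_orderOf, orderOf_bP, show 24576 % 5 = 1 from rfl, pow_one]
  have h05 : q0 ^ 5 = 1 := by
    have hm : h0 ^ 5 ∈ pCore 2 (Subgroup.centralizer ({z} : Set G)) := D.mem_q (by rw [map_pow, hh0, bP_rel.2.1])
    have h1 : (h0 ^ 5) ^ 8192 = 1 := by
      have h2 := (pCore 2 (Subgroup.centralizer ({z} : Set G))).orderOf_dvd_natCard hm
      rw [D.card_q] at h2
      exact orderOf_dvd_iff_pow_eq_one.1 h2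
    rw [hq0, ← pow_mul, show 24576 * 5 = 5 * 8192 * 3 by norm_num, pow_mul, pow_mul, h1, one_pow]
  have ho : orderOf q0 = 5 := orderOf_eq_prime h05 fun e => bP_ne_one (by rw [← hr0, e, map_one])
  have h25 : ¬ 5 ^ 2 ∣ Nat.card (Subgroup.centralizer ({z} : Set G)) := by
    rw [card_centralizer D hR]; norm_num
  obtain ⟨c, hc⟩ := conj_prime h25 (Subgroup.zpowers q0) (Q.subgroupOf (Subgroup.centralizer ({z} : Set G)))
    (by rw [Nat.card_zpowers, ho]) (by rw [Nat.card_congr (Subgroup.subgroupOfEquivOfLe hQz).toEquiv, hQ])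
  have hgR : rho c⁻¹ ∈ rho.range := ⟨_, rfl⟩
  have hrange : ((MulAut.conj (rho c⁻¹)).toMonoidHom.comp rho).range = rho.range := by
    ext y
    constructor
    · rintro ⟨a, rfl⟩
      exact ⟨c⁻¹ * a * c, by simp⟩
    · rintro ⟨a, rfl⟩
      exact ⟨c * a * c⁻¹, by simp [mul_assoc]⟩
  refine ⟨{ rho := _, psi := _, ext := ext_conj D (range_semi hR hgR), shape := hrange.symm ▸ hR
            q := c * q0 * c⁻¹
            q_pow := by rw [conj_pow, h05, mul_one, mul_inv_cancel]
            rho_q := by simp [hr0, mul_assoc] }, ?_⟩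
  have he : Subgroup.zpowers (c * q0 * c⁻¹) = Q.subgroupOf (Subgroup.centralizer ({z} : Set G)) := by
    rw [hc, MonoidHom.map_zpowers]
    rfl
  have h := congrArg (Subgroup.map (Subgroup.centralizer ({z} : Set G)).subtype) he
  rw [MonoidHom.map_zpowers, Subgroup.map_subgroupOf_eq_of_le hQz] at h
  exact h

end Cfsg.Agent.JFourType.Five
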