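import Cfsg.Prelude.Def_Transfer
import Cfsg.Prelude.Def_TwoFusion
import Cfsg.Agent.Invol.Basic
import Cfsg.Agent.LargeFischer.EightQuot

/-!
# Recognition of `5 × 2³·SL(3, 2)`

`X` has a central element `q` of order five and an elementary abelian subgroup `E` of order eight
whose normaliser is transitive on the involutions of `E` and contains the centraliser of `z ∈ E`.
Some involution `y` not conjugate to `z` has all involutions commuting with it controlled by that
normaliser. Then `E` is normal and `X` is the product of `⟨q⟩` and a non-split `2³·SL(3, 2)`.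
-/

set_option autoImplicit false

namespace Cfsg.Agent.JFourType.FiveRecog

open Cfsg Subgroup

variable {X : Type*} [Group X]

/-- Coordinates on an elementary group of order eight. -/
theorem exists_coord {E : Subgroup X} (hE : IsElementaryAbelian 2 E) (hEc : Nat.card E = 8) :
    Nonempty (Multiplicative (Fin 3 → ZMod 2) ≃* E) := by
  haveI : Fact (Nat.Prime 2) := ⟨Nat.prime_two⟩
  haveI : Finite E := Nat.finite_of_card_ne_zero (by rw [hEc]; norm_num)
  haveI := hE.1
  letI : CommGroup E := { (inferInstance : Group E) with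
    mul_comm := fun x y => mul_comm' x y }
  letI : Module (ZMod 2) (Additive E) := AddCommGroup.zmodModule fun x => by
    have h : Additive.toMul x * Additive.toMul x = 1 :=
      Subtype.ext (by rw [Subgroup.coe_mul, ← pow_two]; exact hE.2 _ (Additive.toMul x).2)
    rw [two_nsmul]
    exact congrArg Additive.ofMul h
  have hc : Nat.card (Additive E) = 8 := (Nat.card_congr Additive.toMul).trans hEc
  have hr : Module.finrank (ZMod 2) (Additive E) = 3 := by
    have h := Module.natCard_eq_pow_finrank (K := ZMod 2) (V := Additive E)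
    rw [hc, Nat.card_zmod] at h
    exact (Nat.pow_right_injective le_rfl (show 2 ^ 3 = 2 ^ _ from h)).symm
  let e := LinearEquiv.ofFinrankEq (R := ZMod 2) (Fin 3 → ZMod 2) (Additive E) (by simp [hr])
  exact ⟨(AddEquiv.toMultiplicative e.toAddEquiv).trans (MulEquiv.multiplicativeAdditive E)⟩

/-- The recognition. -/
theorem recog [Finite X] (E : Subgroup X) (z q : X)
    (hE : IsElementaryAbelian 2 E) (hEc : Nat.card E = 8) (hzE : z ∈ E) (hz1 : z ≠ 1)
    (hq : orderOf q = 5) (hqc : ∀ x : X, x * q = q * x)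
    (hC : Nat.card ↥(Subgroup.centralizer ({z} : Set X)) = 960)
    (hCN : Subgroup.centralizer ({z} : Set X) ≤ Subgroup.normalizer (E : Set X))
    (htrans : ∀ a ∈ E, a ≠ 1 → ∃ n ∈ Subgroup.normalizer (E : Set X), n * z * n⁻¹ = a)
    (hCE : Subgroup.centralizer (E : Set X) ≤ E ⊔ Subgroup.zpowers q)
    (hy : ∃ y : X, orderOf y = 2 ∧ ¬ IsConj z y ∧
      ∀ i : X, orderOf i = 2 → i * y = y * i →
        Subgroup.centralizer ({i} : Set X) ≤ Subgroup.normalizer (E : Set X))
    (hsplit : ∀ L : Subgroup X, L ≤ Subgroup.centralizer ({z} : Set X) → Nat.card L = 24 →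
      L ⊓ E ≠ ⊥) :
    E.Normal ∧ Nat.card X = 6720 ∧ ∃ J : Subgroup X,
      IsInternalDirectProduct (Subgroup.zpowers q) J ⊤ ∧
      ∃ (E' : Subgroup ↥J) (_ : E'.Normal), IsElementaryAbelian 2 E' ∧ Nat.card ↥E' = 8 ∧
        Nonempty (↥J ⧸ E' ≃* Matrix.SpecialLinearGroup (Fin 3) (ZMod 2)) ∧
        ∀ K : Subgroup ↥J, ¬ E'.IsComplement' K := by
  haveI : Fact (Nat.Prime 2) := ⟨Nat.prime_two⟩
  have hsq : ∀ a ∈ E, a * a = 1 := fun a ha => by rw [← pow_two]; exact hE.2 a ha
  have hcomm : ∀ a ∈ E, ∀ b ∈ E, a * b = b * a := fun a ha b hb => by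
    haveI := hE.1
    exact congrArg Subtype.val (mul_comm' (⟨a, ha⟩ : E) ⟨b, hb⟩)
  have hz2 : orderOf z = 2 := orderOf_eq_prime (hE.2 z hzE) hz1
  set N := normalizer (E : Set X) with hN
  set Q := zpowers q with hQ
  have hqk : ∀ u ∈ Q, ∀ x : X, x * u = u * x := by
    rintro u ⟨k, rfl⟩ x
    exact ((show Commute x q from hqc x).zpow_right k).eq
  haveI hQn : Q.Normal := ⟨fun u hu g => by rwa [hqk u hu g, mul_inv_cancel_right]⟩
  have hQc : Nat.card Q = 5 := by rw [hQ, Nat.card_zpowers, hq]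
  have hq21 : ∀ u ∈ Q, u * u = 1 → u = 1 := by
    intro u hu h
    have h5 : u ^ 5 = 1 := by
      have := pow_card_eq_one' (G := Q) (x := ⟨u, hu⟩)
      rw [hQc] at this
      exact congrArg Subtype.val this
    rw [show u ^ 5 = (u * u) * (u * u) * u by simp [pow_succ, mul_assoc], h, one_mul, one_mul] at h5
    exact h5
  -- conjugates of `z` normalise `E`
  have hconj : ∀ g : X, g * z * g⁻¹ ∈ N := by
    intro g
    obtain ⟨y, hy2, hyz, hyi⟩ := hy
    have hg2 : orderOf (g * z * g⁻¹) = 2 := by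
      rw [← hz2]; exact orderOf_injective (MulAut.conj g).toMonoidHom (MulAut.conj g).injective z
    obtain ⟨i, hi, hiy, hig⟩ := Invol.exists_common_of_not_isConj hy2 hg2
      fun h => hyz ((isConj_iff.2 ⟨g, rfl⟩).trans h.symm)
    exact hyi i hi hiy (mem_centralizer_singleton_iff.2 hig.symm)
  have horb : ∀ b, b ∈ (E : Set X) \ {1} ↔ ∃ n ∈ N, n * z * n⁻¹ = b := by
    intro b
    refine ⟨fun ⟨hb, hb1⟩ => htrans b hb hb1, ?_⟩
    rintro ⟨n, hn, rfl⟩
    exact ⟨(mem_normalizer_iff.1 hn z).1 hzE, fun h => hz1 (by simpa using h)⟩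
  have hsev : ((E : Set X) \ {1}).ncard = 7 := by
    rw [Set.ncard_sdiff_singleton_of_mem (one_mem E), ← Nat.card_coe_set_eq]
    exact congrArg (· - 1) hEc
  have hNc : Nat.card N = 6720 := by
    rw [LargeFischer.Eight.card_orbit_conj N z _ horb, hsev, inf_eq_right.2 hCN, hC]
  -- the action on `E`
  obtain ⟨e⟩ := exists_coord hE hEc
  obtain ⟨f, hf⟩ := LargeFischer.Eight.aut_to_SL e
  let ρ : N →* Matrix.SpecialLinearGroup (Fin 3) (ZMod 2) := f.comp E.normalizerMonoidHom
  have hk : ρ.ker = (centralizer (E : Set X)).subgroupOf N := by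
    ext l
    rw [MonoidHom.mem_ker, MonoidHom.comp_apply, map_eq_one_iff f hf, ← MonoidHom.mem_ker,
      E.normalizerMonoidHom_ker]
  have hEQ : Nat.card ↥(E ⊔ Q) ≤ 40 := by
    let m : E × Q → ↥(E ⊔ Q) := fun p =>
      ⟨(p.1 : X) * p.2, mul_mem (mem_sup_left p.1.2) (mem_sup_right p.2.2)⟩
    have hm : Function.Surjective m := by
      rintro ⟨x, hx⟩
      obtain ⟨a, ha, b, hb, rfl⟩ := mem_sup_of_normal_right.1 hx
      exact ⟨(⟨a, ha⟩, ⟨b, hb⟩), rfl⟩
    have := Nat.card_le_card_of_surjective m hm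
    rwa [Nat.card_prod, hEc, hQc] at this
  have hρ : Function.Surjective ρ := by
    rw [← MonoidHom.range_eq_top]
    refine eq_top_of_card_eq _ ?_
    have h1 := card_mul_index ρ.ker
    rw [index_ker, hNc] at h1
    have h2 : Nat.card ρ.ker ≤ 40 := by
      rw [hk]
      refine le_trans (Nat.card_le_card_of_injective
        (fun x : ↥((centralizer (E : Set X)).subgroupOf N) => (⟨((x : N) : X), hCE x.2⟩ : ↥(E ⊔ Q)))
        fun a b h => ?_) hEQ
      exact Subtype.ext (Subtype.ext (congrArg (fun w : ↥(E ⊔ Q) => (w : X)) h))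
    have h3 := card_subgroup_dvd_card ρ.range
    rw [LargeFischer.Eight.sl_three_facts.1] at h3 ⊢
    have h4 := Nat.le_of_dvd (by norm_num) h3
    by_contra h5
    have h6 : Nat.card ρ.range < 168 := lt_of_le_of_ne h4 h5
    nlinarith
  -- `E` is normal
  have hnormal : E.Normal := by
    refine ⟨fun a ha g => ?_⟩
    let Eg : Subgroup X := E.map (MulAut.conj g).toMonoidHom
    let M : Subgroup X := normalClosure {z}
    have hconjset : ∀ w ∈ Group.conjugatesOfSet ({z} : Set X), ∃ h : X, h * z * h⁻¹ = w := by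
      intro w hw
      obtain ⟨u, hu, hc⟩ := Group.mem_conjugatesOfSet_iff.1 hw
      rw [Set.mem_singleton_iff.1 hu] at hc
      exact isConj_iff.1 hc
    have hMN : M ≤ N := (closure_le _).2 fun w hw => by
      obtain ⟨h, rfl⟩ := hconjset w hw
      exact hconj h
    have hEgM : Eg ≤ M := by
      rintro _ ⟨b, hb, rfl⟩
      by_cases hb1 : b = 1
      · simp [hb1]
      · obtain ⟨n, -, rfl⟩ := htrans b hb hb1
        exact normalClosure_normal.conj_mem _ (normalClosure_normal.conj_mem _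
          (subset_normalClosure (Set.mem_singleton z)) n) g
    have hMEg : ∀ m ∈ M, ∀ b ∈ Eg, m * b * m⁻¹ ∈ Eg := by
      intro m hm b hb
      obtain ⟨b₀, hb₀, rfl⟩ := hb
      have h1 : g⁻¹ * m * g ∈ N := by
        have := normalClosure_normal.conj_mem m hm g⁻¹
        rw [inv_inv] at this
        exact hMN this
      exact ⟨g⁻¹ * m * g * b₀ * (g⁻¹ * m * g)⁻¹, (mem_normalizer_iff.1 h1 b₀).1 hb₀, by
        simp only [MulEquiv.coe_toMonoidHom, MulAut.conj_apply]; group⟩
    have hb : g * a * g⁻¹ ∈ Eg := ⟨a, ha, rfl⟩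
    have hbN : g * a * g⁻¹ ∈ N := hMN (hEgM hb)
    haveI := LargeFischer.Eight.sl_three_facts.2
    let Ms : Subgroup (Matrix.SpecialLinearGroup (Fin 3) (ZMod 2)) := (M.subgroupOf N).map ρ
    haveI : (M.subgroupOf N).Normal := normalClosure_normal.subgroupOf N
    have hMs : Ms.Normal := Subgroup.Normal.map inferInstance ρ hρ
    let Es : Subgroup (Matrix.SpecialLinearGroup (Fin 3) (ZMod 2)) := (Eg.subgroupOf N).map ρ
    have hbEs : ρ ⟨g * a * g⁻¹, hbN⟩ ∈ Es := ⟨⟨_, hbN⟩, hb, rfl⟩
    have h1 : ρ ⟨g * a * g⁻¹, hbN⟩ = 1 := by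
      rcases hMs.eq_bot_or_eq_top with h | h
      · have hm : ρ ⟨g * a * g⁻¹, hbN⟩ ∈ Ms := ⟨⟨_, hbN⟩, hEgM hb, rfl⟩
        rwa [h, mem_bot] at hm
      · have hEs : Es.Normal := ⟨fun w hw s => by
          obtain ⟨v, hv, rfl⟩ := hw
          obtain ⟨m, hm, rfl⟩ : s ∈ Ms := h ▸ mem_top s
          exact ⟨m * v * m⁻¹, hMEg _ hm _ hv, by simp⟩⟩
        rcases hEs.eq_bot_or_eq_top with h2 | h2
        · rwa [h2, mem_bot] at hbEs
        · exfalso
          let r : Eg → Matrix.SpecialLinearGroup (Fin 3) (ZMod 2) := fun w =>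
            ρ ⟨w, hMN (hEgM w.2)⟩
          have hr : Function.Surjective r := by
            intro s
            obtain ⟨v, hv, rfl⟩ : s ∈ Es := h2 ▸ mem_top s
            exact ⟨⟨v, hv⟩, rfl⟩
          have h3 := Nat.card_le_card_of_surjective r hr
          rw [LargeFischer.Eight.sl_three_facts.1,
            card_map_of_injective (MulAut.conj g).injective, hEc] at h3
          omega
    rw [← MonoidHom.mem_ker, hk, mem_subgroupOf] at h1
    obtain ⟨b, hbE, u, hu, he⟩ := mem_sup_of_normal_right.1 (hCE h1)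
    change b * u = g * a * g⁻¹ at he
    have hu1 : u = 1 := by
      refine hq21 u hu ?_
      have h2 : (g * a * g⁻¹) * (g * a * g⁻¹) = 1 := by
        rw [show g * a * g⁻¹ * (g * a * g⁻¹) = g * (a * a) * g⁻¹ by group, hsq a ha]; group
      rw [← he] at h2
      calc u * u = (b * b) * (u * u) := by rw [hsq b hbE, one_mul]
        _ = b * (b * u) * u := by group
        _ = b * (u * b) * u := by rw [hqk u hu b]
        _ = b * u * (b * u) := by group
        _ = 1 := h2
    rw [hu1, mul_one] at he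
    rw [← he]; exact hbE
  have hNtop : N = ⊤ := normalizer_eq_top_iff.2 hnormal
  have hXc : Nat.card X = 6720 := by rw [← hNc, hNtop, card_top]
  refine ⟨hnormal, hXc, ?_⟩
  -- the complement of `⟨q⟩`
  have hQi : Q.index = 1344 := by
    have := card_mul_index Q
    rw [hQc, hXc] at this
    omega
  obtain ⟨J, hJ⟩ := exists_right_complement'_of_coprime (N := Q) (by rw [hQc, hQi]; norm_num)
  have hJc : Nat.card J = 1344 := by
    have := hJ.card_mul
    rw [hQc, hXc] at this
    omega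
  have hEJ : E ≤ J := by
    intro a ha
    obtain ⟨⟨u, j⟩, hx, -⟩ := hJ.existsUnique a
    simp only at hx
    have h1 : (u : X) * u * ((j : X) * j) = 1 := by
      rw [← hsq a ha, ← hx]
      calc (u : X) * u * ((j : X) * j) = u * ((u : X) * j) * j := by group
        _ = u * ((j : X) * u) * j := by rw [← hqk u u.2 j]
        _ = u * j * (u * j) := by group
    have h2 : (u : X) * u ∈ Q ⊓ J := Subgroup.mem_inf.2 ⟨mul_mem u.2 u.2, by
      rw [eq_inv_of_mul_eq_one_left h1]; exact inv_mem (mul_mem j.2 j.2)⟩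
    rw [hJ.disjoint.eq_bot, mem_bot] at h2
    rw [← hx, hq21 u u.2 h2, one_mul]
    exact j.2
  refine ⟨J, ⟨le_top, le_top, fun u hu b _ => (hqk u hu b).symm, hJ.disjoint.eq_bot,
    hJ.sup_eq_top⟩, E.subgroupOf J, inferInstance, ⟨⟨⟨fun x y => ?_⟩⟩, fun x hx => ?_⟩, ?_, ?_, ?_⟩
  · exact Subtype.ext (Subtype.ext (hcomm _ x.2 _ y.2))
  · exact Subtype.ext (by rw [Subgroup.coe_pow]; exact hE.2 _ hx)
  · rw [Nat.card_congr (subgroupOfEquivOfLe hEJ).toEquiv, hEc]
  · let σ : J →* Matrix.SpecialLinearGroup (Fin 3) (ZMod 2) :=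
      ρ.comp (Subgroup.inclusion (hNtop ▸ le_top : J ≤ N))
    have hσk : σ.ker = E.subgroupOf J := by
      ext j
      rw [MonoidHom.mem_ker, MonoidHom.comp_apply, ← MonoidHom.mem_ker, hk, mem_subgroupOf,
        mem_subgroupOf]
      refine ⟨fun h => ?_, fun h => ?_⟩
      · obtain ⟨b, hb, u, hu, he⟩ := mem_sup_of_normal_right.1 (hCE h)
        simp only [Subgroup.coe_inclusion] at he
        have h2 : u ∈ Q ⊓ J := Subgroup.mem_inf.2 ⟨hu, by
          rw [show u = b⁻¹ * (j : X) by rw [← he, inv_mul_cancel_left]]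
          exact mul_mem (inv_mem (hEJ hb)) j.2⟩
        rw [hJ.disjoint.eq_bot, mem_bot] at h2
        rw [h2, mul_one] at he
        exact he ▸ hb
      · exact mem_centralizer_iff.2 fun b hb => hcomm b hb _ h
    have hσ : Function.Surjective σ := by
      rw [← MonoidHom.range_eq_top]
      refine eq_top_of_card_eq _ ?_
      have h1 := card_mul_index σ.ker
      rw [index_ker, hσk, Nat.card_congr (subgroupOfEquivOfLe hEJ).toEquiv, hEc, hJc] at h1
      rw [LargeFischer.Eight.sl_three_facts.1]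
      omega
    exact ⟨(QuotientGroup.quotientMulEquivOfEq hσk.symm).trans
      (QuotientGroup.quotientKerEquivOfSurjective σ hσ)⟩
  · intro K hK
    set K' := K.map J.subtype with hK'
    have hKc : Nat.card K' = 168 := by
      have := hK.card_mul
      rw [Nat.card_congr (subgroupOfEquivOfLe hEJ).toEquiv, hEc, hJc] at this
      rw [hK', card_map_of_injective J.subtype_injective]
      omega
    have horb' : ∀ b, b ∈ (E : Set X) \ {1} ↔ ∃ n ∈ K', n * z * n⁻¹ = b := by
      intro b
      refine ⟨fun hb => ?_, fun ⟨n, hn, hnb⟩ => (horb b).2 ⟨n, hNtop ▸ mem_top n, hnb⟩⟩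
      obtain ⟨n, -, hnb⟩ := (horb b).1 hb
      obtain ⟨⟨u, j⟩, hx, -⟩ := hJ.existsUnique n
      obtain ⟨⟨k, a⟩, hx', -⟩ := hK.symm.existsUnique j
      simp only at hx hx'
      refine ⟨((k : J) : X), ⟨k, k.2, rfl⟩, ?_⟩
      have hj : ((k : J) : X) * ((a : J) : X) = j := congrArg Subtype.val hx'
      have ha : ((a : J) : X) ∈ E := a.2
      rw [← hnb, ← hx, ← hj]
      calc ((k : J) : X) * z * ((k : J) : X)⁻¹
          = ((k : J) : X) * (((a : J) : X) * z * ((a : J) : X)⁻¹) * ((k : J) : X)⁻¹ := by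
            rw [hcomm _ ha z hzE, mul_inv_cancel_right]
        _ = (u : X) * ((((k : J) : X) * ((a : J) : X)) * z *
              (((k : J) : X) * ((a : J) : X))⁻¹) * (u : X)⁻¹ := by
            rw [← hqk u u.2, mul_inv_cancel_right]; group
        _ = (u : X) * (((k : J) : X) * ((a : J) : X)) * z *
              ((u : X) * (((k : J) : X) * ((a : J) : X)))⁻¹ := by group
    have hL := LargeFischer.Eight.card_orbit_conj K' z _ horb'
    rw [hKc, hsev] at hL
    refine hsplit (K' ⊓ centralizer ({z} : Set X)) inf_le_right (by omega) ?_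
    rw [eq_bot_iff]
    rintro x ⟨⟨⟨k, hk', rfl⟩, -⟩, hxE⟩
    have h1 : k ∈ E.subgroupOf J ⊓ K := ⟨hxE, hk'⟩
    rw [hK.disjoint.eq_bot, mem_bot] at h1
    rw [h1]; simp

end Cfsg.Agent.JFourType.FiveRecog
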