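import Cfsg.Agent.JFourType.FiveSwapTwo
import Cfsg.Agent.JFourType.FiveRecog

/-!
The centralizer of an element of order 5 in a group of Janko-four type.
-/

set_option autoImplicit false
set_option maxRecDepth 100000

namespace Cfsg.Agent.JFourType.Five

open Cfsg
open Cfsg.Agent.GFour25 Cfsg.Agent.CosetCert
open Cfsg.Agent.SporB.FischerU (Vec vecN enc vecN_enc enc_lt)
open Cfsg.Agent.LargeFischer (IsSemi semiU)
open Cfsg.Agent.LargeFischer.Thompson
open Cfsg.Agent.TTClass

theorem long_fix : ((List.range 30).all fun n => !(Nat.beq (apL (cL30.getD n []) 1702) 1702) ||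
    (Nat.beq (n / 15) 0 && Nat.beq (n % 3) 0)) = true := by decide +kernel

theorem six_check : ((List.range 30).all fun n => !(pwL (cL30.getD n []) 6 == idL) || Nat.blt (n % 15) 3) = true := by
  decide +kernel

theorem five_distinct : ∀ v ∈ oneL ++ twoL,
    [0, v, apL Data.omL v, apL Data.omL (apL Data.omL v), apL Data.gL v].Nodup := by decide +kernel

theorem pwL_normal (g : List ℕ) (n : ℕ) (hg : comp g idL = g) : comp (pwL g n) idL = pwL g n := by
  unfold pwL
  induction n with
  | zero => exact idL_normal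
  | succ n ih => exact comp_normal _ hg

theorem eq_one_of_bP_pow {g : Equiv.Perm Vec} {j : ℕ} (hg : g = bP ^ j) (h2 : g * g = 1) : g = 1 := by
  have h5 : g ^ 5 = 1 := by rw [hg, ← pow_mul, mul_comm, pow_mul, bP_rel.2.1, one_pow]
  calc g = g * g ^ 5 := by rw [h5, mul_one]
    _ = (g * g) ^ 3 := by rw [← pow_two, ← pow_mul, ← pow_succ']
    _ = 1 := by rw [h2, one_pow]

namespace Frame

variable {G : Type*} [Group G] [Finite G] [IsSimpleGroup G] {z : G} {P : Subgroup G} (F : Frame z)

theorem enc_omega {v : Vec} {n : ℕ} (h : enc v = n) : enc (omP v) = apL Data.omL n := by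
  rw [rep_omP v, h]

theorem eightG_le : F.eightG ≤ Subgroup.centralizer ({(F.q : G)} : Set G) := by
  rintro _ ⟨a, ⟨ha, hau⟩, rfl⟩
  exact Subgroup.mem_centralizer_singleton_iff.2 (congrArg Subtype.val
    ((F.commute_iff_fix ⟨a, ha⟩).2 ((fix_iff _).2 (perp_sub _ (zero_perp _ hau))))).symm

theorem z_mem_eightG : z ∈ F.eightG :=
  ⟨_, ⟨F.ext.z_mem, by rw [(F.ext.psi_ker _).2 (Or.inr rfl), enc_zero]; exact List.mem_cons_self ..⟩, rfl⟩

theorem norm_eightG {h : Subgroup.centralizer ({z} : Set G)} (hc : h * F.q = F.q * h) :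
    (h : G) ∈ Subgroup.normalizer (F.eightG : Set G) := by
  rw [Subgroup.mem_normalizer_iff_map_conj_eq]
  refine Subgroup.eq_of_le_of_card_ge ?_ (by rw [Subgroup.card_map_of_injective (MulAut.conj (h : G)).injective])
  rintro _ ⟨_, ⟨a, ⟨ha, hau⟩, rfl⟩, rfl⟩
  refine ⟨h * a * h⁻¹, ⟨(inferInstance : (pCore 2 (Subgroup.centralizer ({z} : Set G))).Normal).conj_mem _ ha h, ?_⟩, rfl⟩
  rw [show F.psi ⟨h * a * h⁻¹, _⟩ = F.rho h (F.psi ⟨a, ha⟩) from F.ext.psi_conj h ⟨a, ha⟩]
  obtain ⟨n, hn, hr⟩ := F.cent_cases hc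
  rcases List.mem_cons.1 hau with r | r
  · rw [show F.psi ⟨a, ha⟩ = 0 by rw [← vecN_enc (F.psi ⟨a, ha⟩), r]; decide, F.ext.rho_zero, enc_zero]
    exact List.mem_cons_self ..
  · rw [hr]; exact List.mem_cons_of_mem _ (zeroL_stable hn r)

theorem eightG_trans (hJ : IsOfJankoFourTypeWith z P) (hO : OrbitData z) {v : G} (hv : v ∈ F.eightG) (hv1 : v ≠ 1) :
    ∃ n ∈ Subgroup.normalizer (F.eightG : Set G), n * (F.q : G) = (F.q : G) * n ∧ n * z * n⁻¹ = v := by
  obtain ⟨a, ⟨ha, hau⟩, rfl⟩ := hv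
  rcases List.mem_cons.1 hau with r | r
  · have h0 : F.psi ⟨a, ha⟩ = 0 := by rw [← vecN_enc (F.psi ⟨a, ha⟩), r]; decide
    refine ⟨1, one_mem _, by simp, ?_⟩
    rcases (F.ext.psi_ker _).1 h0 with e | e
    · exact absurd (congrArg Subtype.val e) hv1
    · have e' : (Subgroup.centralizer ({z} : Set G)).subtype a = z := congrArg Subtype.val e
      rw [e']; group
  · obtain ⟨s, hs⟩ := F.exists_code (n := 4080)
    obtain ⟨n, hnq, hnz, hnN⟩ := F.exists_swap hJ hO s hs
    obtain ⟨h, hh, he⟩ := F.trans_short s ⟨a, ha⟩ hs r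
    refine ⟨h * n, mul_mem (F.norm_eightG hh) hnN, ?_, ?_⟩
    · exact ((show Commute (h : G) F.q from congrArg Subtype.val hh).mul_left hnq).eq
    · rw [show (h : G) * n * z * ((h : G) * n)⁻¹ = (h : G) * (n * z * n⁻¹) * (h : G)⁻¹ by group, hnz]
      exact congrArg Subtype.val he

theorem card_cent_map : Nat.card ((Subgroup.centralizer ({F.q} : Set (Subgroup.centralizer ({z} : Set G)))).map F.rho) = 30 := by
  have h := F.ext.card_split (Subgroup.centralizer {F.q})
  rw [F.card_cent, inf_comm, show Nat.card ↥(pCore 2 (Subgroup.centralizer ({z} : Set G)) ⊓ Subgroup.centralizer {F.q}) = 32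
    from F.card_fixed] at h
  omega

/-- No complement to the group of order eight in the centralizer of the involution. -/
theorem no_small_complement (L : Subgroup G) (hLz : L ≤ Subgroup.centralizer ({z} : Set G))
    (hLq : L ≤ Subgroup.centralizer ({(F.q : G)} : Set G)) (hL : Nat.card L = 24) : L ⊓ F.eightG ≠ ⊥ := by
  classical
  intro hbot
  set L0 := L.subgroupOf (Subgroup.centralizer ({z} : Set G)) with hL0
  have hLc : ∀ a ∈ L0, a * F.q = F.q * a := fun a ha =>
    Subtype.ext (Subgroup.mem_centralizer_singleton_iff.1 (hLq (Subgroup.mem_subgroupOf.1 ha)))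
  have hone : ∀ a : pCore 2 (Subgroup.centralizer ({z} : Set G)), (a : Subgroup.centralizer ({z} : Set G)) ∈ L0 →
      enc (F.psi a) ∈ 0 :: zeroL → (a : Subgroup.centralizer ({z} : Set G)) = 1 := by
    intro a ha hau
    have h : ((a : Subgroup.centralizer ({z} : Set G)) : G) ∈ L ⊓ F.eightG :=
      ⟨Subgroup.mem_subgroupOf.1 ha, _, ⟨a.2, hau⟩, rfl⟩
    rw [hbot, Subgroup.mem_bot] at h
    exact Subtype.ext h
  set W := {v : Vec | ∃ a : pCore 2 (Subgroup.centralizer ({z} : Set G)), (a : Subgroup.centralizer ({z} : Set G)) ∈ L0 ∧ F.psi a = v} with hW'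
  have hLcard : Nat.card L0 = 24 := by rw [hL0, Nat.card_congr (Subgroup.subgroupOfEquivOfLe hLz).toEquiv, hL]
  -- vectors
  have hWcases : ∀ v ∈ W, enc v ∈ 0 :: (oneL ++ twoL) := by
    rintro v ⟨a, ha, rfl⟩
    have hfix : bP (F.psi a) = F.psi a := (F.commute_iff_fix a).1 (hLc _ ha).symm
    have hsq : a * a = 1 := by
      rcases (F.ext.psi_ker (a * a)).1 (by rw [F.ext.psi_mul, vec_self]) with r | r
      · exact Subtype.ext r
      · refine Subtype.ext (hone (a * a) (by rw [Subgroup.coe_mul]; exact mul_mem ha ha) ?_)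
        rw [F.ext.psi_mul, vec_self, enc_zero]; exact List.mem_cons_self ..
    rcases sing_cases hfix ((F.ext.psi_norm a).2 hsq) with r | r | r | r
    · rw [r, enc_zero]; exact List.mem_cons_self ..
    · have := hone a ha (List.mem_cons_of_mem _ r)
      rw [(F.ext.psi_ker a).2 (Or.inl this), enc_zero] at r
      exact absurd r (by decide)
    · exact List.mem_cons_of_mem _ (List.mem_append_left _ r)
    · exact List.mem_cons_of_mem _ (List.mem_append_right _ r)
  have hcardW : Nat.card ↥(L0 ⊓ pCore 2 (Subgroup.centralizer ({z} : Set G))) = W.ncard := by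
    rw [← Nat.card_coe_set_eq]
    refine Nat.card_congr (Equiv.ofBijective (fun u => ⟨F.psi ⟨u.1, u.2.2⟩, ⟨u.1, u.2.2⟩, u.2.1, rfl⟩) ⟨?_, ?_⟩)
    · intro u v huv
      have e : F.psi ⟨u.1, u.2.2⟩ = F.psi ⟨v.1, v.2.2⟩ := congrArg Subtype.val huv
      refine Subtype.ext (inv_mul_eq_one.1 (hone (⟨v.1, v.2.2⟩⁻¹ * ⟨u.1, u.2.2⟩) (mul_mem (inv_mem v.2.1) u.2.1) ?_)).symm
      have h2 := F.ext.psi_mul ⟨v.1, v.2.2⟩ (⟨v.1, v.2.2⟩⁻¹ * ⟨u.1, u.2.2⟩)
      rw [mul_inv_cancel_left, e, left_eq_add] at h2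
      rw [h2, enc_zero]; exact List.mem_cons_self ..
    · rintro ⟨v, a, ha, rfl⟩
      exact ⟨⟨_, ha, a.2⟩, rfl⟩
  have hle7 : W.ncard ≤ 7 := by
    refine le_trans (Set.ncard_le_ncard (t := {v : Vec | enc v ∈ 0 :: (oneL ++ twoL)}) hWcases (Set.toFinite _)) ?_
    rw [ncard_codes _ (by decide) (by decide)]
    decide
  have hmaple : L0.map F.rho ≤ (Subgroup.centralizer ({F.q} : Set (Subgroup.centralizer ({z} : Set G)))).map F.rho :=
    Subgroup.map_mono fun a ha => Subgroup.mem_centralizer_singleton_iff.2 (hLc a ha)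
  have hsplit := F.ext.card_split L0
  rw [hLcard, hcardW] at hsplit
  have h30 := Subgroup.card_dvd_of_le hmaple
  rw [F.card_cent_map] at h30
  have hd24 : Nat.card (L0.map F.rho) ∣ 24 := ⟨_, hsplit⟩
  have hd6 : Nat.card (L0.map F.rho) ∣ 6 := by
    have := Nat.dvd_gcd h30 hd24
    rwa [show Nat.gcd 30 24 = 6 from rfl] at this
  have hle6 := Nat.le_of_dvd (by norm_num) hd6
  have hmap6 : Nat.card (L0.map F.rho) = 6 := by
    by_contra hne
    have h3 : Nat.card (L0.map F.rho) ≤ 3 := by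
      rcases hd6 with ⟨c, hc⟩
      rcases Nat.lt_or_ge c 2 with p | p
      · interval_cases c <;> omega
      · nlinarith
    nlinarith
  have hW4 : W.ncard = 4 := by rw [hmap6] at hsplit; omega
  -- the image
  have himg : ∀ g ∈ L0.map F.rho, ∃ n ∈ ({0, 1, 2, 15, 16, 17} : Finset ℕ), g = cP30 n := by
    rintro g ⟨a, ha, rfl⟩
    obtain ⟨n, hn, hr⟩ := F.cent_cases (hLc a ha)
    refine ⟨n, ?_, hr⟩
    have h6 : cP30 n ^ 6 = 1 := by
      rw [← hr]
      exact orderOf_dvd_iff_pow_eq_one.1 ((Subgroup.orderOf_dvd_natCard (L0.map F.rho) (Subgroup.mem_map_of_mem F.rho ha)).trans hd6)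
    have hb := cL30_ok
    simp only [Bool.and_eq_true] at hb
    have hl : cL30.length = 30 := by rw [cL30, List.length_map, List.length_range]
    have hnorm := List.all_eq_true.1 hb.1.1.2 _ (getD_mem [] (hl.symm ▸ hn))
    rw [Bool.and_eq_true, beq_iff_eq] at hnorm
    have e := (h6 ▸ rep_pow (rep_cP30 hn) 6).list_eq Rep.one (pwL_normal _ 6 hnorm.1) idL_normal
    have h := List.all_eq_true.1 six_check n (List.mem_range.2 hn)
    rw [e, beq_self_eq_true, Bool.not_true, Bool.false_or, Nat.blt_eq] at h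
    simp only [Finset.mem_insert, Finset.mem_singleton]
    omega
  have hall : ∀ n ∈ ({0, 1, 2, 15, 16, 17} : Finset ℕ), cP30 n ∈ L0.map F.rho := by
    have hsub : (L0.map F.rho : Set (Equiv.Perm Vec)) ⊆ cP30 '' (({0, 1, 2, 15, 16, 17} : Finset ℕ) : Set ℕ) := fun g hg => by
      obtain ⟨n, hn, e⟩ := himg g hg
      exact ⟨n, hn, e.symm⟩
    have heq := Set.eq_of_subset_of_ncard_le hsub (by
      refine (Set.ncard_image_le (Set.toFinite _)).trans (le_of_eq ?_)
      rw [Set.ncard_coe_finset, ← Nat.card_coe_set_eq]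
      exact hmap6.symm) (Set.toFinite _)
    intro n hn
    exact (Set.ext_iff.1 heq _).2 ⟨n, hn, rfl⟩
  have hstab : ∀ n ∈ ({0, 1, 2, 15, 16, 17} : Finset ℕ), ∀ v ∈ W, cP30 n v ∈ W := by
    rintro n hn v ⟨a, ha, rfl⟩
    obtain ⟨l, hl, hlr⟩ := hall n hn
    exact ⟨⟨l * a * l⁻¹, (inferInstance : (pCore 2 (Subgroup.centralizer ({z} : Set G))).Normal).conj_mem _ a.2 l⟩,
      mul_mem (mul_mem hl ha) (inv_mem hl), by rw [F.ext.psi_conj, hlr]⟩
  obtain ⟨v, hv, hv0⟩ : ∃ v ∈ W, v ≠ 0 := by
    by_contra hc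
    push Not at hc
    have : W.ncard ≤ 1 := (Set.ncard_le_ncard (t := {(0 : Vec)}) (fun w hw => hc w hw) (Set.toFinite _)).trans (Set.ncard_singleton _).le
    omega
  have hcode : enc v ∈ oneL ++ twoL := (List.mem_cons.1 (hWcases v hv)).resolve_left fun e => hv0 (by
    rw [← vecN_enc v, e]; decide)
  have h1 : cP30 1 = omP := by rw [cP30]; norm_num
  have hom : ∀ w ∈ W, omP w ∈ W := fun w hw => h1 ▸ hstab 1 (by simp) w hw
  have hg : gP v ∈ W := cP30_fifteen ▸ hstab 15 (by simp) v hv
  have h0W : (0 : Vec) ∈ W := ⟨1, one_mem _, F.ext.psi_one⟩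
  let l : List Vec := [0, v, omP v, omP (omP v), gP v]
  have hnd : l.Nodup := by
    refine List.Nodup.of_map enc ?_
    simp only [l, List.map_cons, List.map_nil, enc_zero, rep_omP (omP v), rep_omP v, rep_gP.1 v]
    exact five_distinct _ hcode
  have hsub : (l.toFinset : Set Vec) ⊆ W := by
    intro w hw
    simp only [l, Finset.mem_coe, List.mem_toFinset, List.mem_cons, List.not_mem_nil, or_false] at hw
    rcases hw with rfl | rfl | rfl | rfl | rfl
    exacts [h0W, hv, hom _ hv, hom _ (hom _ hv), hg]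
  have := Set.ncard_le_ncard hsub (Set.toFinite _)
  rw [Set.ncard_coe_finset, List.toFinset_card_of_nodup hnd, hW4] at this
  simp [l] at this

/-- **The centralizer of `q`.** -/
theorem recognition (hJ : IsOfJankoFourTypeWith z P) (hO : OrbitData z) :
    Nat.card ↥(Subgroup.centralizer ({(F.q : G)} : Set G)) = 6720 ∧
    ∃ J : Subgroup G, IsInternalDirectProduct (Subgroup.zpowers (F.q : G)) J (Subgroup.centralizer ({(F.q : G)} : Set G)) ∧
      ∃ (E : Subgroup ↥J) (_ : E.Normal), IsElementaryAbelian 2 E ∧ Nat.card ↥E = 8 ∧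
        Nonempty (↥J ⧸ E ≃* Matrix.SpecialLinearGroup (Fin 3) (ZMod 2)) ∧ ∀ K : Subgroup ↥J, ¬ E.IsComplement' K := by
  classical
  set X := Subgroup.centralizer ({(F.q : G)} : Set G) with hX
  let zX : X := ⟨z, F.eightG_le F.z_mem_eightG⟩
  let qX : X := ⟨F.q, Subgroup.mem_centralizer_singleton_iff.2 rfl⟩
  let EX : Subgroup X := F.eightG.subgroupOf X
  have hoq : orderOf (F.q : G) = 5 := by rw [Subgroup.orderOf_coe, F.orderOf_q]
  have hzc : ∀ x : X, x ∈ Subgroup.centralizer ({zX} : Set X) → (x : G) ∈ Subgroup.centralizer ({z} : Set G) := fun x hx =>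
    Subgroup.mem_centralizer_singleton_iff.2 (congrArg Subtype.val (Subgroup.mem_centralizer_singleton_iff.1 hx))
  have hqx : ∀ x : X, (x : G) * F.q = F.q * x := fun x => Subgroup.mem_centralizer_singleton_iff.1 x.2
  have hnormX : ∀ x : X, (x : G) ∈ Subgroup.normalizer (F.eightG : Set G) → x ∈ Subgroup.normalizer (EX : Set X) := fun x hx =>
    Subgroup.mem_normalizer_iff.2 fun a => (Subgroup.mem_normalizer_iff.1 hx (a : G))
  have hCN : Subgroup.centralizer ({zX} : Set X) ≤ Subgroup.normalizer (EX : Set X) := fun x hx =>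
    hnormX x (F.norm_eightG (h := ⟨x, hzc x hx⟩) (Subtype.ext (hqx x)))
  have hconjN : ∀ (m : X) (i : X), m ∈ Subgroup.normalizer (EX : Set X) → m * zX * m⁻¹ = i →
      Subgroup.centralizer ({i} : Set X) ≤ Subgroup.normalizer (EX : Set X) := by
    rintro m i hm rfl x hx
    have h1 : m⁻¹ * x * m ∈ Subgroup.normalizer (EX : Set X) := hCN (Subgroup.mem_centralizer_singleton_iff.2 (by
      have hc := Subgroup.mem_centralizer_singleton_iff.1 hx
      calc m⁻¹ * x * m * zX = m⁻¹ * (x * (m * zX * m⁻¹)) * m := by group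
        _ = zX * (m⁻¹ * x * m) := by rw [hc]; group))
    have := mul_mem (mul_mem hm h1) (inv_mem hm)
    rwa [show m * (m⁻¹ * x * m) * m⁻¹ = x by group] at this
  obtain ⟨y, hy⟩ := F.exists_code (n := 1702)
  have hy1 : enc (F.psi y) ∈ oneL := by rw [hy, enc_vecN (by norm_num)]; decide
  obtain ⟨hync, hycent⟩ := F.long hJ hO y (Or.inl hy1)
  have hyq := F.fixed_of_code hy (by decide : (1702 : ℕ) ∈ fixL)
  let yX : X := ⟨(y : Subgroup.centralizer ({z} : Set G)), Subgroup.mem_centralizer_singleton_iff.2 (congrArg Subtype.val hyq)⟩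
  obtain ⟨-, hcard, J, hdp, E', hE'n, hE'el, hE'c, hE'q, hE'nc⟩ := FiveRecog.recog EX zX qX
    ⟨⟨⟨fun u v => Subtype.ext (Subtype.ext (by
        show ((u : X) : G) * (v : X) = ((v : X) : G) * (u : X)
        exact congrArg Subtype.val (F.elementary_eightG.1.is_comm.comm ⟨_, Subgroup.mem_subgroupOf.1 u.2⟩ ⟨_, Subgroup.mem_subgroupOf.1 v.2⟩)))⟩⟩,
      fun a ha => Subtype.ext (F.elementary_eightG.2 _ (Subgroup.mem_subgroupOf.1 ha))⟩
    (by rw [Nat.card_congr (Subgroup.subgroupOfEquivOfLe F.eightG_le).toEquiv, F.card_eightG])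
    (Subgroup.mem_subgroupOf.2 F.z_mem_eightG) (fun e => F.ext.z_ne (Subtype.ext (show z = 1 from congrArg (fun u : X => (u : G)) e)))
    (by rw [← Subgroup.orderOf_coe]; exact hoq) (fun x => Subtype.ext (hqx x))
    (by
      rw [← F.card_cent]
      exact Nat.card_congr
        { toFun := fun x => ⟨⟨((x : X) : G), hzc x x.2⟩, Subgroup.mem_centralizer_singleton_iff.2 (Subtype.ext (hqx x))⟩
          invFun := fun h => ⟨⟨((h : Subgroup.centralizer ({z} : Set G)) : G), Subgroup.mem_centralizer_singleton_iff.2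
              (congrArg Subtype.val (Subgroup.mem_centralizer_singleton_iff.1 h.2))⟩,
            Subgroup.mem_centralizer_singleton_iff.2 (Subtype.ext (Subgroup.mem_centralizer_singleton_iff.1 (h : Subgroup.centralizer ({z} : Set G)).2))⟩
          left_inv := fun x => rfl
          right_inv := fun h => rfl })
    hCN
    (fun a ha ha1 => by
      obtain ⟨n, hn, hnq, hnz⟩ := F.eightG_trans hJ hO (Subgroup.mem_subgroupOf.1 ha) (fun e => ha1 (Subtype.ext e))
      exact ⟨⟨n, Subgroup.mem_centralizer_singleton_iff.2 hnq⟩, hnormX _ hn, Subtype.ext hnz⟩)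
    (by
      intro x hx
      have hxE : ∀ v ∈ F.eightG, v * (x : G) = x * v := fun v hv =>
        congrArg Subtype.val (Subgroup.mem_centralizer_iff.1 hx ⟨v, F.eightG_le hv⟩ (Subgroup.mem_subgroupOf.2 hv))
      let h : Subgroup.centralizer ({z} : Set G) := ⟨x, Subgroup.mem_centralizer_singleton_iff.2 (hxE z F.z_mem_eightG).symm⟩
      have hhq : h * F.q = F.q * h := Subtype.ext (hqx x)
      obtain ⟨n, hn, hr⟩ := F.cent_cases hhq
      have hfix : ∀ v ∈ zeroL, cP30 n (vecN v) = vecN v := by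
        intro v hv
        have hlt : v < 4096 := table_lt (line_facts (List.mem_append_left _ (List.mem_append_left _ hv))).2
        obtain ⟨a, ha⟩ := F.exists_code (n := v)
        rw [← hr, ← ha, ← F.ext.psi_conj]
        congr 1
        refine Subtype.ext (Subtype.ext (mul_inv_eq_iff_eq_mul.2 ?_))
        exact (hxE _ ⟨_, ⟨a.2, by rw [ha, enc_vecN hlt]; exact List.mem_cons_of_mem _ hv⟩, rfl⟩).symm
      have hj := eq_pow_of_fix hn hfix
      set j := n % 15 / 3
      let d : Subgroup.centralizer ({z} : Set G) := h * (F.q ^ j)⁻¹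
      have hdQ : d ∈ pCore 2 (Subgroup.centralizer ({z} : Set G)) := F.ext.mem_q (by
        rw [map_mul, map_inv, map_pow, F.rho_q, hr, hj, mul_inv_cancel])
      have hdq : d * F.q = F.q * d :=
        ((show Commute h F.q from hhq).mul_left ((Commute.refl F.q).pow_left j).inv_left).eq
      have hdf : enc (F.psi ⟨d, hdQ⟩) ∈ fixL := (fix_iff _).1 ((F.commute_iff_fix ⟨d, hdQ⟩).1 hdq.symm)
      have hcom : ∀ v ∈ zeroL, comN (enc (F.psi ⟨d, hdQ⟩)) v = true := by
        intro v hv
        have hlf := line_facts (List.mem_append_left twoL (List.mem_append_left oneL hv))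
        obtain ⟨a, ha⟩ := F.exists_code (n := v)
        refine (F.commute_code ha (table_lt hlf.2) hlf.1).1 ?_
        have hah : Commute h (a : Subgroup.centralizer ({z} : Set G)) :=
          Subtype.ext (hxE _ ⟨_, ⟨a.2, by rw [ha, enc_vecN (table_lt hlf.2)]; exact List.mem_cons_of_mem _ hv⟩, rfl⟩).symm
        exact (hah.mul_left ((show Commute F.q (a : Subgroup.centralizer ({z} : Set G)) from (F.fixed_of_code ha hlf.2).symm).pow_left j).inv_left).eq
      have hd8 : (d : G) ∈ F.eightG := by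
        refine ⟨d, ⟨hdQ, ?_⟩, rfl⟩
        have hl := list_ok
        simp only [Bool.and_eq_true, List.all_eq_true, Bool.or_eq_true, Bool.not_eq_true', Bool.and_eq_false_iff] at hl
        rcases hl.1.1.1.1.1.1.1.1.2 _ hdf with (((p | p) | p) | p) | p
        · rw [hcom 1360 (by decide)] at p; exact Bool.noConfusion p
        · rw [hcom 2720 (by decide)] at p; exact Bool.noConfusion p
        · rw [hcom 4080 (by decide)] at p; exact Bool.noConfusion p
        · exact Nat.eq_of_beq_eq_true p ▸ List.mem_cons_self ..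
        · exact List.mem_cons_of_mem _ (List.contains_iff_mem.1 p)
      have hxe : x = ⟨(d : G), F.eightG_le hd8⟩ * qX ^ j := Subtype.ext (by
        show (x : G) = ((h * (F.q ^ j)⁻¹ : Subgroup.centralizer ({z} : Set G)) : G) * (F.q : G) ^ j
        simp [h])
      rw [hxe]
      exact mul_mem (Subgroup.mem_sup_left (Subgroup.mem_subgroupOf.2 hd8))
        (Subgroup.mem_sup_right (pow_mem (Subgroup.mem_zpowers qX) j)))
    ⟨yX, by
      have hy2 : y * y = 1 := (F.ext.psi_norm y).1 ((qN_enc _).1 (line_facts (List.mem_append_left _ (List.mem_append_right _ hy1))).1)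
      refine orderOf_eq_prime (by rw [pow_two]; exact Subtype.ext (congrArg (fun u : pCore 2 (Subgroup.centralizer ({z} : Set G)) => ((u : Subgroup.centralizer ({z} : Set G)) : G)) hy2)) fun e => ?_
      rw [(F.ext.psi_ker y).2 (Or.inl (Subtype.ext (show ((y : Subgroup.centralizer ({z} : Set G)) : G) = 1 from congrArg (fun u : X => (u : G)) e))), enc_zero] at hy1
      exact absurd hy1 (by decide), fun hc => hync (X.subtype.map_isConj hc), fun i hi hiy => by
      have hiy' : (i : G) * ((y : Subgroup.centralizer ({z} : Set G)) : G) = ((y : Subgroup.centralizer ({z} : Set G)) : G) * i :=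
        congrArg Subtype.val hiy
      have hiz := hycent (i : G) hiy' (hqx i)
      let h : Subgroup.centralizer ({z} : Set G) := ⟨i, Subgroup.mem_centralizer_singleton_iff.2 hiz⟩
      obtain ⟨n, hn, hr⟩ := F.cent_cases (h := h) (Subtype.ext (hqx i))
      have hfix : cP30 n (vecN 1702) = vecN 1702 := by
        rw [← hr, ← hy, ← F.ext.psi_conj]
        exact congrArg F.psi (Subtype.ext (Subtype.ext (mul_inv_eq_iff_eq_mul.2 hiy')))
      have hchk := List.all_eq_true.1 long_fix n (List.mem_range.2 hn)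
      have hap : Nat.beq (apL (cL30.getD n []) 1702) 1702 = true := by
        have e := rep_cP30 hn (vecN 1702)
        rw [hfix, enc_vecN (by norm_num)] at e
        exact Nat.beq_eq.symm.mp e.symm
      rw [hap, Bool.not_true, Bool.false_or, Bool.and_eq_true] at hchk
      have hrb : F.rho h = bP ^ (n % 15 / 3) := by
        rw [hr, cP30, Nat.eq_of_beq_eq_true hchk.1, Nat.eq_of_beq_eq_true hchk.2, pow_zero, pow_zero, one_mul, mul_one]
      have hh2 : h * h = 1 := Subtype.ext (show (i : G) * i = 1 from congrArg (fun u : X => (u : G)) (show i * i = 1 by rw [← pow_two, ← hi, pow_orderOf_eq_one]))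
      have hhQ : h ∈ pCore 2 (Subgroup.centralizer ({z} : Set G)) :=
        F.ext.mem_q (eq_one_of_bP_pow hrb (by rw [← map_mul, hh2, map_one]))
      have hifix : bP (F.psi ⟨h, hhQ⟩) = F.psi ⟨h, hhQ⟩ :=
        (F.commute_iff_fix ⟨h, hhQ⟩).1 (Subtype.ext (hqx i).symm)
      rcases sing_cases hifix ((F.ext.psi_norm ⟨h, hhQ⟩).2 (Subtype.ext hh2)) with r | r | r
      · rcases (F.ext.psi_ker _).1 r with e | e
        · have : i = 1 := Subtype.ext (congrArg Subtype.val e : (i : G) = 1)
          rw [this, orderOf_one] at hi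
          exact absurd hi (by norm_num)
        · exact (show i = zX from Subtype.ext (congrArg Subtype.val e : (i : G) = z)) ▸ hCN
      · have hi8 : (i : G) ∈ F.eightG := ⟨h, ⟨hhQ, List.mem_cons_of_mem _ r⟩, rfl⟩
        have hi1 : (i : G) ≠ 1 := fun e => by
          rw [(F.ext.psi_ker ⟨h, hhQ⟩).2 (Or.inl (Subtype.ext e)), enc_zero] at r
          exact absurd r (by decide)
        obtain ⟨m, hm, hmq, hmz⟩ := F.eightG_trans hJ hO hi8 hi1
        exact hconjN ⟨m, Subgroup.mem_centralizer_singleton_iff.2 hmq⟩ i (hnormX _ hm) (Subtype.ext hmz)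
      · intro g hg
        obtain ⟨-, hc⟩ := F.long hJ hO ⟨h, hhQ⟩ r
        exact hCN (Subgroup.mem_centralizer_singleton_iff.2 (Subtype.ext (hc (g : G)
          (congrArg Subtype.val (Subgroup.mem_centralizer_singleton_iff.1 hg)) (hqx g))))⟩
    (fun L hLz hL hbot => by
      refine F.no_small_complement (L.map X.subtype) (fun a ⟨x, hx, e⟩ => e ▸ hzc x (hLz hx))
        (Subgroup.map_subtype_le L) (by rw [Subgroup.card_map_of_injective X.subtype_injective, hL]) ?_
      rw [Subgroup.eq_bot_iff_forall]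
      rintro _ ⟨⟨x, hx, rfl⟩, hxE⟩
      have := Subgroup.mem_bot.1 (hbot.le ⟨hx, Subgroup.mem_subgroupOf.2 hxE⟩)
      rw [this, map_one])
  refine ⟨hcard, J.map X.subtype, ?_, ?_⟩
  · obtain ⟨h1, h2, h3, h4, h5⟩ := hdp
    have hz : (Subgroup.zpowers qX).map X.subtype = Subgroup.zpowers (F.q : G) := MonoidHom.map_zpowers ..
    refine ⟨hz ▸ Subgroup.map_subtype_le _, Subgroup.map_subtype_le _, ?_, ?_, ?_⟩
    · rw [← hz]
      rintro _ ⟨a, ha, rfl⟩ _ ⟨b, hb, rfl⟩
      rw [← map_mul, ← map_mul, h3 a ha b hb]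
    · rw [← hz, ← Subgroup.map_inf _ _ _ X.subtype_injective, h4, Subgroup.map_bot]
    · rw [← hz, ← Subgroup.map_sup, h5, ← MonoidHom.range_eq_map, Subgroup.range_subtype]
  · let e := J.equivMapOfInjective X.subtype X.subtype_injective
    haveI hn' : (E'.map e.toMonoidHom).Normal := hE'n.map e.toMonoidHom e.surjective
    refine ⟨E'.map e.toMonoidHom, hn', elem_map _ hE'el,
      (Subgroup.card_map_of_injective (f := e.toMonoidHom) e.injective).trans hE'c, ?_, fun K hK => ?_⟩
    · obtain ⟨f⟩ := hE'q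
      exact ⟨(QuotientGroup.congr E' (E'.map e.toMonoidHom) e rfl).symm.trans f⟩
    · refine hE'nc (K.comap e.toMonoidHom) (Subgroup.isComplement'_of_disjoint_and_mul_eq_univ ?_ ?_)
      · rw [Subgroup.disjoint_def]
        intro a ha hb
        exact e.injective ((Subgroup.disjoint_def.1 hK.disjoint (Subgroup.mem_map_of_mem e.toMonoidHom ha) hb).trans (map_one e).symm)
      · refine Set.eq_univ_of_forall fun a => ?_
        obtain ⟨⟨⟨u, hu⟩, ⟨w, hw⟩⟩, huw⟩ := hK.2 (e a)
        obtain ⟨u', hu', rfl⟩ := hu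
        refine ⟨u', hu', e.symm w, ?_, e.injective ?_⟩
        · show e (e.symm w) ∈ K
          rwa [e.apply_symm_apply]
        · show e (u' * e.symm w) = e a
          rw [map_mul, e.apply_symm_apply]
          exact huw

end Frame

end Cfsg.Agent.JFourType.Five
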