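import Cfsg.Agent.JFourType.Lifts

/-!
# The normaliser of a group of order five in the presence of a Mathieu group

If `G` contains a copy of `M24`, a subgroup `Q` of order five is a Sylow subgroup and its
centraliser is known, then its normaliser induces all automorphisms of `Q`.
-/

set_option autoImplicit false
set_option maxRecDepth 100000

namespace Cfsg.Agent.JFourType.FiveNormalizer

open Cfsg Subgroup
open Cfsg.Agent.Golay (mem_M22_iff)

/-- `M24` has elements `b`, `c` of orders five and four with `c b c⁻¹ = b²`. -/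
theorem exists_bc {K : Type*} [Group K] (hK : Cfsg.Spor.IsoM24 K) :
    ∃ b c : K, b ≠ 1 ∧ b ^ 5 = 1 ∧ c ^ 4 = 1 ∧ c * b = b ^ 2 * c := by
  obtain ⟨φ⟩ := hK
  obtain ⟨-, hb5, hc4, -, hba, hcb, ha⟩ := pts_rel
  have hbm : bPt ∈ M24 := (mem_M22_iff.1 pts_mem.2.1).1
  have hcm : cPt ∈ M24 := (mem_M22_iff.1 pts_mem.2.2).1
  have hb1 : bPt ≠ 1 := by
    intro h
    rw [h, one_mul, mul_one] at hba
    have h2 : aPt ^ 2 = 1 := by
      rw [pow_succ] at hba
      exact mul_eq_right.1 hba.symm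
    exact ha (by
      have h11 : aPt ^ 11 = 1 := pts_rel.1
      rwa [show aPt ^ 11 = (aPt ^ 2) ^ 5 * aPt by rw [← pow_mul, ← pow_succ], h2, one_pow,
        one_mul] at h11)
  refine ⟨φ.symm ⟨bPt, hbm⟩, φ.symm ⟨cPt, hcm⟩, ?_, ?_, ?_, ?_⟩
  · exact fun h => hb1 (congrArg Subtype.val ((MulEquiv.map_eq_one_iff φ.symm).1 h))
  · rw [← map_pow, MulEquiv.map_eq_one_iff]; exact Subtype.ext hb5
  · rw [← map_pow, MulEquiv.map_eq_one_iff]; exact Subtype.ext hc4
  · rw [← map_mul, ← map_pow, ← map_mul]; exact congrArg φ.symm (Subtype.ext hcb)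

variable {G : Type*} [Group G]

/-- The normaliser of `Q`. -/
theorem normalizer_five [Finite G] (K Q : Subgroup G) (hK : Cfsg.Spor.IsoM24 ↥K)
    (hQ : Nat.card ↥Q = 5) (h25 : ¬ 25 ∣ Nat.card G)
    (hC : Nat.card ↥(Subgroup.centralizer (Q : Set G)) = 6720) :
    (∃ R : Subgroup G, Q ≤ R ∧ R ≤ Subgroup.normalizer (Q : Set G) ∧ Nat.card ↥R = 20 ∧
      R ⊓ Subgroup.centralizer (Q : Set G) = Q) ∧
    Nat.card ↥(Subgroup.normalizer (Q : Set G)) = 2 ^ 8 * 3 * 5 * 7 := by
  haveI : Fact (Nat.Prime 5) := ⟨by norm_num⟩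
  obtain ⟨b₀, c₀, hb1, hb5, hc4, hcb⟩ := exists_bc hK
  have hbo : orderOf (b₀ : G) = 5 := by
    rw [orderOf_coe]; exact orderOf_eq_prime hb5 hb1
  have h5 : (Nat.card G).factorization 5 = 1 := by
    have hd : 5 ∣ Nat.card G := hQ ▸ card_subgroup_dvd_card Q
    have h1 : 1 ≤ (Nat.card G).factorization 5 :=
      (Nat.Prime.dvd_iff_one_le_factorization (by norm_num) Nat.card_pos.ne').1 hd
    have h2 : ¬ 2 ≤ (Nat.card G).factorization 5 := fun h =>
      h25 ((pow_dvd_pow 5 h).trans (Nat.ordProj_dvd _ _))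
    omega
  have hQs : Nat.card Q = 5 ^ (Nat.card G).factorization 5 := by rw [h5, hQ, pow_one]
  have hBs : Nat.card (zpowers (b₀ : G)) = 5 ^ (Nat.card G).factorization 5 := by
    rw [h5, Nat.card_zpowers, hbo, pow_one]
  obtain ⟨g, hg⟩ := MulAction.exists_smul_eq G (Sylow.ofCard (zpowers (b₀ : G)) hBs)
    (Sylow.ofCard Q hQs)
  set b : G := g * b₀ * g⁻¹ with hbdef
  set c : G := g * c₀ * g⁻¹ with hcdef
  have hbQ : zpowers b = Q := by
    have h1 := congrArg (fun S : Sylow 5 G => (S : Subgroup G)) hg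
    simp only [Sylow.coe_subgroup_smul, Sylow.coe_ofCard] at h1
    rw [← h1, hbdef]
    exact (MonoidHom.map_zpowers (MulAut.conj g).toMonoidHom (b₀ : G)).symm
  have hb5' : b ^ 5 = 1 := by
    rw [hbdef, conj_pow, ← Subgroup.coe_pow, hb5]; simp
  have hc4' : c ^ 4 = 1 := by
    rw [hcdef, conj_pow, ← Subgroup.coe_pow, hc4]; simp
  have hcb' : c * b * c⁻¹ = b ^ 2 := by
    rw [hcdef, hbdef, conj_pow, ← Subgroup.coe_pow]
    have h1 : (c₀ : G) * b₀ = ((b₀ ^ 2 : K) : G) * c₀ := congrArg Subtype.val hcb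
    calc g * c₀ * g⁻¹ * (g * b₀ * g⁻¹) * (g * c₀ * g⁻¹)⁻¹
        = g * ((c₀ : G) * b₀) * (c₀ : G)⁻¹ * g⁻¹ := by group
      _ = g * ((b₀ ^ 2 : K) : G) * g⁻¹ := by rw [h1]; group
  have hbne : b ≠ 1 := fun h => by
    have : orderOf b = 5 := by
      rw [← hbo]; exact orderOf_injective (MulAut.conj g).toMonoidHom (MulAut.conj g).injective _
    rw [h, orderOf_one] at this
    exact absurd this (by norm_num)
  set N := normalizer (Q : Set G) with hN
  have hQN : Q ≤ N := le_normalizer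
  have hcN : c ∈ N := by
    rw [hN, ← hbQ, mem_normalizer_iff_map_conj_eq]
    rw [MonoidHom.map_zpowers]
    refine le_antisymm (zpowers_le.2 ⟨2, ?_⟩) (zpowers_le.2 ⟨3, ?_⟩)
    · simp [hcb', zpow_ofNat]
    · show (c * b * c⁻¹) ^ (3 : ℤ) = b
      rw [hcb', zpow_ofNat, ← pow_mul]
      rw [show 2 * 3 = 5 + 1 by norm_num, pow_succ, hb5', one_mul]
  -- the action on `Q`
  let ψ : N →* MulAut Q := Q.normalizerMonoidHom
  have hker : ψ.ker = (centralizer (Q : Set G)).subgroupOf N := Q.normalizerMonoidHom_ker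
  have haut : Nat.card (MulAut Q) = 4 := by
    haveI : IsCyclic Q := isCyclic_of_prime_card hQ
    rw [IsCyclic.card_mulAut, hQ, Nat.totient_prime (by norm_num)]
  have hc2 : ¬ (c ^ 2 ∈ centralizer (Q : Set G)) := fun h => by
    have h1 := mem_centralizer_iff.1 h b (hbQ ▸ mem_zpowers b)
    have h2 : c ^ 2 * b * (c ^ 2)⁻¹ = b ^ 4 := by
      calc c ^ 2 * b * (c ^ 2)⁻¹ = c * (c * b * c⁻¹) * c⁻¹ := by simp [pow_two, mul_assoc]
        _ = c * b ^ 2 * c⁻¹ := by rw [hcb']
        _ = b ^ 4 := by rw [← conj_pow, hcb', ← pow_mul]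
    rw [← h1, mul_inv_cancel_right] at h2
    have h3 : b ^ 3 = 1 := by
      rw [pow_succ] at h2
      exact right_eq_mul.1 h2
    have h6 : b = (b ^ 3) ^ 2 * (b ^ 5)⁻¹ := by group
    rw [h3, hb5'] at h6
    exact hbne (by simpa using h6)
  have hord : orderOf (ψ ⟨c, hcN⟩) = 2 ^ (1 + 1) := by
    refine orderOf_eq_prime_pow ?_ ?_
    · intro h
      rw [← map_pow, ← MonoidHom.mem_ker, hker, mem_subgroupOf, Subgroup.coe_pow] at h
      exact hc2 (by simpa using h)
    · rw [← map_pow, ← MonoidHom.mem_ker, hker, mem_subgroupOf, Subgroup.coe_pow]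
      show c ^ (2 ^ (1 + 1)) ∈ _
      rw [show 2 ^ (1 + 1) = 4 by norm_num, hc4']
      exact one_mem _
  have hsurj : Nat.card ψ.range = 4 := by
    refine le_antisymm (haut ▸ Nat.card_le_card_of_injective _ Subtype.val_injective) ?_
    have h1 := Nat.le_of_dvd Nat.card_pos (Subgroup.orderOf_dvd_natCard ψ.range
      (MonoidHom.mem_range.2 ⟨⟨c, hcN⟩, rfl⟩))
    rwa [hord] at h1
  have hCN : centralizer (Q : Set G) ≤ N := centralizer_le_normalizer _
  refine ⟨?_, ?_⟩
  · have hQn : (Q.subgroupOf N).Normal := inferInstance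
    let R₀ : Subgroup N := Q.subgroupOf N ⊔ zpowers ⟨c, hcN⟩
    refine ⟨R₀.map N.subtype, fun x hx => ⟨⟨x, hQN hx⟩, mem_sup_left hx, rfl⟩,
      map_subtype_le _, ?_, ?_⟩
    · rw [card_map_of_injective N.subtype_injective]
      have hc' : orderOf (⟨c, hcN⟩ : N) = 4 := by
        have h1 : orderOf (⟨c, hcN⟩ : N) ∣ 4 := orderOf_dvd_of_pow_eq_one (Subtype.ext hc4')
        have h2 := orderOf_map_dvd ψ (⟨c, hcN⟩ : N)
        rw [hord] at h2
        exact Nat.dvd_antisymm h1 h2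
      have hdis : Disjoint (Q.subgroupOf N) (zpowers (⟨c, hcN⟩ : N)) := by
        refine disjoint_iff.2 (inf_eq_bot_of_coprime ?_)
        rw [Nat.card_congr (subgroupOfEquivOfLe hQN).toEquiv, hQ, Nat.card_zpowers, hc']
        norm_num
      have hbij : Function.Bijective (fun p : ↥(Q.subgroupOf N) × ↥(zpowers (⟨c, hcN⟩ : N)) =>
          (⟨(p.1 : N) * p.2, mul_mem (mem_sup_left p.1.2) (mem_sup_right p.2.2)⟩ : R₀)) := by
        refine ⟨fun p p' h => mul_injective_of_disjoint hdis (congrArg Subtype.val h), ?_⟩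
        rintro ⟨x, hx⟩
        obtain ⟨u, hu, v, hv, rfl⟩ := mem_sup_of_normal_left.1 hx
        exact ⟨(⟨u, hu⟩, ⟨v, hv⟩), rfl⟩
      rw [← Nat.card_eq_of_bijective _ hbij, Nat.card_prod,
        Nat.card_congr (subgroupOfEquivOfLe hQN).toEquiv, hQ, Nat.card_zpowers, hc']
    · refine le_antisymm ?_ (le_inf (fun x hx => ⟨⟨x, hQN hx⟩, mem_sup_left hx, rfl⟩) ?_)
      · rintro x ⟨⟨y, hy, rfl⟩, hxC⟩
        obtain ⟨u, hu, v, hv, rfl⟩ := mem_sup_of_normal_left.1 hy
        obtain ⟨k, rfl⟩ := hv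
        have hQC : Q ≤ centralizer (Q : Set G) := by
          haveI : IsCyclic Q := isCyclic_of_prime_card hQ
          exact le_centralizer Q
        have h1 : ((⟨c, hcN⟩ : N) ^ k : N) ∈ ψ.ker := by
          rw [hker, mem_subgroupOf]
          have := mul_mem (inv_mem (hQC hu)) hxC
          simpa using this
        rw [MonoidHom.mem_ker, map_zpow, ← orderOf_dvd_iff_zpow_eq_one, hord] at h1
        have h2 : ((⟨c, hcN⟩ : N) ^ k : N) = 1 := by
          refine orderOf_dvd_iff_zpow_eq_one.1 (dvd_trans ?_ h1)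
          exact Int.natCast_dvd_natCast.2 (orderOf_dvd_of_pow_eq_one (Subtype.ext hc4'))
        simp only [map_mul, h2, map_one, mul_one]
        exact hu
      · haveI : IsCyclic Q := isCyclic_of_prime_card hQ
        exact le_centralizer Q
  · have h1 := card_mul_index ψ.ker
    rw [index_ker, hker, Nat.card_congr (subgroupOfEquivOfLe hCN).toEquiv, hC, hsurj] at h1
    rw [← h1]
    norm_num

end Cfsg.Agent.JFourType.FiveNormalizer
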