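import Cfsg.Agent.JFourType.FiveLocal
import Cfsg.Agent.JFourType.FiveNormalizer
import Cfsg.Prelude.Def_TwoFusion

/-!
The subgroups of order 5 in a group of Janko-four type.
-/

set_option autoImplicit false

namespace Cfsg.Agent.JFourType.Five

open Cfsg

variable {G : Type*} [Group G] [Finite G] [IsSimpleGroup G]

/-- The structure of the normalizer of a subgroup of order 5, from the orbit data and a complement
`M₂₄` to the elementary abelian subgroup of order `2^11`. -/
theorem main {z : G} (hJ : IsOfJankoFourTypeAt z) (hO : OrbitData z)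
    (hK : ∃ K : Subgroup G, Spor.IsoM24 ↥K) (Q : Subgroup G) (hQ : Nat.card ↥Q = 5)
    (hQz : Q ≤ Subgroup.centralizer ({z} : Set G)) :
    ¬ (25 ∣ Nat.card G) ∧
    (∃ J : Subgroup G, Cfsg.IsInternalDirectProduct Q J (Subgroup.centralizer (Q : Set G)) ∧
      ∃ (E : Subgroup ↥J) (_ : E.Normal), Cfsg.IsElementaryAbelian 2 E ∧ Nat.card ↥E = 8 ∧
        Nonempty (↥J ⧸ E ≃* Matrix.SpecialLinearGroup (Fin 3) (ZMod 2)) ∧ ∀ K : Subgroup ↥J, ¬ E.IsComplement' K) ∧
    (∃ R : Subgroup G, Q ≤ R ∧ R ≤ Subgroup.normalizer (Q : Set G) ∧ Nat.card ↥R = 20 ∧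
      R ⊓ Subgroup.centralizer (Q : Set G) = Q) ∧
    Nat.card ↥(Subgroup.normalizer (Q : Set G)) = 2 ^ 8 * 3 * 5 * 7 := by
  obtain ⟨P, hP⟩ := hJ
  obtain ⟨F, hF⟩ := exists_five hP hQ hQz
  obtain ⟨hcard, hJex⟩ := F.recognition hP hO
  have hC : Subgroup.centralizer ({(F.q : G)} : Set G) = Subgroup.centralizer (Q : Set G) := by
    rw [← hF, Subgroup.zpowers_eq_closure, Subgroup.centralizer_closure]
  rw [hC] at hcard hJex
  rw [hF] at hJex
  haveI : Fact (Nat.Prime 5) := ⟨by norm_num⟩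
  have h25 : ¬ 25 ∣ Nat.card G := by
    intro h
    obtain ⟨S, hS⟩ := (IsPGroup.of_card (p := 5) (n := 1) (by rw [pow_one, hQ]) : IsPGroup 5 Q).exists_le_sylow
    have hlt : Nat.card Q < Nat.card (S : Subgroup G) := by
      obtain ⟨n, hn⟩ := IsPGroup.iff_card.1 S.2
      have hd := S.pow_dvd_card_of_pow_dvd_card (n := 2) (show 5 ^ 2 ∣ Nat.card G by norm_num; exact h)
      have := Nat.le_of_dvd Nat.card_pos hd
      rw [hQ]
      omega
    haveI : Group.IsNilpotent (S : Subgroup G) := S.2.isNilpotent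
    have hne : Q.subgroupOf (S : Subgroup G) < ⊤ := lt_top_iff_ne_top.2 fun e => hlt.ne (by
      rw [← Nat.card_congr (Subgroup.subgroupOfEquivOfLe hS).toEquiv, e, Subgroup.card_top])
    obtain ⟨y, hyN, hyS⟩ := SetLike.exists_of_lt (normalizerCondition_of_isNilpotent _ hne)
    have hyN' : (y : G) ∈ Subgroup.normalizer (Q : Set G) := Subgroup.mem_normalizer_iff.2 fun x => by
      constructor
      · intro hx
        exact Subgroup.mem_subgroupOf.1 ((Subgroup.mem_normalizer_iff.1 hyN ⟨x, hS hx⟩).1 (Subgroup.mem_subgroupOf.2 hx))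
      · intro hx
        have hxS : x ∈ (S : Subgroup G) := by
          have := mul_mem (mul_mem (inv_mem y.2) (hS hx)) y.2
          rwa [show (y : G)⁻¹ * ((y : G) * x * (y : G)⁻¹) * y = x by group] at this
        exact Subgroup.mem_subgroupOf.1 ((Subgroup.mem_normalizer_iff.1 hyN ⟨x, hxS⟩).2 (Subgroup.mem_subgroupOf.2 hx))
    -- a 5-element normalizing a group of order 5 centralizes it
    obtain ⟨k, hk⟩ := IsPGroup.iff_orderOf.1 S.2 y
    rw [← Subgroup.orderOf_coe] at hk
    have hyC : (y : G) ∈ Subgroup.centralizer (Q : Set G) := by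
      rw [← hC, Subgroup.mem_centralizer_singleton_iff, ← mul_inv_eq_iff_eq_mul]
      have hq5 : orderOf (F.q : G) = 5 := by rw [Subgroup.orderOf_coe, F.orderOf_q]
      have hqy : (y : G) * F.q * (y : G)⁻¹ ∈ Subgroup.zpowers (F.q : G) :=
        hF.symm ▸ (Subgroup.mem_normalizer_iff.1 hyN' _).1 (hF ▸ Subgroup.mem_zpowers _)
      obtain ⟨a, ha⟩ := ((isOfFinOrder_of_finite (F.q : G)).mem_powers_iff_mem_zpowers).2 hqy
      have ha' : (F.q : G) ^ a = (y : G) * F.q * (y : G)⁻¹ := ha
      have hstep : ∀ j : ℕ, (y : G) ^ j * F.q * ((y : G) ^ j)⁻¹ = (F.q : G) ^ (a ^ j) := by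
        intro j
        induction j with
        | zero => simp
        | succ j ih =>
          calc (y : G) ^ (j + 1) * F.q * ((y : G) ^ (j + 1))⁻¹
              = (y : G) * ((y : G) ^ j * F.q * ((y : G) ^ j)⁻¹) * (y : G)⁻¹ := by rw [pow_succ']; group
            _ = ((y : G) * F.q * (y : G)⁻¹) ^ (a ^ j) := by rw [ih, conj_pow]
            _ = _ := by rw [← ha', ← pow_mul, pow_succ']
      have h5 := hstep (5 ^ k)
      rw [← hk, pow_orderOf_eq_one, one_mul, inv_one, mul_one, hk] at h5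
      have hmod : a ^ 5 ^ k % 5 = 1 := by
        have := (pow_eq_pow_iff_modEq.1 (show (F.q : G) ^ 1 = (F.q : G) ^ (a ^ 5 ^ k) by rw [pow_one]; exact h5))
        rw [hq5, Nat.ModEq] at this
        omega
      have hpow : ∀ b : ℕ, a ^ 5 ^ b % 5 = a % 5 := by
        intro b
        induction b with
        | zero => simp
        | succ b ih =>
          rw [pow_succ, pow_mul, Nat.pow_mod, ih]
          have : a % 5 < 5 := Nat.mod_lt _ (by norm_num)
          interval_cases (a % 5) <;> rfl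
      rw [hpow] at hmod
      rw [← ha', ← pow_mod_orderOf, hq5, hmod, pow_one]
    have hyQ : (y : G) ∉ Q := fun e => hyS (Subgroup.mem_subgroupOf.2 e)
    let T := Subgroup.zpowers (y : G) ⊔ Q
    have hTC : T ≤ Subgroup.centralizer (Q : Set G) := sup_le (Subgroup.zpowers_le.2 hyC) (by
      rw [← hC, ← hF, Subgroup.zpowers_le, Subgroup.mem_centralizer_singleton_iff])
    have hTS : T ≤ (S : Subgroup G) := sup_le (Subgroup.zpowers_le.2 y.2) hS
    obtain ⟨m, hm⟩ := IsPGroup.iff_card.1 (S.2.to_le hTS)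
    have hm2 : 2 ≤ m := by
      have hlt' : Nat.card Q < Nat.card T := by
        refine lt_of_le_of_ne (Subgroup.card_le_of_le le_sup_right) fun e => hyQ ?_
        rw [Subgroup.eq_of_le_of_card_ge (show Q ≤ T from le_sup_right) e.ge]
        exact Subgroup.mem_sup_left (Subgroup.mem_zpowers _)
      rw [hQ, hm] at hlt'
      by_contra hc
      have : m ≤ 1 := by omega
      interval_cases m <;> norm_num at hlt'
    have : 25 ∣ 6720 := hcard ▸ (show (25 : ℕ) ∣ Nat.card T from hm ▸ (show (5 : ℕ) ^ 2 ∣ 5 ^ m from pow_dvd_pow 5 hm2)).trans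
      (Subgroup.card_dvd_of_le hTC)
    norm_num at this
  obtain ⟨K, hK⟩ := hK
  exact ⟨h25, hJex, FiveNormalizer.normalizer_five K Q hK hQ h25 hcard⟩

end Cfsg.Agent.JFourType.Five
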