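import Cfsg.Agent.JFourType.Main
import Cfsg.Agent.JFourType.FiveData

/-!
Facts about the concrete semilinear group used for the centralizer of an element of order 5 in a
group of Janko-four type.
-/

set_option autoImplicit false
set_option maxRecDepth 100000

namespace Cfsg.Agent.JFourType.Five

open Cfsg.Agent.GFour25 Cfsg.Agent.CosetCert
open Cfsg.Agent.SporB.FischerU (Vec vecN enc vecN_enc enc_lt)
open Cfsg.Agent.LargeFischer (IsSemi semiU twist)
open Cfsg.Agent.LargeFischer.Thompson
open Cfsg.Agent.TTClass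
open Cfsg.Agent.JFourType

/-- The fixed vectors of `bP`. -/
noncomputable def fixL : List ℕ :=
  [0, 347, 685, 1014, 1035, 1360, 1702, 2045, 2061, 2390, 2720, 3067, 3078, 3421, 3755, 4080]
/-- The short line. -/
noncomputable def zeroL : List ℕ := [1360, 2720, 4080]
/-- The first long line. -/
noncomputable def oneL : List ℕ := [1702, 3067, 3421]
/-- The second long line. -/
noncomputable def twoL : List ℕ := [2045, 2390, 3755]
/-- The vectors of the fixed space orthogonal to the base vector. -/
noncomputable def perpL : List ℕ := [0, 1014, 1360, 1702, 2390, 2720, 3078, 4080]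

/-- Commutation with a singular vector, on codes. -/
noncomputable def comN (a b : ℕ) : Bool := qN (Nat.xor a b) == qN a

/-- The products centralizing `bP`. -/
noncomputable def cL30 : List (List ℕ) :=
  (List.range 30).map fun n => comp (comp (pwL gL (n / 15)) (pwL Data.bL (n % 15 / 3))) (pwL Data.omL (n % 3))
where
  /-- the outer generator -/
  gL : List ℕ := Data.gL

/-- The products in the triple cover centralizing `bP`. -/
noncomputable def cL15 : List (List ℕ) :=
  (List.range 15).map fun n => comp (pwL Data.bL (n / 3)) (pwL Data.omL (n % 3))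

set_option maxHeartbeats 4000000

theorem cTab_ok : (Data.cTab.all fun t => !(allB (fun v => !(inS v) || inS (apL t.2.2.2 v)) 12 0) ||
    cL15.contains (comp t.2.2.2 Data.cI)) = true := by decide +kernel

theorem fix_ok : allB (fun v => (Nat.beq (apL Data.bL v) v) == fixL.contains v) 12 0 = true := by decide +kernel

theorem sing_ok : allB (fun v => !(fixL.contains v && qN v) || Nat.beq v 0 || zeroL.contains v ||
    oneL.contains v || twoL.contains v) 12 0 = true := by decide +kernel

theorem list_ok : ((fixL.all fun v => Nat.blt v 4096) &&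
    ((zeroL ++ oneL ++ twoL).all fun v => Nat.blt v 4096 && qN v && fixL.contains v) &&
    (perpL.all fun v => fixL.contains v) &&
    (fixL.all fun v => (comN v 4080) == perpL.contains v) &&
    (fixL.all fun v => !(comN v 1360 && comN v 2720 && comN v 4080) || Nat.beq v 0 || zeroL.contains v) &&
    qN 2045 && !(comN 4080 2045) && !(comN 2045 4080) &&
    comN 1702 3067 && !(comN 4080 3067) && comN 2390 2045 && nodupB fixL && nodupB perpL) = true := by
  decide +kernel

theorem act_ok : (Nat.beq (apL Data.omL 1360) 2720 && Nat.beq (apL Data.omL 2720) 4080 &&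
    Nat.beq (apL Data.omL 1702) 3067 && Nat.beq (apL Data.omL 3067) 3421 &&
    Nat.beq (apL Data.gL 1702) 2390 && Nat.beq (apL Data.gL 3067) 2045 && Nat.beq (apL Data.gL 3421) 3755 &&
    Nat.beq (apL Data.gL 4080) 4080 && Nat.beq (apL Data.gL 1360) 2720 && Nat.beq (apL Data.gL 2720) 1360 &&
    Nat.beq (apL Data.cL 4080) 4080 && (comp Data.cL Data.bL == comp b2L Data.cL) &&
    (comp Data.omL Data.bL == comp Data.bL Data.omL) && (comp Data.bL Data.omL == comp Data.omL Data.bL)) = true := by
  decide +kernel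

theorem cL30_ok : (distinctB cL30 && (cL30.all fun g => (comp g idL == g) && Nat.beq g.length 12) &&
    ((List.range 30).all fun n => !(Nat.beq (apL (cL30.getD n []) 1360) 1360 &&
      Nat.beq (apL (cL30.getD n []) 2720) 2720 && Nat.beq (apL (cL30.getD n []) 4080) 4080) ||
      (Nat.beq (n / 15) 0 && Nat.beq (n % 3) 0)) &&
    (cL30.all fun g => zeroL.all fun v => zeroL.contains (apL g v))) = true := by decide +kernel

/-- The check of the table of paths. -/
noncomputable def rootOK : Bool :=
  allB (fun v => !(qN v) || Nat.beq v 0 ||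
    (bif Nat.beq (rootAt v / 8) 0 then (Nat.beq v 1360 || Nat.beq v 1702)
      else qN (apL (letterL (back (rootAt v % 8))) v) && !(Nat.beq (apL (letterL (back (rootAt v % 8))) v) 0) &&
        Nat.blt (rootAt (apL (letterL (back (rootAt v % 8))) v) / 8) (rootAt v / 8))) 12 0
where
  /-- the entry of a vector -/
  rootAt (v : ℕ) : ℕ := (Data.rootCode.getD (v / 64) []).getD (v % 64) 255
  /-- the letter undoing a step -/
  back : ℕ → ℕ
    | 0 => 1
    | 1 => 0
    | 2 => 3
    | 3 => 2
    | 4 => 5
    | _ => 4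

theorem rootOK_true : rootOK = true := by decide +kernel

/-- The check of the invariant translate of the fixed space. -/
noncomputable def planeOK : Bool :=
  (Data.uList.all fun u => Data.uList.contains (apL qImg u) &&
    (!(Nat.beq (apL qImg u) u) || Nat.beq u 0 || oneL.contains (apL (wImg Data.planeWord) u))) &&
  (oneL.all fun v => Data.uList.contains (apL (wImg Data.planeWordInv) v)) &&
  (comp (wImg Data.planeWordInv) (wImg Data.planeWord) == idL) &&
  (comp qInv qImg == idL) &&
  (Data.aList.all fun a => Data.aList.contains (comp (comp qImg a) qInv) &&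
    !(comp qImg a == comp a qImg))
where
  /-- the conjugate of `bP` -/
  qImg : List ℕ := comp (wImg Data.planeWordInv) (comp Data.bL (wImg Data.planeWord))
  /-- its inverse -/
  qInv : List ℕ := comp (wImg Data.planeWordInv) (comp Data.bI (wImg Data.planeWord))

theorem planeOK_true : planeOK = true := by decide +kernel

/-- Converse of the specification of the bounded quantifier. -/
theorem allB_complete {f : ℕ → Bool} : ∀ d lo, (∀ i, lo ≤ i → i < lo + 2 ^ d → f i = true) →
    allB f d lo = true := by
  intro d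
  induction d with
  | zero => intro lo h; exact h lo le_rfl (by simp)
  | succ k ih =>
    intro lo h
    have e : allB f (k + 1) lo = (allB f k lo && allB f k (lo + Nat.shiftLeft 1 k)) := rfl
    have e2 : Nat.shiftLeft 1 k = 2 ^ k := by
      show 1 <<< k = 2 ^ k
      rw [Nat.shiftLeft_eq, one_mul]
    rw [e, e2, Bool.and_eq_true]
    refine ⟨ih lo fun i h1 h2 => h i h1 ?_, ih _ fun i h1 h2 => h i ?_ ?_⟩
    all_goals rw [pow_succ] at *
    all_goals omega

/-- The shape of the semilinear group. -/
structure Shape (R : Subgroup (Equiv.Perm Vec)) : Prop where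
  le : K22 ≤ R
  gP_mem : gP ∈ R
  card : Nat.card R = 2661120
  card_cover : Nat.card K22 = 1330560

variable {R : Subgroup (Equiv.Perm Vec)} (hR : Shape R)
include hR

theorem shape_cases {g : Equiv.Perm Vec} (hg : g ∈ R) : ∃ e < 2, ∃ k ∈ K22, g = gP ^ e * k := by
  have hsub : Nat.card (K22.subgroupOf R) = 1330560 := by
    rw [Nat.card_congr (Subgroup.subgroupOfEquivOfLe hR.le).toEquiv, hR.card_cover]
  have hidx : (K22.subgroupOf R).index = 2 := by
    have h := (K22.subgroupOf R).card_mul_index
    rw [hsub, hR.card] at h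
    omega
  by_cases h : g ∈ K22
  · exact ⟨0, by norm_num, g, h, by rw [pow_zero, one_mul]⟩
  refine ⟨1, by norm_num, gP * g, ?_, by rw [pow_one, ← mul_assoc, bP_rel.2.2.2.2, one_mul]⟩
  have hg0 : gP ∉ K22 := fun h0 => by
    have h1 := K22_linear h0
    have h2 := semi_facts.2.2.2.2.2
    have h3 := h1.2.1
    have h4 := h2.2.1
    obtain ⟨v, hv⟩ : ∃ v : Vec, gP v ≠ 0 := ⟨vecN 4080, fun e => by
      have := rep_gP.1 (vecN 4080)
      rw [e, enc_vecN (by norm_num)] at this
      have h5 := act_ok
      simp only [Bool.and_eq_true] at h5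
      rw [Nat.eq_of_beq_eq_true h5.1.1.1.1.1.1.2] at this
      exact absurd this (by decide)⟩
    have e := (h3 w4 v).symm.trans (h4 w4 v)
    have e' : (twist false w4 - twist true w4) • gP v = 0 := by rw [sub_smul, e, sub_self]
    rcases smul_eq_zero.1 e' with r | r
    · exact absurd r (by decide)
    · exact hv r
  exact (Subgroup.mul_mem_iff_of_index_two hidx (a := ⟨gP, hR.gP_mem⟩) (b := ⟨g, hg⟩)).2
    (iff_of_false hg0 h)

omit hR in
theorem rel_bP : cP * bP = bP ^ 2 * cP ∧ Commute omP bP := by
  have h := act_ok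
  simp only [Bool.and_eq_true, beq_iff_eq] at h
  exact ⟨(rep_cP.1.mul rep_bP.1).eq (h.1.1.2 ▸ ((show Rep b2L (bP ^ 2) by
      rw [pow_two]; exact rep_bP.1.mul rep_bP.1).mul rep_cP.1)),
    (rep_omP.mul rep_bP.1).eq (h.1.2 ▸ rep_bP.1.mul rep_omP)⟩

omit hR in
theorem cent_cover {g : Equiv.Perm Vec} (hg : g ∈ K22) (h : g * bP = bP * g) :
    ∃ n < 15, g = bP ^ (n / 3) * omP ^ (n % 3) := by
  have hlin : IsSemi false (g * cP) := mem_linU.1 (mul_mem (K22_linear hg) semi_facts.2.2.2.1)
  have hh : g * cP * bP = bP ^ 2 * (g * cP) := by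
    have hc2 : Commute g (bP ^ 2) := (show Commute g bP from h).pow_right 2
    rw [mul_assoc, rel_bP.1, ← mul_assoc, hc2.eq, mul_assoc]
  obtain ⟨t, ht, hr⟩ := normal_bP hlin hh
  have h0 := List.all_eq_true.1 cTab_ok t ht
  have hall : allB (fun v => !(inS v) || inS (apL t.2.2.2 v)) 12 0 = true := by
    refine allB_complete 12 0 fun v _ hv => ?_
    simp only [zero_add] at hv
    by_cases hS : inS v = true
    · rw [hS, Bool.not_true, Bool.false_or]
      have h1 := K22_invariant (mul_mem hg gens_mem.2.2) (x := vecN v) (by rw [enc_vecN hv]; exact hS)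
      rwa [hr, enc_vecN hv] at h1
    · simp [hS]
  rw [hall, Bool.not_true, Bool.false_or, List.contains_iff_mem, cL15, List.mem_map] at h0
  obtain ⟨n, hn, he⟩ := h0
  refine ⟨n, List.mem_range.1 hn, ?_⟩
  have h2 : Rep (comp t.2.2.2 Data.cI) (g * cP * cP⁻¹) := hr.mul rep_cP.2
  rw [mul_inv_cancel_right, ← he] at h2
  exact h2.eq ((rep_pow rep_bP.1 _).mul (rep_pow rep_omP _))

/-- The `n`-th product centralizing `bP`. -/
noncomputable def cP30 (n : ℕ) : Equiv.Perm Vec := gP ^ (n / 15) * bP ^ (n % 15 / 3) * omP ^ (n % 3)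

omit hR in
theorem rep_cP30 {n : ℕ} (hn : n < 30) : Rep (cL30.getD n []) (cP30 n) := by
  have e : cL30.getD n [] = comp (comp (pwL cL30.gL (n / 15)) (pwL Data.bL (n % 15 / 3))) (pwL Data.omL (n % 3)) := by
    rw [cL30, List.getD_eq_getElem?_getD, List.getElem?_map, List.getElem?_range hn]
    rfl
  rw [e]
  exact ((rep_pow rep_gP.1 _).mul (rep_pow rep_bP.1 _)).mul (rep_pow rep_omP _)

/-- The centralizer of `bP` in the semilinear group. -/
theorem mem_cent {g : Equiv.Perm Vec} : g ∈ R ∧ g * bP = bP * g ↔ ∃ n < 30, g = cP30 n := by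
  constructor
  · rintro ⟨hg, h⟩
    obtain ⟨e, he, k, hk, rfl⟩ := shape_cases hR hg
    have hgb : Commute (gP ^ e) bP := bP_rel.2.2.1.pow_left e
    have hkb : k * bP = bP * k := mul_left_cancel (a := gP ^ e) <| by
      rw [← mul_assoc, ← mul_assoc, h, hgb.eq, mul_assoc]
    obtain ⟨n, hn, rfl⟩ := cent_cover hk hkb
    refine ⟨15 * e + n, by omega, ?_⟩
    rw [cP30, show (15 * e + n) / 15 = e by omega, show (15 * e + n) % 15 = n by omega,
      show (15 * e + n) % 3 = n % 3 by omega, mul_assoc]
  · rintro ⟨n, -, rfl⟩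
    exact ⟨mul_mem (mul_mem (pow_mem hR.gP_mem _) (pow_mem (hR.le gens_mem.2.1) _)) (pow_mem (hR.le omP_mem) _),
      (((bP_rel.2.2.1.pow_left _).mul_left ((Commute.refl bP).pow_left _)).mul_left (rel_bP.2.pow_left _)).eq⟩

omit hR in
theorem cP30_injective {n m : ℕ} (hn : n < 30) (hm : m < 30) (h : cP30 n = cP30 m) : n = m := by
  have hb := cL30_ok
  simp only [Bool.and_eq_true] at hb
  have hnd := distinctB_spec hb.1.1.1
  have hl : cL30.length = 30 := by rw [cL30, List.length_map, List.length_range]
  have hnorm : ∀ k < 30, comp (cL30.getD k []) idL = cL30.getD k [] := fun k hk => by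
    have h2 := List.all_eq_true.1 hb.1.1.2 _ (getD_mem [] (hl.symm ▸ hk))
    rw [Bool.and_eq_true, beq_iff_eq] at h2
    exact h2.1
  have e := (rep_cP30 hn).list_eq (h ▸ rep_cP30 hm) (hnorm n hn) (hnorm m hm)
  have hn' : n < cL30.length := hl.symm ▸ hn
  have hm' : m < cL30.length := hl.symm ▸ hm
  rw [List.getD_eq_getElem _ _ hn', List.getD_eq_getElem _ _ hm'] at e
  exact (hnd.getElem_inj_iff).1 e

omit hR in
/-- An element of the centralizer fixing the short line pointwise lies in `⟨bP⟩`. -/
theorem eq_pow_of_fix {n : ℕ} (hn : n < 30) (h : ∀ v ∈ zeroL, cP30 n (vecN v) = vecN v) :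
    cP30 n = bP ^ (n % 15 / 3) := by
  have hb := cL30_ok
  simp only [Bool.and_eq_true] at hb
  have h2 := List.all_eq_true.1 hb.1.2 n (List.mem_range.2 hn)
  have hv : ∀ v ∈ zeroL, Nat.beq (apL (cL30.getD n []) v) v = true := fun v hv => by
    have hlt : v < 4096 := by
      simp only [zeroL, List.mem_cons, List.not_mem_nil, or_false] at hv
      omega
    have e := rep_cP30 hn (vecN v)
    rw [h v hv, enc_vecN hlt] at e
    exact Nat.beq_eq.symm.mp e.symm
  rw [hv 1360 (by decide), hv 2720 (by decide), hv 4080 (by decide)] at h2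
  simp only [Bool.and_self, Bool.not_true, Bool.false_or, Bool.and_eq_true] at h2
  rw [cP30, Nat.eq_of_beq_eq_true h2.1, Nat.eq_of_beq_eq_true h2.2, pow_zero, pow_zero, one_mul, mul_one]

omit hR in
/-- The centralizer of `bP` stabilizes the short line. -/
theorem zeroL_stable {n : ℕ} (hn : n < 30) {v : Vec} (hv : enc v ∈ zeroL) : enc (cP30 n v) ∈ zeroL := by
  have hb := cL30_ok
  simp only [Bool.and_eq_true] at hb
  have hl : cL30.length = 30 := by rw [cL30, List.length_map, List.length_range]
  have h2 := List.all_eq_true.1 (List.all_eq_true.1 hb.2 _ (getD_mem [] (hl.symm ▸ hn))) _ hv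
  rw [rep_cP30 hn v]
  exact List.contains_iff_mem.1 h2

omit hR in
theorem fix_iff (v : Vec) : bP v = v ↔ enc v ∈ fixL := by
  have h := allB_spec_zero fix_ok (by norm_num : 4096 ≤ 2 ^ 12) (enc_lt v)
  rw [beq_iff_eq] at h
  rw [← List.contains_iff_mem, ← h]
  constructor
  · intro e
    have := rep_bP.1 v
    rw [e] at this
    exact Nat.beq_eq.symm.mp this.symm
  · intro e
    have := Nat.eq_of_beq_eq_true e
    rw [← vecN_enc (bP v), rep_bP.1 v, this, vecN_enc]

omit hR in
theorem sing_cases {v : Vec} (hv : bP v = v) (hs : UnitF4.H v v = 0) :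
    v = 0 ∨ enc v ∈ zeroL ∨ enc v ∈ oneL ∨ enc v ∈ twoL := by
  have h := allB_spec_zero sing_ok (by norm_num : 4096 ≤ 2 ^ 12) (enc_lt v)
  rw [List.contains_iff_mem.2 ((fix_iff v).1 hv), (qN_enc v).2 hs] at h
  simp only [Bool.and_self, Bool.not_true, Bool.false_or, Bool.or_eq_true, List.contains_iff_mem] at h
  rcases h with ((h | h) | h) | h
  · left
    rw [← vecN_enc v, Nat.eq_of_beq_eq_true h]
    decide
  · exact Or.inr (Or.inl h)
  · exact Or.inr (Or.inr (Or.inl h))
  · exact Or.inr (Or.inr (Or.inr h))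

omit hR in
/-- Every nonzero singular vector is moved to one of the two base vectors. -/
theorem root_cover (v : Vec) (hv : UnitF4.H v v = 0) (hv0 : v ≠ 0) :
    ∃ k ∈ K22, k v = vecN 1360 ∨ k v = vecN 1702 := by
  suffices h : ∀ d, ∀ w : Vec, rootOK.rootAt (enc w) / 8 = d → qN (enc w) = true → enc w ≠ 0 →
      ∃ k ∈ K22, k w = vecN 1360 ∨ k w = vecN 1702 from
    h _ v rfl ((qN_enc v).2 hv) fun e => hv0 (by rw [← vecN_enc v, e]; decide)
  intro d
  induction d using Nat.strong_induction_on with
  | _ d ih =>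
    intro w hd hq hw
    have h := allB_spec_zero (show rootOK = true from rootOK_true) (by norm_num : 4096 ≤ 2 ^ 12) (enc_lt w)
    have hb0 : Nat.beq (enc w) 0 = false := Bool.eq_false_iff.2 fun e => hw (Nat.eq_of_beq_eq_true e)
    simp only [hq, hb0, hd, Bool.not_true, Bool.false_or] at h
    cases hb : Nat.beq d 0
    · rw [hb] at h
      simp only [cond_false, Bool.and_eq_true, Bool.not_eq_true'] at h
      obtain ⟨⟨hq', hne⟩, hlt⟩ := h
      set j := rootOK.back (rootOK.rootAt (enc w) % 8)
      have hr : enc (letter j w) = apL (letterL j) (enc w) := rep_letter j w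
      obtain ⟨k, hk, hkv⟩ := ih _ (Nat.blt_eq.mp hlt) (letter j w) (by rw [hr]) (by rw [hr]; exact hq')
        (by
          rw [hr]
          exact fun e => Bool.eq_false_iff.1 hne (Nat.beq_eq.symm.mp e))
      exact ⟨k * letter j, mul_mem hk (letter_mem j), hkv⟩
    · rw [hb] at h
      simp only [cond_true, Bool.or_eq_true] at h
      rcases h with h | h
      · exact ⟨1, one_mem _, Or.inl (by rw [Equiv.Perm.one_apply, ← vecN_enc w, Nat.eq_of_beq_eq_true h])⟩
      · exact ⟨1, one_mem _, Or.inr (by rw [Equiv.Perm.one_apply, ← vecN_enc w, Nat.eq_of_beq_eq_true h])⟩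

end Cfsg.Agent.JFourType.Five
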