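import Cfsg.Agent.JFourType.FiveClasses

/-!
The two classes of noncentral involutions of the extraspecial group centralized by an element of
order 5.
-/

set_option autoImplicit false
set_option maxRecDepth 100000

namespace Cfsg.Agent.JFourType.Five

open Cfsg
open Cfsg.Agent.GFour25 Cfsg.Agent.CosetCert
open Cfsg.Agent.SporB.FischerU (Vec vecN enc vecN_enc enc_lt)
open Cfsg.Agent.LargeFischer (IsSemi semiU)
open Cfsg.Agent.LargeFischer.Thompson
open Cfsg.Agent.TTClass

theorem cP30_fifteen : cP30 15 = gP := by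
  rw [cP30]; norm_num

theorem gP_two : ∀ n ∈ twoL, apL Data.gL n ∈ oneL := by decide +kernel

namespace Frame

variable {G : Type*} [Group G] [Finite G] [IsSimpleGroup G] {z : G} {P : Subgroup G} (F : Frame z)

/-- The involutions over the two long lines. -/
theorem long (hJ : IsOfJankoFourTypeWith z P) (hO : OrbitData z)
    (y : pCore 2 (Subgroup.centralizer ({z} : Set G))) (hy : enc (F.psi y) ∈ oneL ∨ enc (F.psi y) ∈ twoL) :
    ¬ IsConj z ((y : Subgroup.centralizer ({z} : Set G)) : G) ∧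
      ∀ g : G, g * ((y : Subgroup.centralizer ({z} : Set G)) : G) = ((y : Subgroup.centralizer ({z} : Set G)) : G) * g →
        g * (F.q : G) = (F.q : G) * g → g * z = z * g := by
  rcases hy with hy | hy
  · exact F.one_long hJ hO y hy
  obtain ⟨h, hc, hr⟩ := F.exists_cent_lift (n := 15) (by norm_num)
  rw [cP30_fifteen] at hr
  let y' : pCore 2 (Subgroup.centralizer ({z} : Set G)) :=
    ⟨h * y * h⁻¹, (inferInstance : (pCore 2 (Subgroup.centralizer ({z} : Set G))).Normal).conj_mem _ y.2 h⟩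
  have hy' : enc (F.psi y') ∈ oneL := by
    rw [show F.psi y' = F.rho h (F.psi y) from F.ext.psi_conj h y, hr, rep_gP.1]
    exact gP_two _ hy
  obtain ⟨h1, h2⟩ := F.one_long hJ hO y' hy'
  have e : ((y' : Subgroup.centralizer ({z} : Set G)) : G) = (h : G) * ((y : Subgroup.centralizer ({z} : Set G)) : G) * (h : G)⁻¹ := rfl
  have hz : (h : G) * z * (h : G)⁻¹ = z := mul_inv_eq_iff_eq_mul.2 (Subgroup.mem_centralizer_singleton_iff.1 h.2)
  have hq : (h : G) * (F.q : G) * (h : G)⁻¹ = F.q := mul_inv_eq_iff_eq_mul.2 (congrArg Subtype.val hc)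
  refine ⟨fun hcy => h1 (e ▸ hcy.trans (isConj_iff.2 ⟨_, rfl⟩)), fun g hgy hgq => ?_⟩
  have hcj : ∀ a : G, g * a = a * g →
      (h : G) * g * (h : G)⁻¹ * ((h : G) * a * (h : G)⁻¹) = (h : G) * a * (h : G)⁻¹ * ((h : G) * g * (h : G)⁻¹) := by
    intro a ha
    calc (h : G) * g * (h : G)⁻¹ * ((h : G) * a * (h : G)⁻¹) = (h : G) * (g * a) * (h : G)⁻¹ := by group
      _ = _ := by rw [ha]; group
  have h3 := h2 ((h : G) * g * (h : G)⁻¹) (by rw [e]; exact hcj _ hgy) (by
    have := hcj _ hgq; rwa [hq] at this)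
  calc g * z = (h : G)⁻¹ * ((h : G) * g * (h : G)⁻¹ * ((h : G) * z * (h : G)⁻¹)) * h := by group
    _ = (h : G)⁻¹ * ((h : G) * g * (h : G)⁻¹ * z) * h := by rw [hz]
    _ = (h : G)⁻¹ * (z * ((h : G) * g * (h : G)⁻¹)) * h := by rw [h3]
    _ = (h : G)⁻¹ * (z * h) * g := by group
    _ = z * g := by rw [← Subgroup.mem_centralizer_singleton_iff.1 h.2, inv_mul_cancel_left]

theorem coe_conj_isConj {a : Subgroup.centralizer ({z} : Set G)} {s : G} (h : Subgroup.centralizer ({z} : Set G))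
    (hs : IsConj z s) (ha : (a : G) = s) : IsConj z ((h * a * h⁻¹ : Subgroup.centralizer ({z} : Set G)) : G) :=
  (ha.symm ▸ hs).trans (isConj_iff.2 ⟨(h : G), rfl⟩)

/-- The image of an involution is nonzero. -/
theorem psi_ne {a : pCore 2 (Subgroup.centralizer ({z} : Set G))}
    (h1 : ((a : Subgroup.centralizer ({z} : Set G)) : G) ≠ 1) (hz : ((a : Subgroup.centralizer ({z} : Set G)) : G) ≠ z) :
    F.psi a ≠ 0 := fun e => by
  rcases (F.ext.psi_ker a).1 e with r | r
  · exact h1 (congrArg Subtype.val r)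
  · exact hz (congrArg Subtype.val r)

/-- A conjugate of `z` in the extraspecial group moves to the short line. -/
theorem to_short (hJ : IsOfJankoFourTypeWith z P) (hO : OrbitData z)
    (a : pCore 2 (Subgroup.centralizer ({z} : Set G)))
    (hc : IsConj z ((a : Subgroup.centralizer ({z} : Set G)) : G))
    (hne : ((a : Subgroup.centralizer ({z} : Set G)) : G) ≠ z) :
    ∃ (h : Subgroup.centralizer ({z} : Set G)) (b : pCore 2 (Subgroup.centralizer ({z} : Set G))),
      (b : Subgroup.centralizer ({z} : Set G)) = h * a * h⁻¹ ∧ F.psi b = vecN 1360 := by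
  have hzz : z * z = 1 := by simpa using congrArg Subtype.val F.ext.z_sq
  obtain ⟨g, hg⟩ := isConj_iff.1 hc
  have ha2 : a * a = 1 := Subtype.ext (Subtype.ext (by
    show ((a : Subgroup.centralizer ({z} : Set G)) : G) * _ = 1
    rw [← hg, show g * z * g⁻¹ * (g * z * g⁻¹) = g * (z * z) * g⁻¹ by group, hzz]; group))
  have ha1 : ((a : Subgroup.centralizer ({z} : Set G)) : G) ≠ 1 := fun e =>
    F.ext.z_ne (Subtype.ext (isConj_one_left.1 (e ▸ hc)))
  obtain ⟨k, hk, hkv⟩ := root_cover _ ((F.ext.psi_norm a).2 ha2) (F.psi_ne ha1 hne)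
  obtain ⟨h, rfl⟩ := F.shape.le hk
  refine ⟨h, ⟨h * a * h⁻¹, (inferInstance : (pCore 2 (Subgroup.centralizer ({z} : Set G))).Normal).conj_mem _ a.2 h⟩, rfl, ?_⟩
  rw [F.ext.psi_conj]
  refine hkv.resolve_right fun e => ?_
  refine (F.long hJ hO ⟨h * a * h⁻¹, (inferInstance : (pCore 2 (Subgroup.centralizer ({z} : Set G))).Normal).conj_mem _ a.2 h⟩
    (Or.inl ?_)).1 (coe_conj_isConj h hc rfl)
  rw [F.ext.psi_conj, e, enc_vecN (by norm_num)]
  decide

/-- Elements of the extraspecial group with the same singular nonzero vector are conjugate. -/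
theorem conj_same (a b : pCore 2 (Subgroup.centralizer ({z} : Set G))) (hb : b * b = 1) (hne : F.psi b ≠ 0)
    (he : F.psi a = F.psi b) :
    ∃ e ∈ pCore 2 (Subgroup.centralizer ({z} : Set G)), e * b * e⁻¹ = (a : Subgroup.centralizer ({z} : Set G)) := by
  rcases F.ext.eq_of_psi he with r | r
  · exact ⟨1, one_mem _, by simp [r]⟩
  · obtain ⟨e, he1, he2⟩ := F.exists_move b hb hne
    exact ⟨e, he1, by rw [he2, r]⟩

/-- The involutions over the short line are conjugate to `z`. -/
theorem short (hJ : IsOfJankoFourTypeWith z P) (hO : OrbitData z)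
    (y : pCore 2 (Subgroup.centralizer ({z} : Set G))) (hy : enc (F.psi y) ∈ zeroL) :
    IsConj z ((y : Subgroup.centralizer ({z} : Set G)) : G) := by
  obtain ⟨g, hgE, hgne⟩ := exists_fused hJ
  obtain ⟨s, hsQ, hse⟩ := hgE
  have hsc : IsConj z ((⟨s, hsQ⟩ : pCore 2 (Subgroup.centralizer ({z} : Set G))) : Subgroup.centralizer ({z} : Set G)).1 :=
    isConj_iff.2 ⟨g, hse.symm⟩
  obtain ⟨h, b, hb, hbv⟩ := F.to_short hJ hO ⟨s, hsQ⟩ hsc (fun e => hgne (hse ▸ e))
  have hbc : IsConj z ((b : Subgroup.centralizer ({z} : Set G)) : G) := hb ▸ coe_conj_isConj h hsc rfl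
  obtain ⟨x, -, hxr, -⟩ := F.exists_omega
  -- every vector of the short line is an image of `1360`
  obtain ⟨i, hi⟩ : ∃ i : ℕ, (omP ^ i) (F.psi b) = F.psi y := by
    simp only [zeroL, List.mem_cons, List.not_mem_nil, or_false] at hy
    rw [hbv]
    rcases hy with r | r | r <;> rw [enc_eq_iff (by norm_num)] at r <;> rw [r]
    · exact ⟨0, by simp⟩
    · exact ⟨1, by rw [pow_one, om_act.1]⟩
    · exact ⟨2, by rw [pow_two, Equiv.Perm.mul_apply, om_act.1, om_act.2.1]⟩
  let b' : pCore 2 (Subgroup.centralizer ({z} : Set G)) :=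
    ⟨x ^ i * b * (x ^ i)⁻¹, (inferInstance : (pCore 2 (Subgroup.centralizer ({z} : Set G))).Normal).conj_mem _ b.2 _⟩
  have hb'v : F.psi b' = F.psi y := by
    rw [show F.psi b' = F.rho (x ^ i) (F.psi b) from F.ext.psi_conj _ b, map_pow, hxr, hi]
  have hb'c : IsConj z ((b' : Subgroup.centralizer ({z} : Set G)) : G) := coe_conj_isConj _ hbc rfl
  have hy0 : F.psi y ≠ 0 := exists_ne_of_mem rfl fun e => by
    rw [e] at hy; exact absurd hy (by decide)
  have hb'2 : b' * b' = 1 := (F.ext.psi_norm b').1 (by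
    rw [hb'v]; exact (qN_enc _).1 (line_facts (List.mem_append_left _ (List.mem_append_left _ hy))).1)
  obtain ⟨e, -, he⟩ := F.conj_same y b' hb'2 (hb'v ▸ hy0) hb'v.symm
  exact he ▸ coe_conj_isConj e hb'c rfl

end Frame

end Cfsg.Agent.JFourType.Five
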