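import Cfsg.Agent.JFourType.FiveShort
import Cfsg.Agent.LargeFischer.EightQuot
import Cfsg.Agent.LargeExtra.Pair

/-!
An element centralizing `q` interchanges the involution with a conjugate on the short line and
normalizes the elementary abelian group of order eight.
-/

set_option autoImplicit false
set_option maxRecDepth 100000

namespace Cfsg.Agent.JFourType.Five

open Cfsg
open Cfsg.Agent.GFour25 Cfsg.Agent.CosetCert
open Cfsg.Agent.SporB.FischerU (Vec vecN enc vecN_enc enc_lt)
open Cfsg.Agent.LargeFischer (IsSemi semiU)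
open Cfsg.Agent.LargeFischer.Thompson
open Cfsg.Agent.TTClass

theorem perp_closed : ∀ a ∈ perpL, ∀ b ∈ perpL, a ^^^ b ∈ perpL := by decide

theorem perp_cases : ∀ a ∈ perpL, qN a = true → a = 0 ∨ a ∈ zeroL ∨ a = 1702 ∨ a = 2390 := by decide +kernel

theorem fix_perp : ∀ a ∈ fixL, (comN a 4080 = true ↔ a ∈ perpL) := by decide +kernel

theorem perp_sub : ∀ a ∈ perpL, a ∈ fixL := by decide

theorem zero_perp : ∀ a ∈ 0 :: zeroL, a ∈ perpL := by decide

theorem witnesses : qN 4080 = true ∧ qN 1702 = true ∧ qN 2390 = true ∧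
    comN 2045 4080 = false ∧ comN 3067 1702 = true ∧ comN 3067 4080 = false ∧
    comN 2045 2390 = true ∧ 2045 ∈ fixL ∧ 3067 ∈ fixL := by decide +kernel

namespace Frame

variable {G : Type*} [Group G] [Finite G] [IsSimpleGroup G] {z : G} {P : Subgroup G} (F : Frame z)

/-- The elementary abelian group of order eight, in the centralizer. -/
noncomputable def eight : Subgroup (Subgroup.centralizer ({z} : Set G)) :=
  F.pre (0 :: zeroL) (List.mem_cons_self ..) zero_closed

/-- The elementary abelian group of order eight. -/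
noncomputable def eightG : Subgroup G := F.eight.map (Subgroup.centralizer ({z} : Set G)).subtype

theorem card_eightG : Nat.card F.eightG = 8 := by
  rw [eightG, Subgroup.card_map_of_injective (Subgroup.centralizer ({z} : Set G)).subtype_injective, eight,
    F.card_pre _ _ _ (by decide) (by decide)]
  rfl

theorem eightG_cases (hJ : IsOfJankoFourTypeWith z P) (hO : OrbitData z) {v : G} (hv : v ∈ F.eightG) :
    v = 1 ∨ IsConj z v := by
  obtain ⟨a, ⟨ha, hau⟩, rfl⟩ := hv
  rcases List.mem_cons.1 hau with r | r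
  · have h0 : F.psi ⟨a, ha⟩ = 0 := by rw [← vecN_enc (F.psi ⟨a, ha⟩), r]; decide
    rcases (F.ext.psi_ker _).1 h0 with e | e
    · exact Or.inl (congrArg Subtype.val e)
    · exact Or.inr (by
        rw [show (Subgroup.centralizer ({z} : Set G)).subtype a = z from congrArg Subtype.val e])
  · exact Or.inr (F.short hJ hO ⟨a, ha⟩ r)

theorem eightG_sq {v : G} (hv : v ∈ F.eightG) : v * v = 1 := by
  obtain ⟨a, ha, rfl⟩ := hv
  exact congrArg Subtype.val (F.pre_sq (by decide +kernel) ha)

theorem elementary_eightG : IsElementaryAbelian 2 F.eightG := by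
  refine ⟨⟨⟨fun u v => Subtype.ext ?_⟩⟩, fun a ha => by rw [pow_two]; exact F.eightG_sq ha⟩
  exact comm_of_sq (F.eightG_sq u.2) (F.eightG_sq v.2) (F.eightG_sq (F.eightG.mul_mem u.2 v.2))

theorem commute_code {a b : pCore 2 (Subgroup.centralizer ({z} : Set G))} {n : ℕ} (hb : F.psi b = vecN n)
    (hn : n < 4096) (hq : qN n = true) :
    (a : Subgroup.centralizer ({z} : Set G)) * b = b * a ↔ comN (enc (F.psi a)) n = true := by
  rw [F.ext.comm_iff a b ((F.ext.psi_norm b).1 (by rw [hb, ← qN_enc, enc_vecN hn, hq]))]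
  rw [comN, beq_iff_eq, Bool.eq_iff_iff, show Nat.xor (enc (F.psi a)) n = enc (F.psi a + F.psi b) by
    rw [hb, enc_add, enc_vecN hn]; rfl, qN_enc, qN_enc]
  constructor
  · intro h; rw [h]
  · intro h
    rcases UnitF4.h_self GFour25.card_F4 (F.psi a + F.psi b) with p | p <;>
      rcases UnitF4.h_self GFour25.card_F4 (F.psi a) with q | q
    · rw [p, q]
    · exact absurd (h.1 p) (by rw [q]; exact one_ne_zero)
    · exact absurd (h.2 q) (by rw [p]; exact one_ne_zero)
    · rw [p, q]

theorem exists_code {n : ℕ} : ∃ a : pCore 2 (Subgroup.centralizer ({z} : Set G)), F.psi a = vecN n :=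
  F.ext.psi_surj _

theorem fixed_of_code {a : pCore 2 (Subgroup.centralizer ({z} : Set G))} {n : ℕ} (ha : F.psi a = vecN n)
    (hn : n ∈ fixL) : (a : Subgroup.centralizer ({z} : Set G)) * F.q = F.q * a :=
  ((F.commute_iff_fix a).2 ((fix_iff _).2 (by rw [ha, enc_vecN (table_lt hn)]; exact hn))).symm

/-- The transitivity on the six elements over the short line. -/
theorem trans_short (s b : pCore 2 (Subgroup.centralizer ({z} : Set G))) (hs : F.psi s = vecN 4080)
    (hb : enc (F.psi b) ∈ zeroL) :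
    ∃ h : Subgroup.centralizer ({z} : Set G), h * F.q = F.q * h ∧
      h * s * h⁻¹ = (b : Subgroup.centralizer ({z} : Set G)) := by
  obtain ⟨w1, -, -, w2, -, -, -, w3, -⟩ := witnesses
  obtain ⟨x, hxq, hxr, -⟩ := F.exists_omega
  obtain ⟨i, hi⟩ : ∃ i : ℕ, (omP ^ i) (vecN 4080) = F.psi b := by
    simp only [zeroL, List.mem_cons, List.not_mem_nil, or_false] at hb
    have e3 : omP (vecN 4080) = vecN 1360 := by rw [← om_act.2.1, ← om_act.1, om_cube]
    rcases hb with r | r | r <;> rw [enc_eq_iff (by norm_num)] at r <;> rw [r]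
    · exact ⟨1, by rw [pow_one, e3]⟩
    · exact ⟨2, by rw [pow_two, Equiv.Perm.mul_apply, e3, om_act.1]⟩
    · exact ⟨0, by simp⟩
  have hxi : Commute (x ^ i) F.q := (show Commute x F.q from hxq).pow_left i
  have hs' : F.psi ⟨x ^ i * s * (x ^ i)⁻¹, (inferInstance : (pCore 2 (Subgroup.centralizer ({z} : Set G))).Normal).conj_mem _ s.2 _⟩ =
      F.psi b := by
    rw [F.ext.psi_conj, map_pow, hxr, hs, hi]
  rcases F.ext.eq_of_psi hs' with r | r
  · exact ⟨x ^ i, hxi.eq, r⟩
  · obtain ⟨d, hd⟩ := F.exists_code (n := 2045)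
    have hne : ¬ (d : Subgroup.centralizer ({z} : Set G)) * s = s * d := by
      rw [F.commute_code hs (by norm_num) w1, hd, enc_vecN (by norm_num), w2]
      simp
    have hds : F.psi ⟨(d : Subgroup.centralizer ({z} : Set G)) * s * (d : Subgroup.centralizer ({z} : Set G))⁻¹,
        (inferInstance : (pCore 2 (Subgroup.centralizer ({z} : Set G))).Normal).conj_mem _ s.2 _⟩ = F.psi s := by
      rw [F.ext.psi_conj, F.ext.rho_q d.2, Equiv.Perm.one_apply]
    have hd2 := (F.ext.eq_of_psi hds).resolve_left fun e => hne (mul_inv_eq_iff_eq_mul.1 e)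
    refine ⟨x ^ i * d, (hxi.mul_left (show Commute (d : Subgroup.centralizer ({z} : Set G)) F.q from F.fixed_of_code hd w3)).eq, ?_⟩
    have hzc := F.ext.z_central (x ^ i)
    replace r : x ^ i * (s : Subgroup.centralizer ({z} : Set G)) * (x ^ i)⁻¹ = (b : Subgroup.centralizer ({z} : Set G)) * ⟨z, Subgroup.mem_centralizer_singleton_iff.2 rfl⟩ := r
    replace hd2 : (d : Subgroup.centralizer ({z} : Set G)) * s * (d : Subgroup.centralizer ({z} : Set G))⁻¹ = (s : Subgroup.centralizer ({z} : Set G)) * ⟨z, Subgroup.mem_centralizer_singleton_iff.2 rfl⟩ := hd2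
    calc x ^ i * d * s * (x ^ i * d)⁻¹ = x ^ i * ((d : Subgroup.centralizer ({z} : Set G)) * s * (d : Subgroup.centralizer ({z} : Set G))⁻¹) * (x ^ i)⁻¹ := by group
      _ = x ^ i * s * (x ^ i)⁻¹ * (x ^ i * ⟨z, Subgroup.mem_centralizer_singleton_iff.2 rfl⟩ * (x ^ i)⁻¹) := by rw [hd2]; group
      _ = (b : Subgroup.centralizer ({z} : Set G)) := by
        rw [r, hzc, mul_inv_cancel_right, mul_assoc, F.ext.z_sq, mul_one]

/-- An element fixing `z` and the base involution that squares `q`. -/
theorem exists_squarer (s : pCore 2 (Subgroup.centralizer ({z} : Set G))) (hs : F.psi s = vecN 4080) :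
    ∃ h : Subgroup.centralizer ({z} : Set G), h * F.q * h⁻¹ = F.q ^ 2 ∧ h * s * h⁻¹ = (s : Subgroup.centralizer ({z} : Set G)) := by
  obtain ⟨w1, -, -, w2, -, -, -, w3, -⟩ := witnesses
  obtain ⟨h0, hh0⟩ : cP ∈ F.rho.range := F.shape.le gens_mem.2.2
  obtain ⟨e, he, hee⟩ := F.conj_lift (a := h0 * F.q * h0⁻¹) (b := F.q ^ 2)
    (by rw [conj_pow, F.q_pow, mul_one, mul_inv_cancel]) (by rw [← pow_mul, mul_comm, pow_mul, F.q_pow, one_pow])
    (by rw [map_mul, map_mul, map_inv, hh0, map_pow, F.rho_q, rel_bP.1, mul_inv_cancel_right])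
    (by rw [map_pow, F.rho_q]; exact fun e => bP_ne_one (by
      have h5 := bP_rel.2.1
      rw [show 5 = 2 * 2 + 1 from rfl, pow_succ, pow_mul, e, one_pow, one_mul] at h5
      exact h5))
  have hq2 : e * h0 * F.q * (e * h0)⁻¹ = F.q ^ 2 := by rw [← hee]; group
  have hs' : F.psi ⟨e * h0 * s * (e * h0)⁻¹, (inferInstance : (pCore 2 (Subgroup.centralizer ({z} : Set G))).Normal).conj_mem _ s.2 _⟩ =
      F.psi s := by
    rw [F.ext.psi_conj, map_mul, F.ext.rho_q he, one_mul, hh0, hs, om_act.2.2.2.2.2.2.2.2]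
  rcases F.ext.eq_of_psi hs' with r | r
  · exact ⟨e * h0, hq2, r⟩
  · obtain ⟨d, hd⟩ := F.exists_code (n := 2045)
    have hne : ¬ (d : Subgroup.centralizer ({z} : Set G)) * s = s * d := by
      rw [F.commute_code hs (by norm_num) w1, hd, enc_vecN (by norm_num), w2]
      simp
    have hds : F.psi ⟨(d : Subgroup.centralizer ({z} : Set G)) * s * (d : Subgroup.centralizer ({z} : Set G))⁻¹,
        (inferInstance : (pCore 2 (Subgroup.centralizer ({z} : Set G))).Normal).conj_mem _ s.2 _⟩ = F.psi s := by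
      rw [F.ext.psi_conj, F.ext.rho_q d.2, Equiv.Perm.one_apply]
    have hd2 := (F.ext.eq_of_psi hds).resolve_left fun e => hne (mul_inv_eq_iff_eq_mul.1 e)
    have hdq : Commute (d : Subgroup.centralizer ({z} : Set G)) F.q := F.fixed_of_code hd w3
    refine ⟨d * (e * h0), ?_, ?_⟩
    · calc (d : Subgroup.centralizer ({z} : Set G)) * (e * h0) * F.q * ((d : Subgroup.centralizer ({z} : Set G)) * (e * h0))⁻¹
          = (d : Subgroup.centralizer ({z} : Set G)) * (e * h0 * F.q * (e * h0)⁻¹) * (d : Subgroup.centralizer ({z} : Set G))⁻¹ := by group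
        _ = F.q ^ 2 := by rw [hq2, (hdq.pow_right 2).eq, mul_inv_cancel_right]
    · have hzc := F.ext.z_central (d : Subgroup.centralizer ({z} : Set G))
      replace r : e * h0 * (s : Subgroup.centralizer ({z} : Set G)) * (e * h0)⁻¹ = (s : Subgroup.centralizer ({z} : Set G)) * ⟨z, Subgroup.mem_centralizer_singleton_iff.2 rfl⟩ := r
      replace hd2 : (d : Subgroup.centralizer ({z} : Set G)) * s * (d : Subgroup.centralizer ({z} : Set G))⁻¹ = (s : Subgroup.centralizer ({z} : Set G)) * ⟨z, Subgroup.mem_centralizer_singleton_iff.2 rfl⟩ := hd2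
      calc (d : Subgroup.centralizer ({z} : Set G)) * (e * h0) * s * ((d : Subgroup.centralizer ({z} : Set G)) * (e * h0))⁻¹
          = (d : Subgroup.centralizer ({z} : Set G)) * (e * h0 * s * (e * h0)⁻¹) * (d : Subgroup.centralizer ({z} : Set G))⁻¹ := by group
        _ = (d : Subgroup.centralizer ({z} : Set G)) * s * (d : Subgroup.centralizer ({z} : Set G))⁻¹ *
            ((d : Subgroup.centralizer ({z} : Set G)) * ⟨z, Subgroup.mem_centralizer_singleton_iff.2 rfl⟩ * (d : Subgroup.centralizer ({z} : Set G))⁻¹) := by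
            rw [r]; group
        _ = (s : Subgroup.centralizer ({z} : Set G)) := by rw [hd2, hzc, mul_inv_cancel_right, mul_assoc, F.ext.z_sq, mul_one]

end Frame

end Cfsg.Agent.JFourType.Five
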