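import Cfsg.Agent.JFourType.FiveSwap

/-!
An element centralizing `q` interchanges the involution with a conjugate on the short line and
normalizes the elementary abelian group of order eight.
-/

set_option autoImplicit false
set_option maxRecDepth 100000

namespace Cfsg.Agent.JFourType.Five

open Cfsg
open Cfsg.Agent.GFour25 Cfsg.Agent.CosetCert
open Cfsg.Agent.SporB.FischerU (Vec vecN enc vecN_enc enc_lt)
open Cfsg.Agent.LargeFischer (IsSemi semiU)
open Cfsg.Agent.LargeFischer.Thompson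
open Cfsg.Agent.TTClass

theorem two_power_le {k d : ℕ} (h : 2 ^ k ∣ d) (hd : d = 160) : 2 ^ k ≤ 32 := by
  subst hd
  have : k ≤ 5 := by
    by_contra hc
    have h64 : 2 ^ 6 ∣ 160 := (pow_dvd_pow 2 (by omega : 6 ≤ k)).trans h
    norm_num at h64
  calc 2 ^ k ≤ 2 ^ 5 := Nat.pow_le_pow_right (by norm_num) this
    _ = 32 := by norm_num

theorem inv_exponent {m : ℕ} (h : m % 5 ≠ 0) : ∃ i, m * 2 ^ i % 5 = 1 := by
  rcases (by omega : m % 5 = 1 ∨ m % 5 = 2 ∨ m % 5 = 3 ∨ m % 5 = 4) with r | r | r | r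
  · exact ⟨0, by omega⟩
  · exact ⟨3, by omega⟩
  · exact ⟨1, by omega⟩
  · exact ⟨2, by omega⟩

/-- The meet of two normal subgroups of order 16 in a group of order 160 has order at least 8. -/
theorem meet_large {D : Type*} [Group D] [Finite D] (hD : Nat.card D = 160) (A B : Subgroup D) [A.Normal]
    [B.Normal] (hA : Nat.card A = 16) (hB : Nat.card B = 16) : 8 ≤ Nat.card ↥(A ⊓ B) := by
  haveI : Fact (Nat.Prime 2) := ⟨Nat.prime_two⟩
  have hp : IsPGroup 2 ↥(A ⊔ B) := IsPGroup.to_sup_of_normal_right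
    (IsPGroup.of_card (n := 4) (by rw [hA]; norm_num)) (IsPGroup.of_card (n := 4) (by rw [hB]; norm_num))
  obtain ⟨k, hk⟩ := IsPGroup.iff_card.1 hp
  have hle : Nat.card ↥(A ⊔ B) ≤ 32 := hk ▸ two_power_le (hk ▸ Subgroup.card_subgroup_dvd_card (A ⊔ B)) hD
  have key : ∀ K : Subgroup D, Nat.card K = Nat.card (K.map (QuotientGroup.mk' B)) * Nat.card ↥(K ⊓ B) := by
    intro K
    let f := (QuotientGroup.mk' B).comp K.subtype
    have hr : f.range = K.map (QuotientGroup.mk' B) := by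
      rw [MonoidHom.range_comp, Subgroup.range_subtype]
    have hker : Nat.card f.ker = Nat.card ↥(K ⊓ B) := Nat.card_congr
      { toFun := fun u => ⟨((u : K) : D), (u : K).2, (QuotientGroup.eq_one_iff _).1 u.2⟩
        invFun := fun u => ⟨⟨u.1, u.2.1⟩, (QuotientGroup.eq_one_iff _).2 u.2.2⟩
        left_inv := fun u => rfl
        right_inv := fun u => rfl }
    rw [← hr, ← hker, ← Subgroup.index_ker, mul_comm, Subgroup.card_mul_index]
  have h1 := key A
  have h2 := key (A ⊔ B)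
  rw [inf_eq_right.2 le_sup_right, hB] at h2
  have hm : Nat.card (A.map (QuotientGroup.mk' B)) ≤ Nat.card ((A ⊔ B).map (QuotientGroup.mk' B)) :=
    Subgroup.card_le_of_le (Subgroup.map_mono le_sup_left)
  rw [hA] at h1
  nlinarith [Nat.card_pos (α := ↥(A ⊓ B))]

theorem isConj_congr {G : Type*} [Group G] {z a : G} (g : G) : IsConj z a ↔ IsConj z (g * a * g⁻¹) :=
  ⟨fun h => h.trans (isConj_iff.2 ⟨g, rfl⟩), fun h => h.trans (isConj_iff.2 ⟨g⁻¹, by group⟩)⟩

namespace Frame

variable {G : Type*} [Group G] [Finite G] [IsSimpleGroup G] {z : G} {P : Subgroup G} (F : Frame z)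

/-- The part of the fixed group commuting with the base involution. -/
noncomputable def perpG : Subgroup G :=
  (F.pre perpL (by decide) perp_closed).map (Subgroup.centralizer ({z} : Set G)).subtype

theorem card_perpG : Nat.card F.perpG = 16 := by
  rw [perpG, Subgroup.card_map_of_injective (Subgroup.centralizer ({z} : Set G)).subtype_injective,
    F.card_pre _ _ _ (by decide) (by decide)]
  rfl

theorem mem_perpG (s : pCore 2 (Subgroup.centralizer ({z} : Set G))) (hs : F.psi s = vecN 4080) (v : G) :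
    v ∈ F.perpG ↔ ∃ a : pCore 2 (Subgroup.centralizer ({z} : Set G)),
      ((a : Subgroup.centralizer ({z} : Set G)) : G) = v ∧
      (F.q : G) * v = v * F.q ∧ v * ((s : Subgroup.centralizer ({z} : Set G)) : G) = ((s : Subgroup.centralizer ({z} : Set G)) : G) * v := by
  constructor
  · rintro ⟨a, ⟨ha, hau⟩, rfl⟩
    refine ⟨⟨a, ha⟩, rfl, congrArg Subtype.val ((F.commute_iff_fix ⟨a, ha⟩).2 ((fix_iff _).2 (perp_sub _ hau))),
      congrArg Subtype.val ((F.commute_code (a := ⟨a, ha⟩) hs (by norm_num) witnesses.1).2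
        ((fix_perp _ (perp_sub _ hau)).2 hau))⟩
  · rintro ⟨a, rfl, hq, hc⟩
    exact ⟨_, ⟨a.2, (fix_perp _ ((fix_iff _).1 ((F.commute_iff_fix a).1 (Subtype.ext hq)))).1
      ((F.commute_code hs (by norm_num) witnesses.1).1 (Subtype.ext hc))⟩, rfl⟩

theorem eightG_le_perpG : F.eightG ≤ F.perpG :=
  Subgroup.map_mono fun _ h => ⟨h.1, zero_perp _ h.2⟩

/-- The elements of order 2 of the part commuting with the base involution. -/
theorem perpG_cases {v : G} (hv : v ∈ F.perpG) (h2 : v * v = 1) :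
    v ∈ F.eightG ∨ ∃ a : pCore 2 (Subgroup.centralizer ({z} : Set G)),
      ((a : Subgroup.centralizer ({z} : Set G)) : G) = v ∧ (enc (F.psi a) = 1702 ∨ enc (F.psi a) = 2390) := by
  obtain ⟨a, ⟨ha, hau⟩, rfl⟩ := hv
  have hq : qN (enc (F.psi ⟨a, ha⟩)) = true :=
    (qN_enc _).2 ((F.ext.psi_norm ⟨a, ha⟩).2 (Subtype.ext (Subtype.ext h2)))
  rcases perp_cases _ hau hq with r | r | r | r
  · exact Or.inl ⟨a, ⟨ha, r ▸ List.mem_cons_self ..⟩, rfl⟩
  · exact Or.inl ⟨a, ⟨ha, List.mem_cons_of_mem _ r⟩, rfl⟩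
  · exact Or.inr ⟨⟨a, ha⟩, rfl, Or.inl r⟩
  · exact Or.inr ⟨⟨a, ha⟩, rfl, Or.inr r⟩

/-- The stabilizer of the base involution in the centralizer of `q`. -/
theorem card_stab (s : pCore 2 (Subgroup.centralizer ({z} : Set G))) (hs : F.psi s = vecN 4080) :
    Nat.card ↥(Subgroup.centralizer ({z} : Set G) ⊓ Subgroup.centralizer ({(F.q : G)} : Set G) ⊓
      Subgroup.centralizer ({((s : Subgroup.centralizer ({z} : Set G)) : G)} : Set G)) = 160 := by
  set H := Subgroup.centralizer ({z} : Set G) ⊓ Subgroup.centralizer ({(F.q : G)} : Set G) with hH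
  have hHmap : H = (Subgroup.centralizer ({F.q} : Set (Subgroup.centralizer ({z} : Set G)))).map
      (Subgroup.centralizer ({z} : Set G)).subtype := by
    ext v
    constructor
    · rintro ⟨h1, h2⟩
      exact ⟨⟨v, h1⟩, Subgroup.mem_centralizer_singleton_iff.2 (Subtype.ext (Subgroup.mem_centralizer_singleton_iff.1 h2)), rfl⟩
    · rintro ⟨a, ha, rfl⟩
      exact ⟨a.2, Subgroup.mem_centralizer_singleton_iff.2 (congrArg Subtype.val (Subgroup.mem_centralizer_singleton_iff.1 ha))⟩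
  have hHc : Nat.card H = 960 := by
    rw [hHmap, Subgroup.card_map_of_injective (Subgroup.centralizer ({z} : Set G)).subtype_injective, F.card_cent]
  set O := {v : G | ∃ b : pCore 2 (Subgroup.centralizer ({z} : Set G)), enc (F.psi b) ∈ zeroL ∧
    ((b : Subgroup.centralizer ({z} : Set G)) : G) = v} with hO'
  have hO : O.ncard = 6 := by
    have e : O = (F.eightG : Set G) \ {1, z} := by
      ext v
      constructor
      · rintro ⟨b, hb, rfl⟩
        refine ⟨⟨_, ⟨b.2, List.mem_cons_of_mem _ hb⟩, rfl⟩, ?_⟩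
        rintro (r | r)
        · rw [(F.ext.psi_ker b).2 (Or.inl (Subtype.ext r)), enc_zero] at hb
          exact absurd hb (by decide)
        · rw [(F.ext.psi_ker b).2 (Or.inr (Subtype.ext r)), enc_zero] at hb
          exact absurd hb (by decide)
      · rintro ⟨⟨a, ⟨ha, hau⟩, rfl⟩, hne⟩
        refine ⟨⟨a, ha⟩, (List.mem_cons.1 hau).resolve_left fun r => hne ?_, rfl⟩
        rcases (F.ext.psi_ker ⟨a, ha⟩).1 (by rw [← vecN_enc (F.psi ⟨a, ha⟩), r]; decide) with p | p
        · exact Or.inl (congrArg Subtype.val p)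
        · exact Or.inr (congrArg Subtype.val p)
    have hz1 : z ≠ 1 := fun r => F.ext.z_ne (Subtype.ext r)
    have hsub : ({1, z} : Set G) ⊆ (F.eightG : Set G) := by
      rintro v (rfl | rfl)
      · exact one_mem _
      · exact ⟨_, ⟨F.ext.z_mem, by
          rw [(F.ext.psi_ker _).2 (Or.inr rfl), enc_zero]; exact List.mem_cons_self ..⟩, rfl⟩
    rw [e, Set.ncard_sdiff hsub (Set.toFinite _), ← Nat.card_coe_set_eq,
      show Nat.card (F.eightG : Set G) = 8 from F.card_eightG, Set.ncard_pair hz1.symm]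
  have horb : ∀ b, b ∈ O ↔ ∃ h ∈ H, h * ((s : Subgroup.centralizer ({z} : Set G)) : G) * h⁻¹ = b := by
    intro v
    constructor
    · rintro ⟨b, hb, rfl⟩
      obtain ⟨h, hh, he⟩ := F.trans_short s b hs hb
      exact ⟨h, ⟨h.2, Subgroup.mem_centralizer_singleton_iff.2 (congrArg Subtype.val hh)⟩, congrArg Subtype.val he⟩
    · rintro ⟨h, ⟨hz, hq⟩, rfl⟩
      obtain ⟨n, hn, hr⟩ := F.cent_cases (h := ⟨h, hz⟩) (Subtype.ext (Subgroup.mem_centralizer_singleton_iff.1 hq))
      refine ⟨⟨⟨h, hz⟩ * s * (⟨h, hz⟩ : Subgroup.centralizer ({z} : Set G))⁻¹,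
        (inferInstance : (pCore 2 (Subgroup.centralizer ({z} : Set G))).Normal).conj_mem _ s.2 _⟩, ?_, rfl⟩
      rw [F.ext.psi_conj, hr]
      exact zeroL_stable hn (by rw [hs, enc_vecN (by norm_num)]; decide)
  have h := LargeFischer.Eight.card_orbit_conj H _ O horb
  rw [hHc, hO] at h
  omega

/-- **An element centralizing `q` interchanges `z` with the base involution and normalizes the group of
order eight.** -/
theorem exists_swap (hJ : IsOfJankoFourTypeWith z P) (hO : OrbitData z)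
    (s : pCore 2 (Subgroup.centralizer ({z} : Set G))) (hs : F.psi s = vecN 4080) :
    ∃ n : G, n * (F.q : G) = (F.q : G) * n ∧ n * z * n⁻¹ = ((s : Subgroup.centralizer ({z} : Set G)) : G) ∧
      n ∈ Subgroup.normalizer (F.eightG : Set G) := by
  haveI : Fact (Nat.Prime 5) := ⟨by norm_num⟩
  set sG : G := ((s : Subgroup.centralizer ({z} : Set G)) : G) with hsG
  have hs0 : enc (F.psi s) ∈ zeroL := by rw [hs, enc_vecN (by norm_num)]; decide
  have hsz : sG ≠ z := fun e => by
    rw [(F.ext.psi_ker s).2 (Or.inr (Subtype.ext e)), enc_zero] at hs0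
    exact absurd hs0 (by decide)
  obtain ⟨g, hg⟩ := isConj_iff.1 (F.short hJ hO s hs0)
  -- symmetry
  obtain ⟨hz2, hEx, hcardE, hself, -⟩ := id hJ
  have hzE : z ∈ twoCoreOfCentralizer z := ⟨_, F.ext.z_mem, rfl⟩
  have hcentE : Subgroup.centralizer (twoCoreOfCentralizer z : Set G) ≤ twoCoreOfCentralizer z := fun a ha => hself
    ⟨Subgroup.mem_centralizer_singleton_iff.2 (Subgroup.mem_centralizer_iff.1 ha z hzE).symm, ha⟩
  obtain ⟨m6, -, S⟩ := LargeExtra.exists_setting hz2 rfl hEx hcentE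
  obtain rfl : m6 = 6 := by
    have h : 2 ^ 13 = 2 ^ (2 * m6 + 1) := hcardE.symm.trans S.card
    have := Nat.pow_right_injective (le_refl 2) h
    omega
  have hL2 : Subgroup.centralizer (twoCoreOfCentralizer z : Set G) = Subgroup.zpowers z := by
    refine le_antisymm (fun a ha => ?_) (Subgroup.zpowers_le.2 (Subgroup.mem_centralizer_iff.2 fun e he => S.ci.comm e he))
    rcases S.ci.of_central a (hcentE ha) (fun e he => (Subgroup.mem_centralizer_iff.1 ha e he)) with r | r
    · rw [r]; exact one_mem _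
    · rw [r]; exact Subgroup.mem_zpowers z
  have hL3 : Subgroup.centralizer ({z} : Set G) ≤ Subgroup.normalizer (twoCoreOfCentralizer z : Set G) := by
    intro a ha
    refine Subgroup.mem_normalizer_iff.2 fun e => ⟨fun he => S.norm a (Subgroup.mem_centralizer_singleton_iff.1 ha) e he, fun he => ?_⟩
    have h := S.norm a⁻¹ (Subgroup.mem_centralizer_singleton_iff.1 (inv_mem ha)) _ he
    rwa [show a⁻¹ * (a * e * a⁻¹) * a⁻¹⁻¹ = e by group] at h
  have hsE : g * z * g⁻¹ ∈ twoCoreOfCentralizer z := hg.symm ▸ ⟨_, s.2, rfl⟩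
  obtain ⟨t0, ⟨t1, ht1, ht1e⟩, ht0⟩ := LargeExtra.mem_conj_of_conj_mem S.ci hL2 hL3 (w := 6) (by norm_num)
    S.card hsE (hg.symm ▸ hsz)
  have ht : (t1 : G) = g⁻¹ * z * g := by
    have h0 : g * t0 * g⁻¹ = z := ht0
    have h1 : (t1 : G) = t0 := ht1e
    rw [h1]
    conv_rhs => rw [← h0]
    group
  have htne : (t1 : G) ≠ z := fun e => hsz <| by
    rw [hsG, ← hg]
    calc g * z * g⁻¹ = g * (g⁻¹ * z * g) * g⁻¹ := by rw [← ht, e]
      _ = z := by group
  obtain ⟨h, b, hb, hbv⟩ := F.to_short hJ hO ⟨t1, ht1⟩ (isConj_iff.2 ⟨g⁻¹, by show _ = (t1 : G); rw [ht]; group⟩) htne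
  have hb0 : enc (F.psi b) ∈ zeroL := by rw [hbv, enc_vecN (by norm_num)]; decide
  obtain ⟨h', -, hh'⟩ := F.trans_short s b hs hb0
  -- the interchanging element
  set k : G := g * ((h'⁻¹ * h : Subgroup.centralizer ({z} : Set G)) : G)⁻¹ with hk
  have hfixz : ((h'⁻¹ * h : Subgroup.centralizer ({z} : Set G)) : G) * z = z * ((h'⁻¹ * h : Subgroup.centralizer ({z} : Set G)) : G) :=
    Subgroup.mem_centralizer_singleton_iff.1 (h'⁻¹ * h : Subgroup.centralizer ({z} : Set G)).2
  have hsval : ((h'⁻¹ * h : Subgroup.centralizer ({z} : Set G)) : G) * (t1 : G) * ((h'⁻¹ * h : Subgroup.centralizer ({z} : Set G)) : G)⁻¹ = sG := by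
    have e : h' * (s : Subgroup.centralizer ({z} : Set G)) * h'⁻¹ = h * t1 * h⁻¹ := hh'.trans hb
    have e2 : h'⁻¹ * h * t1 * (h'⁻¹ * h)⁻¹ = (s : Subgroup.centralizer ({z} : Set G)) := by
      calc h'⁻¹ * h * t1 * (h'⁻¹ * h)⁻¹ = h'⁻¹ * (h * t1 * h⁻¹) * h' := by group
        _ = _ := by rw [← e]; group
    exact congrArg Subtype.val e2
  set d : G := ((h'⁻¹ * h : Subgroup.centralizer ({z} : Set G)) : G) with hd
  have hkz : k * z * k⁻¹ = sG := by
    rw [hsG, ← hg, hk]
    calc g * d⁻¹ * z * (g * d⁻¹)⁻¹ = g * (d⁻¹ * (z * d)) * g⁻¹ := by group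
      _ = g * z * g⁻¹ := by rw [← hfixz, inv_mul_cancel_left]
  have hks : k * sG * k⁻¹ = z := by
    rw [← hsval, hk, ht]; group
  -- adjust to normalize `⟨q⟩`
  set C2 := Subgroup.centralizer ({z} : Set G) ⊓ Subgroup.centralizer ({sG} : Set G) with hC2
  have hqs : (F.q : G) * sG = sG * F.q :=
    congrArg Subtype.val ((F.commute_iff_fix s).2 ((fix_iff _).2 (by rw [hs, enc_vecN (by norm_num)]; decide)))
  have hqz : (F.q : G) * z = z * F.q := Subgroup.mem_centralizer_singleton_iff.1 F.q.2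
  have hq2' : (F.q : G) ∈ C2 := ⟨F.q.2, Subgroup.mem_centralizer_singleton_iff.2 hqs⟩
  have hkey : ∀ a b : G, k * a * k⁻¹ = b → (F.q : G) * a = a * F.q →
      k * F.q * k⁻¹ * b = b * (k * F.q * k⁻¹) := by
    rintro a b rfl ha
    calc k * F.q * k⁻¹ * (k * a * k⁻¹) = k * (F.q * a) * k⁻¹ := by group
      _ = _ := by rw [ha]; group
  have hkq : k * F.q * k⁻¹ ∈ C2 :=
    ⟨Subgroup.mem_centralizer_singleton_iff.2 (hkey _ _ hks hqs),
      Subgroup.mem_centralizer_singleton_iff.2 (hkey _ _ hkz hqz)⟩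
  have hoq : orderOf (F.q : G) = 5 := by rw [Subgroup.orderOf_coe, F.orderOf_q]
  have hok : orderOf (k * (F.q : G) * k⁻¹) = 5 :=
    ((MulAut.conj k).orderOf_eq (F.q : G)).trans hoq
  have h25 : ¬ 5 ^ 2 ∣ Nat.card C2 := fun hh => F.not_dvd (hh.trans (Subgroup.card_dvd_of_le inf_le_left))
  obtain ⟨⟨c, hc⟩, hcq⟩ := conj_prime h25 (Subgroup.zpowers (⟨_, hkq⟩ : C2)) (Subgroup.zpowers ⟨_, hq2'⟩)
    (by rw [Nat.card_zpowers, Subgroup.orderOf_mk, hok]) (by rw [Nat.card_zpowers, Subgroup.orderOf_mk, hoq])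
  rw [MonoidHom.map_zpowers] at hcq
  obtain ⟨m, hm⟩ := ((isOfFinOrder_of_finite _).mem_powers_iff_mem_zpowers).2 (hcq.ge (Subgroup.mem_zpowers _))
  have hm' : (F.q : G) ^ m = c * (k * F.q * k⁻¹) * c⁻¹ := congrArg Subtype.val hm
  have hm5 : m % 5 ≠ 0 := fun e => by
    rw [← pow_mod_orderOf, hoq, e, pow_zero, eq_comm, conj_eq_one_iff, conj_eq_one_iff] at hm'
    rw [hm', orderOf_one] at hoq
    norm_num at hoq
  obtain ⟨i, hi⟩ := inv_exponent hm5
  obtain ⟨w, hwq, hws⟩ := F.exists_squarer s hs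
  have hwq' : (w : G) * F.q * (w : G)⁻¹ = (F.q : G) ^ 2 := congrArg Subtype.val hwq
  have hws' : (w : G) * sG * (w : G)⁻¹ = sG := congrArg Subtype.val hws
  have hwz : Commute (w : G) z := Subgroup.mem_centralizer_singleton_iff.1 w.2
  have hwi : ∀ j : ℕ, (w : G) ^ j * (F.q : G) ^ m * ((w : G) ^ j)⁻¹ = (F.q : G) ^ (m * 2 ^ j) := by
    intro j
    induction j with
    | zero => simp
    | succ j ih =>
      calc (w : G) ^ (j + 1) * (F.q : G) ^ m * ((w : G) ^ (j + 1))⁻¹
          = (w : G) * ((w : G) ^ j * (F.q : G) ^ m * ((w : G) ^ j)⁻¹) * (w : G)⁻¹ := by rw [pow_succ']; group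
        _ = ((w : G) * F.q * (w : G)⁻¹) ^ (m * 2 ^ j) := by rw [ih, conj_pow]
        _ = _ := by rw [hwq', ← pow_mul]; congr 1; rw [pow_succ]; ring
  set n := (w : G) ^ i * c * k with hn
  have hcz : Commute c z := Subgroup.mem_centralizer_singleton_iff.1 hc.1
  have hcs : Commute c sG := Subgroup.mem_centralizer_singleton_iff.1 hc.2
  have hwic : Commute ((w : G) ^ i) sG := (show Commute (w : G) sG from mul_inv_eq_iff_eq_mul.1 hws').pow_left i
  have hnz : n * z * n⁻¹ = sG := by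
    calc n * z * n⁻¹ = ((w : G) ^ i * c) * (k * z * k⁻¹) * ((w : G) ^ i * c)⁻¹ := by rw [hn]; group
      _ = sG := by rw [hkz, (hwic.mul_left hcs).eq, mul_inv_cancel_right]
  have hns : n * sG * n⁻¹ = z := by
    calc n * sG * n⁻¹ = ((w : G) ^ i * c) * (k * sG * k⁻¹) * ((w : G) ^ i * c)⁻¹ := by rw [hn]; group
      _ = z := by rw [hks, ((hwz.pow_left i).mul_left hcz).eq, mul_inv_cancel_right]
  have hnq : n * (F.q : G) * n⁻¹ = F.q := by
    calc n * (F.q : G) * n⁻¹ = (w : G) ^ i * (c * (k * F.q * k⁻¹) * c⁻¹) * ((w : G) ^ i)⁻¹ := by rw [hn]; group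
      _ = (F.q : G) ^ (m * 2 ^ i) := by rw [← hm', hwi]
      _ = F.q := by rw [← pow_mod_orderOf, hoq, hi, pow_one]
  refine ⟨n, mul_inv_eq_iff_eq_mul.1 hnq, hnz, ?_⟩
  -- the common stabilizer
  set D := Subgroup.centralizer ({z} : Set G) ⊓ Subgroup.centralizer ({(F.q : G)} : Set G) ⊓
      Subgroup.centralizer ({sG} : Set G) with hD
  have hinvc : ∀ a b : G, n * a * n⁻¹ = b → n⁻¹ * b * n = a := fun a b e => by rw [← e]; group
  have hconjD : ∀ a : G, ∀ d' ∈ D, n⁻¹ * d' * n ∈ D := by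
    rintro - d' ⟨⟨h1, h2⟩, h3⟩
    have key : ∀ a b : G, n⁻¹ * b * n = a → d' * b = b * d' → n⁻¹ * d' * n * a = a * (n⁻¹ * d' * n) := by
      rintro a b rfl hb
      calc n⁻¹ * d' * n * (n⁻¹ * b * n) = n⁻¹ * (d' * b) * n := by group
        _ = _ := by rw [hb]; group
    exact ⟨⟨Subgroup.mem_centralizer_singleton_iff.2 (key _ _ (hinvc _ _ hnz) (Subgroup.mem_centralizer_singleton_iff.1 h3)),
      Subgroup.mem_centralizer_singleton_iff.2 (key _ _ (hinvc _ _ hnq) (Subgroup.mem_centralizer_singleton_iff.1 h2))⟩,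
      Subgroup.mem_centralizer_singleton_iff.2 (key _ _ (hinvc _ _ hns) (Subgroup.mem_centralizer_singleton_iff.1 h1))⟩
  have hAD : F.perpG ≤ D := by
    intro v hv
    obtain ⟨a, rfl, hq', hs'⟩ := (F.mem_perpG s hs v).1 hv
    exact ⟨⟨(a : Subgroup.centralizer ({z} : Set G)).2, Subgroup.mem_centralizer_singleton_iff.2 hq'.symm⟩,
      Subgroup.mem_centralizer_singleton_iff.2 hs'⟩
  set A' := F.perpG.map (MulAut.conj n).toMonoidHom with hA'
  have hA'D : A' ≤ D := by
    rintro _ ⟨v, hv, rfl⟩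
    obtain ⟨⟨h1, h2⟩, h3⟩ := hAD hv
    have key : ∀ a b : G, n * a * n⁻¹ = b → v * a = a * v → n * v * n⁻¹ * b = b * (n * v * n⁻¹) := by
      rintro a b rfl hb
      calc n * v * n⁻¹ * (n * a * n⁻¹) = n * (v * a) * n⁻¹ := by group
        _ = _ := by rw [hb]; group
    exact ⟨⟨Subgroup.mem_centralizer_singleton_iff.2 (key _ _ hns (Subgroup.mem_centralizer_singleton_iff.1 h3)),
      Subgroup.mem_centralizer_singleton_iff.2 (key _ _ hnq (Subgroup.mem_centralizer_singleton_iff.1 h2))⟩,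
      Subgroup.mem_centralizer_singleton_iff.2 (key _ _ hnz (Subgroup.mem_centralizer_singleton_iff.1 h1))⟩
  have hnormA : ∀ d' ∈ D, ∀ v ∈ F.perpG, d' * v * d'⁻¹ ∈ F.perpG := by
    rintro d' ⟨⟨h1, h2⟩, h3⟩ v hv
    obtain ⟨a, rfl, hq', hs'⟩ := (F.mem_perpG s hs v).1 hv
    refine (F.mem_perpG s hs _).2 ⟨⟨⟨d', h1⟩ * a * (⟨d', h1⟩ : Subgroup.centralizer ({z} : Set G))⁻¹,
      (inferInstance : (pCore 2 (Subgroup.centralizer ({z} : Set G))).Normal).conj_mem _ a.2 _⟩, rfl, ?_, ?_⟩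
    · have cd : Commute (F.q : G) d' := (Subgroup.mem_centralizer_singleton_iff.1 h2).symm
      exact ((cd.mul_right hq').mul_right cd.inv_right).eq
    · have cd : Commute d' sG := Subgroup.mem_centralizer_singleton_iff.1 h3
      exact ((cd.mul_left hs').mul_left cd.inv_left).eq
  haveI hN1 : (F.perpG.subgroupOf D).Normal := ⟨fun v hv d' =>
    Subgroup.mem_subgroupOf.2 (hnormA _ d'.2 _ (Subgroup.mem_subgroupOf.1 hv))⟩
  haveI hN2 : (A'.subgroupOf D).Normal := ⟨fun v hv d' => by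
    obtain ⟨a, ha, hae⟩ := Subgroup.mem_subgroupOf.1 hv
    have hae' : n * a * n⁻¹ = (v : G) := hae
    refine Subgroup.mem_subgroupOf.2 ⟨_, hnormA _ (hconjD z _ d'.2) _ ha, ?_⟩
    show n * (n⁻¹ * d' * n * a * (n⁻¹ * (d' : G) * n)⁻¹) * n⁻¹ = (d' : G) * v * (d' : G)⁻¹
    rw [← hae']; group⟩
  have hcA' : Nat.card A' = 16 := by
    rw [hA', Subgroup.card_map_of_injective (MulAut.conj n).injective, F.card_perpG]
  have hI := meet_large (F.card_stab s hs) (F.perpG.subgroupOf D) (A'.subgroupOf D)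
    (by rw [Nat.card_congr (Subgroup.subgroupOfEquivOfLe hAD).toEquiv, F.card_perpG])
    (by rw [Nat.card_congr (Subgroup.subgroupOfEquivOfLe hA'D).toEquiv, hcA'])
  have hIle : F.perpG ⊓ A' ≤ F.eightG := by
    rintro v ⟨hv, a, ha, hav⟩
    have hav' : n * a * n⁻¹ = v := hav
    obtain ⟨a0, ha0, -, -⟩ := (F.mem_perpG s hs a).1 ha
    obtain ⟨v0, hv0, hqv, -⟩ := (F.mem_perpG s hs v).1 hv
    have hsq : ∀ u : G, ∀ u0 : pCore 2 (Subgroup.centralizer ({z} : Set G)),
        ((u0 : Subgroup.centralizer ({z} : Set G)) : G) = u → u * u = 1 ∨ u * u = z := by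
      rintro u u0 rfl
      exact S.ci.sq_mem ⟨_, u0.2, rfl⟩
    have ha2 : a * a = 1 := (hsq a a0 ha0).resolve_right fun e => by
      have hvv : v * v = sG := by
        rw [← hav', show n * a * n⁻¹ * (n * a * n⁻¹) = n * (a * a) * n⁻¹ by group, e, hnz]
      rcases hsq v v0 hv0 with r | r <;> rw [hvv] at r
      · rw [(F.ext.psi_ker s).2 (Or.inl (Subtype.ext r)), enc_zero] at hs0
        exact absurd hs0 (by decide)
      · exact hsz r
    have hv2 : v * v = 1 := by
      rw [← hav', show n * a * n⁻¹ * (n * a * n⁻¹) = n * (a * a) * n⁻¹ by group, ha2]; group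
    refine (F.perpG_cases hv hv2).resolve_right ?_
    rintro ⟨v1, hv1, hcode⟩
    have hvlong : enc (F.psi v1) ∈ oneL ∨ enc (F.psi v1) ∈ twoL := by
      rcases hcode with r | r <;> rw [r] <;> decide
    obtain ⟨hvnc, -⟩ := F.long hJ hO v1 hvlong
    rw [hv1] at hvnc
    have hanc : ¬ IsConj z a := fun hh => hvnc (hav' ▸ (isConj_congr n).1 hh)
    rcases F.perpG_cases ha ha2 with r | ⟨a1, ha1, hacode⟩
    · rcases F.eightG_cases hJ hO r with p | p
      · refine absurd hvlong ?_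
        have hv1' : v = 1 := by rw [← hav', p]; group
        rw [(F.ext.psi_ker v1).2 (Or.inl (Subtype.ext (hv1.trans hv1'))), enc_zero]
        decide
      · exact hanc p
    obtain ⟨-, hcent⟩ := F.long hJ hO a1 (by rcases hacode with r | r <;> rw [r] <;> decide)
    rw [ha1] at hcent
    -- an element commuting with `v` and not with the base involution
    obtain ⟨w1, w2, w3, w4', w5, w6, w7, w8, w9⟩ := witnesses
    obtain ⟨u, hu, huq, huv, hus⟩ : ∃ u : pCore 2 (Subgroup.centralizer ({z} : Set G)), True ∧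
        (u : Subgroup.centralizer ({z} : Set G)) * F.q = F.q * u ∧
        (u : Subgroup.centralizer ({z} : Set G)) * v1 = v1 * u ∧
        ¬ (u : Subgroup.centralizer ({z} : Set G)) * s = s * u := by
      rcases hcode with r | r <;> rw [enc_eq_iff (by norm_num)] at r
      · obtain ⟨u, hu⟩ := F.exists_code (n := 3067)
        refine ⟨u, trivial, F.fixed_of_code hu w9, (F.commute_code r (by norm_num) w2).2 ?_, fun hh => ?_⟩
        · rw [hu, enc_vecN (by norm_num), w5]
        · have := (F.commute_code hs (by norm_num) w1).1 hh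
          rw [hu, enc_vecN (by norm_num), w6] at this
          exact Bool.false_ne_true this
      · obtain ⟨u, hu⟩ := F.exists_code (n := 2045)
        refine ⟨u, trivial, F.fixed_of_code hu w8, (F.commute_code r (by norm_num) w3).2 ?_, fun hh => ?_⟩
        · rw [hu, enc_vecN (by norm_num), w7]
        · have := (F.commute_code hs (by norm_num) w1).1 hh
          rw [hu, enc_vecN (by norm_num), w4'] at this
          exact Bool.false_ne_true this
    set uG : G := ((u : Subgroup.centralizer ({z} : Set G)) : G) with huG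
    have huv' : uG * v = v * uG := by rw [← hv1]; exact congrArg Subtype.val huv
    have huq' : uG * F.q = F.q * uG := congrArg Subtype.val huq
    have key : ∀ x y : G, n⁻¹ * y * n = x → uG * y = y * uG → n⁻¹ * uG * n * x = x * (n⁻¹ * uG * n) := by
      rintro x y rfl hy
      calc n⁻¹ * uG * n * (n⁻¹ * y * n) = n⁻¹ * (uG * y) * n := by group
        _ = _ := by rw [hy]; group
    have h := hcent (n⁻¹ * uG * n) (key _ _ (hinvc _ _ hav') huv') (key _ _ (hinvc _ _ hnq) huq')
    refine hus (Subtype.ext ?_)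
    show uG * sG = sG * uG
    calc uG * sG = n * (n⁻¹ * uG * n * z) * n⁻¹ := by rw [← hnz]; group
      _ = sG * uG := by rw [h, ← hnz]; group
  have hIeq : F.perpG ⊓ A' = F.eightG := by
    refine Subgroup.eq_of_le_of_card_ge hIle ?_
    rw [F.card_eightG]
    refine hI.trans (le_of_eq ?_)
    exact Nat.card_congr
      { toFun := fun u => ⟨((u : D) : G), u.2.1, u.2.2⟩
        invFun := fun u => ⟨⟨u.1, hAD u.2.1⟩, u.2.1, u.2.2⟩
        left_inv := fun u => rfl
        right_inv := fun u => rfl }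
  have hsubset : ∀ v ∈ F.eightG, n⁻¹ * v * n ∈ F.eightG := by
    intro v hv
    obtain ⟨a, ha, hav⟩ := ((hIeq.symm ▸ hv : v ∈ F.perpG ⊓ A')).2
    have hav' : n * a * n⁻¹ = v := hav
    have hae : n⁻¹ * v * n = a := by rw [← hav']; group
    rw [hae]
    have ha2 : a * a = 1 := by
      rw [← hae, show n⁻¹ * v * n * (n⁻¹ * v * n) = n⁻¹ * (v * v) * n by group, F.eightG_sq hv]; group
    refine (F.perpG_cases ha ha2).resolve_right ?_
    rintro ⟨a1, ha1, hcode⟩
    obtain ⟨hanc, -⟩ := F.long hJ hO a1 (by rcases hcode with r | r <;> rw [r] <;> decide)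
    rw [ha1] at hanc
    rcases F.eightG_cases hJ hO hv with p | p
    · have ha10 : a = 1 := by rw [← hae, p]; group
      rw [(F.ext.psi_ker a1).2 (Or.inl (Subtype.ext (ha1.trans ha10))), enc_zero] at hcode
      omega
    · exact hanc (by rw [← hae]; simpa using (isConj_congr n⁻¹).1 p)
  rw [Subgroup.mem_normalizer_iff_map_conj_eq]
  refine (Subgroup.eq_of_le_of_card_ge ?_ ?_).symm
  · intro v hv
    exact ⟨n⁻¹ * v * n, hsubset v hv, by show n * (n⁻¹ * v * n) * n⁻¹ = v; group⟩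
  · rw [Subgroup.card_map_of_injective (MulAut.conj n).injective]

end Frame

end Cfsg.Agent.JFourType.Five
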