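/-! Machine-generated data for the classes of involutions in a group of Janko-four type. -/

set_option autoImplicit false
set_option maxRecDepth 100000

namespace Cfsg.Agent.JFourType.InvolData

/-- Words conjugating the linear involutions of the Sylow subgroup to the first one. -/
noncomputable def conjW : List (List Nat) := [
  [],
  [2, 1, 5, 1, 3, 0],
  [],
  [1, 2, 0, 4, 1, 4, 0],
  [0, 5, 5, 1],
  [],
  [],
  [1, 1, 1, 4, 0, 4, 1],
  [3, 3, 0, 5, 1, 5],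
  [],
  [0, 5, 0],
  [],
  [1, 1, 2, 4, 1, 3],
  [3, 3, 1, 5, 0, 5],
  [],
  [],
  [1, 2, 5, 5, 1],
  [],
  [],
  [],
  [],
  [2, 1, 5, 1, 1, 5],
  [1, 1, 2, 4, 0, 4, 1],
  [0, 2, 0, 5, 1],
  [0, 5, 5, 1, 5],
  [],
  [2, 0, 5, 0, 0],
  [1, 5, 0, 2, 4, 0, 3],
  [1, 2, 1, 5, 0],
  [1, 5, 5, 0],
  [1, 5, 5, 0, 5, 1],
  [],
  [2, 1, 1, 5, 0, 0],
  [1, 4, 0, 0, 5, 1],
  [1, 4, 0, 0, 4, 1],
  [],
  [],
  [1, 5, 5, 0, 5],
  [],
  [3, 3, 0, 5, 1],
  [],
  [1, 4, 1],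
  [3, 3, 1, 5, 0],
  [],
  [],
  [],
  [2, 1, 1, 4, 0],
  [],
  [1, 5, 1, 1, 5, 1],
  [],
  [0, 4, 0],
  [],
  [],
  [1, 5, 1],
  [],
  [],
  [],
  [2, 0, 0, 4, 1],
  [],
  [0, 2, 5, 5, 0],
  [],
  [],
  [],
  [1, 1, 1, 4, 0, 5, 1],
  [],
  [],
  [],
  [0, 4, 1, 1, 5, 0],
  [2, 1, 5, 1, 1],
  [],
  []]

/-- A word of order three. -/
noncomputable def threeW : List Nat := [1, 1, 4, 1, 5, 1, 1, 4, 0, 3]

/-- The commutators with the first involution and preimages. -/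
noncomputable def ranP : List (Nat × Nat) := [(0, 0), (320, 32), (640, 48), (960, 16), (1040, 208), (1360, 240), (1680, 224), (2000, 192), (2080, 96), (2400, 64), (2720, 80), (3040, 112), (3120, 176), (3440, 144), (3760, 128), (4080, 160)]

/-- Vectors completing the fixed space of the first involution. -/
noncomputable def cVec : List Nat := [1, 2]

/-- Their duals. -/
noncomputable def uVec : List Nat := [6, 13]

end Cfsg.Agent.JFourType.InvolData
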