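import Cfsg.Agent.JFourType.ThompsonModel
import Cfsg.Agent.JFourType.InvolData

/-!
Facts about the linear involutions of the semilinear triple cover of `M22`: they are conjugate to one
of them, and an element of order 3 centralises that involution and is trivial on its fixed vectors
modulo commutators.
-/

set_option autoImplicit false
set_option maxRecDepth 100000

namespace Cfsg.Agent.JFourType.Invol

open Cfsg.Agent.GFour25 Cfsg.Agent.CosetCert
open Cfsg.Agent.SporB.FischerU (Vec vecN enc vecN_enc enc_lt)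
open Cfsg.Agent.LargeFischer (IsSemi twist)
open Cfsg.Agent.LargeFischer.Thompson
open Cfsg.Agent.TTClass
open Data InvolData

/-- The first involution. -/
noncomputable def a0L : List ℕ := aList.getD 0 []

/-- The list of commutators. -/
noncomputable def ranL : List ℕ := ranP.map Prod.fst

/-- Coset representatives of the fixed space in the fixed vectors. -/
noncomputable def cosL : List ℕ :=
  [0, cVec.getD 0 0, cVec.getD 1 0, Nat.xor (cVec.getD 0 0) (cVec.getD 1 0)]

/-- Each involution of the Sylow subgroup is semilinear or moved to the first involution. -/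
noncomputable def conjOK : Bool :=
  (List.range 71).all fun i =>
    (comp (invsP.getD i []) omL == comp omI (invsP.getD i [])) ||
      (comp (wImg (conjW.getD i [])) (invsP.getD i []) == comp a0L (wImg (conjW.getD i [])))

/-- The fixed vectors of the first involution. -/
noncomputable def fixOK : Bool :=
  allB (fun v => !(Nat.beq (apL a0L v) v) || cosL.any fun c => uList.contains (Nat.xor v c)) 12 0

/-- A fixed vector orthogonal to the fixed vectors is a commutator. -/
noncomputable def radOK : Bool :=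
  allB (fun v => !(Nat.beq (apL a0L v) v) || ranL.contains v ||
    (uBasis ++ cVec).any fun c => !(qN (Nat.xor c v) == qN c)) 12 0

/-- The small facts. -/
noncomputable def smallOK : Bool :=
  (ranP.all fun p => Nat.blt p.2 4096 && Nat.beq (Nat.xor (apL a0L p.2) p.2) p.1) &&
  ((uBasis ++ cVec).all fun c => Nat.blt c 4096 && Nat.beq (apL a0L c) c) &&
  (uVec.all fun u => uList.contains u) &&
  Nat.beq cVec.length 2 && Nat.beq uVec.length 2 &&
  !(qN (Nat.xor (cVec.getD 0 0) (uVec.getD 0 0)) == qN (cVec.getD 0 0)) &&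
  (qN (Nat.xor (cVec.getD 1 0) (uVec.getD 0 0)) == qN (cVec.getD 1 0)) &&
  (qN (Nat.xor (cVec.getD 0 0) (uVec.getD 1 0)) == qN (cVec.getD 0 0)) &&
  !(qN (Nat.xor (cVec.getD 1 0) (uVec.getD 1 0)) == qN (cVec.getD 1 0))

/-- The element of order three. -/
noncomputable def threeOK : Bool :=
  (fun h => (comp h (comp h h) == idL) && !(h == idL) && (comp h a0L == comp a0L h) &&
    allB (fun v => !(Nat.beq (apL a0L v) v) || ranL.contains (Nat.xor (apL h v) v)) 12 0)
    (wImg threeW)

set_option maxHeartbeats 4000000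

theorem conjOK_true : conjOK = true := by decide +kernel
theorem fixOK_true : fixOK = true := by decide +kernel
theorem radOK_true : radOK = true := by decide +kernel
theorem smallOK_true : smallOK = true := by decide +kernel
theorem threeOK_true : threeOK = true := by decide +kernel

/-! ### Consequences -/

theorem exists_a0 : ∃ a0 ∈ aGrp, a0 ≠ 1 ∧ Rep a0L a0 :=
  aGrp_rep candJ_ok rep_gP.1 (getD_mem [] (by rw [aList_facts.1]; norm_num))

variable {a0 : Equiv.Perm Vec}

theorem invol_cases {σ : Equiv.Perm Vec} (hr : σ ∈ candP gP) (h2 : σ * σ = 1) (h1 : σ ≠ 1)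
    (ha : Rep a0L a0) :
    σ * omP = omP⁻¹ * σ ∨ ∃ k ∈ K22, k * σ = a0 * k := by
  obtain ⟨i, hi, hσ⟩ := invol_rep candJ_ok rep_gP.1 hr h2 h1
  have h := List.all_eq_true.1 conjOK_true i (List.mem_range.2 hi)
  simp only [Bool.or_eq_true, beq_iff_eq] at h
  rcases h with h | h
  · left
    have hinv : Rep omI omP⁻¹ := rep_omP.inv (by decide +kernel)
    exact (hσ.mul rep_omP).eq ((show comp (candJ.invs.getD i []) omL = comp omI (candJ.invs.getD i []) from h) ▸
      hinv.mul hσ)
  · exact Or.inr ⟨_, word_mem _, ((rep_word _).mul hσ).eq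
      ((show comp (wImg (conjW.getD i [])) (candJ.invs.getD i []) = comp a0L (wImg (conjW.getD i [])) from h) ▸
        ha.mul (rep_word _))⟩

theorem small_facts :
    (∀ p ∈ ranP, p.2 < 4096 ∧ apL a0L p.2 ^^^ p.2 = p.1) ∧
    (∀ c ∈ uBasis ++ cVec, c < 4096 ∧ apL a0L c = c) ∧ (∀ u ∈ uVec, u ∈ uList) ∧
    cVec.length = 2 ∧ uVec.length = 2 ∧
    ∀ i < 2, ∀ j < 2, (qN (cVec.getD i 0 ^^^ uVec.getD j 0) = qN (cVec.getD i 0) ↔ i ≠ j) := by
  have h := smallOK_true
  simp only [smallOK, Bool.and_eq_true, List.all_eq_true, List.contains_iff_mem, Bool.not_eq_true',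
    beq_eq_false_iff_ne, beq_iff_eq] at h
  obtain ⟨⟨⟨⟨⟨⟨⟨⟨h1, h2⟩, h3⟩, h4⟩, h5⟩, h6⟩, h7⟩, h8⟩, h9⟩ := h
  refine ⟨fun p hp => ⟨Eq.mp Nat.blt_eq (h1 p hp).1, Nat.eq_of_beq_eq_true (h1 p hp).2⟩,
    fun c hc => ⟨Eq.mp Nat.blt_eq (h2 c hc).1, Nat.eq_of_beq_eq_true (h2 c hc).2⟩, h3,
    Nat.eq_of_beq_eq_true h4, Nat.eq_of_beq_eq_true h5, fun i hi j hj => ?_⟩
  interval_cases i <;> interval_cases j
  · exact iff_of_false h6 (by simp)
  · exact iff_of_true h8 (by norm_num)
  · exact iff_of_true h7 (by norm_num)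
  · exact iff_of_false h9 (by simp)

/-- A fixed vector lies in the fixed space up to the two coset representatives. -/
theorem fix_split (ha : Rep a0L a0) {w : Vec} (hw : a0 w = w) :
    ∃ c ∈ cosL, w + vecN c ∈ uSet := by
  have h := allB_spec_zero fixOK_true (by norm_num : 4096 ≤ 2 ^ 12) (enc_lt w)
  rw [show apL a0L (enc w) = enc w by rw [← ha w, hw], Nat.beq_refl, Bool.not_true,
    Bool.false_or, List.any_eq_true] at h
  obtain ⟨c, hc, h⟩ := h
  refine ⟨c, hc, ?_⟩
  rw [List.contains_iff_mem] at h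
  have hlt : c < 4096 := by
    have hall : ∀ c ∈ cosL, c < 4096 := by decide +kernel
    exact hall c hc
  show enc (w + vecN c) ∈ uList
  rw [enc_add, enc_vecN hlt]
  exact h

/-- A fixed vector is a commutator or is not orthogonal to some fixed vector. -/
theorem rad_split (ha : Rep a0L a0) {w : Vec} (hw : a0 w = w) :
    (∃ v, a0 v + v = w) ∨ ∃ c, a0 c = c ∧ UnitF4.H (c + w) (c + w) ≠ UnitF4.H c c := by
  have h := allB_spec_zero radOK_true (by norm_num : 4096 ≤ 2 ^ 12) (enc_lt w)
  rw [show apL a0L (enc w) = enc w by rw [← ha w, hw], Nat.beq_refl, Bool.not_true,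
    Bool.false_or, Bool.or_eq_true, List.any_eq_true] at h
  obtain ⟨hs1, hs2, -⟩ := small_facts
  rcases h with h | ⟨c, hc, h⟩
  · left
    rw [List.contains_iff_mem, ranL, List.mem_map] at h
    obtain ⟨p, hp, hpe⟩ := h
    obtain ⟨h4, he⟩ := hs1 p hp
    refine ⟨vecN p.2, ?_⟩
    rw [ha.apply, enc_vecN h4, ← vecN_xor, he, hpe, vecN_enc]
  · right
    obtain ⟨h4, he⟩ := hs2 c hc
    refine ⟨vecN c, by rw [ha.apply, enc_vecN h4, he], fun e => ?_⟩
    rw [Bool.not_eq_true', beq_eq_false_iff_ne] at h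
    refine h (Bool.eq_iff_iff.2 ?_)
    rw [show Nat.xor c (enc w) = c ^^^ enc w from rfl, ← enc_vecN h4, qN_xor, qN_iff, e]

/-- An element of order three centralising the involution, trivial on fixed vectors modulo
commutators. -/
theorem exists_three (ha : Rep a0L a0) :
    ∃ h ∈ K22, h ^ 3 = 1 ∧ h ≠ 1 ∧ h * a0 = a0 * h ∧ ∀ w, a0 w = w → ∃ v, a0 v + v = h w + w := by
  have h := threeOK_true
  simp only [threeOK, Bool.and_eq_true, beq_iff_eq, Bool.not_eq_true', beq_eq_false_iff_ne] at h
  obtain ⟨⟨⟨h3, hne⟩, hcomm⟩, hfix⟩ := h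
  have hr := rep_word threeW
  refine ⟨_, word_mem threeW, ?_, fun e => hne ?_, (hr.mul ha).eq (hcomm ▸ ha.mul hr), fun w hw => ?_⟩
  · rw [pow_succ', pow_two]
    exact (hr.mul (hr.mul hr)).eq (h3 ▸ Rep.one)
  · have hlen : comp (wImg threeW) idL = wImg threeW := by decide +kernel
    exact (e ▸ hr).list_eq Rep.one hlen idL_normal
  · have h' := allB_spec_zero hfix (by norm_num : 4096 ≤ 2 ^ 12) (enc_lt w)
    rw [show apL a0L (enc w) = enc w by rw [← ha w, hw], Nat.beq_refl, Bool.not_true,
      Bool.false_or, List.contains_iff_mem, ranL, List.mem_map] at h'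
    obtain ⟨p, hp, hpe⟩ := h'
    obtain ⟨h4, he⟩ := small_facts.1 p hp
    refine ⟨vecN p.2, ?_⟩
    rw [ha.apply, enc_vecN h4, ← vecN_xor, he, hpe,
      show Nat.xor (apL (wImg threeW) (enc w)) (enc w) = apL (wImg threeW) (enc w) ^^^ enc w from rfl,
      vecN_xor, ← hr.apply, vecN_enc]

end Cfsg.Agent.JFourType.Invol
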