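import Cfsg.Agent.JFourType.InvolSetup
import Cfsg.Agent.JFourType.InvolChecks
import Cfsg.Agent.Invol.IndexTwo

/-!
Every involution of a simple group of Janko-four type is conjugate into the elementary abelian
subgroup of order `2^11`, given that the elements of order 3 form one class and that the normalizer
of the distinguished subgroup of order 3 lies in the centralizer of the involution.
-/

set_option autoImplicit false
set_option maxRecDepth 100000

namespace Cfsg.Agent.JFourType.Invol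

open Cfsg
open Cfsg.Agent.GFour25 Cfsg.Agent.CosetCert
open Cfsg.Agent.SporB.FischerU (Vec vecN enc vecN_enc enc_lt)
open Cfsg.Agent.LargeFischer (IsSemi semiU twist)
open Cfsg.Agent.LargeFischer.Thompson
open Cfsg.Agent.TTClass
open Cfsg.Agent.JFourType
open InvolData Data

theorem ran_mem_U {a0 : Equiv.Perm Vec} (ha : Rep a0L a0) (v : Vec) : a0 v + v ∈ uSet := by
  have hb : allB (fun v => uList.contains (Nat.xor (apL a0L v) v)) 12 0 = true := by decide +kernel
  have h := allB_spec_zero hb (by norm_num : 4096 ≤ 2 ^ 12) (enc_lt v)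
  rw [List.contains_iff_mem] at h
  show enc (a0 v + v) ∈ uList
  rw [enc_add, ha v]
  exact h

theorem omP_ne_inv : omP ≠ omP⁻¹ := by
  intro h
  have h2 : omP * omP = 1 := by nth_rewrite 2 [h]; exact mul_inv_cancel _
  have h1 : omP = 1 := by
    have h3 := omP_pow_three
    rwa [pow_succ, pow_two, h2, one_mul] at h3
  have := Equiv.Perm.ext_iff.1 h1 (vecN 1)
  rw [omP_apply, Equiv.Perm.one_apply] at this
  exact absurd this (by decide)

theorem linear_not_semilinear {σ : Equiv.Perm Vec} (hl : IsSemi false σ) : ¬ IsSemi true σ := by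
  intro hs
  refine omP_ne_inv ?_
  have e : omP * omP = 1 → omP = omP⁻¹ := fun e => eq_inv_of_mul_eq_one_left e
  exfalso
  have h1 := hl.2.1 w4 (σ⁻¹ (vecN 1))
  rw [hs.2.1 w4 (σ⁻¹ (vecN 1)), apply_inv] at h1
  exact absurd h1 (by decide)

variable {G : Type*} [Group G] [Finite G] {z : G} {P : Subgroup G}

namespace Setup

variable (S : Setup z P)

theorem conj_fix {g : Subgroup.centralizer ({z} : Set G)}
    (f : pCore 2 (Subgroup.centralizer ({z} : Set G))) (h : S.rho g (S.psi f) = S.psi f) :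
    g * f * g⁻¹ = f ∨
      g * f * g⁻¹ = (f : Subgroup.centralizer ({z} : Set G)) * ⟨z, Subgroup.mem_centralizer_singleton_iff.2 rfl⟩ := by
  rw [← S.D.psi_conj] at h
  exact S.D.eq_of_psi h

theorem u_zero : (0 : Vec) ∈ uSet := by
  show enc 0 ∈ uList
  rw [show enc (0 : Vec) = 0 by decide]
  decide +kernel

theorem u_add {u v : Vec} (hu : u ∈ uSet) (hv : v ∈ uSet) : u + v ∈ uSet := by
  rw [← uSet_fix candJ_ok rep_gP.1] at hu hv ⊢
  intro a ha
  rcases ha with rfl | ⟨g, hg, hs⟩
  · rfl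
  · rw [rep_add hs, hu a (Or.inr ⟨g, hg, hs⟩), hv a (Or.inr ⟨g, hg, hs⟩)]

/-- A lift of the involution centralising the preimage of all its fixed vectors. -/
theorem exists_lift {a0 : Equiv.Perm Vec} (hA : a0 ∈ aGrp) (ha : Rep a0L a0) :
    ∃ v ∈ S.D.K S.Mo, S.rho v = a0 ∧ v * v = 1 ∧
      ∀ f : pCore 2 (Subgroup.centralizer ({z} : Set G)), a0 (S.psi f) = S.psi f →
        (f : Subgroup.centralizer ({z} : Set G)) * v = v * f := by
  classical
  set Z : Subgroup.centralizer ({z} : Set G) := ⟨z, Subgroup.mem_centralizer_singleton_iff.2 rfl⟩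
  obtain ⟨-, hs2, hs3, hlc, hlu, hdual⟩ := small_facts
  have hc4 : ∀ i < 2, cVec.getD i 0 < 4096 ∧ apL a0L (cVec.getD i 0) = cVec.getD i 0 := fun i hi =>
    hs2 _ (List.mem_append_right _ (getD_mem 0 (by omega)))
  have hu4 : ∀ i < 2, uVec.getD i 0 < 4096 ∧ vecN (uVec.getD i 0) ∈ uSet := fun i hi => by
    have h := hs3 _ (getD_mem 0 (show i < uVec.length by omega))
    refine ⟨(uList_facts _ h).1, ?_⟩
    show enc (vecN _) ∈ uList
    rwa [enc_vecN (uList_facts _ h).1]
  choose f hf using fun i => S.D.psi_surj (vecN (cVec.getD i 0))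
  choose p hp using fun i => S.D.psi_surj (vecN (uVec.getD i 0))
  have hpP : ∀ i < 2, (p i : Subgroup.centralizer ({z} : Set G)) ∈ S.D.P0 S.Mo := fun i hi =>
    ⟨(p i).2, by rw [S.Mo_U]; exact (hp i).symm ▸ (hu4 i hi).2⟩
  have hcomm : ∀ i < 2, ∀ j < 2, ((f i : Subgroup.centralizer ({z} : Set G)) * p j = p j * f i ↔ i ≠ j) := by
    intro i hi j hj
    rw [S.D.comm_iff (f i) (p j) (Subtype.ext (S.D.P0_sq S.Mo (hpP j hj))), hf, hp, ← vecN_xor,
      ← hdual i hi j hj]
    have h4 : cVec.getD i 0 ^^^ uVec.getD j 0 < 4096 :=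
      Nat.xor_lt_two_pow (n := 12) (hc4 i hi).1 (hu4 j hj).1
    constructor
    · intro e
      refine Bool.eq_iff_iff.2 ?_
      rw [← enc_vecN h4, qN_iff, e, ← qN_iff, enc_vecN (hc4 i hi).1]
    · intro e
      refine H_self_of_qN ?_
      rw [enc_vecN h4, enc_vecN (hc4 i hi).1, e]
  have hfix : ∀ g, S.rho g = a0 → ∀ i < 2, S.rho g (S.psi (f i)) = S.psi (f i) := fun g hg i hi => by
    rw [hg, hf, ha.apply, enc_vecN (hc4 i hi).1, (hc4 i hi).2]
  obtain ⟨v0, hv0, hv0r⟩ := S.D.exists_fix S.Mo (a := a0) hA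
  -- adjust
  have step : ∀ g, g ∈ S.D.K S.Mo → S.rho g = a0 → ∀ i < 2, ∀ j < 2, i ≠ j →
      ∃ g' ∈ S.D.K S.Mo, S.rho g' = a0 ∧ (f i : Subgroup.centralizer ({z} : Set G)) * g' = g' * f i ∧
        ((f j : Subgroup.centralizer ({z} : Set G)) * g = g * f j →
          (f j : Subgroup.centralizer ({z} : Set G)) * g' = g' * f j) := by
    intro g hg hgr i hi j hj hij
    by_cases hc : (f i : Subgroup.centralizer ({z} : Set G)) * g = g * f i
    · exact ⟨g, hg, hgr, hc, id⟩
    have hpK : (p i : Subgroup.centralizer ({z} : Set G)) ∈ S.D.K S.Mo := ((S.D.K_inf S.Mo).ge (hpP i hi)).1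
    refine ⟨g * p i, mul_mem hg hpK, by rw [map_mul, S.D.rho_q (p i).2, mul_one, hgr], ?_, fun hjc => ?_⟩
    · have e1 : g * f i * g⁻¹ = (f i : Subgroup.centralizer ({z} : Set G)) * Z :=
        (S.conj_fix (f i) (hfix g hgr i hi)).resolve_left fun e => hc (mul_inv_eq_iff_eq_mul.1 e).symm
      have e2 : (p i : Subgroup.centralizer ({z} : Set G)) * f i * (p i : Subgroup.centralizer ({z} : Set G))⁻¹ =
          (f i : Subgroup.centralizer ({z} : Set G)) * Z := by
        refine (S.conj_fix (f i) (by rw [S.D.rho_q (p i).2]; rfl)).resolve_left fun e => ?_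
        exact (hcomm i hi i hi).1 (mul_inv_eq_iff_eq_mul.1 e).symm rfl
      symm
      rw [← mul_inv_eq_iff_eq_mul]
      calc g * (p i : Subgroup.centralizer ({z} : Set G)) * f i * (g * (p i : Subgroup.centralizer ({z} : Set G)))⁻¹
          = g * ((p i : Subgroup.centralizer ({z} : Set G)) * f i * (p i : Subgroup.centralizer ({z} : Set G))⁻¹) * g⁻¹ := by group
        _ = g * f i * (Z * g⁻¹) := by rw [e2]; group
        _ = g * f i * g⁻¹ * Z := by rw [show Z * g⁻¹ = g⁻¹ * Z from (S.D.z_central g⁻¹).symm]; group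
        _ = (f i : Subgroup.centralizer ({z} : Set G)) := by rw [e1, mul_assoc, S.D.z_sq, mul_one]
    · rw [← mul_assoc, hjc, mul_assoc, (hcomm j hj i hi).2 (Ne.symm hij), ← mul_assoc]
  obtain ⟨v1, hv1, hv1r, hv1c, -⟩ := step v0 hv0 hv0r 0 (by norm_num) 1 (by norm_num) (by norm_num)
  obtain ⟨v, hv, hvr, hvc, hvk⟩ := step v1 hv1 hv1r 1 (by norm_num) 0 (by norm_num) (by norm_num)
  refine ⟨v, hv, hvr, S.D.K_sq S.Mo v hv, ?_⟩
  let W : Set Vec := {w | ∀ r : pCore 2 (Subgroup.centralizer ({z} : Set G)), S.psi r = w →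
    (r : Subgroup.centralizer ({z} : Set G)) * v = v * r}
  have hWr : ∀ r r' : pCore 2 (Subgroup.centralizer ({z} : Set G)), S.psi r = S.psi r' →
      (r' : Subgroup.centralizer ({z} : Set G)) * v = v * r' →
      (r : Subgroup.centralizer ({z} : Set G)) * v = v * r := by
    intro r r' h h'
    rcases S.D.eq_of_psi h with e | e <;> rw [e]
    · exact h'
    · rw [mul_assoc, ← S.D.z_central v, ← mul_assoc, h', mul_assoc]
  have hWU : ∀ u ∈ uSet, u ∈ W := fun u hu r hr =>
    ((S.D.mem_K S.Mo).1 hv).1 r ⟨r.2, by rw [S.Mo_U]; exact hr.symm ▸ hu⟩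
  have hWadd : ∀ u ∈ W, ∀ w ∈ W, u + w ∈ W := by
    intro u hu w hw r hr
    obtain ⟨a, rfl⟩ := S.D.psi_surj u
    obtain ⟨b, rfl⟩ := S.D.psi_surj w
    rw [← S.D.psi_mul] at hr
    refine hWr r (a * b) hr ?_
    rw [Subgroup.coe_mul, mul_assoc, hw b rfl, ← mul_assoc, hu a rfl, mul_assoc]
  have hWc : ∀ i < 2, vecN (cVec.getD i 0) ∈ W := by
    intro i hi r hr
    rw [← hf i] at hr
    refine hWr r (f i) hr ?_
    interval_cases i
    · exact hvk hv1c
    · exact hvc
  intro r hr
  obtain ⟨c, hc, hcu⟩ := fix_split ha hr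
  have hcW : vecN c ∈ W := by
    simp only [cosL, List.mem_cons, List.mem_singleton, List.not_mem_nil, or_false] at hc
    rcases hc with rfl | rfl | rfl | rfl
    · rw [show vecN 0 = (0 : Vec) by decide]; exact hWU _ u_zero
    · exact hWc 0 (by norm_num)
    · exact hWc 1 (by norm_num)
    · rw [show Nat.xor (cVec.getD 0 0) (cVec.getD 1 0) = cVec.getD 0 0 ^^^ cVec.getD 1 0 from rfl,
        vecN_xor]
      exact hWadd _ (hWc 0 (by norm_num)) _ (hWc 1 (by norm_num))
  have h := hWadd _ (hWU _ hcu) _ hcW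
  rw [add_assoc, LargeFischer.Thompson.vec_self, add_zero] at h
  exact h r rfl

variable {a0 : Equiv.Perm Vec} {v : Subgroup.centralizer ({z} : Set G)}
variable (hv : S.rho v = a0) (hv2 : v * v = 1)
variable (hvf : ∀ f : pCore 2 (Subgroup.centralizer ({z} : Set G)), a0 (S.psi f) = S.psi f →
        (f : Subgroup.centralizer ({z} : Set G)) * v = v * f)

include hv hv2 hvf

/-- An involution above the first one. -/
theorem decompose {x : Subgroup.centralizer ({z} : Set G)} (hx : S.rho x = a0) (hx2 : x * x = 1) :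
    ∃ e : pCore 2 (Subgroup.centralizer ({z} : Set G)), x = v * e ∧ a0 (S.psi e) = S.psi e ∧
      e * e = 1 ∧ (e : Subgroup.centralizer ({z} : Set G)) * v = v * e := by
  have hvi : v⁻¹ = v := inv_eq_of_mul_eq_one_right hv2
  have he : v⁻¹ * x ∈ pCore 2 (Subgroup.centralizer ({z} : Set G)) :=
    S.D.mem_q (by rw [map_mul, map_inv, hv, hx, inv_mul_cancel])
  set e : pCore 2 (Subgroup.centralizer ({z} : Set G)) := ⟨v⁻¹ * x, he⟩ with hedef
  have hxe : x = v * e := by simp [hedef]
  have hfix : a0 (S.psi e) = S.psi e := by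
    have h1 : (⟨v * (e : Subgroup.centralizer ({z} : Set G)) * v⁻¹,
        (inferInstance : (pCore 2 (Subgroup.centralizer ({z} : Set G))).Normal).conj_mem _ e.2 v⟩ :
          pCore 2 (Subgroup.centralizer ({z} : Set G))) * e = 1 := by
      apply Subtype.ext
      show v * (v⁻¹ * x) * v⁻¹ * (v⁻¹ * x) = 1
      rw [mul_inv_cancel_left, hvi, ← mul_assoc, mul_assoc x v v, hv2, mul_one, hx2]
    have h2 := congrArg S.psi h1
    rw [S.D.psi_mul, S.D.psi_conj, hv, S.D.psi_one] at h2
    calc a0 (S.psi e) = a0 (S.psi e) + (S.psi e + S.psi e) := by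
          rw [LargeFischer.Thompson.vec_self, add_zero]
      _ = S.psi e := by rw [← add_assoc, h2, zero_add]
  have hcomm := hvf e hfix
  refine ⟨e, hxe, hfix, Subtype.ext ?_, hcomm⟩
  show (e : Subgroup.centralizer ({z} : Set G)) * e = 1
  have h3 : v * (e : Subgroup.centralizer ({z} : Set G)) * (v * e) = 1 := by rw [← hxe, hx2]
  calc (e : Subgroup.centralizer ({z} : Set G)) * e
      = v * v * ((e : Subgroup.centralizer ({z} : Set G)) * e) := by rw [hv2, one_mul]
    _ = v * (v * e) * e := by group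
    _ = v * ((e : Subgroup.centralizer ({z} : Set G)) * v) * e := by rw [hcomm]
    _ = 1 := by rw [← h3]; group

/-- Conjugating the lift by an element commuting with its image changes it by a commutator. -/
theorem cocycle (ha : Rep a0L a0) {y : Subgroup.centralizer ({z} : Set G)}
    (hy : S.rho y * a0 = a0 * S.rho y) :
    ∃ e' : pCore 2 (Subgroup.centralizer ({z} : Set G)), y * v * y⁻¹ = v * e' ∧
      ∃ u, a0 u + u = S.psi e' := by
  have hr : S.rho (y * v * y⁻¹) = a0 := by
    rw [map_mul, map_mul, map_inv, hv, hy, mul_inv_cancel_right]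
  obtain ⟨e', he, hfix, hsq, -⟩ := S.decompose hv hv2 hvf hr (by
    calc y * v * y⁻¹ * (y * v * y⁻¹) = y * (v * v) * y⁻¹ := by group
      _ = 1 := by rw [hv2, mul_one, mul_inv_cancel])
  refine ⟨e', he, (rad_split ha hfix).resolve_right ?_⟩
  rintro ⟨c, hc, hne⟩
  obtain ⟨f, rfl⟩ := S.D.psi_surj c
  refine hne ((S.D.comm_iff f e' hsq).1 ?_)
  have hf' : (y⁻¹ * (f : Subgroup.centralizer ({z} : Set G)) * (y⁻¹)⁻¹) * v =
      v * (y⁻¹ * (f : Subgroup.centralizer ({z} : Set G)) * (y⁻¹)⁻¹) := by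
    refine hvf ⟨_, (inferInstance : (pCore 2 (Subgroup.centralizer ({z} : Set G))).Normal).conj_mem _ f.2 y⁻¹⟩ ?_
    rw [S.D.psi_conj, map_inv]
    apply (S.rho y).injective
    rw [← Equiv.Perm.mul_apply, hy, Equiv.Perm.mul_apply, apply_inv, hc]
  have h1 : (f : Subgroup.centralizer ({z} : Set G)) * (y * v * y⁻¹) = y * v * y⁻¹ * f := by
    calc (f : Subgroup.centralizer ({z} : Set G)) * (y * v * y⁻¹)
        = y * ((y⁻¹ * (f : Subgroup.centralizer ({z} : Set G)) * (y⁻¹)⁻¹) * v) * y⁻¹ := by group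
      _ = y * v * y⁻¹ * f := by rw [hf']; group
  rw [he] at h1
  calc (f : Subgroup.centralizer ({z} : Set G)) * e'
      = v * v * ((f : Subgroup.centralizer ({z} : Set G)) * e') := by rw [hv2, one_mul]
    _ = v * (v * f) * e' := by group
    _ = v * ((f : Subgroup.centralizer ({z} : Set G)) * v) * e' := by rw [hvf f hc]
    _ = v * ((f : Subgroup.centralizer ({z} : Set G)) * (v * e')) := by group
    _ = v * (v * e' * f) := by rw [h1]
    _ = (e' : Subgroup.centralizer ({z} : Set G)) * f := by rw [← mul_assoc, ← mul_assoc, hv2, one_mul]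

/-- An involution outside the subgroup commutes with an element of order three. -/
theorem exists_three_commute (ha : Rep a0L a0) {x : Subgroup.centralizer ({z} : Set G)}
    {e : pCore 2 (Subgroup.centralizer ({z} : Set G))} (hxe : x = v * e)
    (hfix : a0 (S.psi e) = S.psi e) (he2 : e * e = 1)
    (hnu : S.psi e ∉ uSet) :
    ∃ u : Subgroup.centralizer ({z} : Set G), orderOf u = 3 ∧ u * x = x * u := by
  set Z : Subgroup.centralizer ({z} : Set G) := ⟨z, Subgroup.mem_centralizer_singleton_iff.2 rfl⟩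
  obtain ⟨h, hh, hh3, hh1, hhc, hhf⟩ := exists_three ha
  obtain ⟨y, hy⟩ := S.K22_le hh
  obtain ⟨e', hye, w1, hw1⟩ := S.cocycle hv hv2 hvf ha (y := y) (by rw [hy, hhc])
  obtain ⟨w2, hw2⟩ := hhf (S.psi e) hfix
  obtain ⟨f, hf⟩ := S.D.psi_surj (w1 + w2)
  have hadd : ∀ s t : Vec, a0 (s + t) = a0 s + a0 t := rep_add ha
  -- the two elements lie over the same vector
  set e1 : pCore 2 (Subgroup.centralizer ({z} : Set G)) :=
    e' * ⟨y * (e : Subgroup.centralizer ({z} : Set G)) * y⁻¹,
      (inferInstance : (pCore 2 (Subgroup.centralizer ({z} : Set G))).Normal).conj_mem _ e.2 y⟩ with he1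
  have hy1 : y * x * y⁻¹ = v * e1 := by
    rw [hxe, he1, Subgroup.coe_mul, ← mul_assoc v (e' : Subgroup.centralizer ({z} : Set G)), ← hye]
    group
  set e2 : pCore 2 (Subgroup.centralizer ({z} : Set G)) :=
    ⟨v⁻¹ * (f : Subgroup.centralizer ({z} : Set G)) * (v⁻¹)⁻¹,
        (inferInstance : (pCore 2 (Subgroup.centralizer ({z} : Set G))).Normal).conj_mem _ f.2 v⁻¹⟩ *
      (e * f⁻¹) with he2'
  have hf1 : (f : Subgroup.centralizer ({z} : Set G)) * x * (f : Subgroup.centralizer ({z} : Set G))⁻¹ = v * e2 := by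
    rw [hxe, he2', Subgroup.coe_mul, Subgroup.coe_mul, Subgroup.coe_inv]
    group
  have hpf : S.psi f⁻¹ = S.psi f := by
    have h0 := S.D.psi_mul f f⁻¹
    rw [mul_inv_cancel, S.D.psi_one] at h0
    calc S.psi f⁻¹ = S.psi f + S.psi f + S.psi f⁻¹ := by rw [LargeFischer.Thompson.vec_self, zero_add]
      _ = S.psi f := by rw [add_assoc, ← h0, add_zero]
  have hpsi : S.psi e1 = S.psi e2 := by
    rw [he1, he2', S.D.psi_mul, S.D.psi_mul, S.D.psi_mul, S.D.psi_conj, S.D.psi_conj, map_inv, hv, hy,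
      inv_eq_of_mul_eq_one_right (show a0 * a0 = 1 by rw [← hv, ← map_mul, hv2, map_one]), hpf, hf,
      hadd, ← hw1]
    funext i
    have e3 : (a0 w2 + w2) i = (h (S.psi e) + S.psi e) i := by rw [hw2]
    simp only [Pi.add_apply] at e3 ⊢
    revert e3
    generalize a0 w1 i = A
    generalize a0 w2 i = B
    generalize h (S.psi e) i = C
    generalize S.psi e i = E
    generalize w1 i = U
    generalize w2 i = V
    revert A B C E U V
    decide
  obtain ⟨f', hf'⟩ : ∃ f' : pCore 2 (Subgroup.centralizer ({z} : Set G)),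
      y * x * y⁻¹ = (f' : Subgroup.centralizer ({z} : Set G)) * x * (f' : Subgroup.centralizer ({z} : Set G))⁻¹ := by
    rcases S.D.eq_of_psi hpsi with e3 | e3
    · exact ⟨f, by rw [hy1, hf1, e3]⟩
    rcases rad_split ha hfix with ⟨w, hw⟩ | ⟨c, hc, hne⟩
    · exact absurd (hw ▸ ran_mem_U ha w) hnu
    obtain ⟨f0, rfl⟩ := S.D.psi_surj c
    have hev := hvf e hfix
    have h0 : (f0 : Subgroup.centralizer ({z} : Set G)) * x * (f0 : Subgroup.centralizer ({z} : Set G))⁻¹ = x * Z := by
      have h1 : (f0 : Subgroup.centralizer ({z} : Set G)) * e * (f0 : Subgroup.centralizer ({z} : Set G))⁻¹ =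
          (e : Subgroup.centralizer ({z} : Set G)) * Z := by
        refine (S.conj_fix e (by rw [S.D.rho_q f0.2]; rfl)).resolve_left fun e4 => hne ?_
        exact (S.D.comm_iff f0 e he2).1 (mul_inv_eq_iff_eq_mul.1 e4)
      calc (f0 : Subgroup.centralizer ({z} : Set G)) * x * (f0 : Subgroup.centralizer ({z} : Set G))⁻¹
          = ((f0 : Subgroup.centralizer ({z} : Set G)) * v) * e * (f0 : Subgroup.centralizer ({z} : Set G))⁻¹ := by
            rw [hxe]; group
        _ = v * ((f0 : Subgroup.centralizer ({z} : Set G)) * e * (f0 : Subgroup.centralizer ({z} : Set G))⁻¹) := by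
            rw [hvf f0 hc]; group
        _ = x * Z := by rw [h1, hxe]; group
    refine ⟨f * f0, ?_⟩
    rw [hy1, e3, ← mul_assoc, ← hf1, Subgroup.coe_mul]
    calc (f : Subgroup.centralizer ({z} : Set G)) * x * (f : Subgroup.centralizer ({z} : Set G))⁻¹ * Z
        = (f : Subgroup.centralizer ({z} : Set G)) * (x * ((f : Subgroup.centralizer ({z} : Set G))⁻¹ * Z)) := by group
      _ = (f : Subgroup.centralizer ({z} : Set G)) * (x * Z) * (f : Subgroup.centralizer ({z} : Set G))⁻¹ := by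
          rw [show (f : Subgroup.centralizer ({z} : Set G))⁻¹ * Z = Z * (f : Subgroup.centralizer ({z} : Set G))⁻¹ from
            S.D.z_central _]; group
      _ = _ := by rw [← h0]; group
  set y' := (f' : Subgroup.centralizer ({z} : Set G))⁻¹ * y with hy'
  have hcomm : Commute y' x := by
    show (f' : Subgroup.centralizer ({z} : Set G))⁻¹ * y * x = x * ((f' : Subgroup.centralizer ({z} : Set G))⁻¹ * y)
    calc (f' : Subgroup.centralizer ({z} : Set G))⁻¹ * y * x
        = (f' : Subgroup.centralizer ({z} : Set G))⁻¹ * (y * x * y⁻¹) * y := by group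
      _ = _ := by rw [hf']; group
  have hr : S.rho y' = h := by
    rw [hy', map_mul, map_inv, S.D.rho_q f'.2, inv_one, one_mul, hy]
  have h3 : 3 ∣ orderOf y' := by
    haveI : Fact (Nat.Prime 3) := ⟨Nat.prime_three⟩
    have := orderOf_map_dvd S.rho y'
    rwa [hr, orderOf_eq_prime hh3 hh1] at this
  exact ⟨y' ^ (orderOf y' / 3),
    orderOf_pow_orderOf_div (orderOf_pos y').ne' h3, (hcomm.pow_left _).eq⟩

omit hv hv2 hvf

/-- A linear involution outside the core is moved over the first one. -/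
theorem exists_over {x : Subgroup.centralizer ({z} : Set G)} (hx2 : x * x = 1)
    (hl : IsSemi false (S.rho x)) (h1 : S.rho x ≠ 1) (ha : Rep a0L a0) :
    ∃ k, S.rho (k * x * k⁻¹) = a0 := by
  haveI : Fact (Nat.Prime 2) := ⟨Nat.prime_two⟩
  obtain ⟨T, hT⟩ := (IsPGroup.of_card S.card_T0).exists_le_sylow
  have hTe : (T : Subgroup (Subgroup.centralizer ({z} : Set G))) = S.T0 := by
    refine (Subgroup.eq_of_le_of_card_ge hT ?_).symm
    rw [Sylow.card_eq_multiplicity, S.fac_centralizer, S.card_T0]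
  have hord : orderOf x = 2 := orderOf_eq_prime (by rw [pow_two, hx2]) (fun e => h1 (by rw [e, map_one]))
  obtain ⟨T', hT'⟩ := (IsPGroup.of_card (G := Subgroup.zpowers x) (n := 1)
    (by rw [Nat.card_zpowers, hord, pow_one])).exists_le_sylow
  obtain ⟨k, hk⟩ := MulAction.exists_smul_eq (Subgroup.centralizer ({z} : Set G)) T' T
  have hmem : k * x * k⁻¹ ∈ S.T0 := by
    rw [← hTe, ← hk, Sylow.smul_def, Sylow.pointwise_smul_def,
      Subgroup.mem_pointwise_smul_iff_inv_smul_mem]
    simpa [mul_assoc] using hT' (Subgroup.mem_zpowers x)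
  set σ := S.rho (k * x * k⁻¹) with hσ
  have hσl : IsSemi false σ := by
    rw [hσ, map_mul, map_mul, map_inv]
    obtain ⟨b, hb⟩ := S.semi k
    exact conj_linear hb hl
  have hσ2 : σ * σ = 1 := by
    rw [hσ, ← map_mul, show k * x * k⁻¹ * (k * x * k⁻¹) = k * (x * x) * k⁻¹ by group, hx2, mul_one,
      mul_inv_cancel, map_one]
  have hσ1 : σ ≠ 1 := fun e => h1 (by
    rw [hσ, map_mul, map_mul, map_inv, mul_inv_eq_one] at e
    exact mul_eq_left.1 e)
  rcases invol_cases (σ := σ) hmem hσ2 hσ1 ha with e | ⟨k', hk', e⟩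
  · exfalso
    rw [scalar_comm hσl] at e
    exact omP_ne_inv (mul_right_cancel e)
  · obtain ⟨y, hy⟩ := S.K22_le hk'
    refine ⟨y * k, ?_⟩
    rw [show y * k * x * (y * k)⁻¹ = y * (k * x * k⁻¹) * y⁻¹ by group, map_mul, map_mul, map_inv, hy,
      ← hσ, e, mul_inv_cancel_right]

end Setup

theorem smul_mem_uSet {u : Vec} (hu : u ∈ uSet) (c : F4) : c • u ∈ uSet := by
  have hom : ∀ x ∈ uSet, w4 • x ∈ uSet := fun x hx => by
    rw [← omP_apply]
    show enc (omP x) ∈ uList
    rw [rep_omP x]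
    exact (uList_facts _ hx).2.2.1
  rcases f4_cases c with rfl | rfl | rfl | rfl
  · rw [zero_smul]; exact Setup.u_zero
  · rwa [one_smul]
  · exact hom u hu
  · rw [show (1 + w4 : F4) = w4 * w4 by decide, mul_smul]
    exact hom _ (hom u hu)

/-- An involution of the centraliser that commutes with the subgroup of order three, and the
involutions with linear image in general, reach the subgroup of order `2^11`. -/
theorem reach (hJ : IsOfJankoFourTypeWith z P) (S : Setup z P)
    (h3 : ∀ a b : G, orderOf a = 3 → orderOf b = 3 → IsConj a b)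
    (hN : Subgroup.normalizer (P : Set G) ≤ Subgroup.centralizer ({z} : Set G))
    {x : Subgroup.centralizer ({z} : Set G)} (hx : x * x = 1) (hl : IsSemi false (S.rho x)) :
    ∃ (g : G) (k : Subgroup.centralizer ({z} : Set G)), k ∈ S.D.K S.Mo ∧ g * (x : G) * g⁻¹ = k := by
  classical
  obtain ⟨a0, hA, ha1, ha⟩ := exists_a0
  obtain ⟨v, hvK, hvr, hv2, hvf⟩ := S.exists_lift hA ha
  have a0_add : ∀ s t : Vec, a0 (s + t) = a0 s + a0 t := rep_add ha
  -- an element of the core
  have hcore : ∀ x : Subgroup.centralizer ({z} : Set G), x * x = 1 → S.rho x = 1 →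
      ∃ (g : G) (k : Subgroup.centralizer ({z} : Set G)), k ∈ S.D.K S.Mo ∧ g * (x : G) * g⁻¹ = k := by
    intro x hx h1
    obtain ⟨k, hk, hkU⟩ := plane_cover _ ((S.D.psi_norm ⟨x, S.D.mem_q h1⟩).2 (Subtype.ext hx))
    obtain ⟨h, rfl⟩ := S.K22_le hk
    refine ⟨h, h * x * h⁻¹, ((S.D.K_inf S.Mo).ge (show h * x * h⁻¹ ∈ S.D.P0 S.Mo from
      ⟨(inferInstance : (pCore 2 (Subgroup.centralizer ({z} : Set G))).Normal).conj_mem _ (S.D.mem_q h1) h, ?_⟩)).1, rfl⟩
    rw [S.Mo_U]
    exact (S.D.psi_conj h ⟨x, S.D.mem_q h1⟩).symm ▸ hkU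
  -- an involution over the first one with vector in the fixed space
  have hgood : ∀ e : pCore 2 (Subgroup.centralizer ({z} : Set G)), S.psi e ∈ uSet →
      v * e ∈ S.D.K S.Mo := fun e he =>
    mul_mem hvK ((S.D.K_inf S.Mo).ge ⟨e.2, by rw [S.Mo_U]; exact he⟩).1
  -- involutions commuting with `P`
  have hP : ∀ x : Subgroup.centralizer ({z} : Set G), x * x = 1 → Commute (S.p : G) (x : G) →
      ∃ (g : G) (k : Subgroup.centralizer ({z} : Set G)), k ∈ S.D.K S.Mo ∧ g * (x : G) * g⁻¹ = k := by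
    intro x hx hc
    by_cases h1 : S.rho x = 1
    · exact hcore x hx h1
    have hcr : S.rho S.p * S.rho x = S.rho x * S.rho S.p := by
      rw [← map_mul, ← map_mul]
      exact congrArg S.rho (Subtype.ext hc.eq)
    have hlx : IsSemi false (S.rho x) := by
      obtain ⟨b, hb⟩ := S.semi x
      cases b
      · exact hb
      exfalso
      have h := Equiv.Perm.ext_iff.1 hcr ((S.rho x)⁻¹ (vecN 1))
      rw [Equiv.Perm.mul_apply, Equiv.Perm.mul_apply, apply_inv, S.p_apply, S.p_apply,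
        hb.2.1, apply_inv] at h
      revert h
      obtain ⟨hc0, hc1⟩ := S.c_ne
      rcases f4_cases S.c with e | e | e | e
      · exact absurd e hc0
      · exact absurd e hc1
      all_goals rw [e]; decide
    obtain ⟨k, hk⟩ := S.exists_over hx hlx h1 ha
    obtain ⟨e, hxe, hfix, -, -⟩ := S.decompose hvr hv2 hvf hk (by
      rw [show k * x * k⁻¹ * (k * x * k⁻¹) = k * (x * x) * k⁻¹ by group, hx, mul_one, mul_inv_cancel])
    obtain ⟨b, hb⟩ := S.semi k
    set p' := k * S.p * k⁻¹ with hp'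
    set c := twist b S.c with hc'
    have hp'r : ∀ w, S.rho p' w = c • w := fun w => by
      rw [hp', map_mul, map_mul, map_inv, Equiv.Perm.mul_apply, Equiv.Perm.mul_apply, S.p_apply,
        hb.2.1, apply_inv]
    have hp'a : S.rho p' * a0 = a0 * S.rho p' := Equiv.ext fun w => by
      rw [Equiv.Perm.mul_apply, Equiv.Perm.mul_apply, hp'r, hp'r]
      have hsm : IsSemi false a0 := by
        rw [← hk, map_mul, map_mul, map_inv]
        exact conj_linear hb hlx
      rw [hsm.2.1]
      rfl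
    obtain ⟨e', he', u, hu⟩ := S.cocycle hvr hv2 hvf ha hp'a
    have hfixed : p' * (k * x * k⁻¹) * p'⁻¹ = k * x * k⁻¹ := by
      rw [hp']
      have h : S.p * x = x * S.p := Subtype.ext hc.eq
      calc k * S.p * k⁻¹ * (k * x * k⁻¹) * (k * S.p * k⁻¹)⁻¹ = k * (S.p * x) * S.p⁻¹ * k⁻¹ := by group
        _ = k * x * k⁻¹ := by rw [h]; group
    have heq : e' * ⟨p' * (e : Subgroup.centralizer ({z} : Set G)) * p'⁻¹,
        (inferInstance : (pCore 2 (Subgroup.centralizer ({z} : Set G))).Normal).conj_mem _ e.2 p'⟩ = e := by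
      refine Subtype.ext (mul_left_cancel (a := v) ?_)
      rw [Subgroup.coe_mul, ← mul_assoc, ← he', ← hxe, ← hfixed, hxe]
      group
    have hpsi := congrArg S.psi heq
    rw [S.D.psi_mul, S.D.psi_conj, hp'r, ← hu] at hpsi
    have hU : (c + 1) • S.psi e ∈ uSet := by
      rw [add_smul, one_smul]
      have : c • S.psi e + S.psi e = a0 u + u := by
        calc c • S.psi e + S.psi e = c • S.psi e + (a0 u + u + c • S.psi e) := by rw [hpsi]
          _ = a0 u + u + (c • S.psi e + c • S.psi e) := by abel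
          _ = a0 u + u := by rw [LargeFischer.Thompson.vec_self, add_zero]
      rw [this]
      exact ran_mem_U ha u
    have hc1 : c + 1 ≠ 0 := by
      obtain ⟨h0, h1⟩ := S.c_ne
      rw [hc']
      revert h0 h1
      generalize S.c = d
      cases b <;> revert d <;> decide
    have hU' := smul_mem_uSet hU (c + 1)⁻¹
    rw [smul_smul, inv_mul_cancel₀ hc1, one_smul] at hU'
    refine ⟨k, v * e, hgood e hU', ?_⟩
    rw [← hxe]
    rfl
  by_cases h1 : S.rho x = 1
  · exact hcore x hx h1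
  obtain ⟨k, hk⟩ := S.exists_over hx hl h1 ha
  obtain ⟨e, hxe, hfix, he2, -⟩ := S.decompose hvr hv2 hvf hk (by
    rw [show k * x * k⁻¹ * (k * x * k⁻¹) = k * (x * x) * k⁻¹ by group, hx, mul_one, mul_inv_cancel])
  by_cases hU : S.psi e ∈ uSet
  · exact ⟨k, v * e, hgood e hU, by rw [← hxe]; rfl⟩
  obtain ⟨u, hu3, huc⟩ := S.exists_three_commute hvr hv2 hvf ha hxe hfix he2 hU
  obtain ⟨c, hc⟩ := isConj_iff.1 (h3 (S.p : G) (u : G) S.p_order (by rw [Subgroup.orderOf_coe]; exact hu3))
  set y : G := c⁻¹ * ((k * x * k⁻¹ : Subgroup.centralizer ({z} : Set G)) : G) * c with hy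
  have hpy : Commute (S.p : G) y := by
    have h : (u : G) * ((k * x * k⁻¹ : Subgroup.centralizer ({z} : Set G)) : G) =
        ((k * x * k⁻¹ : Subgroup.centralizer ({z} : Set G)) : G) * (u : G) := congrArg Subtype.val huc
    rw [← hc] at h
    show (S.p : G) * y = y * (S.p : G)
    rw [hy]
    calc (S.p : G) * (c⁻¹ * ((k * x * k⁻¹ : Subgroup.centralizer ({z} : Set G)) : G) * c)
        = c⁻¹ * (c * (S.p : G) * c⁻¹ * ((k * x * k⁻¹ : Subgroup.centralizer ({z} : Set G)) : G)) * c := by group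
      _ = _ := by rw [h]; group
  have hyC : y ∈ Subgroup.centralizer ({z} : Set G) := by
    refine hN (Subgroup.centralizer_le_normalizer _ (Subgroup.mem_centralizer_iff.2 fun r hr => ?_))
    have hP3 : Nat.card P = 3 := hJ.2.2.2.2.2.1
    have hPe : P = Subgroup.zpowers (S.p : G) := (Subgroup.eq_of_le_of_card_ge
      (Subgroup.zpowers_le.2 S.p_mem) (by rw [hP3, Nat.card_zpowers, S.p_order])).symm
    rw [hPe] at hr
    obtain ⟨n, rfl⟩ := Subgroup.mem_zpowers_iff.1 hr
    exact (hpy.zpow_left n).eq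
  have hy2 : (⟨y, hyC⟩ : Subgroup.centralizer ({z} : Set G)) * ⟨y, hyC⟩ = 1 := Subtype.ext (by
    show y * y = 1
    have h : ((x : G)) * x = 1 := congrArg Subtype.val hx
    rw [hy]
    simp only [Subgroup.coe_mul, Subgroup.coe_inv]
    calc c⁻¹ * ((k : G) * x * (k : G)⁻¹) * c * (c⁻¹ * ((k : G) * x * (k : G)⁻¹) * c)
        = c⁻¹ * (k : G) * ((x : G) * x) * (k : G)⁻¹ * c := by group
      _ = 1 := by rw [h]; group)
  obtain ⟨g, k', hk', hg⟩ := hP ⟨y, hyC⟩ hy2 hpy
  refine ⟨g * c⁻¹ * (k : G), k', hk', ?_⟩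
  rw [← hg]
  simp only [hy, Subgroup.coe_mul, Subgroup.coe_inv]
  group

/-- **Every involution is conjugate into the elementary abelian subgroup of order `2^11`.** -/
theorem exists_conj_mem_two_eleven [IsSimpleGroup G] (hG : ¬ IsMulCommutative G)
    (hJ : IsOfJankoFourTypeWith z P)
    (h3 : ∀ a b : G, orderOf a = 3 → orderOf b = 3 → IsConj a b)
    (hN : Subgroup.normalizer (P : Set G) ≤ Subgroup.centralizer ({z} : Set G))
    {V : Subgroup G} (hV : IsElementaryAbelian 2 V) (hVc : Nat.card V = 2 ^ 11)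
    (hVH : V ≤ Subgroup.centralizer ({z} : Set G)) {x : G} (hx : orderOf x = 2) :
    ∃ g : G, g * x * g⁻¹ ∈ V := by
  classical
  haveI : Fact (Nat.Prime 2) := ⟨Nat.prime_two⟩
  obtain ⟨S⟩ := exists_setup hJ
  set C := Subgroup.centralizer ({z} : Set G) with hC
  obtain ⟨T, hT⟩ := S.exists_sylow hJ
  -- the linear half
  let L : Subgroup (Equiv.Perm Vec) := candP gP ⊓ linU
  have hgc : gP ∈ candP gP := Subgroup.subset_closure (Or.inr rfl)
  have hgl : gP ∉ linU := fun h => linear_not_semilinear (mem_linU.1 h) semi_facts.2.2.2.2.2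
  have hLi : (linU.subgroupOf (candP gP)).index = 2 := by
    refine Subgroup.index_eq_two_iff.2 ⟨⟨gP, hgc⟩, fun b => ?_⟩
    obtain ⟨y, hy⟩ : (b : Equiv.Perm Vec) ∈ S.rho.range := S.Mo.P_le b.2
    obtain ⟨t, ht⟩ := S.semi y
    rw [hy] at ht
    simp only [Subgroup.mem_subgroupOf, Subgroup.coe_mul, mem_linU]
    cases t
    · refine Or.inr ⟨ht, fun h => hgl (mem_linU.2 ?_)⟩
      have := ht.inv.mul h
      simpa using this
    · refine Or.inl ⟨?_, fun h => linear_not_semilinear h ht⟩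
      have := ht.mul semi_facts.2.2.2.2.2
      simpa using this
  have hLc : 2 * Nat.card L = 256 := by
    have h := (linU.subgroupOf (candP gP)).card_mul_index
    rw [hLi, card_candP candJ_ok rep_gP.1, ← Nat.card_congr (Subgroup.equivMapOfInjective _ _
      (candP gP).subtype_injective).symm.toEquiv, Subgroup.subgroupOf_map_subtype, inf_comm] at h
    rw [mul_comm]
    exact h
  let M0 : Subgroup C := L.comap S.rho
  have hQM : pCore 2 C ≤ M0 := fun q hq => by
    show S.rho q ∈ L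
    rw [S.D.rho_q hq]
    exact one_mem _
  have hM : 2 * Nat.card (M0.map C.subtype) = Nat.card (T : Subgroup G) := by
    rw [hT, Subgroup.card_map_of_injective C.subtype_injective,
      Subgroup.card_map_of_injective C.subtype_injective, S.card_T0, S.D.card_split M0,
      inf_eq_right.2 hQM, S.D.card_q, Subgroup.map_comap_eq,
      inf_eq_right.2 (show L ≤ S.rho.range from inf_le_left.trans S.Mo.P_le), ← mul_assoc, hLc]
    norm_num
  have hno : ∀ H : Subgroup G, H.index ≠ 2 := by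
    intro H hH
    haveI := Subgroup.normal_of_index_eq_two hH
    rcases IsSimpleGroup.eq_bot_or_eq_top_of_normal H inferInstance with h | h
    · rw [h, Subgroup.index_bot] at hH
      haveI : IsCyclic G := isCyclic_of_prime_card (p := 2) hH
      exact hG ⟨⟨fun a b => by
        obtain ⟨g, hg⟩ := IsCyclic.exists_generator (α := G)
        obtain ⟨i, rfl⟩ := Subgroup.mem_zpowers_iff.1 (hg a)
        obtain ⟨j, rfl⟩ := Subgroup.mem_zpowers_iff.1 (hg b)
        rw [← zpow_add, ← zpow_add, add_comm]⟩⟩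
    · rw [h, Subgroup.index_top] at hH
      norm_num at hH
  obtain ⟨g, y, hy, hgy⟩ := Invol.exists_conj_mem_of_no_index_two hno T (M0.map C.subtype) hM hx
  have hy2 : y * y = 1 := Subtype.ext (by
    show (y : G) * y = 1
    rw [show (y : G) = g⁻¹ * x * g from hgy]
    have h2 : x * x = 1 := by rw [← pow_two, ← hx, pow_orderOf_eq_one]
    calc g⁻¹ * x * g * (g⁻¹ * x * g) = g⁻¹ * (x * x) * g := by group
      _ = 1 := by rw [h2]; group)
  obtain ⟨g1, k, hk, hg1⟩ := reach hJ S h3 hN hy2 (mem_linU.1 (Subgroup.mem_inf.1 hy).2)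
  -- move to the given subgroup
  have hKel : IsElementaryAbelian 2 (S.D.K S.Mo) := by
    refine ⟨⟨⟨fun u v => Subtype.ext ?_⟩⟩, fun a ha => by rw [pow_two]; exact S.D.K_sq S.Mo a ha⟩
    exact comm_of_sq (S.D.K_sq S.Mo _ u.2) (S.D.K_sq S.Mo _ v.2)
      (S.D.K_sq S.Mo _ ((S.D.K S.Mo).mul_mem u.2 v.2))
  have hVel : IsElementaryAbelian 2 (V.subgroupOf C) := by
    refine ⟨⟨⟨fun u v => Subtype.ext (Subtype.ext ?_)⟩⟩,
      fun a ha => Subtype.ext (hV.2 _ (Subgroup.mem_subgroupOf.1 ha))⟩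
    show ((u : C) : G) * (v : C) = ((v : C) : G) * (u : C)
    exact congrArg Subtype.val (hV.1.is_comm.comm ⟨_, Subgroup.mem_subgroupOf.1 u.2⟩
      ⟨_, Subgroup.mem_subgroupOf.1 v.2⟩)
  obtain ⟨c, hc⟩ := elementary_conj hJ hKel (S.D.K_card S.Mo) hVel
    (by rw [Nat.card_congr (Subgroup.subgroupOfEquivOfLe hVH).toEquiv, hVc])
  refine ⟨(c : G) * g1 * g⁻¹, ?_⟩
  have hmem : ((c * k * c⁻¹ : C) : G) ∈ V := Subgroup.mem_subgroupOf.1 (hc.ge ⟨k, hk, rfl⟩)
  simp only [Subgroup.coe_mul, Subgroup.coe_inv] at hmem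
  rw [← hg1, show (y : G) = g⁻¹ * x * g from hgy] at hmem
  simpa [mul_assoc] using hmem

end Cfsg.Agent.JFourType.Invol
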