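import Cfsg.Agent.JFourType.Coded

/-!
The linear isometries centralising or inverting the element of order 11, and those conjugating the
element of order 5 to its square.
-/

set_option autoImplicit false
set_option maxRecDepth 100000

namespace Cfsg.Agent.JFourType

open Cfsg.Agent.GFour25 Cfsg.Agent.CosetCert
open Cfsg.Agent.SporB.FischerU (Vec vecN enc vecN_enc enc_lt hs hs_eq)
open Cfsg.Agent.LargeFischer (IsSemi semiU twist herm_of_norm)
open Cfsg.Agent.LargeFischer.Thompson
open Cfsg.Agent.TTClass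
open Data

/-- Powers of lists. -/
noncomputable def pwL (g : List ℕ) (n : ℕ) : List ℕ :=
  Nat.rec (motive := fun _ => List ℕ) idL (fun _ ih => comp ih g) n

theorem rep_pow {g : List ℕ} {σ : Equiv.Perm Vec} (h : Rep g σ) (n : ℕ) : Rep (pwL g n) (σ ^ n) := by
  induction n with
  | zero => rw [pow_zero]; exact Rep.one
  | succ n ih => rw [pow_succ]; exact ih.mul h

theorem rep_vec {g : List ℕ} {σ : Equiv.Perm Vec} (h : Rep g σ) {x : ℕ} (hx : x < 4096) :
    σ (vecN x) = vecN (apL g x) := by rw [h.apply, enc_vecN hx]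

theorem isom {g : Equiv.Perm Vec} (hg : IsSemi false g) (x y : Vec) :
    UnitF4.H (g x) (g y) = UnitF4.H x y :=
  herm_of_norm hg.1 hg.2.1 hg.2.2 x y

theorem comm_power {g σ τ : Equiv.Perm Vec} (h : g * σ = τ * g) (n : ℕ) : g * σ ^ n = τ ^ n * g :=
  SemiconjBy.pow_right h n

/-- The conditions on the image of a vector under an isometry intertwining two maps. -/
noncomputable def gramOK (src tgt : List ℕ) (v n x : ℕ) : Bool :=
  (List.range n).all fun i =>
    decide (hs (vecN x) (vecN (apL (pwL tgt i) x)) = hs (vecN v) (vecN (apL (pwL src i) v)))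

theorem gramOK_of {g σ τ : Equiv.Perm Vec} {s t : List ℕ} (hg : IsSemi false g) (hs' : Rep s σ)
    (ht : Rep t τ) (h : g * σ = τ * g) {v : ℕ} (hv : v < 4096) (n : ℕ) :
    gramOK s t v n (enc (g (vecN v))) = true := by
  refine List.all_eq_true.2 fun i _ => decide_eq_true ?_
  rw [← rep_vec (rep_pow ht i) (enc_lt _), vecN_enc, ← rep_vec (rep_pow hs' i) hv,
    hs_eq, hs_eq, ← isom hg (vecN v) ((σ ^ i) (vecN v))]
  congr 1
  exact (Equiv.Perm.ext_iff.1 (comm_power h i) (vecN v)).symm

/-! ### The element of order 11 -/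

/-- The image of the cyclic vector under the element with the given numbers. -/
noncomputable def xA (i j : ℕ) : ℕ := apL (comp (pwL aL i) (pwL omL j)) vA

/-- The image of the fixed vector. -/
noncomputable def yA (l : ℕ) : ℕ := apL (pwL omL l) wA

theorem commuteX_ok : allB (fun x => !(gramOK aL aL vA 5 x) ||
    (List.range 11).any fun i => (List.range 3).any fun j => Nat.beq x (xA i j)) 12 0 = true := by
  decide +kernel

theorem invertX_ok : allB (fun x => !(gramOK aL aI vA 5 x)) 12 0 = true := by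
  decide +kernel

theorem commuteY_ok : allB (fun y => !(Nat.beq (apL aL y) y && gramOK idL idL wA 1 y) ||
    (List.range 3).any fun l => Nat.beq y (yA l)) 12 0 = true := by
  decide +kernel

theorem base_facts : Nat.blt vA 4096 = true ∧ Nat.blt wA 4096 = true ∧ apL aL wA = wA ∧
    apL yL vA = vA ∧ apL yL wA = apL omL wA ∧ comp aL yL = comp yL aL ∧
    comp bL yL = comp yL bL ∧ comp (comp yL yL) yL = idL := by
  refine ⟨?_, ?_, ?_, ?_, ?_, ?_, ?_, ?_⟩ <;> decide +kernel

/-- The base through the element of order 11. -/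
noncomputable def baseA : List ℕ := ((List.range 5).map fun i => apL (pwL aL i) vA) ++ [wA]

theorem maskA_ok : ((List.range 12).all fun j => Nat.beq
    (comboL (baseA ++ baseA.map (apL omL)) (maskA.getD j 0)) (idL.getD j 0)) = true ∧
    (baseA.all fun x => Nat.blt x 4096) = true := by decide +kernel

theorem vA_lt : vA < 4096 := Nat.blt_eq.mp base_facts.1
theorem wA_lt : wA < 4096 := Nat.blt_eq.mp base_facts.2.1

theorem aP_wA : aP (vecN wA) = vecN wA := by rw [rep_vec rep_aP.1 wA_lt, base_facts.2.2.1]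

theorem yP_comm : Commute aP yP ∧ Commute bP yP ∧ yP ^ 3 = 1 := by
  obtain ⟨-, -, -, -, -, h1, h2, h3⟩ := base_facts
  refine ⟨(rep_aP.1.mul rep_yP.1).eq (h1 ▸ rep_yP.1.mul rep_aP.1),
    (rep_bP.1.mul rep_yP.1).eq (h2 ▸ rep_yP.1.mul rep_bP.1), ?_⟩
  rw [pow_succ, pow_two]
  exact ((rep_yP.1.mul rep_yP.1).mul rep_yP.1).eq (h3 ▸ Rep.one)

/-- The linear isometries centralising the element of order 11. -/
theorem centralizer_aP {g : Equiv.Perm Vec} (hg : IsSemi false g) (h : g * aP = aP * g) :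
    ∃ i < 11, ∃ j < 3, ∃ l < 3, g = aP ^ i * omP ^ j * yP ^ l := by
  obtain ⟨-, hom, hyv, hyw, -⟩ : True ∧ True ∧ apL yL vA = vA ∧ apL yL wA = apL omL wA ∧ True :=
    ⟨trivial, trivial, base_facts.2.2.2.1, base_facts.2.2.2.2.1, trivial⟩
  have hx := allB_spec_zero commuteX_ok (by norm_num : 4096 ≤ 2 ^ 12) (enc_lt (g (vecN vA)))
  rw [gramOK_of hg rep_aP.1 rep_aP.1 h vA_lt 5, Bool.not_true, Bool.false_or] at hx
  obtain ⟨i, hi, hx⟩ := List.any_eq_true.1 hx
  obtain ⟨j, hj, hx⟩ := List.any_eq_true.1 hx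
  rw [List.mem_range] at hi hj
  have hxe : g (vecN vA) = vecN (xA i j) := by rw [← Nat.eq_of_beq_eq_true hx, vecN_enc]
  have hy := allB_spec_zero commuteY_ok (by norm_num : 4096 ≤ 2 ^ 12) (enc_lt (g (vecN wA)))
  have hfix : apL aL (enc (g (vecN wA))) = enc (g (vecN wA)) := by
    rw [← rep_aP.1 (g (vecN wA))]
    refine congrArg enc ?_
    rw [← Equiv.Perm.mul_apply, ← h, Equiv.Perm.mul_apply, aP_wA]
  rw [hfix, Nat.beq_refl, Bool.true_and,
    gramOK_of hg Rep.one Rep.one (by rw [one_mul, mul_one]) wA_lt 1, Bool.not_true, Bool.false_or] at hy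
  obtain ⟨l', hl', hy⟩ := List.any_eq_true.1 hy
  rw [List.mem_range] at hl'
  have hye : g (vecN wA) = vecN (yA l') := by rw [← Nat.eq_of_beq_eq_true hy, vecN_enc]
  refine ⟨i, hi, j, hj, (l' + 2 * j) % 3, Nat.mod_lt _ (by norm_num), ?_⟩
  set l := (l' + 2 * j) % 3 with hl
  set e := aP ^ i * omP ^ j * yP ^ l with he
  have hes : IsSemi false e :=
    mem_linU.1 (mul_mem (mul_mem (pow_mem (mem_linU.2 semi_facts.2.1) _)
      (pow_mem (mem_linU.2 semi_facts.1) _)) (pow_mem (mem_linU.2 semi_facts.2.2.2.2.1) _))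
  have hec : Commute e aP :=
    (((Commute.refl aP).pow_left i).mul_left ((scalar_comm semi_facts.2.1).symm.pow_left j)).mul_left
      (yP_comm.1.symm.pow_left l)
  have hyv0 : ∀ n : ℕ, (yP ^ n) (vecN vA) = vecN vA := by
    intro n
    induction n with
    | zero => rfl
    | succ n ih => rw [pow_succ, Equiv.Perm.mul_apply, rep_vec rep_yP.1 vA_lt, hyv, ih]
  have hyv' : (yP ^ l) (vecN vA) = vecN vA := hyv0 l
  have hev : e (vecN vA) = g (vecN vA) := by
    rw [hxe, he, Equiv.Perm.mul_apply, hyv',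
      rep_vec ((rep_pow rep_aP.1 i).mul (rep_pow rep_omP j)) vA_lt, xA]
  have hyP : yP (vecN wA) = omP (vecN wA) := by
    rw [rep_vec rep_yP.1 wA_lt, hyw, rep_vec rep_omP wA_lt]
  have hyw0 : ∀ n : ℕ, (yP ^ n) (vecN wA) = (omP ^ n) (vecN wA) := by
    intro n
    induction n with
    | zero => rfl
    | succ n ih =>
      rw [pow_succ, Equiv.Perm.mul_apply, hyP]
      have hc : Commute omP (yP ^ n) :=
        (scalar_comm semi_facts.2.2.2.2.1).symm.pow_right n
      rw [← Equiv.Perm.mul_apply (yP ^ n), ← hc.eq, Equiv.Perm.mul_apply, ih, pow_succ',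
        Equiv.Perm.mul_apply]
  have hyw' : (yP ^ l) (vecN wA) = (omP ^ l) (vecN wA) := hyw0 l
  have hew : e (vecN wA) = g (vecN wA) := by
    rw [hye, he, Equiv.Perm.mul_apply, hyw', ← Equiv.Perm.mul_apply, mul_assoc, ← pow_add,
      pow_eq_pow_mod (j + l) omP_pow_three, show (j + l) % 3 = l' by omega,
      Equiv.Perm.mul_apply, rep_vec (rep_pow rep_omP l') wA_lt]
    have hfix2 : ∀ m : ℕ, (omP ^ m) (vecN wA) = vecN (apL (pwL omL m) wA) → aP ((omP ^ m) (vecN wA)) =
        (omP ^ m) (vecN wA) := fun m _ => by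
      rw [← Equiv.Perm.mul_apply, ((scalar_comm semi_facts.2.1).pow_right m).eq, Equiv.Perm.mul_apply,
        aP_wA]
    have hpow : ∀ k : ℕ, (aP ^ k) (vecN (yA l')) = vecN (yA l') := by
      intro k
      induction k with
      | zero => rfl
      | succ k ih =>
        rw [pow_succ, Equiv.Perm.mul_apply, yA, ← rep_vec (rep_pow rep_omP l') wA_lt,
          hfix2 l' (rep_vec (rep_pow rep_omP l') wA_lt)]
        rw [yA, ← rep_vec (rep_pow rep_omP l') wA_lt] at ih
        exact ih
    exact hpow i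
  refine eq_of_span hg hes maskA_ok.1 maskA_ok.2 fun x hx => ?_
  rcases List.mem_append.1 hx with hx | hx
  · obtain ⟨k, -, rfl⟩ := List.mem_map.1 hx
    rw [← rep_vec (rep_pow rep_aP.1 k) vA_lt, ← Equiv.Perm.mul_apply, ← Equiv.Perm.mul_apply,
      comm_power h k, ((hec.pow_right k)).eq, Equiv.Perm.mul_apply, Equiv.Perm.mul_apply, hev]
  · rw [List.mem_singleton] at hx
    rw [hx, hew]

/-- No linear isometry inverts the element of order 11. -/
theorem not_invert_aP {g : Equiv.Perm Vec} (hg : IsSemi false g) (h : g * aP = aP⁻¹ * g) : False := by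
  have hx := allB_spec_zero invertX_ok (by norm_num : 4096 ≤ 2 ^ 12) (enc_lt (g (vecN vA)))
  rw [gramOK_of hg rep_aP.1 rep_aP.2 h vA_lt 5] at hx
  exact Bool.false_ne_true hx

/-! ### The element of order 5 -/

/-- The base through the element of order 5. -/
noncomputable def baseC : List ℕ := ((List.range 4).map fun i => apL (pwL bL i) vC) ++ [fOne, fTwo]

/-- The square of the list of the element of order 5. -/
noncomputable def b2L : List ℕ := comp bL bL

/-- The relation satisfied by the cyclic vector. -/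
noncomputable def sumFive (g : List ℕ) (x : ℕ) : ℕ :=
  x ^^^ apL (pwL g 1) x ^^^ apL (pwL g 2) x ^^^ apL (pwL g 3) x ^^^ apL (pwL g 4) x

theorem cBase_facts : Nat.blt vC 4096 = true ∧ Nat.blt fOne 4096 = true ∧ Nat.blt fTwo 4096 = true ∧
    apL bL fOne = fOne ∧ apL bL fTwo = fTwo ∧ sumFive bL vC = 0 ∧
    hs (vecN fOne) (vecN fTwo) = 0 := by
  refine ⟨?_, ?_, ?_, ?_, ?_, ?_, ?_⟩ <;> decide +kernel

theorem maskC_ok : ((List.range 12).all fun j => Nat.beq
    (comboL (baseC ++ baseC.map (apL omL)) (maskC.getD j 0)) (idL.getD j 0)) = true ∧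
    (baseC.all fun x => Nat.blt x 4096) = true := by decide +kernel

theorem cX_ok : allB (fun x => !(gramOK bL b2L vC 4 x && Nat.beq (sumFive b2L x) 0) ||
    xCands.any (Nat.beq x)) 12 0 = true := by decide +kernel

theorem cY_ok : allB (fun y => !(Nat.beq (apL b2L y) y && gramOK idL idL fOne 1 y) ||
    yCands.any (Nat.beq y)) 12 0 = true ∧
    allB (fun y => !(gramOK idL idL fTwo 1 y) || gramOK idL idL fOne 1 y) 12 0 = true := by
  decide +kernel

/-- The table lists a map for each triple of images. -/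
noncomputable def tableOK : Bool :=
  (xCands.all fun x => yCands.all fun p => yCands.all fun q =>
    !(decide (hs (vecN p) (vecN q) = 0)) ||
      cTab.any fun t => Nat.beq t.1 x && Nat.beq t.2.1 p && Nat.beq t.2.2.1 q) &&
    cTab.all fun t =>
      (comp t.2.2.2 omL == comp omL t.2.2.2) &&
      ((List.range 4).all fun i => Nat.beq (apL t.2.2.2 (apL (pwL bL i) vC)) (apL (pwL b2L i) t.1)) &&
      Nat.beq (apL t.2.2.2 fOne) t.2.1 && Nat.beq (apL t.2.2.2 fTwo) t.2.2.1 &&
      (comp t.2.2.2 idL == t.2.2.2)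

theorem tableOK_true : tableOK = true := by decide +kernel

theorem comboL_map {g : List ℕ} (l : List ℕ) : ∀ m, apL g (comboL l m) = comboL (l.map (apL g)) m := by
  induction l with
  | nil => intro m; rw [comboL, apL_zero]; rfl
  | cons a l ih =>
    intro m
    rw [List.map_cons, comboL, comboL, apL_xor, ih]
    cases Nat.beq (Nat.mod m 2) 1 <;> simp [apL_zero]

/-- A linear isometry with the given images is the listed map. -/
theorem rep_of_images {g : Equiv.Perm Vec} (hg : IsSemi false g) {e : List ℕ}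
    (he : comp e omL = comp omL e) (hn : comp e idL = e) {base masks : List ℕ}
    (hm : ((List.range 12).all fun j => Nat.beq
      (comboL (base ++ base.map (apL omL)) (masks.getD j 0)) (idL.getD j 0)) = true)
    (hlt : (base.all fun x => Nat.blt x 4096) = true)
    (hb : ∀ x ∈ base, enc (g (vecN x)) = apL e x) : Rep e g := by
  have hl : ∀ x ∈ base ++ base.map (apL omL), enc (g (vecN x)) = apL e x := by
    intro x hx
    rcases List.mem_append.1 hx with hx | hx
    · exact hb x hx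
    · obtain ⟨y, hy, rfl⟩ := List.mem_map.1 hx
      rw [← rep_vec rep_omP (Nat.blt_eq.mp (List.all_eq_true.1 hlt y hy)), ← Equiv.Perm.mul_apply,
        (scalar_comm hg).eq, Equiv.Perm.mul_apply, rep_omP, hb y hy, ← apL_comp, ← he, apL_comp]
  have h0 : enc (g (vecN 0)) = 0 := by
    rw [show vecN 0 = 0 by decide, show g 0 = 0 by simpa using hg.1 0 0]
    decide
  have hc : ∀ l : List ℕ, (∀ x ∈ l, enc (g (vecN x)) = apL e x) → ∀ m,
      enc (g (vecN (comboL l m))) = apL e (comboL l m) := by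
    intro l
    induction l with
    | nil => intro _ m; rw [comboL, h0, apL_zero]
    | cons a l ih =>
      intro hl m
      rw [comboL, vecN_xor, hg.1, enc_add, ih (fun x hx => hl x (List.mem_cons_of_mem _ hx)), apL_xor]
      congr 1
      cases Nat.beq (Nat.mod m 2) 1
      · rw [cond_false, h0, apL_zero]
      · exact hl a List.mem_cons_self
  refine rep_of_basis hg.1 (f := g) (fun _ => rfl) (List.all_eq_true.2 fun x hx => ?_)
  obtain ⟨j, hj, rfl⟩ := List.getElem_of_mem hx
  have hj' : j < 12 := hj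
  have h1 := Nat.eq_of_beq_eq_true (List.all_eq_true.1 hm j (List.mem_range.2 hj'))
  rw [List.getD_eq_getElem idL 0 hj] at h1
  rw [← h1, hc _ hl _, Nat.beq_refl]

/-- The linear isometries conjugating the element of order 5 to its square. -/
theorem normal_bP {g : Equiv.Perm Vec} (hg : IsSemi false g) (h : g * bP = bP ^ 2 * g) :
    ∃ t ∈ cTab, Rep t.2.2.2 g := by
  obtain ⟨hv, h1, h2, hb1, hb2, hsum, hperp⟩ := cBase_facts
  rw [Nat.blt_eq] at hv h1 h2
  have hb2' : Rep b2L (bP ^ 2) := by rw [pow_two]; exact rep_bP.1.mul rep_bP.1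
  have hxs : ∀ i, g ((bP ^ i) (vecN vC)) = ((bP ^ 2) ^ i) (g (vecN vC)) := fun i =>
    Equiv.Perm.ext_iff.1 (comm_power h i) (vecN vC)
  have hx := allB_spec_zero cX_ok (by norm_num : 4096 ≤ 2 ^ 12) (enc_lt (g (vecN vC)))
  have hsum2 : sumFive b2L (enc (g (vecN vC))) = 0 := by
    have e : ∀ i, apL (pwL b2L i) (enc (g (vecN vC))) = enc (g (vecN (apL (pwL bL i) vC))) := fun i => by
      rw [← rep_vec (rep_pow rep_bP.1 i) hv, hxs, rep_pow hb2' i]
    have e2 := congrArg (fun n => enc (g (vecN n))) hsum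
    simp only [sumFive, vecN_xor, hg.1, enc_add] at e2
    rw [sumFive, e, e, e, e, e2, show vecN 0 = 0 by decide, show g 0 = 0 by simpa using hg.1 0 0]
    decide
  rw [gramOK_of hg rep_bP.1 hb2' h hv 4, hsum2, Nat.beq_refl, Bool.and_true, Bool.not_true,
    Bool.false_or] at hx
  obtain ⟨x, hxm, hxe⟩ := List.any_eq_true.1 hx
  have hfix : ∀ f < 4096, apL bL f = f → apL b2L (enc (g (vecN f))) = enc (g (vecN f)) := by
    intro f hf hbf
    rw [← hb2']
    refine congrArg enc ?_
    rw [← Equiv.Perm.mul_apply, ← h, Equiv.Perm.mul_apply, rep_vec rep_bP.1 hf, hbf]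
  have hy1 := allB_spec_zero cY_ok.1 (by norm_num : 4096 ≤ 2 ^ 12) (enc_lt (g (vecN fOne)))
  rw [hfix _ h1 hb1, Nat.beq_refl, Bool.true_and,
    gramOK_of hg Rep.one Rep.one (by rw [one_mul, mul_one]) h1 1, Bool.not_true, Bool.false_or] at hy1
  have hy2' := allB_spec_zero cY_ok.2 (by norm_num : 4096 ≤ 2 ^ 12) (enc_lt (g (vecN fTwo)))
  rw [gramOK_of hg Rep.one Rep.one (by rw [one_mul, mul_one]) h2 1, Bool.not_true, Bool.false_or] at hy2'
  have hy2 := allB_spec_zero cY_ok.1 (by norm_num : 4096 ≤ 2 ^ 12) (enc_lt (g (vecN fTwo)))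
  rw [hfix _ h2 hb2, Nat.beq_refl, Bool.true_and, hy2', Bool.not_true, Bool.false_or] at hy2
  obtain ⟨p, hpm, hpe⟩ := List.any_eq_true.1 hy1
  obtain ⟨q, hqm, hqe⟩ := List.any_eq_true.1 hy2
  have ht := tableOK_true
  rw [tableOK, Bool.and_eq_true] at ht
  have hxyz := List.all_eq_true.1 (List.all_eq_true.1 (List.all_eq_true.1 ht.1 x hxm) p hpm) q hqm
  have hpq : hs (vecN p) (vecN q) = 0 := by
    rw [← Nat.eq_of_beq_eq_true hpe, ← Nat.eq_of_beq_eq_true hqe, vecN_enc, vecN_enc, hs_eq,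
      isom hg, ← hs_eq, hperp]
  rw [decide_eq_true hpq, Bool.not_true, Bool.false_or] at hxyz
  obtain ⟨t, htm, hte⟩ := List.any_eq_true.1 hxyz
  simp only [Bool.and_eq_true] at hte
  have htc := List.all_eq_true.1 ht.2 t htm
  simp only [Bool.and_eq_true, beq_iff_eq, List.all_eq_true] at htc
  obtain ⟨⟨⟨⟨hom, hit⟩, ht1⟩, ht2⟩, hn⟩ := htc
  refine ⟨t, htm, rep_of_images hg hom hn maskC_ok.1 maskC_ok.2 fun z hz => ?_⟩
  rcases List.mem_append.1 hz with hz | hz
  · obtain ⟨i, hi, rfl⟩ := List.mem_map.1 hz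
    rw [Nat.eq_of_beq_eq_true (hit i hi), ← rep_vec (rep_pow rep_bP.1 i) hv, hxs, rep_pow hb2' i,
      Nat.eq_of_beq_eq_true hte.1.1, ← Nat.eq_of_beq_eq_true hxe]
  · simp only [List.mem_cons, List.not_mem_nil, or_false] at hz
    rcases hz with rfl | rfl
    · rw [Nat.eq_of_beq_eq_true ht1, Nat.eq_of_beq_eq_true hte.1.2, ← Nat.eq_of_beq_eq_true hpe]
    · rw [Nat.eq_of_beq_eq_true ht2, Nat.eq_of_beq_eq_true hte.2, ← Nat.eq_of_beq_eq_true hqe]

end Cfsg.Agent.JFourType
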