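import Cfsg.Agent.JFourType.Outer
import Cfsg.Agent.Golay.MathieuSimple

/-!
An extension of `M22` by scalars inside the linear isometries is conjugate to the concrete cover.
-/

set_option autoImplicit false
set_option maxRecDepth 100000

namespace Cfsg.Agent.JFourType

open Cfsg
open Cfsg.Agent.Golay (permFun PreservesRows mem_M24_of_preservesRows mem_M22_iff ptOf ptIdx)
open Cfsg.Agent.SporB.FischerU (Vec)
open Cfsg.Agent.LargeFischer (IsSemi semiU)
open Data

/-- The permutation of a pair of tables. -/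
noncomputable def pointPerm (t t' : List ℕ)
    (h : ∀ p, permFun t' (permFun t p) = p ∧ permFun t (permFun t' p) = p) : Equiv.Perm GolayPt :=
  ⟨permFun t, permFun t', fun p => (h p).1, fun p => (h p).2⟩

theorem aM_inv : ∀ p, permFun aMInv (permFun aM p) = p ∧ permFun aM (permFun aMInv p) = p := by
  decide +kernel
theorem bM_inv : ∀ p, permFun bMInv (permFun bM p) = p ∧ permFun bM (permFun bMInv p) = p := by
  decide +kernel
theorem cM_inv : ∀ p, permFun cMInv (permFun cM p) = p ∧ permFun cM (permFun cMInv p) = p := by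
  decide +kernel

/-- The element of order 11 of `M22`. -/
noncomputable def aPt : Equiv.Perm GolayPt := pointPerm aM aMInv aM_inv
/-- The element of order 5 of `M22`. -/
noncomputable def bPt : Equiv.Perm GolayPt := pointPerm bM bMInv bM_inv
/-- The element of order 4 of `M22`. -/
noncomputable def cPt : Equiv.Perm GolayPt := pointPerm cM cMInv cM_inv

theorem pts_mem : aPt ∈ Spor.M22 ∧ bPt ∈ Spor.M22 ∧ cPt ∈ Spor.M22 := by
  have h : ∀ t ∈ [aM, bM, cM], PreservesRows (permFun t) ∧ permFun t none = none ∧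
      permFun t (some 0) = some 0 := by decide +kernel
  refine ⟨mem_M22_iff.2 ⟨mem_M24_of_preservesRows (h aM (by simp)).1, (h aM (by simp)).2⟩,
    mem_M22_iff.2 ⟨mem_M24_of_preservesRows (h bM (by simp)).1, (h bM (by simp)).2⟩,
    mem_M22_iff.2 ⟨mem_M24_of_preservesRows (h cM (by simp)).1, (h cM (by simp)).2⟩⟩

theorem pts_rel : aPt ^ 11 = 1 ∧ bPt ^ 5 = 1 ∧ cPt ^ 4 = 1 ∧ (cPt * aPt) ^ 6 = 1 ∧
    bPt * aPt = aPt ^ 3 * bPt ∧ cPt * bPt = bPt ^ 2 * cPt ∧ aPt ≠ 1 := by
  have hp : ∀ (f : GolayPt → GolayPt) (σ : Equiv.Perm GolayPt), ⇑σ = f → ∀ n, ⇑(σ ^ n) = f^[n] := by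
    intro f σ h n
    rw [Equiv.Perm.coe_pow, h]
  have h : ∀ p, (permFun aM)^[11] p = p ∧ (permFun bM)^[5] p = p ∧ (permFun cM)^[4] p = p ∧
      (permFun cM ∘ permFun aM)^[6] p = p ∧
      permFun bM (permFun aM p) = (permFun aM)^[3] (permFun bM p) ∧
      permFun cM (permFun bM p) = (permFun bM)^[2] (permFun cM p) := by decide +kernel
  refine ⟨?_, ?_, ?_, ?_, ?_, ?_, ?_⟩
  · exact Equiv.ext fun p => by rw [hp _ aPt rfl]; exact (h p).1
  · exact Equiv.ext fun p => by rw [hp _ bPt rfl]; exact (h p).2.1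
  · exact Equiv.ext fun p => by rw [hp _ cPt rfl]; exact (h p).2.2.1
  · exact Equiv.ext fun p => by rw [hp _ (cPt * aPt) rfl]; exact (h p).2.2.2.1
  · exact Equiv.ext fun p => by
      rw [Equiv.Perm.mul_apply, Equiv.Perm.mul_apply, hp _ aPt rfl]; exact (h p).2.2.2.2.1
  · exact Equiv.ext fun p => by
      rw [Equiv.Perm.mul_apply, Equiv.Perm.mul_apply, hp _ bPt rfl]; exact (h p).2.2.2.2.2
  · intro e
    have hne : ∃ p, permFun aM p ≠ p := by decide +kernel
    obtain ⟨p, hp'⟩ := hne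
    exact hp' (Equiv.Perm.ext_iff.1 e p)

variable {H : Type*} [Group H] (rho : H →* Equiv.Perm Vec) (M : Subgroup H) (q : H →* MulAut Spor.M22)

/-- The image of the lifts is conjugate to the concrete cover. -/
theorem exists_conjugate (hlin : ∀ m ∈ M, IsSemi false (rho m))
    (hlift : ∀ x : Spor.M22, ∃ m ∈ M, q m = MulAut.conj x)
    (hscal : ∀ m ∈ M, q m = 1 → rho m ∈ scal) (hker : ∀ h, rho h = 1 → q h = 1)
    (hcard : Nat.card (M.map rho) = 1330560) :
    ∃ g ∈ semiU, (M.map rho).map (MulAut.conj g).toMonoidHom = K22 := by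
  obtain ⟨ma0, ma1, ea⟩ := hlift ⟨aPt, pts_mem.1⟩
  obtain ⟨mb0, mb1, eb⟩ := hlift ⟨bPt, pts_mem.2.1⟩
  obtain ⟨mc0, mc1, ec⟩ := hlift ⟨cPt, pts_mem.2.2⟩
  obtain ⟨r11, r5, r4, r6, rba, rcb, rne⟩ := pts_rel
  set a := ma0 ^ 12 with hadef
  set b := mb0 ^ 6 with hbdef
  set c := mc0 ^ 9 with hcdef
  set x : Spor.M22 := ⟨aPt, pts_mem.1⟩
  set y : Spor.M22 := ⟨bPt, pts_mem.2.1⟩
  set w : Spor.M22 := ⟨cPt, pts_mem.2.2⟩
  have x11 : x ^ 11 = 1 := Subtype.ext r11
  have y5 : y ^ 5 = 1 := Subtype.ext r5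
  have w4' : w ^ 4 = 1 := Subtype.ext r4
  have qa : q a = MulAut.conj x := by
    rw [hadef, map_pow, ea, ← map_pow, pow_succ, x11, one_mul]
  have qb : q b = MulAut.conj y := by
    rw [hbdef, map_pow, eb, ← map_pow, pow_succ, y5, one_mul]
  have qc : q c = MulAut.conj w := by
    rw [hcdef, map_pow, ec, ← map_pow, pow_succ, show (8 : ℕ) = 4 * 2 by norm_num, pow_mul, w4',
      one_pow, one_mul]
  have ha : a ∈ M := pow_mem ma1 _
  have hb : b ∈ M := pow_mem mb1 _
  have hc : c ∈ M := pow_mem mc1 _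
  have fixed : ∀ (m : H), m ∈ M → ∀ n k : ℕ, q (m ^ n) = 1 → 3 ∣ k → rho (m ^ k) ^ n = 1 := by
    rintro m hm n k hq ⟨k', rfl⟩
    rw [← map_pow, ← pow_mul, mul_comm (3 * k') n, pow_mul, map_pow, pow_mul,
      scal_pow_three (hscal _ (pow_mem hm n) hq), one_pow]
  have qn : ∀ (m : H) (v : Spor.M22) (n : ℕ), q m = MulAut.conj v → v ^ n = 1 → q (m ^ n) = 1 :=
    fun m v n h1 h2 => by rw [map_pow, h1, ← map_pow, h2, map_one]
  have A11 : rho a ^ 11 = 1 := fixed ma0 ma1 11 12 (qn _ _ _ ea x11) (by norm_num)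
  have B5 : rho b ^ 5 = 1 := fixed mb0 mb1 5 6 (qn _ _ _ eb y5) (by norm_num)
  have C4 : rho c ^ 4 = 1 := fixed mc0 mc1 4 9 (qn _ _ _ ec w4') (by norm_num)
  clear_value a b c
  have rel : ∀ u ∈ M, ∀ v ∈ M, q u = q v → ∃ s ∈ scal, rho u = rho v * s := by
    intro u hu v hv he
    refine ⟨rho (v⁻¹ * u), hscal _ (mul_mem (inv_mem hv) hu) (by rw [map_mul, map_inv, he, inv_mul_cancel]), ?_⟩
    rw [← map_mul, mul_inv_cancel_left]
  have exact_rel : ∀ u v t : H, u ∈ M → v ∈ M → t ∈ M → ∀ n : ℕ, n % 3 ≠ 0 → rho v ^ n = 1 →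
      rho t ^ n = 1 → q (u * v) = q (t * u) → rho u * rho v = rho t * rho u := by
    intro u v t hu hv ht n hn hv' ht' he
    obtain ⟨s, hs, hse⟩ := rel _ (mul_mem hu hv) _ (mul_mem ht hu) he
    rw [map_mul, map_mul] at hse
    have hcs : Commute (rho u) s := scal_commute hs (hlin u hu)
    have h1 : rho u * rho v * (rho u)⁻¹ = rho t * s := by
      rw [hse, mul_assoc (rho t), hcs.eq, ← mul_assoc, mul_inv_cancel_right]
    have h2 : s ^ n = 1 := by
      have h := congrArg (· ^ n) h1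
      simp only [conj_pow, hv', mul_one, mul_inv_cancel] at h
      rwa [(scal_commute hs (hlin t ht)).mul_pow, ht', one_mul, eq_comm] at h
    have hs1 : s = 1 := by
      rw [pow_eq_pow_mod n (scal_pow_three hs)] at h2
      rcases (by omega : n % 3 = 1 ∨ n % 3 = 2) with e | e <;> rw [e] at h2
      · rwa [pow_one] at h2
      · calc s = s ^ 3 * (s ^ 2)⁻¹ := by group
          _ = 1 := by rw [scal_pow_three hs, h2, inv_one, one_mul]
    rw [hse, hs1, mul_one]
  have rba' : rho b * rho a = rho a ^ 3 * rho b := by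
    rw [← map_pow]
    refine exact_rel b a (a ^ 3) hb ha (pow_mem ha 3) 11 (by norm_num) A11
      (by rw [map_pow, ← pow_mul, mul_comm, pow_mul, A11, one_pow]) ?_
    rw [map_mul, map_mul, map_pow, qa, qb, ← map_pow, ← map_mul, ← map_mul]
    exact congrArg _ (Subtype.ext rba)
  have rcb' : rho c * rho b = rho b ^ 2 * rho c := by
    rw [← map_pow]
    refine exact_rel c b (b ^ 2) hc hb (pow_mem hb 2) 5 (by norm_num) B5
      (by rw [map_pow, ← pow_mul, mul_comm, pow_mul, B5, one_pow]) ?_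
    rw [map_mul, map_mul, map_pow, qc, qb, ← map_pow, ← map_mul, ← map_mul]
    exact congrArg _ (Subtype.ext rcb)
  have rw6 : (rho c * rho a) ^ 6 ∈ scal := by
    rw [← map_mul, ← map_pow]
    refine hscal _ (pow_mem (mul_mem hc ha) 6) ?_
    rw [map_pow, map_mul, qa, qc, ← map_mul, ← map_pow]
    rw [show (w * x) ^ 6 = 1 from Subtype.ext r6, map_one]
  have Ane : rho a ≠ 1 := by
    intro e
    have h1 := hker a e
    rw [qa] at h1
    have hy : y * x = x * y := by
      have h2 := DFunLike.congr_fun h1 y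
      rw [MulAut.conj_apply, MulAut.one_apply, mul_inv_eq_iff_eq_mul] at h2
      exact h2.symm
    have h3 := congrArg Subtype.val hy
    have h4 : aPt ^ 3 * bPt = aPt * bPt := rba ▸ h3
    have h5 : aPt ^ 2 = 1 := by
      have := mul_right_cancel h4
      rw [pow_succ] at this
      exact mul_eq_right.1 this
    refine rne ?_
    calc aPt = aPt ^ 11 * ((aPt ^ 2) ^ 5)⁻¹ := by group
      _ = 1 := by rw [r11, h5, one_pow, inv_one, one_mul]
  obtain ⟨g, hg, ga, gb, gc⟩ := classify (hlin a ha) (hlin b hb) (hlin c hc) A11 Ane B5 C4 rba' rcb' rw6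
  refine ⟨g, hg, (Subgroup.eq_of_le_of_card_ge ?_ ?_).symm⟩
  · rw [K22, Subgroup.closure_le]
    rintro x (rfl | rfl | rfl)
    · exact ⟨rho a, ⟨a, ha, rfl⟩, ga⟩
    · exact ⟨rho b, ⟨b, hb, rfl⟩, gb⟩
    · exact ⟨rho c, ⟨c, hc, rfl⟩, gc⟩
  · rw [Subgroup.card_map_of_injective (MulAut.conj g).injective, hcard]
    exact card_K22_ge

end Cfsg.Agent.JFourType
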