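import Cfsg.Agent.JFourType.Frame
import Cfsg.Agent.JFourType.Lifts
import Cfsg.Agent.JFourType.ThompsonModel

/-!
In a group of Janko-four type a Sylow 2-subgroup has exactly one elementary abelian subgroup of
order `2^11`.
-/

set_option autoImplicit false

namespace Cfsg.Agent.JFourType

open Cfsg
open Cfsg.Agent.GFour25
open Cfsg.Agent.SporB.FischerU (Vec)
open Cfsg.Agent.LargeFischer (IsSemi semiU twist)
open Cfsg.Agent.LargeFischer.Thompson (Ext Model)
open Cfsg.Agent.TTClass

/-- A frame moved by a semilinear isometry. -/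
theorem ext_conj {H : Type*} [Group H] {Q : Subgroup H} [Q.Normal] {z : H} {rho : H →* Equiv.Perm Vec}
    {psi : Q → Vec} (D : Ext Q z rho psi) {g : Equiv.Perm Vec} (hg : g ∈ semiU) :
    Ext Q z ((MulAut.conj g).toMonoidHom.comp rho) fun a => g (psi a) := by
  obtain ⟨b, hb⟩ := hg
  have h0 : g 0 = 0 := by simpa using hb.1 0 0
  refine ⟨D.z_mem, D.z_central, D.z_sq, D.z_ne, ?_, fun u v => by rw [D.psi_mul, hb.1],
    g.surjective.comp D.psi_surj, fun u => ?_, fun u => ?_, fun h u => ?_, D.abelian_le⟩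
  · rw [MonoidHom.ker_comp_of_injective]
    · exact D.ker_rho
    · exact (MulAut.conj g).injective
  · rw [← D.psi_ker]
    exact ⟨fun e => g.injective (e.trans h0.symm), fun e => by rw [e, h0]⟩
  · rw [hb.2.2]
    exact D.psi_norm u
  · show g (psi _) = g (rho h (g⁻¹ (g (psi u))))
    rw [D.psi_conj]
    simp

/-- The centraliser of the involution: a model, and the 2-part of its order. -/
theorem exists_ext_model {G : Type*} [Group G] [Finite G] {z : G} {P : Subgroup G}
    (hJ : IsOfJankoFourTypeWith z P) :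
    ∃ (rho : Subgroup.centralizer ({z} : Set G) →* Equiv.Perm Vec)
      (psi : pCore 2 (Subgroup.centralizer ({z} : Set G)) → Vec),
      Ext (pCore 2 (Subgroup.centralizer ({z} : Set G)))
        ⟨z, Subgroup.mem_centralizer_singleton_iff.2 rfl⟩ rho psi ∧
      Nonempty (Model rho.range) ∧ (Nat.card rho.range).factorization 2 = 8 := by
  obtain ⟨rho, psi, M, q, D, -, hlin, -, hconjM, ⟨h0, hh0, hs0⟩, hlift, hscal, hker, hcM, hcR⟩ :=
    exists_frame hJ
  obtain ⟨g, hg, hgK⟩ := exists_conjugate rho M q hlin hlift hscal hker hcM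
  refine ⟨_, _, ext_conj D hg, ?_, ?_⟩
  · set R := ((MulAut.conj g).toMonoidHom.comp rho).range with hR
    have hKR : K22 ≤ R := by
      rw [← hgK, hR, MonoidHom.range_comp]
      exact Subgroup.map_mono (Subgroup.map_le_range _ _)
    have hcK : Nat.card K22 = 1330560 := by
      rw [← hgK, Subgroup.card_map_of_injective (MulAut.conj g).injective, hcM]
    obtain ⟨b, hb⟩ := hg
    have hsemi : IsSemi true (g * rho h0 * g⁻¹) := by
      have h := (hb.mul hs0).mul hb.inv
      rwa [show ∀ b, xor (xor b true) b = true by decide] at h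
    have hgP := gP_mem hKR hcK (s := g * rho h0 * g⁻¹) ⟨h0, rfl⟩ hsemi (fun k hk => by
      rw [← hgK] at hk ⊢
      obtain ⟨_, ⟨m, hm, rfl⟩, rfl⟩ := hk
      refine ⟨rho (h0 * m * h0⁻¹), ⟨_, hconjM m hm h0, rfl⟩, ?_⟩
      simp [mul_assoc])
    exact ⟨model ⟨hKR⟩ candJ candJ_ok gP rep_gP.1 hgP⟩
  · rw [MonoidHom.range_comp, Subgroup.card_map_of_injective (MulAut.conj g).injective, hcR,
      show (2661120 : ℕ) = 2 ^ 8 * 10395 by norm_num,
      Nat.factorization_mul (by norm_num) (by norm_num), Finsupp.add_apply, Nat.factorization_pow,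
      Finsupp.smul_apply, Nat.Prime.factorization_self Nat.prime_two,
      Nat.factorization_eq_zero_of_not_dvd (show ¬ 2 ∣ 10395 by norm_num)]
    norm_num

/-- The statement. -/
theorem sylow_unique {G : Type*} [Group G] [Finite G] (hJ : IsOfJankoFourType G) (T : Sylow 2 G) :
    ∃! V : Subgroup G, V ≤ (T : Subgroup G) ∧ IsElementaryAbelian 2 V ∧ Nat.card ↥V = 2 ^ 11 := by
  classical
  haveI : Fact (Nat.Prime 2) := ⟨Nat.prime_two⟩
  obtain ⟨z, P, hP⟩ := hJ
  obtain ⟨rho, psi, D, ⟨Mo⟩, hfac⟩ := exists_ext_model hP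
  obtain ⟨S⟩ : Nonempty (Sylow 2 (Subgroup.centralizer ({z} : Set G))) := inferInstance
  obtain ⟨K, hKS, hKel, hKc, -, -, hmax⟩ := D.unique_max Mo hfac S
  have hQS : pCore 2 (Subgroup.centralizer ({z} : Set G)) ≤ (S : Subgroup (Subgroup.centralizer ({z} : Set G))) := by
    have hp : IsPGroup 2 (pCore 2 (Subgroup.centralizer ({z} : Set G))) := IsPGroup.of_card (n := 13) (by rw [D.card_q]; norm_num)
    have hsup : IsPGroup 2 ↥((S : Subgroup (Subgroup.centralizer ({z} : Set G))) ⊔ pCore 2 (Subgroup.centralizer ({z} : Set G))) :=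
      S.2.to_sup_of_normal_right hp
    exact le_sup_right.trans (S.3 hsup le_sup_left).le
  set Sg := (S : Subgroup (Subgroup.centralizer ({z} : Set G))).map (Subgroup.centralizer ({z} : Set G)).subtype with hSg
  have hzpow : ∀ x ∈ Sg, (∀ y ∈ Sg, y * x = x * y) → x = 1 ∨ x = z := by
    rintro _ ⟨x, hx, rfl⟩ hc
    have hcent : ∀ e ∈ pCore 2 (Subgroup.centralizer ({z} : Set G)), e * x = x * e := fun e he =>
      Subtype.ext (hc _ ⟨e, hQS he, rfl⟩)
    have hxQ : x ∈ pCore 2 (Subgroup.centralizer ({z} : Set G)) := by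
      refine D.mem_q (Equiv.ext fun v => ?_)
      obtain ⟨e, rfl⟩ := D.psi_surj v
      rw [← D.psi_conj, Equiv.Perm.one_apply]
      congr 1
      exact Subtype.ext (mul_inv_eq_iff_eq_mul.2 (hcent _ e.2).symm)
    have h1 : psi ⟨x, hxQ⟩ = 0 := by
      by_contra hne
      obtain ⟨hz, hEx, -⟩ := hP
      have hc' : (⟨x, hxQ⟩ : pCore 2 (Subgroup.centralizer ({z} : Set G))) ∈ Subgroup.center (pCore 2 (Subgroup.centralizer ({z} : Set G))) :=
        Subgroup.mem_center_iff.2 fun e => Subtype.ext (hcent _ e.2)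
      have hE : IsExtraspecial 2 (pCore 2 (Subgroup.centralizer ({z} : Set G))) :=
        LargeExtra.isExtraspecial_map_equiv hEx
          ((pCore 2 (Subgroup.centralizer ({z} : Set G))).equivMapOfInjective _ (Subgroup.centralizer ({z} : Set G)).subtype_injective).symm
      haveI : Fintype (Subgroup.center (pCore 2 (Subgroup.centralizer ({z} : Set G)))) := Fintype.ofFinite _
      have hz' : (⟨⟨z, Subgroup.mem_centralizer_singleton_iff.2 rfl⟩, D.z_mem⟩ : pCore 2 (Subgroup.centralizer ({z} : Set G))) ∈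
          Subgroup.center (pCore 2 (Subgroup.centralizer ({z} : Set G))) :=
        Subgroup.mem_center_iff.2 fun e => Subtype.ext (D.z_central _)
      have h2 := hE.2
      have hsub : Nat.card ({1, ⟨_, hz'⟩, ⟨_, hc'⟩} : Finset (Subgroup.center (pCore 2 (Subgroup.centralizer ({z} : Set G))))) ≤ 2 := by
        exact le_of_le_of_eq (Nat.card_le_card_of_injective Subtype.val Subtype.val_injective) h2
      rw [Nat.card_eq_fintype_card, Fintype.card_coe] at hsub
      have hne1 : (⟨x, hxQ⟩ : pCore 2 (Subgroup.centralizer ({z} : Set G))) ≠ 1 := fun e => hne (by rw [e, D.psi_one])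
      have hnez : (⟨x, hxQ⟩ : pCore 2 (Subgroup.centralizer ({z} : Set G))) ≠ ⟨⟨z, Subgroup.mem_centralizer_singleton_iff.2 rfl⟩, D.z_mem⟩ :=
        fun e => hne (by rw [e]; exact (D.psi_ker _).2 (Or.inr rfl))
      rw [Finset.card_insert_of_notMem, Finset.card_pair] at hsub
      · omega
      · exact fun e => hnez (congrArg Subtype.val e).symm
      · simp only [Finset.mem_insert, Finset.mem_singleton, not_or]
        refine ⟨fun e => D.z_ne ?_, fun e => hne1 (congrArg Subtype.val e).symm⟩
        exact congrArg (fun t : Subgroup.center (pCore 2 (Subgroup.centralizer ({z} : Set G))) => ((t : pCore 2 (Subgroup.centralizer ({z} : Set G))) : (Subgroup.centralizer ({z} : Set G)))) e.symm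
    rcases (D.psi_ker _).1 h1 with e | e
    · exact Or.inl (congrArg Subtype.val e)
    · exact Or.inr (congrArg Subtype.val e)
  have hzS : z ∈ Sg := ⟨_, hQS D.z_mem, rfl⟩
  -- a Sylow subgroup of the centraliser is one of the group
  have hnorm : ∀ g : G, g ∈ Subgroup.normalizer (Sg : Set G) → g ∈ (Subgroup.centralizer ({z} : Set G)) := by
    intro g hg
    have hm : ∀ y, y ∈ Sg ↔ g * y * g⁻¹ ∈ Sg := Subgroup.mem_normalizer_iff.1 hg
    have hcomm : ∀ y ∈ Sg, y * z = z * y := by
      rintro _ ⟨y, -, rfl⟩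
      exact Subgroup.mem_centralizer_singleton_iff.1 y.2
    rcases hzpow (g * z * g⁻¹) ((hm z).1 hzS) (fun y hy => by
      have h1 : g⁻¹ * y * g ∈ Sg := (hm _).2 (by simpa [mul_assoc] using hy)
      have h2 := hcomm _ h1
      calc y * (g * z * g⁻¹) = g * ((g⁻¹ * y * g) * z) * g⁻¹ := by group
        _ = g * (z * (g⁻¹ * y * g)) * g⁻¹ := by rw [h2]
        _ = g * z * g⁻¹ * y := by group) with e | e
    · exfalso
      have : z = 1 := by
        rw [mul_inv_eq_one] at e
        exact mul_eq_left.1 e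
      exact D.z_ne (Subtype.ext this)
    · exact Subgroup.mem_centralizer_singleton_iff.2 (mul_inv_eq_iff_eq_mul.1 e)
  have hSp : IsPGroup 2 Sg := S.2.map _
  obtain ⟨T0, hT0⟩ := hSp.exists_le_sylow
  have hT0e : (T0 : Subgroup G) = Sg := by
    by_contra hne
    have hlt : Sg.subgroupOf T0 < ⊤ := lt_top_iff_ne_top.2 fun e =>
      hne (le_antisymm (fun y hy => Subgroup.mem_subgroupOf.1 (e ▸ Subgroup.mem_top (⟨y, hy⟩ : (T0 : Subgroup G)))) hT0)
    haveI : Group.IsNilpotent (T0 : Subgroup G) := T0.2.isNilpotent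
    have hnc : NormalizerCondition (T0 : Subgroup G) := normalizerCondition_of_isNilpotent
    obtain ⟨y, hyN, hyS⟩ := SetLike.exists_of_lt (hnc _ hlt)
    have hyH : (y : G) ∈ (Subgroup.centralizer ({z} : Set G)) := hnorm _ (Subgroup.mem_normalizer_iff.2 fun x => by
      constructor
      · intro hx
        have := (Subgroup.mem_normalizer_iff.1 hyN ⟨x, hT0 hx⟩).1 (Subgroup.mem_subgroupOf.2 hx)
        exact Subgroup.mem_subgroupOf.1 this
      · intro hx
        have hxT : x ∈ (T0 : Subgroup G) := by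
          have := mul_mem (mul_mem (inv_mem y.2) (hT0 hx)) y.2
          simpa [mul_assoc] using this
        have := (Subgroup.mem_normalizer_iff.1 hyN ⟨x, hxT⟩).2 (Subgroup.mem_subgroupOf.2 hx)
        exact Subgroup.mem_subgroupOf.1 this)
    let S' : Subgroup (Subgroup.centralizer ({z} : Set G)) := (T0 : Subgroup G).subgroupOf (Subgroup.centralizer ({z} : Set G))
    have hS' : IsPGroup 2 S' := (T0.2.comap_of_injective _ (Subgroup.centralizer ({z} : Set G)).subtype_injective)
    have hle : (S : Subgroup (Subgroup.centralizer ({z} : Set G))) ≤ S' := fun x hx => Subgroup.mem_subgroupOf.2 (hT0 ⟨x, hx, rfl⟩)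
    have he := S.3 hS' hle
    refine hyS (Subgroup.mem_subgroupOf.2 ?_)
    exact ⟨⟨y, hyH⟩, he ▸ (Subgroup.mem_subgroupOf.2 y.2 : (⟨(y : G), hyH⟩ : (Subgroup.centralizer ({z} : Set G))) ∈ S'), rfl⟩
  have hel : ∀ {A B : Type _} [Group A] [Group B] (f : A →* B) (L : Subgroup A), IsElementaryAbelian 2 L →
      IsElementaryAbelian 2 (L.map f) := fun f L hL => elementary_map f hL
  obtain ⟨g, hg⟩ := MulAction.exists_smul_eq G T0 T
  let e : G →* G := (MulAut.conj g).toMonoidHom
  have hinj : Function.Injective e := (MulAut.conj g).injective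
  have hT : (T : Subgroup G) = Sg.map e := by
    rw [← hg, Sylow.smul_def, Sylow.pointwise_smul_def, hT0e]
    rfl
  refine ⟨(K.map (Subgroup.centralizer ({z} : Set G)).subtype).map e, ⟨?_, hel _ _ (hel _ _ hKel), ?_⟩, ?_⟩
  · rw [hT]
    exact Subgroup.map_mono (Subgroup.map_mono hKS)
  · rw [Subgroup.card_map_of_injective hinj, Subgroup.card_map_of_injective (Subgroup.centralizer ({z} : Set G)).subtype_injective, hKc]
  · rintro V ⟨hVT, hVel, hVc⟩
    rw [hT] at hVT
    have hV1 : V.comap e ≤ Sg := fun x hx => by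
      obtain ⟨y, hy, hye⟩ := hVT hx
      rwa [← hinj hye]
    have hSgH : Sg ≤ (Subgroup.centralizer ({z} : Set G)) := Subgroup.map_subtype_le _
    let B : Subgroup (Subgroup.centralizer ({z} : Set G)) := (V.comap e).subgroupOf (Subgroup.centralizer ({z} : Set G))
    have hBmap : B.map (Subgroup.centralizer ({z} : Set G)).subtype = V.comap e := Subgroup.map_subgroupOf_eq_of_le (hV1.trans hSgH)
    have hVmap : (V.comap e).map e = V :=
      Subgroup.map_comap_eq_self (fun x _ => ⟨g⁻¹ * x * g, by simp [e, mul_assoc]⟩)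
    have hBel : IsElementaryAbelian 2 B := by
      refine ⟨⟨⟨fun u v => Subtype.ext (Subtype.ext (hinj ?_))⟩⟩, fun a ha => Subtype.ext (hinj ?_)⟩
      · have := hVel.1.is_comm.comm ⟨_, Subgroup.mem_comap.1 (Subgroup.mem_subgroupOf.1 u.2)⟩ ⟨_, Subgroup.mem_comap.1 (Subgroup.mem_subgroupOf.1 v.2)⟩
        have h := congrArg Subtype.val this
        simpa using h
      · have h := hVel.2 _ (Subgroup.mem_comap.1 (Subgroup.mem_subgroupOf.1 ha))
        simpa using h
    have hBc : Nat.card B = 2 ^ 11 := by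
      rw [← Subgroup.card_map_of_injective (Subgroup.centralizer ({z} : Set G)).subtype_injective, hBmap, ← hVc]
      conv_rhs => rw [← hVmap, Subgroup.card_map_of_injective hinj]
    have hBS : B ≤ S := fun x hx => by
      obtain ⟨y, hy, hye⟩ := hV1 (Subgroup.mem_subgroupOf.1 hx)
      rwa [← (Subgroup.centralizer ({z} : Set G)).subtype_injective hye]
    rw [← hVmap, ← hBmap, (hmax B hBS hBel).2 hBc]
where
  /-- homomorphic images of elementary abelian groups -/
  elementary_map {A B : Type _} [Group A] [Group B] (f : A →* B) {L : Subgroup A}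
      (hL : IsElementaryAbelian 2 L) : IsElementaryAbelian 2 (L.map f) := by
    refine ⟨⟨⟨fun u v => ?_⟩⟩, ?_⟩
    · obtain ⟨a, ha, hua⟩ := u.2
      obtain ⟨b, hb, hvb⟩ := v.2
      apply Subtype.ext
      show (u : B) * v = v * u
      rw [← hua, ← hvb, ← map_mul, ← map_mul]
      exact congrArg f (congrArg Subtype.val (hL.1.is_comm.comm ⟨a, ha⟩ ⟨b, hb⟩))
    · rintro _ ⟨a, ha, rfl⟩
      rw [← map_pow, hL.2 a ha, map_one]

end Cfsg.Agent.JFourType
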