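import Cfsg.Agent.JFourType.Main

/-!
A frame for the centraliser of the involution in a group of Janko-four type, together with the map
of its linear part onto `M22`.
-/

set_option autoImplicit false

namespace Cfsg.Agent.JFourType

open Cfsg
open Cfsg.Agent.GFour25
open Cfsg.Agent.SporB.FischerU (Vec)
open Cfsg.Agent.LargeFischer (IsSemi semiU twist)
open Cfsg.Agent.LargeFischer.Thompson (Ext)
open Cfsg.Agent.TTClass

/-- A semilinear map does not commute with the scalar. -/
theorem false_of_comm {g : Equiv.Perm Vec} (h1 : IsSemi true g) (hc : Commute g omP) : False := by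
  have hz : g 0 = 0 := by simpa using h1.1 0 0
  obtain ⟨v, hv⟩ : ∃ v : Vec, v ≠ 0 := ⟨fun _ => 1, fun h => one_ne_zero (congrFun h 0)⟩
  have e : w4 • g v = (w4 ^ 2) • g v := by
    have h2 := Equiv.Perm.ext_iff.1 hc.eq v
    rw [Equiv.Perm.mul_apply, Equiv.Perm.mul_apply, omP_apply, omP_apply, h1.2.1] at h2
    exact h2.symm
  refine hv (g.injective ?_)
  rw [hz]
  calc g v = (w4 + w4 ^ 2) • g v := by rw [show w4 + w4 ^ 2 = 1 by decide, one_smul]
    _ = w4 • g v + w4 • g v := by rw [add_smul, ← e]
    _ = 0 := by rw [← add_smul, GFour25.add_self, zero_smul]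

/-- A map is not both linear and semilinear. -/
theorem not_semi_both {g : Equiv.Perm Vec} (h0 : IsSemi false g) (h1 : IsSemi true g) : False :=
  false_of_comm h1 (scalar_comm h0)

/-- Semilinear isometries normalise the scalars. -/
theorem semi_conj_scal {b : Bool} {g s : Equiv.Perm Vec} (hg : IsSemi b g) (hs : s ∈ scal) :
    g * s * g⁻¹ ∈ scal := by
  obtain ⟨j, -, rfl⟩ := mem_scal hs
  have h1 : g * omP * g⁻¹ = omP ^ (bif b then 2 else 1) := by
    refine Equiv.ext fun v => ?_
    cases b
    · simp [Equiv.Perm.mul_apply, omP_apply, hg.2.1, twist]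
    · simp [Equiv.Perm.mul_apply, omP_apply, hg.2.1, twist, pow_two, smul_smul]
  rw [← conj_pow, h1]
  exact Subgroup.pow_mem _ (Subgroup.pow_mem _ (Subgroup.mem_zpowers _) _) _

theorem card_scal : Nat.card scal = 3 := by
  have hne : omP ≠ 1 := fun h => by
    have e := omP_apply (fun _ => 1)
    rw [h, Equiv.Perm.one_apply] at e
    have := congrFun e 0
    simp only [Pi.smul_apply, smul_eq_mul, mul_one] at this
    revert this
    decide
  haveI : Fact (Nat.Prime 3) := ⟨Nat.prime_three⟩
  rw [scal, Nat.card_zpowers, orderOf_eq_prime omP_pow_three hne]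

/-- The centraliser of an element, as a type. -/
abbrev CH {G : Type*} [Group G] (z : G) := ↥(Subgroup.centralizer ({z} : Set G))

/-- The element in its centraliser. -/
def zH {G : Type*} [Group G] (z : G) : CH z := ⟨z, Subgroup.mem_centralizer_singleton_iff.2 rfl⟩

/-- The data of the centraliser. -/
structure PFrame {G : Type*} [Group G] [Finite G] (z : G) where
  /-- the representation -/
  rho : CH z →* Equiv.Perm Vec
  /-- the coordinates of the largest normal 2-subgroup -/
  psi : pCore 2 (CH z) → Vec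
  ext : Ext (pCore 2 (CH z)) (zH z) rho psi
  hK : K22 ≤ rho.range
  hg : gP ∈ rho.range
  hcR : Nat.card rho.range = 2661120
  hcK : Nat.card K22 = 1330560
  semi : ∀ h, IsSemi false (rho h) ∨ IsSemi true (rho h)
  linear : ∀ h, IsSemi false (rho h) ↔ rho h ∈ K22
  /-- the map of the linear part onto `M22` -/
  phi : K22.comap rho →* Spor.M22
  phi_surj : Function.Surjective phi
  phi_ker : ∀ h, phi h = 1 ↔ rho h ∈ scal

theorem conj_M22_injective : Function.Injective (MulAut.conj : Spor.M22 →* MulAut Spor.M22) := by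
  haveI := Golay.isSimpleGroup_M22
  rw [← MonoidHom.ker_eq_bot_iff]
  rcases IsSimpleGroup.eq_bot_or_eq_top_of_normal (MulAut.conj : Spor.M22 →* MulAut Spor.M22).ker
    inferInstance with h | h
  · exact h
  · exfalso
    have hc : ∀ u v : Spor.M22, u * v = v * u := fun u v => by
      have h1 := DFunLike.congr_fun (MonoidHom.mem_ker.1 (h ▸ Subgroup.mem_top u :
        u ∈ (MulAut.conj : Spor.M22 →* MulAut Spor.M22).ker)) v
      rw [MulAut.conj_apply, MulAut.one_apply, mul_inv_eq_iff_eq_mul] at h1
      exact h1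
    letI : CommGroup Spor.M22 := { (inferInstance : Group Spor.M22) with mul_comm := hc }
    have hp : (Nat.card Spor.M22).Prime := IsSimpleGroup.prime_card
    rw [Golay.card_M22] at hp
    norm_num at hp

/-- A frame exists. -/
theorem nonempty_pframe {G : Type*} [Group G] [Finite G] {z : G} {P : Subgroup G}
    (hJ : IsOfJankoFourTypeWith z P) : Nonempty (PFrame z) := by
  classical
  obtain ⟨rho, psi, M, q, D, hsu, hlin, hprod, hconjM, ⟨h0, hh0, hs0⟩, hlift, hscal, hker, hcM, hcR⟩ :=
    exists_frame hJ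
  obtain ⟨g, hg, hgK⟩ := exists_conjugate rho M q hlin hlift hscal hker hcM
  obtain ⟨c, hc⟩ := hg
  set rho' := (MulAut.conj g).toMonoidHom.comp rho with hrho'
  have hrho : ∀ h, rho' h = g * rho h * g⁻¹ := fun h => rfl
  have hconj : ∀ {b : Bool} {h : CH z}, IsSemi b (rho h) → IsSemi b (rho' h) := by
    intro b h hh
    have e := (hc.mul hh).mul hc.inv
    rwa [show ∀ c b : Bool, xor (xor c b) c = b by decide] at e
  have hsemi : ∀ h, IsSemi false (rho' h) ∨ IsSemi true (rho' h) := by
    intro h
    obtain ⟨b, hb⟩ := hsu h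
    cases b
    · exact Or.inl (hconj hb)
    · exact Or.inr (hconj hb)
  have hmapK : M.map rho' = K22 := by rw [← hgK, hrho', ← Subgroup.map_map]
  have hcK : Nat.card K22 = 1330560 := by
    rw [← hgK, Subgroup.card_map_of_injective (MulAut.conj g).injective, hcM]
  have hKR : K22 ≤ rho'.range := hmapK ▸ Subgroup.map_le_range _ _
  have hMiff : ∀ h, IsSemi false (rho' h) → h ∈ M := by
    intro h hh
    by_contra hne
    have h1 : IsSemi false (rho' (h * h0)) := hconj (hlin _ (hprod h h0 hne hh0))
    have h2 := hh.mul (hconj hs0)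
    rw [← map_mul] at h2
    exact not_semi_both h1 (by simpa using h2)
  have hMK : ∀ m ∈ M, rho' m ∈ K22 := fun m hm => hmapK ▸ ⟨m, hm, rfl⟩
  have hlinear : ∀ h, IsSemi false (rho' h) ↔ rho' h ∈ K22 :=
    fun h => ⟨fun hh => hMK h (hMiff h hh), fun hh => K22_linear hh⟩
  have hgP : gP ∈ rho'.range := by
    refine gP_mem hKR hcK (s := g * rho h0 * g⁻¹) ⟨h0, rfl⟩ ?_ (fun k hk => ?_)
    · exact hconj hs0
    · rw [← hgK] at hk ⊢
      obtain ⟨_, ⟨m, hm, rfl⟩, rfl⟩ := hk
      refine ⟨rho (h0 * m * h0⁻¹), ⟨_, hconjM m hm h0, rfl⟩, ?_⟩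
      simp [mul_assoc]
  have hcR' : Nat.card rho'.range = 2661120 := by
    rw [hrho', MonoidHom.range_comp, Subgroup.card_map_of_injective (MulAut.conj g).injective, hcR]
  have hscal' : ∀ h, rho h ∈ scal ↔ rho' h ∈ scal := by
    intro h
    refine ⟨semi_conj_scal hc, fun hh => ?_⟩
    have := semi_conj_scal hc.inv hh
    rwa [hrho, show g⁻¹ * (g * rho h * g⁻¹) * g⁻¹⁻¹ = rho h by group] at this
  -- the map onto M22
  set q' : M →* MulAut Spor.M22 := q.comp M.subtype
  have hQM : pCore 2 (CH z) ≤ M := fun h hh => hMiff h (by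
    rw [hrho, D.rho_q hh, mul_one, mul_inv_cancel]; exact IsSemi.one)
  have hL : ∀ m ∈ q'.ker, rho (m : CH z) ∈ scal := fun m hm => hscal _ m.2 hm
  have hcardQ : Nat.card (pCore 2 (CH z)) = 8192 := D.card_q
  have hcardM : Nat.card M = 1330560 * 8192 := by
    let f := rho.comp M.subtype
    have hr : f.range = M.map rho := by rw [MonoidHom.range_comp, Subgroup.range_subtype]
    have hk : f.ker = (pCore 2 (CH z)).subgroupOf M := by
      ext y
      rw [MonoidHom.mem_ker, Subgroup.mem_subgroupOf]
      exact ⟨fun e => D.mem_q e, fun e => D.rho_q e⟩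
    have h := f.ker.card_mul_index
    rw [Subgroup.index_ker, hr, hcM, hk, Nat.card_congr (Subgroup.subgroupOfEquivOfLe hQM).toEquiv,
      hcardQ] at h
    rw [← h, mul_comm]
  set L : Subgroup (CH z) := q'.ker.map M.subtype with hLdef
  have hL1 : Nat.card L = Nat.card q'.ker := Subgroup.card_map_of_injective M.subtype_injective
  have hL2 : Nat.card L = Nat.card (L.map rho) * 8192 := by
    rw [D.card_split L, inf_eq_right.2 (fun h hh => ⟨⟨h, hQM hh⟩, hker h (D.rho_q hh), rfl⟩), hcardQ]
  have hL3 : Nat.card (L.map rho) ∣ 3 := by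
    rw [← card_scal]
    refine Subgroup.card_dvd_of_le ?_
    rintro _ ⟨_, ⟨m, hm, rfl⟩, rfl⟩
    exact hL m hm
  have hinn : Inn Spor.M22 ≤ q'.range := by
    rintro _ ⟨x, rfl⟩
    obtain ⟨m, hm, he⟩ := hlift x
    exact ⟨⟨m, hm⟩, he⟩
  have hInn : Nat.card (Inn Spor.M22) = 443520 := by
    rw [← Golay.card_M22]
    exact (Nat.card_congr (MonoidHom.ofInjective conj_M22_injective).toEquiv).symm
  have hrange : q'.range = Inn Spor.M22 := by
    refine (Subgroup.eq_of_le_of_card_ge hinn ?_).symm
    have h := q'.ker.card_mul_index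
    rw [Subgroup.index_ker, ← hL1, hL2, hcardM] at h
    have hle : Nat.card q'.range ≤ 887040 := card_aut_M22 ▸ Subgroup.card_le_card_group _
    have hge := Subgroup.card_le_of_le hinn
    rw [hInn] at hge ⊢
    rcases (Nat.dvd_prime Nat.prime_three).1 hL3 with e | e <;> rw [e] at h <;> omega
  have hcomap : K22.comap rho' ≤ M := fun h hh => hMiff h (K22_linear hh)
  let f : K22.comap rho' →* (MulAut.conj : Spor.M22 →* MulAut Spor.M22).range :=
    (q'.comp (Subgroup.inclusion hcomap)).codRestrict _ fun h => by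
      have : q' (Subgroup.inclusion hcomap h) ∈ q'.range := ⟨_, rfl⟩
      rw [hrange] at this
      exact this
  let e := MonoidHom.ofInjective conj_M22_injective
  refine ⟨{ rho := rho', psi := fun a => g (psi a), ext := ext_conj D ⟨c, hc⟩, hK := hKR, hg := hgP,
            hcR := hcR', hcK := hcK, semi := hsemi, linear := hlinear,
            phi := e.symm.toMonoidHom.comp f, phi_surj := ?_, phi_ker := ?_ }⟩
  · refine e.symm.surjective.comp fun y => ?_
    obtain ⟨x, hx⟩ := y.2
    obtain ⟨m, hm, he⟩ := hlift x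
    exact ⟨⟨m, hMK m hm⟩, Subtype.ext (he.trans hx)⟩
  · intro h
    show e.symm (f h) = 1 ↔ _
    rw [map_eq_one_iff _ e.symm.injective, Subtype.ext_iff]
    constructor
    · intro h1
      exact (hscal' h).1 (hscal _ (hcomap h.2) h1)
    · intro h1
      -- the kernel has order three modulo the 2-subgroup
      have h' := q'.ker.card_mul_index
      rw [Subgroup.index_ker, hrange, hInn, ← hL1, hL2, hcardM] at h'
      have hl3 : Nat.card (L.map rho) = 3 := by omega
      have heq : L.map rho = scal := Subgroup.eq_of_le_of_card_ge (by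
        rintro _ ⟨_, ⟨m, hm, rfl⟩, rfl⟩
        exact hL m hm) (by rw [hl3, card_scal])
      obtain ⟨l, ⟨m, hm, hml⟩, hl⟩ : rho (h : CH z) ∈ L.map rho := heq ▸ (hscal' h).2 h1
      have hq1 : q ((l⁻¹ : CH z) * h) = 1 := hker _ (by rw [map_mul, map_inv, hl, inv_mul_cancel])
      rw [map_mul, map_inv, ← hml, show q (M.subtype m) = 1 from hm, inv_one, one_mul] at hq1
      exact hq1

end Cfsg.Agent.JFourType
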