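import Cfsg.Agent.JFourType.Outer
import Cfsg.Agent.JFourType.ThreeData

/-!
Elements of order 3 and involutions of the triple cover of `M22` extended by the semilinear
involution: the centraliser of a noncentral element of order 3, the vectors it fixes, and the
fixed anisotropic vectors of the involutions.
-/

set_option autoImplicit false
set_option maxRecDepth 100000

namespace Cfsg.Agent.JFourType

open Cfsg.Agent.GFour25 Cfsg.Agent.CosetCert
open Cfsg.Agent.SporB.FischerU (Vec vecN enc vecN_enc enc_lt hs hs_eq)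
open Cfsg.Agent.LargeFischer (IsSemi semiU twist)
open Cfsg.Agent.LargeFischer.Thompson
open Cfsg.Agent.TTClass
open Data

/-! ### Listed subgroups -/

/-- A listed subgroup of the cover as a subgroup. -/
theorem exists_sub_of_groupOK {gens els idx : List (List ℕ)} (h : groupOK gens els idx = true) :
    ∃ Γ : Subgroup (Equiv.Perm Vec), Γ ≤ K22 ∧ Nat.card Γ = els.length ∧
      ∀ σ ∈ Γ, ∃ i < els.length, Rep (els.getD i []) σ := by
  classical
  simp only [groupOK, Bool.and_eq_true, beq_iff_eq, List.all_eq_true, List.contains_iff_mem,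
    List.mem_range, Bool.not_eq_true', beq_eq_false_iff_ne, Nat.blt_eq] at h
  obtain ⟨⟨⟨-, h0⟩, hel⟩, hcl⟩ := h
  let S : Set (Equiv.Perm Vec) := {x | ∃ k < gens.length, x = wPerm (gens.getD k [])}
  set Γ := Subgroup.closure S with hΓ
  have hle : Γ ≤ K22 := by
    rw [hΓ, Subgroup.closure_le]
    rintro x ⟨k, -, rfl⟩
    exact word_mem _
  have h0' : 0 < els.length := by
    by_contra hc
    rw [List.getD_eq_default _ _ (by omega)] at h0
    exact absurd h0 (by decide)
  have hsel : ∀ ix : List ℕ, (∀ k ∈ ix, k < gens.length) →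
      ∃ σ ∈ Γ, Rep (selL gens ix) σ := by
    intro ix
    induction ix with
    | nil => exact fun _ => ⟨1, one_mem _, Rep.one⟩
    | cons k ix ih =>
      intro hk
      obtain ⟨σ, hσ, hr⟩ := ih fun j hj => hk j (List.mem_cons_of_mem _ hj)
      exact ⟨wPerm (gens.getD k []) * σ,
        mul_mem (Subgroup.subset_closure ⟨k, hk k List.mem_cons_self, rfl⟩) hσ, (rep_word _).mul hr⟩
  have hin : ∀ σ ∈ Γ, ∃ i < els.length, Rep (els.getD i []) σ := by
    intro σ hσ
    have hmem : σ ∈ Submonoid.closure S := by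
      rw [← Subgroup.closure_toSubmonoid_of_finite]
      exact hσ
    induction hmem using Submonoid.closure_induction_right with
    | one => exact ⟨0, h0', h0 ▸ Rep.one⟩
    | mul_right x hx y hy ih =>
      obtain ⟨i, hi, hr⟩ := ih ((Subgroup.closure_toSubmonoid_of_finite (s := S)).ge hx)
      obtain ⟨k, hk, rfl⟩ := hy
      have hm := hcl (els.getD i []) (by rw [List.getD_eq_getElem _ _ hi]; exact List.getElem_mem hi) k hk
      obtain ⟨j, hj, hje⟩ := List.getElem_of_mem hm
      exact ⟨j, hj, by rw [List.getD_eq_getElem _ _ hj, hje]; exact hr.mul (rep_word _)⟩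
  choose σ hσ hrσ using fun i : Fin els.length =>
    hsel (idx.getD i []) (hel i i.2).1.1.2
  have hbij : Function.Bijective (fun i => (⟨σ i, hσ i⟩ : Γ)) := by
    refine ⟨fun i j e => ?_, fun x => ?_⟩
    · have e' : σ i = σ j := congrArg Subtype.val e
      have hi := hrσ i
      have hj := hrσ j
      rw [← (hel i i.2).1.1.1] at hi
      rw [← (hel j j.2).1.1.1] at hj
      have heq := hi.list_eq (e' ▸ hj) (hel i i.2).1.2 (hel j j.2).1.2
      rcases lt_trichotomy (i : ℕ) j with hlt | heq' | hlt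
      · exact absurd heq.symm ((hel j j.2).2 i hlt)
      · exact Fin.ext heq'
      · exact absurd heq ((hel i i.2).2 j hlt)
    · obtain ⟨i, hi, hr⟩ := hin _ x.2
      refine ⟨⟨i, hi⟩, Subtype.ext ?_⟩
      have h1 := hrσ ⟨i, hi⟩
      rw [← (hel i hi).1.1.1] at h1
      exact h1.eq hr
  refine ⟨Γ, hle, ?_, hin⟩
  rw [← Nat.card_congr (Equiv.ofBijective _ hbij), Nat.card_fin]

/-- An element of order dividing a prime is conjugate into the listed Sylow subgroup. -/
theorem conj_into {gens els idx : List (List ℕ)} {q n : ℕ} (hq : q.Prime)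
    (hcK : Nat.card K22 = 1330560) (hn : (1330560 : ℕ).factorization q = n)
    (hok : groupOK gens els idx = true) (hlen : els.length = q ^ n) {k : Equiv.Perm Vec}
    (hk : k ∈ K22) (hkq : k ^ q = 1) :
    ∃ h ∈ K22, ∃ i < els.length, Rep (els.getD i []) (h * k * h⁻¹) := by
  classical
  have : Fact q.Prime := ⟨hq⟩
  obtain ⟨Γ, hΓ, hc, hel⟩ := exists_sub_of_groupOK hok
  let x : K22 := ⟨k, hk⟩
  have hx : x ^ q = 1 := Subtype.ext hkq
  have hp : IsPGroup q (Subgroup.zpowers x) := by
    rintro ⟨y, hy⟩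
    obtain ⟨j, rfl⟩ := Subgroup.mem_zpowers_iff.1 hy
    refine ⟨1, Subtype.ext ?_⟩
    show (x ^ j) ^ (q ^ 1) = 1
    rw [pow_one, ← zpow_natCast, ← zpow_mul, mul_comm, zpow_mul, zpow_natCast, hx, one_zpow]
  obtain ⟨Q, hQ⟩ := hp.exists_le_sylow
  have hcard : Nat.card (Γ.subgroupOf K22) = q ^ (Nat.card K22).factorization q := by
    rw [Nat.card_congr (Subgroup.subgroupOfEquivOfLe hΓ).toEquiv, hc, hlen, hcK, hn]
  let S := Sylow.ofCard (Γ.subgroupOf K22) hcard
  obtain ⟨h, hh⟩ := MulAction.exists_smul_eq K22 Q S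
  have h1 : h * x * h⁻¹ ∈ ((h • Q : Sylow q K22) : Subgroup K22) := by
    rw [Sylow.smul_def, Sylow.pointwise_smul_def, Subgroup.mem_pointwise_smul_iff_inv_smul_mem]
    show (MulAut.conj h)⁻¹ (h * x * h⁻¹) ∈ _
    rw [show (MulAut.conj h)⁻¹ (h * x * h⁻¹) = x by simp [mul_assoc]]
    exact hQ (Subgroup.mem_zpowers x)
  rw [hh] at h1
  have h2 : (h : Equiv.Perm Vec) * k * (h : Equiv.Perm Vec)⁻¹ ∈ Γ := h1
  exact ⟨h, h.2, hel _ h2⟩

theorem fac_two : (1330560 : ℕ).factorization 2 = 7 := by
  rw [show (1330560 : ℕ) = 2 ^ 7 * 10395 by norm_num, Nat.factorization_mul (by norm_num) (by norm_num),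
    Finsupp.add_apply, Nat.Prime.factorization_pow (by norm_num), Finsupp.single_eq_same,
    Nat.factorization_eq_zero_of_not_dvd (by norm_num)]

theorem fac_three : (1330560 : ℕ).factorization 3 = 3 := by
  rw [show (1330560 : ℕ) = 3 ^ 3 * 49280 by norm_num, Nat.factorization_mul (by norm_num) (by norm_num),
    Finsupp.add_apply, Nat.Prime.factorization_pow (by norm_num), Finsupp.single_eq_same,
    Nat.factorization_eq_zero_of_not_dvd (by norm_num)]

/-- Two lists of the same map have the same normal form. -/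
theorem norm_eq {g h : List ℕ} {σ : Equiv.Perm Vec} (hg : Rep g σ) (hh : Rep h σ) :
    comp g idL = comp h idL := by
  refine List.map_congr_left fun e he => ?_
  have hlt : e < 4096 := by
    have : ∀ e ∈ idL, e < 4096 := by decide
    exact this e he
  have h1 := hg (vecN e)
  have h2 := hh (vecN e)
  rw [enc_vecN hlt] at h1 h2
  exact h1.symm.trans h2

theorem norm_idL : comp idL idL = idL := by decide +kernel

/-! ### The extended group -/

theorem gP_not_linear : ¬ IsSemi false gP := fun h => by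
  have h3 : ¬ comp (comp gL omL) idL = comp (comp omL gL) idL := by decide +kernel
  have h4 : Rep (comp omL gL) (gP * omP) := by
    rw [(scalar_comm h).eq]; exact rep_omP.mul rep_gP.1
  exact h3 (norm_eq (rep_gP.1.mul rep_omP) h4)

theorem index_two {R : Subgroup (Equiv.Perm Vec)} (hK : K22 ≤ R) (hcR : Nat.card R = 2661120)
    (hcK : Nat.card K22 = 1330560) : (K22.subgroupOf R).index = 2 := by
  have h := (K22.subgroupOf R).card_mul_index
  rw [Nat.card_congr (Subgroup.subgroupOfEquivOfLe hK).toEquiv, hcK, hcR] at h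
  omega

/-- The linear elements of the extended group lie in the cover. -/
theorem mem_K22_of_linear {R : Subgroup (Equiv.Perm Vec)} (hK : K22 ≤ R) (hg : gP ∈ R)
    (hcR : Nat.card R = 2661120) (hcK : Nat.card K22 = 1330560) {r : Equiv.Perm Vec} (hr : r ∈ R)
    (hl : IsSemi false r) : r ∈ K22 := by
  by_contra hn
  have hgn : gP ∉ K22 := fun h => gP_not_linear (K22_linear h)
  have h := (Subgroup.mul_mem_iff_of_index_two (index_two hK hcR hcK)
    (a := ⟨gP, hg⟩) (b := ⟨r, hr⟩)).2 ⟨fun h => absurd h hgn, fun h => absurd h hn⟩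
  have h1 : gP * r ∈ K22 := h
  refine gP_not_linear ?_
  have h2 : IsSemi false (gP * r * r⁻¹) :=
    mem_linU.1 (mul_mem (mem_linU.2 (K22_linear h1)) (inv_mem (mem_linU.2 hl)))
  rwa [mul_inv_cancel_right] at h2

/-- The elements of odd order of the extended group lie in the cover. -/
theorem mem_K22_of_odd {R : Subgroup (Equiv.Perm Vec)} (hK : K22 ≤ R)
    (hcR : Nat.card R = 2661120) (hcK : Nat.card K22 = 1330560) {r : Equiv.Perm Vec} (hr : r ∈ R)
    {m : ℕ} (hm : r ^ (2 * m + 1) = 1) : r ∈ K22 := by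
  have h : r ^ 2 ∈ K22 := Subgroup.sq_mem_of_index_two (index_two hK hcR hcK) (⟨r, hr⟩ : R)
  have h2 : (r ^ 2) ^ (m + 1) = r := by
    rw [← pow_mul, show 2 * (m + 1) = (2 * m + 1) + 1 by ring, pow_succ, hm, one_mul]
  exact h2 ▸ pow_mem h _

/-! ### The element of order 3 -/

/-- The list of the chosen element of order 3. -/
noncomputable def p0L : List ℕ := threeEls.getD 2 []

/-- The chosen element of order 3. -/
noncomputable def p0P : Equiv.Perm Vec := wPerm (threeGens.getD 1 [])

theorem rep_p0P : Rep p0L p0P := by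
  have h : wImg (threeGens.getD 1 []) = p0L := by decide +kernel
  exact h ▸ rep_word _

theorem threeConj_ok : ((List.range 27).all fun i =>
    scalL.contains (threeEls.getD i []) ||
      (comp (wImg (threeConj.getD i [])) (threeEls.getD i []) ==
        comp p0L (wImg (threeConj.getD i [])))) = true := by decide +kernel

/-- Every noncentral element of order 3 of the cover is conjugate to the chosen one. -/
theorem conj_to_p0 (hcK : Nat.card K22 = 1330560) {p : Equiv.Perm Vec} (hp : p ∈ K22)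
    (hp3 : p ^ 3 = 1) (hns : p ∉ scal) : ∃ h ∈ K22, h * p * h⁻¹ = p0P := by
  obtain ⟨h, hh, i, hi, hr⟩ := conj_into (q := 3) (n := 3) Nat.prime_three hcK fac_three three_ok.1
    three_ok.2 hp hp3
  rw [three_ok.2] at hi
  have hc := List.all_eq_true.1 threeConj_ok i (List.mem_range.2 hi)
  rw [Bool.or_eq_true, List.contains_iff_mem, beq_iff_eq] at hc
  rcases hc with hc | hc
  · exfalso
    have hs : h * p * h⁻¹ ∈ scal := by
      simp only [scalL, List.mem_cons, List.not_mem_nil, or_false] at hc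
      rcases hc with e | e | e <;> rw [e] at hr
      · rw [hr.eq Rep.one]; exact one_mem _
      · rw [hr.eq rep_omP]; exact Subgroup.mem_zpowers _
      · rw [hr.eq (rep_omP.mul rep_omP)]
        exact mul_mem (Subgroup.mem_zpowers _) (Subgroup.mem_zpowers _)
    refine hns ?_
    have e2 := (scal_commute hs (K22_linear (inv_mem hh))).eq
    have e3 : p = h * p * h⁻¹ := by
      have e4 : h⁻¹ * (h * p * h⁻¹) = p * h⁻¹ := by group
      rw [e4] at e2
      exact mul_right_cancel e2
    rw [e3]; exact hs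
  · refine ⟨wPerm (threeConj.getD i []) * h, mul_mem (word_mem _) hh, ?_⟩
    have e : wPerm (threeConj.getD i []) * (h * p * h⁻¹) = p0P * wPerm (threeConj.getD i []) :=
      ((rep_word _).mul hr).eq (hc ▸ rep_p0P.mul (rep_word _))
    rw [show wPerm (threeConj.getD i []) * h * p * (wPerm (threeConj.getD i []) * h)⁻¹ =
      wPerm (threeConj.getD i []) * (h * p * h⁻¹) * (wPerm (threeConj.getD i []))⁻¹ by group, e,
      mul_inv_cancel_right]

/-- An anisotropic eigenvector of the chosen element. -/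
noncomputable def eigOK (i x : ℕ) : Bool :=
  Nat.beq (apL p0L x) (apL (pwL omL i) x) && !(qN x)

theorem eigAn_ok : allB (fun v => (List.range 3).all fun i =>
    !(eigOK i v) || (eigAn.getD i []).contains v) 12 0 = true := by decide +kernel

theorem eigPairs_ok : ((List.range 3).all fun i => (eigAn.getD i []).all fun x =>
    (eigAn.getD i []).all fun y =>
      !(decide (hs (vecN x) (vecN y) = 0)) || (eigPairs.getD i []).contains (x, y)) = true := by
  decide +kernel

theorem eigBase_ok : ((List.range 3).all fun i =>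
    eigOK i (eigBase.getD (2 * i) 0) && eigOK i (eigBase.getD (2 * i + 1) 0) &&
      decide (hs (vecN (eigBase.getD (2 * i) 0)) (vecN (eigBase.getD (2 * i + 1) 0)) = 0) &&
      Nat.blt (eigBase.getD (2 * i) 0) 4096 && Nat.blt (eigBase.getD (2 * i + 1) 0) 4096) = true := by
  decide +kernel

theorem eigMasks_ok : ((List.range 12).all fun j => Nat.beq
    (comboL (eigBase ++ eigBase.map (apL omL)) (eigMasks.getD j 0)) (idL.getD j 0)) = true ∧
    (eigBase.all fun x => Nat.blt x 4096) = true := by decide +kernel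

theorem eigWit_ok : (eigWit.all fun m =>
    inS (comboL (eigBase ++ eigBase.map (apL omL)) m) &&
      Nat.blt (comboL (eigBase ++ eigBase.map (apL omL)) m) 4096) = true := by decide +kernel

/-- The check of one choice of images of the eigenbasis. -/
noncomputable def leafCheck (L : List ℕ) : Bool :=
  !(eigWit.all fun m => inS (comboL (L ++ L.map (apL omL)) m)) ||
    cenEls.any fun e => eigBase.map (apL e) == L

theorem leaves_ok : ((eigPairs.getD 0 []).all fun a => (eigPairs.getD 1 []).all fun b =>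
    (eigPairs.getD 2 []).all fun c => leafCheck [a.1, a.2, b.1, b.2, c.1, c.2]) = true := by
  decide +kernel

theorem cenEls_ok : (cenEls.all fun e =>
    (comp e omL == comp omL e) && (comp e idL == e) && (pwL e 6 == idL) &&
      (!(Nat.beq (apL e (eigBase.getD 0 0)) (eigBase.getD 0 0) &&
          Nat.beq (apL e (eigBase.getD 1 0)) (eigBase.getD 1 0)) ||
        ((!(comp (pwL e 3) idL == idL) || (e == idL || e == p0L || e == comp p0L p0L)) &&
          (!(comp (pwL e 2) idL == idL) || (e == idL || e == fixInv))))) = true := by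
  decide +kernel

/-- Images of combinations. -/
theorem enc_combo {g : Equiv.Perm Vec} (hg : IsSemi false g) :
    ∀ (l : List ℕ) (m : ℕ),
      enc (g (vecN (comboL l m))) = comboL (l.map fun x => enc (g (vecN x))) m := by
  have h0 : enc (g (vecN 0)) = 0 := by
    rw [show vecN 0 = 0 by decide, show g 0 = 0 by simpa using hg.1 0 0]
    decide
  intro l
  induction l with
  | nil => intro m; rw [List.map_nil, comboL, h0]
  | cons a l ih =>
    intro m
    rw [List.map_cons, comboL, comboL, vecN_xor, hg.1, enc_add, ih]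
    cases Nat.beq (Nat.mod m 2) 1
    · rw [cond_false, cond_false, h0]
    · rfl

/-- The centraliser of the chosen element in the cover. -/
theorem cent_p0 {k : Equiv.Perm Vec} (hk : k ∈ K22) (hc : k * p0P = p0P * k) :
    ∃ e ∈ cenEls, Rep e k := by
  have hl := K22_linear hk
  have hb : ∀ i < 3, eigOK i (eigBase.getD (2 * i) 0) = true ∧
      eigOK i (eigBase.getD (2 * i + 1) 0) = true ∧
      hs (vecN (eigBase.getD (2 * i) 0)) (vecN (eigBase.getD (2 * i + 1) 0)) = 0 ∧
      eigBase.getD (2 * i) 0 < 4096 ∧ eigBase.getD (2 * i + 1) 0 < 4096 := by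
    intro i hi
    have h := List.all_eq_true.1 eigBase_ok i (List.mem_range.2 hi)
    simp only [Bool.and_eq_true, decide_eq_true_eq, Nat.blt_eq] at h
    exact ⟨h.1.1.1.1, h.1.1.1.2, h.1.1.2, h.1.2, h.2⟩
  have himg : ∀ i < 3, ∀ x < 4096, eigOK i x = true →
      enc (k (vecN x)) ∈ eigAn.getD i [] := by
    intro i hi x hx he
    have h := List.all_eq_true.1 (allB_spec_zero eigAn_ok (by norm_num : 4096 ≤ 2 ^ 12)
      (enc_lt (k (vecN x)))) i (List.mem_range.2 hi)
    rw [Bool.or_eq_true, Bool.not_eq_true', List.contains_iff_mem] at h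
    refine h.resolve_left ?_
    rw [Bool.not_eq_false]
    simp only [eigOK, Bool.and_eq_true, Bool.not_eq_true'] at he ⊢
    have hom : Commute k (omP ^ i) := (scalar_comm hl).pow_right i
    refine ⟨?_, ?_⟩
    · have e1 : p0P (vecN x) = (omP ^ i) (vecN x) := by
        rw [rep_vec rep_p0P hx, rep_vec (rep_pow rep_omP i) hx, Nat.eq_of_beq_eq_true he.1]
      have e2 : p0P (k (vecN x)) = (omP ^ i) (k (vecN x)) := by
        rw [← Equiv.Perm.mul_apply, ← hc, Equiv.Perm.mul_apply, e1, ← Equiv.Perm.mul_apply, hom.eq,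
          Equiv.Perm.mul_apply]
      rw [← rep_p0P, ← rep_pow rep_omP i, e2, Nat.beq_refl]
    · rw [← Bool.not_eq_true, qN_enc, hl.2.2, ← qN_enc, enc_vecN hx, Bool.not_eq_true]
      exact he.2
  have hpair : ∀ i < 3, (enc (k (vecN (eigBase.getD (2 * i) 0))),
      enc (k (vecN (eigBase.getD (2 * i + 1) 0)))) ∈ eigPairs.getD i [] := by
    intro i hi
    obtain ⟨h1, h2, h3, hx, hy⟩ := hb i hi
    have h := List.all_eq_true.1 (List.all_eq_true.1 (List.all_eq_true.1 eigPairs_ok i
      (List.mem_range.2 hi)) _ (himg i hi _ hx h1)) _ (himg i hi _ hy h2)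
    rw [Bool.or_eq_true, Bool.not_eq_true', List.contains_iff_mem] at h
    refine h.resolve_left ?_
    rw [Bool.not_eq_false, decide_eq_true_eq, vecN_enc, vecN_enc, hs_eq, isom hl, ← hs_eq, h3]
  set L := eigBase.map fun x => enc (k (vecN x)) with hL
  have hL6 : ∀ f : ℕ → ℕ, eigBase.map f = [f (eigBase.getD 0 0), f (eigBase.getD 1 0),
      f (eigBase.getD 2 0), f (eigBase.getD 3 0), f (eigBase.getD 4 0), f (eigBase.getD 5 0)] :=
    fun f => by simp [eigBase]
  have p0' := hpair 0 (by norm_num)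
  have p1' := hpair 1 (by norm_num)
  have p2' := hpair 2 (by norm_num)
  simp only [Nat.reduceMul, Nat.reduceAdd] at p0' p1' p2'
  have hleaf : leafCheck L = true := by
    have h := List.all_eq_true.1 (List.all_eq_true.1 (List.all_eq_true.1 leaves_ok _ p0') _ p1') _ p2'
    rw [hL, hL6]
    exact h
  have hlt : ∀ x ∈ eigBase, x < 4096 := fun x hx =>
    Nat.blt_eq.mp (List.all_eq_true.1 eigMasks_ok.2 x hx)
  have hom : L.map (apL omL) = (eigBase.map (apL omL)).map fun x => enc (k (vecN x)) := by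
    rw [hL, List.map_map, List.map_map]
    refine List.map_congr_left fun x hx => ?_
    show apL omL (enc (k (vecN x))) = enc (k (vecN (apL omL x)))
    rw [← rep_vec rep_omP (hlt x hx), ← rep_omP, ← Equiv.Perm.mul_apply, ← (scalar_comm hl).eq,
      Equiv.Perm.mul_apply]
  have hS : (eigWit.all fun m => inS (comboL (L ++ L.map (apL omL)) m)) = true := by
    refine List.all_eq_true.2 fun m hm => ?_
    have h := List.all_eq_true.1 eigWit_ok m hm
    rw [Bool.and_eq_true, Nat.blt_eq] at h
    have h1 := K22_invariant hk (x := vecN (comboL (eigBase ++ eigBase.map (apL omL)) m))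
      (by rw [enc_vecN h.2]; exact h.1)
    rw [enc_combo hl, List.map_append, ← hom] at h1
    exact h1
  rw [leafCheck, hS, Bool.not_true, Bool.false_or, List.any_eq_true] at hleaf
  obtain ⟨e, he, hee⟩ := hleaf
  rw [beq_iff_eq, hL] at hee
  have hok := List.all_eq_true.1 cenEls_ok e he
  simp only [Bool.and_eq_true, beq_iff_eq] at hok
  exact ⟨e, he, rep_of_images hl hok.1.1.1 hok.1.1.2 eigMasks_ok.1 eigMasks_ok.2
    fun x hx => (List.map_inj_left.1 hee x hx).symm⟩

/-- An element of the centraliser fixing the fixed vectors. -/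
theorem fixing_cases {k : Equiv.Perm Vec} (hk : k ∈ K22) (hc : k * p0P = p0P * k)
    (hf : ∀ v, p0P v = v → k v = v) :
    k ^ 6 = 1 ∧ (k ^ 3 = 1 → k = 1 ∨ k = p0P ∨ k = p0P * p0P) ∧
      (k ^ 2 = 1 → k = 1 ∨ Rep fixInv k) := by
  obtain ⟨e, he, hr⟩ := cent_p0 hk hc
  have hok := List.all_eq_true.1 cenEls_ok e he
  simp only [Bool.and_eq_true, Bool.or_eq_true, Bool.not_eq_true', beq_iff_eq,
    beq_eq_false_iff_ne] at hok
  obtain ⟨⟨-, h6⟩, hfix⟩ := hok
  have hfx : ∀ j < 2, apL e (eigBase.getD j 0) = eigBase.getD j 0 := by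
    intro j hj
    have h : ((List.range 2).all fun j => Nat.blt (eigBase.getD j 0) 4096 &&
        Nat.beq (apL p0L (eigBase.getD j 0)) (eigBase.getD j 0)) = true := by decide +kernel
    have h' := List.all_eq_true.1 h j (List.mem_range.2 hj)
    rw [Bool.and_eq_true, Nat.blt_eq] at h'
    have h1 := congrArg enc (hf (vecN (eigBase.getD j 0))
      (by rw [rep_vec rep_p0P h'.1, Nat.eq_of_beq_eq_true h'.2]))
    rwa [hr, enc_vecN h'.1] at h1
  rw [hfx 0 (by norm_num), hfx 1 (by norm_num), Nat.beq_refl, Nat.beq_refl] at hfix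
  simp only [Bool.and_self, Bool.true_eq_false, false_or] at hfix
  refine ⟨(rep_pow hr 6).eq (h6 ▸ Rep.one), fun h3 => ?_, fun h2 => ?_⟩
  · have e3 : comp (pwL e 3) idL = idL := (norm_eq (rep_pow hr 3) (h3 ▸ Rep.one)).trans norm_idL
    rcases hfix.1.resolve_left (not_not.2 e3) with (e0 | e0) | e0 <;> rw [e0] at hr
    · exact Or.inl (hr.eq Rep.one)
    · exact Or.inr (Or.inl (hr.eq rep_p0P))
    · exact Or.inr (Or.inr (hr.eq (rep_p0P.mul rep_p0P)))
  · have e2 : comp (pwL e 2) idL = idL := (norm_eq (rep_pow hr 2) (h2 ▸ Rep.one)).trans norm_idL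
    rcases hfix.2.resolve_left (not_not.2 e2) with e0 | e0 <;> rw [e0] at hr
    · exact Or.inl (hr.eq Rep.one)
    · exact Or.inr hr

theorem sqRoot_facts :
    comp (comp (comp gL (wImg sqRootW)) (comp gL (wImg sqRootW))) idL = comp fixInv idL ∧
    comp (comp (comp gL (wImg sqRootW)) p0L) idL =
      comp (comp p0L (comp gL (wImg sqRootW))) idL ∧
    qN (eigBase.getD 0 0) = false ∧ Nat.blt (eigBase.getD 0 0) 4096 = true ∧
    apL p0L (eigBase.getD 0 0) = eigBase.getD 0 0 := by decide +kernel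

/-- Equal normal forms give equal maps. -/
theorem eq_of_norm {g h : List ℕ} {σ τ : Equiv.Perm Vec} (hs : Rep g σ) (ht : Rep h τ)
    (e : comp g idL = comp h idL) : σ = τ := by
  have h1 : Rep (comp g idL) σ := by simpa using hs.mul Rep.one
  have h2 : Rep (comp h idL) τ := by simpa using ht.mul Rep.one
  exact h1.eq (e ▸ h2)

/-- Three facts on a noncentral element of order 3. -/
theorem three_facts {R : Subgroup (Equiv.Perm Vec)} (hK : K22 ≤ R) (hg : gP ∈ R)
    (hcR : Nat.card R = 2661120) (hcK : Nat.card K22 = 1330560) {p : Equiv.Perm Vec} (hp : p ∈ R)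
    (hp3 : p ^ 3 = 1) (hns : p ∉ scal) :
    (∃ v, p v = v ∧ UnitF4.H v v ≠ 0) ∧
    (∀ g ∈ R, Odd (orderOf g) → g * p = p * g → (∀ v, p v = v → g v = v) →
      g ∈ Subgroup.zpowers p) ∧
    (∀ b ∈ R, b * b = 1 → b ≠ 1 → IsSemi false b → b * p = p * b → (∀ v, p v = v → b v = v) →
      (∀ r ∈ R, r * p = p * r → b * r = r * b) → ∃ r ∈ R, r * p = p * r ∧ r * r = b) := by
  have hpK : p ∈ K22 := mem_K22_of_odd hK hcR hcK hp (m := 1) hp3
  obtain ⟨h, hh, hconj⟩ := conj_to_p0 hcK hpK hp3 hns
  have hhl := K22_linear hh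
  have hmove : ∀ x ∈ R, x * p = p * x → (∀ v, p v = v → x v = v) →
      (h * x * h⁻¹) * p0P = p0P * (h * x * h⁻¹) ∧
        (∀ v, p0P v = v → (h * x * h⁻¹) v = v) := by
    intro x _ hc hf
    refine ⟨?_, fun v hv => ?_⟩
    · rw [← hconj, show h * x * h⁻¹ * (h * p * h⁻¹) = h * (x * p) * h⁻¹ by group, hc]
      group
    · have hv' : p (h⁻¹ v) = h⁻¹ v := by
        rw [← hconj, Equiv.Perm.mul_apply, Equiv.Perm.mul_apply] at hv
        exact Equiv.Perm.eq_inv_iff_eq.2 hv
      rw [Equiv.Perm.mul_apply, Equiv.Perm.mul_apply, hf _ hv']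
      exact Equiv.apply_symm_apply h v
  refine ⟨?_, fun g hgR hodd hc hf => ?_, fun b hbR hb2 hb1 hbl hc hf _ => ?_⟩
  · obtain ⟨-, -, hq, hlt, hfix⟩ := sqRoot_facts
    rw [Nat.blt_eq] at hlt
    refine ⟨h⁻¹ (vecN (eigBase.getD 0 0)), ?_, ?_⟩
    · have e : p0P (vecN (eigBase.getD 0 0)) = vecN (eigBase.getD 0 0) := by
        rw [rep_vec rep_p0P hlt, hfix]
      rw [← hconj, Equiv.Perm.mul_apply, Equiv.Perm.mul_apply] at e
      exact Equiv.Perm.eq_inv_iff_eq.2 e
    · rw [hhl.inv.2.2, Ne, ← qN_enc, enc_vecN hlt, hq]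
      exact Bool.false_ne_true
  · obtain ⟨m, hm⟩ := hodd
    have hgK : g ∈ K22 := mem_K22_of_odd hK hcR hcK hgR (hm ▸ pow_orderOf_eq_one g)
    obtain ⟨hc', hf'⟩ := hmove g hgR hc hf
    obtain ⟨h6, h3, -⟩ := fixing_cases (mul_mem (mul_mem hh hgK) (inv_mem hh)) hc' hf'
    have hg3 : g ^ 3 = 1 := by
      have hg6 : g ^ 6 = 1 := by
        rw [conj_pow, mul_inv_eq_one] at h6
        exact mul_eq_left.1 h6
      have hcop : Nat.Coprime (orderOf g) 2 :=
        Nat.coprime_two_right.2 ⟨m, hm⟩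
      have hdiv : orderOf g ∣ 3 :=
        hcop.dvd_of_dvd_mul_left (show orderOf g ∣ 2 * 3 from orderOf_dvd_of_pow_eq_one hg6)
      exact orderOf_dvd_iff_pow_eq_one.1 hdiv
    have hback : ∀ y : Equiv.Perm Vec, h * g * h⁻¹ = h * y * h⁻¹ → g = y := fun y e =>
      mul_left_cancel (mul_right_cancel e)
    rcases h3 (by rw [conj_pow, hg3, mul_one, mul_inv_cancel]) with e | e | e
    · rw [hback 1 (by rw [e, mul_one, mul_inv_cancel])]; exact one_mem _
    · rw [hback p (e.trans hconj.symm)]; exact Subgroup.mem_zpowers _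
    · rw [hback (p * p) (by rw [e, ← hconj]; group)]
      exact mul_mem (Subgroup.mem_zpowers _) (Subgroup.mem_zpowers _)
  · have hbK : b ∈ K22 := mem_K22_of_linear hK hg hcR hcK hbR hbl
    obtain ⟨hc', hf'⟩ := hmove b hbR hc hf
    obtain ⟨-, -, h2⟩ := fixing_cases (mul_mem (mul_mem hh hbK) (inv_mem hh)) hc' hf'
    have hb2' : b ^ 2 = 1 := by rw [pow_two, hb2]
    rcases h2 (by rw [conj_pow, hb2', mul_one, mul_inv_cancel]) with e | e
    · refine absurd ?_ hb1
      rw [mul_inv_eq_one] at e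
      exact mul_eq_left.1 e
    · have hr0 := rep_gP.1.mul (rep_word sqRootW)
      obtain ⟨hsq, hcm, -⟩ := sqRoot_facts
      have esq : gP * wPerm sqRootW * (gP * wPerm sqRootW) = h * b * h⁻¹ :=
        eq_of_norm (hr0.mul hr0) e hsq
      have ecm : gP * wPerm sqRootW * p0P = p0P * (gP * wPerm sqRootW) :=
        eq_of_norm (hr0.mul rep_p0P) (rep_p0P.mul hr0) hcm
      set r0 := gP * wPerm sqRootW with hr0def
      refine ⟨h⁻¹ * r0 * h, mul_mem (mul_mem (inv_mem (hK hh))
        (mul_mem hg (hK (word_mem _)))) (hK hh), ?_, ?_⟩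
      · rw [← hconj] at ecm
        calc h⁻¹ * r0 * h * p = h⁻¹ * (r0 * (h * p * h⁻¹)) * h := by group
          _ = h⁻¹ * ((h * p * h⁻¹) * r0) * h := by rw [ecm]
          _ = p * (h⁻¹ * r0 * h) := by group
      · calc h⁻¹ * r0 * h * (h⁻¹ * r0 * h) = h⁻¹ * (r0 * r0) * h := by group
          _ = h⁻¹ * (h * b * h⁻¹) * h := by rw [esq]
          _ = b := by group

theorem twoWit_ok : ((List.range 128).all fun i =>
    !(comp (pwL (twoEls.getD i []) 2) idL == idL) ||
      (Nat.blt (twoWit.getD i 0) 4096 &&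
        Nat.beq (apL (twoEls.getD i []) (twoWit.getD i 0)) (twoWit.getD i 0) &&
        !(qN (twoWit.getD i 0)))) = true := by decide +kernel

/-- An involution of the cover fixes an anisotropic vector. -/
theorem inv_fix_aniso {R : Subgroup (Equiv.Perm Vec)} (hK : K22 ≤ R) (hg : gP ∈ R)
    (hcR : Nat.card R = 2661120) (hcK : Nat.card K22 = 1330560) {b : Equiv.Perm Vec} (hb : b ∈ R)
    (hb2 : b * b = 1) (hsemi : IsSemi false b) : ∃ v, b v = v ∧ UnitF4.H v v ≠ 0 := by
  have hbK : b ∈ K22 := mem_K22_of_linear hK hg hcR hcK hb hsemi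
  have hb2' : b ^ 2 = 1 := by rw [pow_two, hb2]
  obtain ⟨h, hh, i, hi, hr⟩ := conj_into (q := 2) (n := 7) Nat.prime_two hcK fac_two two_ok.1
    (two_ok.2.trans (by norm_num)) hbK hb2'
  rw [two_ok.2] at hi
  have hc := List.all_eq_true.1 twoWit_ok i (List.mem_range.2 hi)
  have hsq : (h * b * h⁻¹) ^ 2 = 1 := by rw [conj_pow, hb2', mul_one, mul_inv_cancel]
  have e2 : comp (pwL (twoEls.getD i []) 2) idL = idL :=
    (norm_eq (rep_pow hr 2) (hsq ▸ Rep.one)).trans norm_idL
  rw [e2, beq_self_eq_true, Bool.not_true, Bool.false_or, Bool.and_eq_true, Bool.and_eq_true,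
    Nat.blt_eq, Bool.not_eq_true'] at hc
  obtain ⟨⟨hlt, hfix⟩, hq⟩ := hc
  refine ⟨h⁻¹ (vecN (twoWit.getD i 0)), ?_, ?_⟩
  · have e : (h * b * h⁻¹) (vecN (twoWit.getD i 0)) = vecN (twoWit.getD i 0) := by
      rw [rep_vec hr hlt, Nat.eq_of_beq_eq_true hfix]
    rw [Equiv.Perm.mul_apply, Equiv.Perm.mul_apply] at e
    exact Equiv.Perm.eq_inv_iff_eq.2 e
  · rw [(K22_linear hh).inv.2.2, Ne, ← qN_enc, enc_vecN hlt, hq]
    exact Bool.false_ne_true

end Cfsg.Agent.JFourType
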