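import Cfsg.Agent.JFourType.TMathieu
import Cfsg.Prelude.Def_Transfer
import Mathlib.GroupTheory.Nilpotent

/-!
The centralizer of an involution of an elementary abelian subgroup of order `2^11` which is not
conjugate to the central involution normalises that subgroup, provided this holds inside the
centralizers of the conjugates of the central involution in the subgroup.
-/

set_option autoImplicit false

namespace Cfsg.Agent.JFourType.TCent

open Cfsg
open Cfsg.Agent.LargeFischer
open scoped Pointwise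

variable {G : Type*} [Group G] [Finite G]

/-- An elementary abelian subgroup as a commutative group. -/
@[implicit_reducible]
def elGroup {V : Subgroup G} (hV : IsElementaryAbelian 2 V) : CommGroup ↥V :=
  { (inferInstance : Group ↥V) with mul_comm := hV.1.is_comm.comm }

/-- What is used about the elementary abelian subgroup. -/
structure Hyp (z : G) (V : Subgroup G) where
  el : IsElementaryAbelian 2 V
  D : @MatCode.Config ↥V (elGroup el)
  pairs : ∀ v : ↥V, v ∈ @MatCode.Config.pairs ↥V (elGroup el) D ↔ (v : G) ≠ 1 ∧ ¬ IsConj z (v : G)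
  cent : Subgroup.centralizer (V : Set G) ≤ V
  uniq : ∀ B ≤ Subgroup.normalizer (V : Set G), IsElementaryAbelian 2 B → Nat.card B = 2 ^ 11 → B = V
  loc : ∀ a ∈ V, IsConj z a → ∀ t ∈ V, t ≠ 1 → ¬ IsConj z t →
    Subgroup.centralizer ({a} : Set G) ⊓ Subgroup.centralizer ({t} : Set G) ≤
      Subgroup.normalizer (V : Set G)

namespace Hyp

variable {z : G} {V : Subgroup G} (H : Hyp z V)
include H

theorem comm {a b : G} (ha : a ∈ V) (hb : b ∈ V) : a * b = b * a :=
  congrArg Subtype.val (H.el.1.is_comm.comm ⟨a, ha⟩ ⟨b, hb⟩)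

theorem sq {a : G} (ha : a ∈ V) : a * a = 1 := by rw [← pow_two]; exact H.el.2 a ha

theorem card : Nat.card V = 2 ^ 11 :=
  letI := elGroup H.el
  H.D.card

/-- A subgroup without conjugates of the central involution is small. -/
theorem sub_le {C : Subgroup G} (hC : C ≤ V) (hno : ∀ x ∈ C, x ≠ 1 → ¬ IsConj z x) : Nat.card C ≤ 4 := by
  letI := elGroup H.el
  rw [← Nat.card_congr (Subgroup.subgroupOfEquivOfLe hC).toEquiv]
  exact sub_pairs_le H.D fun v hv hv1 =>
    (H.pairs v).2 ⟨fun e => hv1 (Subtype.ext e), hno _ (Subgroup.mem_subgroupOf.1 hv) fun e => hv1 (Subtype.ext e)⟩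

/-- The action through the Mathieu group. -/
theorem exists_phi : ∃ (e : Fin 24 ≃ GolayPt) (Φ : ↥(Subgroup.normalizer (V : Set G)) →* ↥Cfsg.M24),
    (∀ m : ↥(Subgroup.normalizer (V : Set G)), Φ m = 1 → (m : G) ∈ V) ∧
      ∀ (m : ↥(Subgroup.normalizer (V : Set G))) (i j : Fin 24), i ≠ j →
      (letI := elGroup H.el
      ((m : G) * ((H.D.f i * H.D.f j : ↥V) : G) * (m : G)⁻¹ = ((H.D.f i * H.D.f j : ↥V) : G)) ↔
        (Φ m : Equiv.Perm GolayPt) ∈
          MulAction.stabilizer (Equiv.Perm GolayPt) ({e i, e j} : Set GolayPt)) := by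
  letI := elGroup H.el
  let α : ↥(Subgroup.normalizer (V : Set G)) →* MulAut ↥V := V.normalizerMonoidHom
  have hact : ∀ (m : ↥(Subgroup.normalizer (V : Set G))) (v : ↥V),
      ((α m v : ↥V) : G) = (m : G) * v * (m : G)⁻¹ := fun m v => rfl
  obtain ⟨e, Φ, hker, hstab⟩ := H.D.exists_hom α (fun m v hv => by
    rw [H.pairs] at hv ⊢
    rw [hact]
    exact ⟨fun h => hv.1 (conj_eq_one_iff.1 h), fun h =>
      hv.2 (h.trans (isConj_iff.2 ⟨(m : G)⁻¹, by group⟩))⟩)
  refine ⟨e, Φ, fun m hm => H.cent (Subgroup.mem_centralizer_iff.2 fun v hv => ?_), fun m i j hij => ?_⟩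
  · have h1 : m ∈ α.ker := hker ▸ MonoidHom.mem_ker.2 hm
    have h2 : (m : G) * v * (m : G)⁻¹ = v :=
      (hact m ⟨v, hv⟩).symm.trans (by rw [MonoidHom.mem_ker.1 h1]; rfl)
    exact (mul_inv_eq_iff_eq_mul.1 h2).symm
  · rw [← hstab m i j hij, Subtype.ext_iff, hact]

omit H in
theorem pair_cases {g : Equiv.Perm GolayPt} {p q : GolayPt}
    (h : g ∈ MulAction.stabilizer (Equiv.Perm GolayPt) ({p, q} : Set GolayPt)) : g p = p ∨ g p = q := by
  have h1 : g • p ∈ g • ({p, q} : Set GolayPt) := Set.smul_mem_smul_set (Set.mem_insert _ _)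
  rw [MulAction.mem_stabilizer_iff.1 h] at h1
  simpa using h1

/-- A subgroup mapped to a small group is small. -/
theorem card_le {Φ : ↥(Subgroup.normalizer (V : Set G)) →* ↥Cfsg.M24}
    (hker : ∀ m, Φ m = 1 → (m : G) ∈ V) {U : Subgroup G} (hU : U ≤ Subgroup.normalizer (V : Set G))
    {n k : ℕ} (hk : Nat.card (U ⊓ V : Subgroup G) ≤ k)
    (hn : Nat.card ((Φ.comp (Subgroup.inclusion hU)).range.map Cfsg.M24.subtype) ≤ n) :
    Nat.card U ≤ k * n := by
  set f := Φ.comp (Subgroup.inclusion hU) with hf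
  rw [Subgroup.card_map_of_injective Cfsg.M24.subtype_injective] at hn
  rw [← f.ker.card_mul_index, Subgroup.index_ker]
  refine Nat.mul_le_mul (le_trans ?_ hk) hn
  exact Nat.card_le_card_of_injective
    (fun m : f.ker => (⟨((m : U) : G), (m : U).2, hker _ m.2⟩ : (U ⊓ V : Subgroup G)))
    fun a b e => Subtype.ext (Subtype.ext (congrArg (fun w : (U ⊓ V : Subgroup G) => (w : G)) e))

/-- Conjugates in the centralizer of `t` are fused in the normaliser only. -/
theorem mem_of_conj {t h a : G} (ht : t ∈ V) (ht1 : t ≠ 1) (htz : ¬ IsConj z t) (hX : Commute h t)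
    (ha : a ∈ V) (haz : IsConj z a) (hh : h * a * h⁻¹ ∈ V) :
    h ∈ Subgroup.normalizer (V : Set G) := by
  set b := h * a * h⁻¹ with hb
  have hbz : IsConj z b := haz.trans (isConj_iff.2 ⟨h, rfl⟩)
  have hle : V.map (MulAut.conj h).toMonoidHom ≤ Subgroup.normalizer (V : Set G) := by
    rintro _ ⟨v, hv, rfl⟩
    refine H.loc b hh hbz t ht ht1 htz ⟨Subgroup.mem_centralizer_singleton_iff.2 ?_,
      Subgroup.mem_centralizer_singleton_iff.2 ?_⟩
    · show h * v * h⁻¹ * b = b * (h * v * h⁻¹)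
      calc h * v * h⁻¹ * b = h * (v * a) * h⁻¹ := by rw [hb]; group
        _ = b * (h * v * h⁻¹) := by rw [H.comm hv ha, hb]; group
    · show h * v * h⁻¹ * t = t * (h * v * h⁻¹)
      calc h * v * h⁻¹ * t = h * (v * t) * h⁻¹ := by rw [mul_assoc, hX.inv_left.eq]; group
        _ = t * (h * v * h⁻¹) := by rw [H.comm hv ht, ← mul_assoc h, hX.eq]; group
  have hel : IsElementaryAbelian 2 (V.map (MulAut.conj h).toMonoidHom) := by
    refine ⟨⟨⟨fun u v => ?_⟩⟩, ?_⟩
    · obtain ⟨a1, ha1, hu⟩ := u.2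
      obtain ⟨b1, hb1, hv⟩ := v.2
      refine Subtype.ext ?_
      show (u : G) * v = v * u
      rw [← hu, ← hv, ← map_mul, ← map_mul, H.comm ha1 hb1]
    · rintro _ ⟨a1, ha1, rfl⟩
      rw [← map_pow, H.el.2 a1 ha1, map_one]
  rw [Subgroup.mem_normalizer_iff_map_conj_eq]
  exact H.uniq _ hle hel (by
    rw [Subgroup.card_map_of_injective (MulAut.conj h).injective, H.card])

/-- A conjugate of the subgroup meets the normaliser in at most 64 elements. -/
theorem meet_le {t h : G} (ht : t ∈ V) (ht1 : t ≠ 1) (htz : ¬ IsConj z t) (hX : Commute h t)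
    (hN : h ∉ Subgroup.normalizer (V : Set G)) :
    Nat.card (V.map (MulAut.conj h).toMonoidHom ⊓ Subgroup.normalizer (V : Set G) : Subgroup G) ≤ 64 := by
  classical
  letI := elGroup H.el
  obtain ⟨e, Φ, hker, hstab⟩ := H.exists_phi
  set W := (V.map (MulAut.conj h).toMonoidHom ⊓ Subgroup.normalizer (V : Set G) : Subgroup G) with hW
  set I := (W ⊓ V : Subgroup G) with hI
  have hWcomm : ∀ u ∈ W, ∀ d ∈ V.map (MulAut.conj h).toMonoidHom, u * d * u⁻¹ = d := by
    intro u hu d hd
    obtain ⟨v, hv, rfl⟩ := hu.1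
    obtain ⟨w, hw, rfl⟩ := hd
    rw [← map_mul, H.comm hv hw, map_mul, mul_inv_cancel_right]
  have htV' : t ∈ V.map (MulAut.conj h).toMonoidHom := ⟨t, ht, by
    show h * t * h⁻¹ = t
    rw [hX.eq, mul_inv_cancel_right]⟩
  have htI : t ∈ I := ⟨⟨htV', Subgroup.le_normalizer ht⟩, ht⟩
  have hIno : ∀ x ∈ I, x ≠ 1 → ¬ IsConj z x := by
    intro x hx _ hxz
    obtain ⟨v, hv, hve⟩ := hx.1.1
    have hve' : h * v * h⁻¹ = x := hve
    refine hN (H.mem_of_conj ht ht1 htz hX hv ?_ (hve' ▸ hx.2))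
    exact hxz.trans (isConj_iff.2 ⟨h⁻¹, by rw [← hve']; group⟩)
  have hI4 : Nat.card I ≤ 4 := H.sub_le inf_le_right hIno
  have hU : W ≤ Subgroup.normalizer (V : Set G) := inf_le_right
  set E := (Φ.comp (Subgroup.inclusion hU)).range.map Cfsg.M24.subtype with hE
  have hEM : E ≤ Cfsg.M24 := Subgroup.map_subtype_le _
  have hEsq : ∀ g ∈ E, g * g = 1 := by
    rintro _ ⟨_, ⟨u, rfl⟩, rfl⟩
    obtain ⟨v, hv, hve⟩ := u.2.1
    rw [← map_mul, ← map_mul]
    rw [show u * u = 1 from Subtype.ext (by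
      show (u : G) * u = 1
      rw [← hve, ← map_mul, H.sq hv, map_one]), map_one, map_one]
  obtain ⟨a, b, hab, habe⟩ := (H.pairs ⟨t, ht⟩).2 ⟨ht1, htz⟩
  have hfixpair : ∀ i j, i ≠ j → ((H.D.f i * H.D.f j : ↥V) : G) ∈ V.map (MulAut.conj h).toMonoidHom →
      ∀ g ∈ E, g ∈ MulAction.stabilizer (Equiv.Perm GolayPt) ({e i, e j} : Set GolayPt) := by
    rintro i j hij hmem _ ⟨_, ⟨u, rfl⟩, rfl⟩
    exact (hstab _ i j hij).1 (hWcomm _ u.2 _ hmem)
  have htab : ((H.D.f a * H.D.f b : ↥V) : G) = t := congrArg Subtype.val habe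
  have h32 : ∀ g ∈ E, g (e a) = e a ∨ g (e a) = e b := fun g hg =>
    pair_cases (hfixpair a b hab (by rw [htab]; exact htV') g hg)
  by_cases hI2 : Nat.card I ≤ 2
  · exact (H.card_le hker hU hI2 (card_le_thirty_two hEM hEsq h32)).trans (by norm_num)
  obtain ⟨d, hdI, hd1, hdt⟩ : ∃ d ∈ I, d ≠ 1 ∧ d ≠ t := by
    by_contra hall
    push Not at hall
    refine hI2 ?_
    rw [show Nat.card I = (I : Set G).ncard from Nat.card_coe_set_eq _]
    refine (Set.ncard_le_ncard (t := {1, t}) ?_ (Set.toFinite _)).trans (Set.ncard_pair ht1.symm).le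
    intro v hv
    by_cases h1 : v = 1
    · exact Or.inl h1
    · exact Or.inr (hall v hv h1)
  obtain ⟨c, c', hcc, hce⟩ := (H.pairs ⟨d, hdI.2⟩).2 ⟨hd1, hIno d hdI hd1⟩
  have hdcc : ((H.D.f c * H.D.f c' : ↥V) : G) = d := congrArg Subtype.val hce
  have htd : t * d ∈ I := mul_mem htI hdI
  have htd1 : t * d ≠ 1 := fun e' => hdt (by
    calc d = t * t * d := by rw [H.sq ht, one_mul]
      _ = t := by rw [mul_assoc, e', mul_one])
  obtain ⟨i, hi⟩ := H.D.meet hab hcc ((H.pairs _).2 (by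
    rw [Subgroup.coe_mul, htab, hdcc]
    exact ⟨htd1, hIno _ htd htd1⟩))
  have hfix : ∀ g ∈ E, g (e i) = e i := by
    intro g hg
    rw [Finset.mem_inter] at hi
    have hmaps : ∀ {x y : Fin 24}, i ∈ ({x, y} : Finset (Fin 24)) →
        g ∈ MulAction.stabilizer (Equiv.Perm GolayPt) ({e x, e y} : Set GolayPt) →
        e.symm (g (e i)) ∈ ({x, y} : Finset (Fin 24)) := by
      intro x y hx hgs
      have h1 : g • e i ∈ g • ({e x, e y} : Set GolayPt) := Set.smul_mem_smul_set (by
        simp only [Finset.mem_insert, Finset.mem_singleton] at hx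
        rcases hx with rfl | rfl <;> simp)
      rw [MulAction.mem_stabilizer_iff.1 hgs] at h1
      simp only [Set.mem_insert_iff, Set.mem_singleton_iff] at h1
      rcases h1 with h1 | h1 <;> rw [show g (e i) = g • e i from rfl, h1] <;> simp
    have h1 := hmaps hi.1 (hfixpair a b hab (by rw [htab]; exact htV') g hg)
    have h2 := hmaps hi.2 (hfixpair c c' hcc (by rw [hdcc]; exact hdI.1.1) g hg)
    by_contra hne
    have hji : e.symm (g (e i)) ≠ i := fun h' => hne (by rw [← Equiv.symm_apply_eq]; exact h')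
    have key : ∀ {x y : Fin 24}, x ≠ y → i ∈ ({x, y} : Finset (Fin 24)) →
        e.symm (g (e i)) ∈ ({x, y} : Finset (Fin 24)) →
        ({x, y} : Finset (Fin 24)) = {e.symm (g (e i)), i} := fun hxy hx hy =>
      (Finset.eq_of_subset_of_card_le (Finset.insert_subset hy (Finset.singleton_subset_iff.2 hx))
        (by rw [Finset.card_pair hji, Finset.card_pair hxy])).symm
    have hsame := (key hab hi.1 h1).trans (key hcc hi.2 h2).symm
    refine hdt ?_
    rw [← htab, ← hdcc, ← H.D.prod_pair hab, ← H.D.prod_pair hcc, hsame]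
  exact (H.card_le hker hU hI4 (card_le_sixteen hEM hEsq hfix)).trans (by norm_num)

/-- An involution normalising the subgroup centralises a large part of it. -/
theorem centralizer_large {b : G} (hb : b ∈ Subgroup.normalizer (V : Set G)) (hb2 : b * b = 1) :
    32 < Nat.card (V ⊓ Subgroup.centralizer ({b} : Set G) : Subgroup G) := by
  letI := elGroup H.el
  have hbi : b⁻¹ = b := inv_eq_of_mul_eq_one_right hb2
  let φ : MulAut ↥V := V.normalizerMonoidHom ⟨b, hb⟩
  have hφ : ∀ v : ↥V, ((φ v : ↥V) : G) = b * v * b⁻¹ := fun v => rfl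
  let ψ : ↥V →* ↥V := MonoidHom.mk' (fun v => v * φ v) fun v w => by
    rw [map_mul]; exact mul_mul_mul_comm _ _ _ _
  have hker : ∀ v : ↥V, v ∈ ψ.ker ↔ φ v = v := fun v => by
    rw [MonoidHom.mem_ker]
    show v * φ v = 1 ↔ _
    constructor
    · intro h
      calc φ v = v * v * φ v := by rw [H.D.sq, one_mul]
        _ = v := by rw [mul_assoc, h, mul_one]
    · intro h
      rw [h, H.D.sq]
  have hle : ψ.range ≤ ψ.ker := by
    rintro _ ⟨v, rfl⟩
    rw [hker]
    show φ (v * φ v) = v * φ v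
    rw [map_mul, show φ (φ v) = v from Subtype.ext (by
      rw [hφ, hφ, hbi, show b * (b * (v : G) * b) * b = (b * b) * v * (b * b) by group, hb2, one_mul,
        mul_one]), mul_comm]
  have h1 := ψ.ker.card_mul_index
  rw [Subgroup.index_ker, H.card] at h1
  have h2 : Nat.card ψ.ker ≤ Nat.card (V ⊓ Subgroup.centralizer ({b} : Set G) : Subgroup G) :=
    Nat.card_le_card_of_injective
      (fun v : ψ.ker => (⟨((v : ↥V) : G), (v : ↥V).2, Subgroup.mem_centralizer_singleton_iff.2 (by
        have h3 : b * ((v : ↥V) : G) * b⁻¹ = (v : ↥V) := congrArg Subtype.val ((hker _).1 v.2)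
        exact (mul_inv_eq_iff_eq_mul.1 h3).symm)⟩ : (V ⊓ Subgroup.centralizer ({b} : Set G) : Subgroup G)))
      fun x y e => Subtype.ext (Subtype.ext
        (congrArg (fun w : (V ⊓ Subgroup.centralizer ({b} : Set G) : Subgroup G) => (w : G)) e))
  have h3 := Subgroup.card_le_of_le hle
  by_contra hlt
  push Not at hlt
  have : Nat.card ψ.ker * Nat.card ψ.range ≤ 32 * 32 :=
    Nat.mul_le_mul (h2.trans hlt) (h3.trans (h2.trans hlt))
  omega

/-- A conjugate of a central involution of the subgroup outside it is outside the normaliser. -/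
theorem not_mem_normalizer {t h a : G} (ht : t ∈ V) (ht1 : t ≠ 1) (htz : ¬ IsConj z t)
    (hX : Commute h t) (hN : h ∉ Subgroup.normalizer (V : Set G)) (ha : a ∈ V) (haz : IsConj z a) :
    h * a * h⁻¹ ∉ Subgroup.normalizer (V : Set G) := by
  classical
  intro hx
  letI := elGroup H.el
  obtain ⟨e, Φ, hker, hstab⟩ := H.exists_phi
  set x := h * a * h⁻¹ with hxdef
  have hxt : Commute x t := (hX.mul_left (H.comm ha ht)).mul_left hX.inv_left
  have hx2 : x * x = 1 := by
    rw [hxdef, show h * a * h⁻¹ * (h * a * h⁻¹) = h * (a * a) * h⁻¹ by group, H.sq ha, mul_one,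
      mul_inv_cancel]
  obtain ⟨a', ⟨ha', ha'x⟩, ha'z⟩ : ∃ a' ∈ (V ⊓ Subgroup.centralizer ({x} : Set G) : Subgroup G),
      IsConj z a' := by
    by_contra hall
    push Not at hall
    have h1 := H.sub_le (C := V ⊓ Subgroup.centralizer ({x} : Set G)) inf_le_left (fun y hy _ => hall y hy)
    have h2 := H.centralizer_large hx hx2
    omega
  have hxa' : Commute a' x := Subgroup.mem_centralizer_singleton_iff.1 ha'x
  -- the involution carried back
  set b := h⁻¹ * a' * h with hb
  have hbN : b ∈ Subgroup.normalizer (V : Set G) := by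
    refine H.loc a ha haz t ht ht1 htz ⟨Subgroup.mem_centralizer_singleton_iff.2 ?_,
      Subgroup.mem_centralizer_singleton_iff.2 ?_⟩
    · calc b * a = h⁻¹ * (a' * x) * h := by rw [hb, hxdef]; group
        _ = a * b := by rw [hxa'.eq, hb, hxdef]; group
    · exact ((hX.inv_left.mul_left (H.comm ha' ht)).mul_left hX).eq
  have hb2 : b * b = 1 := by
    rw [hb, show h⁻¹ * a' * h * (h⁻¹ * a' * h) = h⁻¹ * (a' * a') * h by group, H.sq ha', mul_one,
      inv_mul_cancel]
  set W := (V.map (MulAut.conj h).toMonoidHom ⊓ Subgroup.normalizer (V : Set G) : Subgroup G) with hW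
  have hWbig : 32 < Nat.card W := by
    refine (H.centralizer_large hbN hb2).trans_le ?_
    rw [← Subgroup.card_map_of_injective (K := (V ⊓ Subgroup.centralizer ({b} : Set G) : Subgroup G))
      (f := (MulAut.conj h).toMonoidHom) (MulAut.conj h).injective]
    refine Subgroup.card_le_of_le ?_
    rintro _ ⟨v, ⟨hv, hvb⟩, rfl⟩
    refine ⟨⟨v, hv, rfl⟩, H.loc a' ha' ha'z t ht ht1 htz ⟨Subgroup.mem_centralizer_singleton_iff.2 ?_,
      Subgroup.mem_centralizer_singleton_iff.2 ?_⟩⟩
    · have hvb' : v * b = b * v := Subgroup.mem_centralizer_singleton_iff.1 hvb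
      show h * v * h⁻¹ * a' = a' * (h * v * h⁻¹)
      calc h * v * h⁻¹ * a' = h * (v * b) * h⁻¹ := by rw [hb]; group
        _ = a' * (h * v * h⁻¹) := by rw [hvb', hb]; group
    · exact ((hX.mul_left (H.comm hv ht)).mul_left hX.inv_left).eq
  -- the elements fixing one of the two points
  obtain ⟨i, j, hij, hije⟩ := (H.pairs ⟨t, ht⟩).2 ⟨ht1, htz⟩
  have htij : ((H.D.f i * H.D.f j : ↥V) : G) = t := congrArg Subtype.val hije
  let Fx : Subgroup G := ((MulAction.stabilizer (Equiv.Perm GolayPt) (e i)).comap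
    (Cfsg.M24.subtype.comp Φ)).map (Subgroup.normalizer (V : Set G)).subtype
  set U0 := (W ⊓ Fx : Subgroup G) with hU0
  have hmv : ∀ m : ↥(Subgroup.normalizer (V : Set G)), (m : G) ∈ W →
      (Φ m : Equiv.Perm GolayPt) (e i) = e i ∨ (Φ m : Equiv.Perm GolayPt) (e i) = e j := by
    intro m hm
    refine pair_cases ((hstab m i j hij).1 ?_)
    obtain ⟨v, hv, hve⟩ := hm.1
    show (m : G) * _ * (m : G)⁻¹ = _
    rw [htij, ← hve]
    exact mul_inv_eq_iff_eq_mul.2 ((hX.mul_left (H.comm hv ht)).mul_left hX.inv_left).eq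
  have hU0big : Nat.card W ≤ 2 * Nat.card U0 := by
    by_cases hall : W ≤ Fx
    · rw [hU0, inf_eq_left.2 hall]; omega
    obtain ⟨s, hsW, hsF⟩ := SetLike.not_le_iff_exists.1 hall
    have hsub : (W : Set G) ⊆ (U0 : Set G) ∪ (fun g => s * g) '' (U0 : Set G) := by
      intro g hg
      rcases hmv ⟨g, hg.2⟩ hg with e' | e'
      · exact Or.inl ⟨hg, ⟨g, hg.2⟩, e', rfl⟩
      · refine Or.inr ⟨s⁻¹ * g, ⟨W.mul_mem (W.inv_mem hsW) hg,
          ⟨(⟨s, hsW.2⟩ : ↥(Subgroup.normalizer (V : Set G)))⁻¹ * ⟨g, hg.2⟩, ?_, rfl⟩⟩,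
          mul_inv_cancel_left _ _⟩
        show (Φ _ : Equiv.Perm GolayPt) (e i) = e i
        rw [map_mul, map_inv, Subgroup.coe_mul, Subgroup.coe_inv, Equiv.Perm.mul_apply, e',
          Equiv.Perm.inv_eq_iff_eq]
        exact ((hmv ⟨s, hsW.2⟩ hsW).resolve_left fun h' => hsF ⟨⟨s, hsW.2⟩, h', rfl⟩).symm
    have h1 := (Set.ncard_le_ncard hsub (Set.toFinite _)).trans (Set.ncard_union_le _ _)
    rw [Set.ncard_image_of_injective _ (mul_right_injective s), ← Nat.card_coe_set_eq,
      ← Nat.card_coe_set_eq] at h1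
    change Nat.card W ≤ Nat.card U0 + Nat.card U0 at h1
    omega
  obtain ⟨y, hyU, hyz⟩ : ∃ y ∈ U0, IsConj z y := by
    by_contra hall
    push Not at hall
    have hle : U0.map (MulAut.conj h⁻¹).toMonoidHom ≤ V := by
      rintro _ ⟨y, hy, rfl⟩
      obtain ⟨v, hv, rfl⟩ := hy.1.1
      show h⁻¹ * (h * v * h⁻¹) * h⁻¹⁻¹ ∈ V
      rw [show h⁻¹ * (h * v * h⁻¹) * h⁻¹⁻¹ = v by group]
      exact hv
    have h1 := H.sub_le hle (by
      rintro _ ⟨y, hy, rfl⟩ _ hyz'
      exact hall y hy (hyz'.trans (isConj_iff.2 ⟨h, by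
        show h * (h⁻¹ * y * h⁻¹⁻¹) * h⁻¹ = y
        group⟩)))
    rw [Subgroup.card_map_of_injective (MulAut.conj h⁻¹).injective] at h1
    omega
  obtain ⟨v, hv, hve⟩ := hyU.1.1
  have hvy : h * v * h⁻¹ = y := hve
  have hvz : IsConj z v := hyz.trans (isConj_iff.2 ⟨h⁻¹, by rw [← hvy]; group⟩)
  have hyV : y ∉ V := fun hy => hN (H.mem_of_conj ht ht1 htz hX hv hvz (hvy ▸ hy))
  obtain ⟨m, hm, hmy⟩ := hyU.2
  have hmy' : (m : G) = y := hmy
  set g : Equiv.Perm GolayPt := (Φ m : Equiv.Perm GolayPt) with hg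
  have hg2 : g * g = 1 := by
    rw [hg, ← Subgroup.coe_mul, ← map_mul, show m * m = 1 from Subtype.ext (by
      show (m : G) * m = 1
      rw [hmy', ← hvy, show h * v * h⁻¹ * (h * v * h⁻¹) = h * (v * v) * h⁻¹ by group, H.sq hv, mul_one,
        mul_inv_cancel]), map_one]
    rfl
  have hg1 : g ≠ 1 := fun e' => hyV (hmy' ▸ hker m (Subtype.ext e'))
  have hfix := card_fix_eight (Φ m).2 hg2 hg1 (p := e i) hm
  let σ : Equiv.Perm (Fin 24) := (e.trans g).trans e.symm
  have hσ : ∀ k, e (σ k) = g (e k) := fun k => e.apply_symm_apply _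
  have hσ2 : ∀ k, σ (σ k) = k := fun k => e.injective (by
    rw [hσ, hσ, ← Equiv.Perm.mul_apply, hg2, Equiv.Perm.one_apply])
  have hσ8 : (Finset.univ.filter fun k => σ k = k).card = 8 := by
    rw [← hfix]
    refine Finset.card_equiv e fun k => ?_
    simp only [Finset.mem_filter, Finset.mem_univ, true_and]
    exact ⟨fun h' => by rw [← hσ, h'], fun h' => e.injective (by rw [hσ, h'])⟩
  have hbig := fixed_pairs_card H.D hσ2 hσ8 (C := (Subgroup.centralizer ({y} : Set G)).subgroupOf V)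
    (fun k l hkl hcase => by
      rw [Subgroup.mem_subgroupOf, Subgroup.mem_centralizer_singleton_iff]
      have hst : g ∈ MulAction.stabilizer (Equiv.Perm GolayPt) ({e k, e l} : Set GolayPt) := by
        rw [MulAction.mem_stabilizer_iff, ← Set.image_smul, Set.image_pair]
        show ({g (e k), g (e l)} : Set GolayPt) = {e k, e l}
        rw [← hσ, ← hσ]
        rcases hcase with ⟨h1, h2⟩ | h1
        · rw [h1, h2]
        · rw [h1, show σ l = k by rw [← h1, hσ2]]
          exact Set.pair_comm _ _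
      have h1 := (hstab m k l hkl).2 hst
      rw [hmy'] at h1
      exact (mul_inv_eq_iff_eq_mul.1 h1).symm)
  have hX' : Commute h⁻¹ t := hX.inv_left
  have hN' : h⁻¹ ∉ Subgroup.normalizer (V : Set G) := fun h' => hN (by simpa using inv_mem h')
  have hsmall := H.meet_le ht ht1 htz hX' hN'
  have hle : Nat.card ((Subgroup.centralizer ({y} : Set G)).subgroupOf V) ≤
      Nat.card (V.map (MulAut.conj h⁻¹).toMonoidHom ⊓ Subgroup.normalizer (V : Set G) : Subgroup G) := by
    refine Nat.card_le_card_of_injective (fun w => (⟨h⁻¹ * ((w : ↥V) : G) * h⁻¹⁻¹,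
      ⟨(w : ↥V), (w : ↥V).2, rfl⟩, H.loc v hv hvz t ht ht1 htz
        ⟨Subgroup.mem_centralizer_singleton_iff.2 ?_, Subgroup.mem_centralizer_singleton_iff.2 ?_⟩⟩ :
      (V.map (MulAut.conj h⁻¹).toMonoidHom ⊓ Subgroup.normalizer (V : Set G) : Subgroup G))) ?_
    · have hwy : ((w : ↥V) : G) * y = y * (w : ↥V) :=
        Subgroup.mem_centralizer_singleton_iff.1 (Subgroup.mem_subgroupOf.1 w.2)
      have e1 : h⁻¹ * y = v * h⁻¹ := (congrArg (h⁻¹ * ·) hvy.symm).trans (by group)
      have e2 : y * h = h * v := (congrArg (· * h) hvy.symm).trans (by group)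
      calc h⁻¹ * ((w : ↥V) : G) * h⁻¹⁻¹ * v = h⁻¹ * ((w : ↥V) : G) * (h * v) := by group
        _ = h⁻¹ * (((w : ↥V) : G) * y) * h := by rw [← e2]; group
        _ = h⁻¹ * y * ((w : ↥V) : G) * h := by rw [hwy]; group
        _ = v * (h⁻¹ * ((w : ↥V) : G) * h⁻¹⁻¹) := by rw [e1]; group
    · exact ((hX'.mul_left (H.comm (w : ↥V).2 ht)).mul_left hX'.inv_left).eq
    · intro w w' e'
      exact Subtype.ext (Subtype.ext ((MulAut.conj h⁻¹).injective
        (congrArg (fun u : (V.map (MulAut.conj h⁻¹).toMonoidHom ⊓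
          Subgroup.normalizer (V : Set G) : Subgroup G) => (u : G)) e')))
  omega

/-- A 2-subgroup of the centralizer of `t` containing a conjugate of the central involution. -/
theorem two_le {t a : G} (ht : t ∈ V) (ht1 : t ≠ 1) (htz : ¬ IsConj z t) {T : Subgroup G}
    (hT : IsPGroup 2 T) (hTt : ∀ x ∈ T, Commute x t) (haT : a ∈ T) (ha : a ∈ V) (haz : IsConj z a) :
    T ≤ Subgroup.normalizer (V : Set G) := by
  haveI : Fact (Nat.Prime 2) := ⟨Nat.prime_two⟩
  haveI : Group.IsNilpotent ↥T := hT.isNilpotent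
  rw [← Subgroup.subgroupOf_eq_top]
  by_contra hne
  obtain ⟨n, hn, hnT⟩ := SetLike.exists_of_lt
    (Group.normalizerCondition_of_isNilpotent _ (lt_top_iff_ne_top.2 hne))
  have h1 := (Subgroup.mem_normalizer_iff.1 hn ⟨a, haT⟩).1 (Subgroup.mem_subgroupOf.2 (Subgroup.le_normalizer ha))
  rw [Subgroup.mem_subgroupOf] at h1
  refine H.not_mem_normalizer ht ht1 htz (hTt n n.2) (fun h2 => hnT (Subgroup.mem_subgroupOf.2 h2)) ha haz h1

/-- **The centralizer of an involution not conjugate to the central one normalises the subgroup.** -/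
theorem centralizer_le {t : G} (ht : t ∈ V) (ht1 : t ≠ 1) (htz : ¬ IsConj z t) :
    Subgroup.centralizer ({t} : Set G) ≤ Subgroup.normalizer (V : Set G) := by
  classical
  letI := elGroup H.el
  intro h hh
  by_contra hN
  have hX : Commute h t := Subgroup.mem_centralizer_singleton_iff.1 hh
  haveI : Fact (Nat.Prime 2) := ⟨Nat.prime_two⟩
  -- a conjugate of the central involution whose product with `t` is no conjugate
  obtain ⟨i, j, hij, hije⟩ := (H.pairs ⟨t, ht⟩).2 ⟨ht1, htz⟩
  obtain ⟨k, l, hkl, hki, hkj, hli, hlj⟩ : ∃ k l : Fin 24, k ≠ l ∧ k ≠ i ∧ k ≠ j ∧ l ≠ i ∧ l ≠ j := by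
    have h2 : 2 ≤ (Finset.univ \ ({i, j} : Finset (Fin 24))).card := by
      rw [Finset.card_sdiff, Finset.inter_univ, Finset.card_pair hij, Finset.card_univ, Fintype.card_fin]
      norm_num
    obtain ⟨k, hk, l, hl, hkl⟩ := Finset.one_lt_card.1 h2
    simp only [Finset.mem_sdiff, Finset.mem_univ, true_and, Finset.mem_insert, Finset.mem_singleton, not_or] at hk hl
    exact ⟨k, l, hkl, hk.1, hk.2, hl.1, hl.2⟩
  set p : ↥V := H.D.f k * H.D.f l with hp
  set b : G := t * p with hb
  have hbV : b ∈ V := mul_mem ht p.2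
  obtain ⟨hp1, hpz⟩ := (H.pairs p).1 ⟨k, l, hkl, rfl⟩
  have hnotpair : ¬ ((⟨t, ht⟩ : ↥V) * p ∈ H.D.pairs) := fun hmem => by
    obtain ⟨q, hq⟩ := H.D.meet hij hkl (by rw [hije]; exact hmem)
    simp only [Finset.mem_inter, Finset.mem_insert, Finset.mem_singleton] at hq
    rcases hq with ⟨rfl | rfl, rfl | rfl⟩
    · exact hki rfl
    · exact hli rfl
    · exact hkj rfl
    · exact hlj rfl
  have hb1 : b ≠ 1 := fun e => by
    have hpt : p = ⟨t, ht⟩ := Subtype.ext (by
      calc (p : G) = t * t * p := by rw [H.sq ht, one_mul]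
        _ = t := by rw [mul_assoc, ← hb, e, mul_one])
    have h2 := H.D.pair_inj hkl hij (hpt.trans hije.symm)
    have : k ∈ ({i, j} : Finset (Fin 24)) := h2 ▸ Finset.mem_insert_self _ _
    simp only [Finset.mem_insert, Finset.mem_singleton] at this
    exact this.elim hki hkj
  have hbz : IsConj z b := by
    by_contra h'
    exact hnotpair ((H.pairs _).2 ⟨hb1, h'⟩)
  have hbt : ¬ IsConj z (b * t) := by
    rw [hb, H.comm ht p.2, mul_assoc, H.sq ht, mul_one]
    exact hpz
  -- the centralised part of the subgroup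
  set c := h * b * h⁻¹ with hc
  have hct : Commute c t := (hX.mul_left (H.comm hbV ht)).mul_left hX.inv_left
  have hcN : c ∉ Subgroup.normalizer (V : Set G) := H.not_mem_normalizer ht ht1 htz hX hN hbV hbz
  set C := (V ⊓ Subgroup.centralizer ({c} : Set G) : Subgroup G) with hC
  have hC4 : Nat.card C ≤ 4 := H.sub_le inf_le_left fun a ha _ haz => hcN (H.loc a ha.1 haz t ht ht1 htz
    ⟨Subgroup.mem_centralizer_singleton_iff.2 (Subgroup.mem_centralizer_singleton_iff.1 ha.2).symm,
      Subgroup.mem_centralizer_singleton_iff.2 hct.eq⟩)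
  have htC : t ∈ C := ⟨ht, Subgroup.mem_centralizer_singleton_iff.2 hct.symm.eq⟩
  set O1 := {a : G | a ∈ V ∧ IsConj z a ∧ IsConj z (a * t)} with hO1
  set O2 := {a : G | a ∈ V ∧ IsConj z a ∧ ¬ IsConj z (a * t)} with hO2
  set PG := {a : G | a ∈ V ∧ a ≠ 1 ∧ ¬ IsConj z a} with hPG
  -- every element of the first kind gives one of the second
  have hsub : O1 ⊆ (fun q : G × G => q.1 * q.2) '' (((C : Set G) \ {1, t}) ×ˢ O2) := by
    rintro a ⟨ha, haz, hat⟩
    set w := a * c with hw
    obtain ⟨s, m, ⟨q, rfl⟩, hord⟩ := Nat.exists_eq_two_pow_mul_odd (n := orderOf w) (orderOf_pos w).ne'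
    set u := w ^ (q + 1) with hu
    set v := w ^ (2 * q + 1) with hv
    have ha2 := H.sq ha
    have hai : a⁻¹ = a := inv_eq_of_mul_eq_one_right ha2
    have hc2 : c * c = 1 := by
      rw [hc, show h * b * h⁻¹ * (h * b * h⁻¹) = h * (b * b) * h⁻¹ by group, H.sq hbV, mul_one,
        mul_inv_cancel]
    have hci : c⁻¹ = c := inv_eq_of_mul_eq_one_right hc2
    have hwinv : w⁻¹ = c * a := by rw [hw, mul_inv_rev, hai, hci]
    have hcw : c * w * c⁻¹ = w⁻¹ := by
      rw [hwinv, hw, hci, show c * (a * c) * c = c * a * (c * c) by group, hc2, mul_one]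
    have haw : a * w * a⁻¹ = w⁻¹ := by
      rw [hwinv, hw, hai, show a * (a * c) * a = a * a * (c * a) by group, ha2, one_mul]
    set c' := u * c * u⁻¹ with hc'
    have hc'e : c' = u * u * c := by
      have e1 : c * u * c⁻¹ = u⁻¹ := by rw [hu, ← conj_pow, hcw, inv_pow]
      calc c' = u * (c * u⁻¹ * c⁻¹) * c := by rw [hc']; group
        _ = u * u * c := by rw [show c * u⁻¹ * c⁻¹ = (c * u * c⁻¹)⁻¹ by group, e1, inv_inv]
    have hac' : a * c' = v⁻¹ := by
      have e1 : a * (u * u) * a⁻¹ = (u * u)⁻¹ := by rw [hu, ← pow_add, ← conj_pow, haw, inv_pow]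
      calc a * c' = (a * (u * u) * a⁻¹) * w := by rw [hc'e, hw]; group
        _ = v⁻¹ := by
          have e2 : u * u = w * v := by
            rw [hu, hv, ← pow_add, ← pow_succ']
            congr 1
            ring
          rw [e1, e2, mul_inv_rev, inv_mul_cancel_right]
    set T := Subgroup.zpowers v ⊔ Subgroup.zpowers a with hT
    have hTp : IsPGroup 2 T := by
      have hp1 : IsPGroup 2 (Subgroup.zpowers v) := by
        refine IsPGroup.of_card_dvd_pow (n := s) ?_
        rw [Nat.card_zpowers]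
        refine orderOf_dvd_of_pow_eq_one ?_
        rw [hv, ← pow_mul, mul_comm, ← hord, pow_orderOf_eq_one]
      have hp2 : IsPGroup 2 (Subgroup.zpowers a) := by
        refine IsPGroup.of_card_dvd_pow (n := 1) ?_
        rw [Nat.card_zpowers, pow_one]
        exact orderOf_dvd_of_pow_eq_one (by rw [pow_two, ha2])
      refine hp1.to_sup_of_normal_left' hp2 ?_
      rw [Subgroup.zpowers_le, Subgroup.mem_normalizer_iff_map_conj_eq, MonoidHom.map_zpowers]
      show Subgroup.zpowers (a * v * a⁻¹) = _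
      rw [hv, ← conj_pow, haw, inv_pow, Subgroup.zpowers_inv]
    have hwt : Commute w t := Commute.mul_left (H.comm ha ht) hct
    have hTt : ∀ x ∈ T, Commute x t := fun x hx => by
      have : T ≤ Subgroup.centralizer ({t} : Set G) := sup_le
        (Subgroup.zpowers_le.2 (Subgroup.mem_centralizer_singleton_iff.2 (hwt.pow_left _).eq))
        (Subgroup.zpowers_le.2 (Subgroup.mem_centralizer_singleton_iff.2 (H.comm ha ht)))
      exact Subgroup.mem_centralizer_singleton_iff.1 (this hx)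
    have hTN := H.two_le ht ht1 htz hTp hTt (Subgroup.mem_sup_right (Subgroup.mem_zpowers a)) ha haz
    have hc'T : c' ∈ T := by
      rw [show c' = a * (a * c') by rw [← mul_assoc, ha2, one_mul], hac']
      exact mul_mem (Subgroup.mem_sup_right (Subgroup.mem_zpowers a))
        (inv_mem (Subgroup.mem_sup_left (Subgroup.mem_zpowers v)))
    have hc'g : c' = (u * h) * b * (u * h)⁻¹ := by rw [hc', hc]; group
    have hgX : Commute (u * h) t := (hwt.pow_left _).mul_left hX
    have hgN : u * h ∈ Subgroup.normalizer (V : Set G) := by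
      by_contra h'
      exact H.not_mem_normalizer ht ht1 htz hgX h' hbV hbz (hc'g ▸ hTN hc'T)
    have hc'V : c' ∈ V := hc'g ▸ (Subgroup.mem_normalizer_iff.1 hgN b).1 hbV
    have hc'z : IsConj z c' := hc'g ▸ hbz.trans (isConj_iff.2 ⟨u * h, rfl⟩)
    have hc't : ¬ IsConj z (c' * t) := fun h' => hbt (h'.trans (isConj_iff.2 ⟨(u * h)⁻¹, by
      rw [hc'g, show (u * h)⁻¹ * (u * h * b * (u * h)⁻¹ * t) * (u * h)⁻¹⁻¹ =
        b * ((u * h)⁻¹ * (t * (u * h))) by group, ← hgX.eq, ← mul_assoc (u * h)⁻¹,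
        inv_mul_cancel, one_mul]⟩))
    refine ⟨(a * c', c'), ⟨⟨⟨mul_mem ha hc'V, ?_⟩, ?_⟩, hc'V, hc'z, hc't⟩, ?_⟩
    · refine Subgroup.mem_centralizer_singleton_iff.2 ?_
      have h1 : Commute (a * c') a := H.comm (mul_mem ha hc'V) ha
      have h2 : Commute (a * c') w := by rw [hac']; exact ((Commute.refl w).pow_left _).inv_left
      have h3 : Commute (a * c') (a * w) := h1.mul_right h2
      rw [show a * w = c by rw [hw, ← mul_assoc, ha2, one_mul]] at h3
      exact h3.eq
    · simp only [Set.mem_insert_iff, Set.mem_singleton_iff, not_or]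
      constructor
      · intro e
        refine hc't ?_
        rw [show c' = a from (inv_eq_of_mul_eq_one_right e).symm.trans hai]
        exact hat
      · intro e
        refine hc't ?_
        have e2 : c' = a * t := by
          calc c' = a * a * c' := by rw [ha2, one_mul]
            _ = a * t := by rw [mul_assoc, e]
        rw [e2, mul_assoc, H.sq ht, mul_one]
        exact haz
    · show a * c' * c' = a
      rw [mul_assoc, H.sq hc'V, mul_one]
  -- counting
  have hPG276 : PG.ncard ≤ 276 := by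
    have hsub' : PG ⊆ ((fun S : Finset (Fin 24) => ((H.D.prod S : ↥V) : G)) ''
        ((Finset.univ.powersetCard 2 : Finset (Finset (Fin 24))) : Set (Finset (Fin 24)))) := by
      rintro a ⟨ha, ha1, haz⟩
      obtain ⟨S, hS, hSe⟩ := pair_set H.D ((H.pairs ⟨a, ha⟩).2 ⟨ha1, haz⟩)
      exact ⟨S, Finset.mem_powersetCard.2 ⟨Finset.subset_univ _, hS⟩, congrArg Subtype.val hSe⟩
    refine (Set.ncard_le_ncard hsub' (Set.toFinite _)).trans ((Set.ncard_image_le (Set.toFinite _)).trans ?_)
    rw [Set.ncard_coe_finset, Finset.card_powersetCard, Finset.card_univ, Fintype.card_fin]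
    decide
  have hO2le : O2.ncard ≤ PG.ncard := by
    refine Set.ncard_le_ncard_of_injOn (fun a => a * t) ?_ (fun a _ b _ e => mul_right_cancel e) (Set.toFinite _)
    rintro a ⟨ha, haz, hat⟩
    refine ⟨mul_mem ha ht, fun e => htz ?_, hat⟩
    rw [show t = a by
      calc t = a * a * t := by rw [H.sq ha, one_mul]
        _ = a := by rw [mul_assoc, e, mul_one]]
    exact haz
  have hO1le : O1.ncard ≤ ((C : Set G) \ {1, t}).ncard * O2.ncard := by
    refine (Set.ncard_le_ncard hsub (Set.toFinite _)).trans ((Set.ncard_image_le (Set.toFinite _)).trans ?_)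
    rw [Set.ncard_prod]
  have hCd : ((C : Set G) \ {1, t}).ncard ≤ 2 := by
    rw [Set.ncard_sdiff (by
      intro x hx
      rcases hx with rfl | rfl
      · exact C.one_mem
      · exact htC), Set.ncard_pair ht1.symm, ← Nat.card_coe_set_eq]
    change Nat.card C - 2 ≤ 2
    omega
  have hall : (V : Set G) ⊆ insert 1 (PG ∪ (O1 ∪ O2)) := by
    intro a ha
    by_cases h1 : a = 1
    · exact Or.inl h1
    by_cases h2 : IsConj z a
    · by_cases h3 : IsConj z (a * t)
      · exact Or.inr (Or.inr (Or.inl ⟨ha, h2, h3⟩))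
      · exact Or.inr (Or.inr (Or.inr ⟨ha, h2, h3⟩))
    · exact Or.inr (Or.inl ⟨ha, h1, h2⟩)
  have htot := (Set.ncard_le_ncard hall (Set.toFinite _)).trans
    ((Set.ncard_insert_le _ _).trans (Nat.succ_le_succ ((Set.ncard_union_le _ _).trans
      (Nat.add_le_add_left (Set.ncard_union_le _ _) _))))
  rw [← Nat.card_coe_set_eq] at htot
  change Nat.card V ≤ _ at htot
  rw [H.card] at htot
  have := Nat.mul_le_mul hCd (hO2le.trans hPG276)
  omega

end Hyp

end Cfsg.Agent.JFourType.TCent
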