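import Cfsg.Agent.JFourType.Cover
import Cfsg.Agent.JFourType.GroupData

/-!
The order of the triple cover and its normaliser among the semilinear isometries.
-/

set_option autoImplicit false
set_option maxRecDepth 100000

namespace Cfsg.Agent.JFourType

open Cfsg.Agent.GFour25 Cfsg.Agent.CosetCert
open Cfsg.Agent.SporB.FischerU (Vec vecN enc vecN_enc enc_lt)
open Cfsg.Agent.LargeFischer (IsSemi semiU twist)
open Cfsg.Agent.LargeFischer.Thompson
open Cfsg.Agent.TTClass
open Data

/-- The product of the listed generators with the given numbers. -/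
noncomputable def selL (gens : List (List ℕ)) (ix : List ℕ) : List ℕ :=
  (ix.map fun k => wImg (gens.getD k [])).foldr comp idL

/-- The check of a listed subgroup. -/
noncomputable def groupOK (gens els idx : List (List ℕ)) : Bool :=
  Nat.beq idx.length els.length && (els.getD 0 [] == idL) &&
    ((List.range els.length).all fun i =>
      ((els.getD i []) == selL gens (idx.getD i [])) && (idx.getD i []).all (Nat.blt · gens.length) &&
        (comp (els.getD i []) idL == els.getD i []) &&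
        (List.range i).all fun j => !(els.getD i [] == els.getD j [])) &&
    els.all fun g => (List.range gens.length).all fun k => els.contains (comp g (wImg (gens.getD k [])))

/-- A listed subgroup of the cover has order its length. -/
theorem dvd_of_groupOK {gens els idx : List (List ℕ)} (h : groupOK gens els idx = true) :
    els.length ∣ Nat.card K22 := by
  classical
  simp only [groupOK, Bool.and_eq_true, beq_iff_eq, List.all_eq_true, List.contains_iff_mem,
    List.mem_range, Bool.not_eq_true', beq_eq_false_iff_ne, Nat.blt_eq] at h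
  obtain ⟨⟨⟨-, h0⟩, hel⟩, hcl⟩ := h
  let S : Set (Equiv.Perm Vec) := {x | ∃ k < gens.length, x = wPerm (gens.getD k [])}
  set Γ := Subgroup.closure S with hΓ
  have hle : Γ ≤ K22 := by
    rw [hΓ, Subgroup.closure_le]
    rintro x ⟨k, -, rfl⟩
    exact word_mem _
  have h0' : 0 < els.length := by
    by_contra hc
    rw [List.getD_eq_default _ _ (by omega)] at h0
    exact absurd h0 (by decide)
  have hsel : ∀ ix : List ℕ, (∀ k ∈ ix, k < gens.length) →
      ∃ σ ∈ Γ, Rep (selL gens ix) σ := by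
    intro ix
    induction ix with
    | nil => exact fun _ => ⟨1, one_mem _, Rep.one⟩
    | cons k ix ih =>
      intro hk
      obtain ⟨σ, hσ, hr⟩ := ih fun j hj => hk j (List.mem_cons_of_mem _ hj)
      exact ⟨wPerm (gens.getD k []) * σ,
        mul_mem (Subgroup.subset_closure ⟨k, hk k List.mem_cons_self, rfl⟩) hσ, (rep_word _).mul hr⟩
  have hin : ∀ σ ∈ Γ, ∃ i < els.length, Rep (els.getD i []) σ := by
    intro σ hσ
    have hmem : σ ∈ Submonoid.closure S := by
      rw [← Subgroup.closure_toSubmonoid_of_finite]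
      exact hσ
    induction hmem using Submonoid.closure_induction_right with
    | one => exact ⟨0, h0', h0 ▸ Rep.one⟩
    | mul_right x hx y hy ih =>
      obtain ⟨i, hi, hr⟩ := ih ((Subgroup.closure_toSubmonoid_of_finite (s := S)).ge hx)
      obtain ⟨k, hk, rfl⟩ := hy
      have hm := hcl (els.getD i []) (by rw [List.getD_eq_getElem _ _ hi]; exact List.getElem_mem hi) k hk
      obtain ⟨j, hj, hje⟩ := List.getElem_of_mem hm
      exact ⟨j, hj, by rw [List.getD_eq_getElem _ _ hj, hje]; exact hr.mul (rep_word _)⟩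
  choose σ hσ hrσ using fun i : Fin els.length =>
    hsel (idx.getD i []) (hel i i.2).1.1.2
  have hbij : Function.Bijective (fun i => (⟨σ i, hσ i⟩ : Γ)) := by
    refine ⟨fun i j e => ?_, fun x => ?_⟩
    · have e' : σ i = σ j := congrArg Subtype.val e
      have hi := hrσ i
      have hj := hrσ j
      rw [← (hel i i.2).1.1.1] at hi
      rw [← (hel j j.2).1.1.1] at hj
      have heq := hi.list_eq (e' ▸ hj) (hel i i.2).1.2 (hel j j.2).1.2
      rcases lt_trichotomy (i : ℕ) j with hlt | heq' | hlt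
      · exact absurd heq.symm ((hel j j.2).2 i hlt)
      · exact Fin.ext heq'
      · exact absurd heq ((hel i i.2).2 j hlt)
    · obtain ⟨i, hi, hr⟩ := hin _ x.2
      refine ⟨⟨i, hi⟩, Subtype.ext ?_⟩
      have h1 := hrσ ⟨i, hi⟩
      rw [← (hel i hi).1.1.1] at h1
      exact h1.eq hr
  have hc : Nat.card Γ = els.length := by
    rw [← Nat.card_congr (Equiv.ofBijective _ hbij), Nat.card_fin]
  rw [← hc]
  exact Subgroup.card_dvd_of_le hle

theorem two_ok : groupOK twoGens twoEls twoIdx = true ∧ twoEls.length = 128 := by decide +kernel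

theorem three_ok : groupOK threeGens threeEls threeIdx = true ∧ threeEls.length = 27 := by decide +kernel

theorem card_K22_ge : 1330560 ≤ Nat.card K22 := by
  have h2 : 128 ∣ Nat.card K22 := two_ok.2 ▸ dvd_of_groupOK two_ok.1
  have h3 : 27 ∣ Nat.card K22 := three_ok.2 ▸ dvd_of_groupOK three_ok.1
  have hord : ∀ {σ : Equiv.Perm Vec} {p : ℕ}, p.Prime → σ ∈ K22 → σ ^ p = 1 → σ ≠ 1 → p ∣ Nat.card K22 := by
    intro σ p hp hσ h1 hne
    haveI : Fact p.Prime := ⟨hp⟩
    rw [← orderOf_eq_prime h1 hne]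
    exact Subgroup.orderOf_dvd_natCard K22 hσ
  have hb : bP ≠ 1 := fun e => by
    have h : ¬ bL = idL ∧ comp bL idL = bL ∧ comp idL idL = idL := by decide +kernel
    exact h.1 ((e ▸ rep_bP.1).list_eq Rep.one h.2.1 h.2.2)
  have h7f : pwL sevenL 7 = idL ∧ ¬ sevenL = idL ∧ comp sevenL idL = sevenL ∧ comp idL idL = idL ∧
      wImg sevenWord = sevenL := by decide +kernel
  have h11 := hord (by norm_num) gens_mem.1 aP_pow.1 aP_pow.2
  have h5 := hord (by norm_num) gens_mem.2.1 bP_rel.2.1 hb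
  have h7 := hord (p := 7) (by norm_num) (word_mem sevenWord)
    ((rep_pow (h7f.2.2.2.2 ▸ rep_word sevenWord) 7).eq (h7f.1 ▸ Rep.one))
    (fun e => h7f.2.1 (((h7f.2.2.2.2 ▸ (e ▸ rep_word sevenWord)) : Rep sevenL 1).list_eq Rep.one
      h7f.2.2.1 h7f.2.2.2.1))
  have : 1330560 ∣ Nat.card K22 := by
    rw [show (1330560 : ℕ) = 128 * 27 * 5 * 7 * 11 by norm_num]
    exact Nat.Coprime.mul_dvd_of_dvd_of_dvd (by norm_num)
      (Nat.Coprime.mul_dvd_of_dvd_of_dvd (by norm_num)
        (Nat.Coprime.mul_dvd_of_dvd_of_dvd (by norm_num)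
          (Nat.Coprime.mul_dvd_of_dvd_of_dvd (by norm_num) h2 h3) h5) h7) h11
  exact Nat.le_of_dvd Nat.card_pos this

/-! ### The invariant set of vectors -/

/-- Membership in the invariant set. -/
noncomputable def inS (v : ℕ) : Bool := Nat.beq (Nat.land (Nat.shiftRight sMask v) 1) 1

theorem invariant_ok : allB (fun v => !(inS v) ||
    (inS (apL aL v) && inS (apL bL v) && inS (apL cL v))) 12 0 = true := by decide +kernel

theorem K22_invariant {g : Equiv.Perm Vec} (hg : g ∈ K22) {x : Vec} (hx : inS (enc x) = true) :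
    inS (enc (g x)) = true := by
  have key : ∀ y, inS (enc y) = true →
      inS (enc (aP y)) = true ∧ inS (enc (bP y)) = true ∧ inS (enc (cP y)) = true := by
    intro y hy
    have h := allB_spec_zero invariant_ok (by norm_num : 4096 ≤ 2 ^ 12) (enc_lt y)
    rw [hy, Bool.not_true, Bool.false_or, Bool.and_eq_true, Bool.and_eq_true] at h
    rw [rep_aP.1, rep_bP.1, rep_cP.1]
    exact ⟨h.1.1, h.1.2, h.2⟩
  have hmem : g ∈ Submonoid.closure ({aP, bP, cP} : Set (Equiv.Perm Vec)) := by
    rw [← Subgroup.closure_toSubmonoid_of_finite]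
    exact hg
  clear hg
  induction hmem using Submonoid.closure_induction generalizing x with
  | mem y hy =>
    rcases hy with rfl | rfl | rfl
    exacts [(key x hx).1, (key x hx).2.1, (key x hx).2.2]
  | one => exact hx
  | mul y y' _ _ ihy ihy' => exact ihy (ihy' hx)

theorem y_moves : ∀ l, l < 3 → l ≠ 0 → yP ^ l * cP * (yP ^ l)⁻¹ ∉ K22 := by
  intro l hl h0 hmem
  have hb : ([1, 2].all fun l => inS (sWitness.getD (l - 1) 0) && Nat.blt (sWitness.getD (l - 1) 0) 4096 &&
      !(inS (apL (comp (comp (pwL yL l) cL) (pwL yI l)) (sWitness.getD (l - 1) 0)))) = true := by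
    decide +kernel
  have h := List.all_eq_true.1 hb l (by interval_cases l <;> simp_all)
  simp only [Bool.and_eq_true, Bool.not_eq_true', Nat.blt_eq] at h
  obtain ⟨⟨h1, h2⟩, h3⟩ := h
  have hyinv : Rep (pwL yI l) (yP ^ l)⁻¹ := by rw [← inv_pow]; exact rep_pow rep_yP.2 l
  have hr := ((rep_pow rep_yP.1 l).mul rep_cP.1).mul hyinv
  have h4 := K22_invariant hmem (x := vecN (sWitness.getD (l - 1) 0)) (by rw [enc_vecN h2]; exact h1)
  rw [hr, enc_vecN h2, h3] at h4
  exact Bool.false_ne_true h4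

/-- The semilinear involution normalises the cover. -/
theorem gP_normalizes : ∀ k ∈ K22, gP * k * gP⁻¹ ∈ K22 := by
  have hle : K22 ≤ K22.comap (MulAut.conj gP).toMonoidHom := by
    conv_lhs => rw [K22]
    rw [Subgroup.closure_le]
    have h : comp (comp gL aL) gL = wImg (outWords.getD 0 []) ∧
        comp (comp gL bL) gL = wImg (outWords.getD 1 []) ∧
        comp (comp gL cL) gL = wImg (outWords.getD 2 []) := by decide +kernel
    rintro x (rfl | rfl | rfl) <;> show gP * _ * gP⁻¹ ∈ K22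
    · exact ((rep_gP.1.mul rep_aP.1).mul rep_gP.2).eq (h.1 ▸ rep_word _) ▸ word_mem _
    · exact ((rep_gP.1.mul rep_bP.1).mul rep_gP.2).eq (h.2.1 ▸ rep_word _) ▸ word_mem _
    · exact ((rep_gP.1.mul rep_cP.1).mul rep_gP.2).eq (h.2.2 ▸ rep_word _) ▸ word_mem _
  exact fun k hk => hle hk

/-- A linear isometry normalising the cover lies in it. -/
theorem linear_normalizer {u : Equiv.Perm Vec} (hu : IsSemi false u) (hn : ∀ k ∈ K22, u * k * u⁻¹ ∈ K22)
    (hcard : Nat.card K22 = 1330560) : u ∈ K22 := by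
  classical
  haveI : Fact (Nat.Prime 11) := ⟨by norm_num⟩
  have hfac : (Nat.card K22).factorization 11 = 1 := by
    rw [hcard, show (1330560 : ℕ) = 11 * 120960 by norm_num, Nat.factorization_mul (by norm_num) (by norm_num),
      Finsupp.add_apply, Nat.Prime.factorization_self (by norm_num),
      Nat.factorization_eq_zero_of_not_dvd (by norm_num)]
  let x : K22 := ⟨aP, gens_mem.1⟩
  let y : K22 := ⟨u * aP * u⁻¹, hn _ gens_mem.1⟩
  have ox : orderOf x = 11 := (Subgroup.orderOf_mk _ _).trans orderOf_aP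
  have oy : orderOf y = 11 := by
    rw [Subgroup.orderOf_mk]
    exact ((MulAut.conj u).orderOf_eq aP).trans orderOf_aP
  have hc : ∀ t : K22, orderOf t = 11 → Nat.card (Subgroup.zpowers t) = 11 ^ (Nat.card K22).factorization 11 :=
    fun t ht => by rw [Nat.card_zpowers, ht, hfac, pow_one]
  let S := Sylow.ofCard (Subgroup.zpowers y) (hc y oy)
  let S0 := Sylow.ofCard (Subgroup.zpowers x) (hc x ox)
  obtain ⟨k, hk⟩ := MulAction.exists_smul_eq K22 S S0
  have hmem : k * y * k⁻¹ ∈ Subgroup.zpowers x := by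
    have h1 : k * y * k⁻¹ ∈ ((k • S : Sylow 11 K22) : Subgroup K22) := by
      rw [Sylow.smul_def, Sylow.pointwise_smul_def, Subgroup.mem_pointwise_smul_iff_inv_smul_mem]
      show (MulAut.conj k)⁻¹ (k * y * k⁻¹) ∈ _
      rw [show (MulAut.conj k)⁻¹ (k * y * k⁻¹) = y by simp [mul_assoc]]
      exact Subgroup.mem_zpowers y
    rwa [hk] at h1
  obtain ⟨n, hn'⟩ := ((isOfFinOrder_of_finite x).mem_powers_iff_mem_zpowers).2 hmem
  have hn1 : x ^ (n % 11) = k * y * k⁻¹ := by rw [← ox, pow_mod_orderOf]; exact hn'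
  set j := n % 11 with hj
  set w := (k : Equiv.Perm Vec) * u with hw
  have hwlin : IsSemi false w := mem_linU.1 (mul_mem (mem_linU.2 (K22_linear k.2)) (mem_linU.2 hu))
  have hwa : w * aP * w⁻¹ = aP ^ j := by
    have h1 : aP ^ j = (k : Equiv.Perm Vec) * (u * aP * u⁻¹) * (k : Equiv.Perm Vec)⁻¹ :=
      congrArg Subtype.val hn1
    rw [h1, hw]
    group
  have hj0 : j ≠ 0 := fun e => by
    rw [e, pow_zero, mul_inv_eq_one] at hwa
    exact aP_pow.2 (mul_eq_left.1 hwa)
  obtain ⟨h, -, hh, e, i, hei⟩ := conj_powers (j := j) (Nat.pos_of_ne_zero hj0) (by omega)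
  -- the adjusting element
  have hgg := bP_rel.2.2.2.2
  rw [pow_eq_pow_mod e (show gP ^ 2 = 1 by rw [pow_two, hgg])] at hei
  have hb : bP ^ i * w * aP * (bP ^ i * w)⁻¹ = bP ^ i * aP ^ j * (bP ^ i)⁻¹ := by
    rw [← hwa]; group
  rcases Nat.mod_two_eq_zero_or_one e with he | he <;> rw [he] at hei
  · rw [pow_zero, one_mul] at hei
    rw [hei] at hh
    rw [hh, mul_inv_eq_iff_eq_mul] at hb
    obtain ⟨s, -, t, -, l, hl, hs⟩ := centralizer_aP
      (mem_linU.1 (mul_mem (pow_mem (mem_linU.2 semi_facts.2.2.1) i) (mem_linU.2 hwlin))) hb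
    have hK : bP ^ i * w ∈ K22 → u ∈ K22 := fun h1 => by
      have := mul_mem (inv_mem k.2) (mul_mem (inv_mem (pow_mem gens_mem.2.1 i)) h1)
      rwa [inv_mul_cancel_left, hw, inv_mul_cancel_left] at this
    refine hK ?_
    rw [hs]
    refine mul_mem (mul_mem (pow_mem gens_mem.1 _) (pow_mem omP_mem _)) ?_
    suffices hl0 : l = 0 by rw [hl0, pow_zero]; exact one_mem _
    by_contra hl0
    refine y_moves l hl hl0 ?_
    have e2 : yP ^ l = (aP ^ s * omP ^ t)⁻¹ * bP ^ i * (k : Equiv.Perm Vec) * u := by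
      rw [mul_assoc _ (k : Equiv.Perm Vec) u, ← hw, mul_assoc _ (bP ^ i) w, hs, inv_mul_cancel_left]
    have hq : (aP ^ s * omP ^ t)⁻¹ * bP ^ i * (k : Equiv.Perm Vec) ∈ K22 :=
      mul_mem (mul_mem (inv_mem (mul_mem (pow_mem gens_mem.1 _) (pow_mem omP_mem _)))
        (pow_mem gens_mem.2.1 _)) k.2
    rw [e2, show ∀ q : Equiv.Perm Vec, q * u * cP * (q * u)⁻¹ = q * (u * cP * u⁻¹) * q⁻¹ from
      fun q => by group]
    exact mul_mem (mul_mem hq (hn _ gens_mem.2.2)) (inv_mem hq)
  · exfalso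
    rw [pow_one] at hei
    refine not_invert_aP
      (mem_linU.1 (mul_mem (pow_mem (mem_linU.2 semi_facts.2.2.1) i) (mem_linU.2 hwlin))) ?_
    rw [← mul_inv_eq_iff_eq_mul, hb]
    rw [hei, mul_inv_rev, inv_eq_of_mul_eq_one_right hgg] at hh
    have h2 : bP ^ i * aP ^ j * (bP ^ i)⁻¹ = gP * aP * gP⁻¹ := by
      conv_rhs => rw [← hh, inv_eq_of_mul_eq_one_right hgg]
      rw [show gP * (gP * bP ^ i * aP ^ j * ((bP ^ i)⁻¹ * gP)) * gP =
        (gP * gP) * (bP ^ i * aP ^ j * (bP ^ i)⁻¹) * (gP * gP) by group, hgg, one_mul, mul_one]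
    rw [h2, bP_rel.2.2.2.1, mul_inv_cancel_right]

/-- A semilinear element normalising the cover differs from the involution by an element of it. -/
theorem gP_mem {R : Subgroup (Equiv.Perm Vec)} (hK : K22 ≤ R) (hcard : Nat.card K22 = 1330560)
    {s : Equiv.Perm Vec} (hs : s ∈ R) (hsemi : IsSemi true s) (hn : ∀ k ∈ K22, s * k * s⁻¹ ∈ K22) :
    gP ∈ R := by
  have hu : IsSemi false (s * gP⁻¹) := by
    have h := hsemi.mul semi_facts.2.2.2.2.2.inv
    rwa [Bool.xor_self] at h
  have hginv : gP⁻¹ = gP := inv_eq_of_mul_eq_one_right bP_rel.2.2.2.2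
  have huK := linear_normalizer hu (fun k hk => by
    rw [show s * gP⁻¹ * k * (s * gP⁻¹)⁻¹ = s * (gP⁻¹ * k * gP⁻¹⁻¹) * s⁻¹ by group, hginv]
    exact hn _ (gP_normalizes k hk)) hcard
  have := mul_mem (inv_mem (hK huK)) hs
  rwa [mul_inv_rev, inv_inv, mul_assoc, inv_mul_cancel, mul_one] at this

end Cfsg.Agent.JFourType
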