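import Cfsg.Agent.JFourType.PFrame

/-!
Basic facts on the subgroup of order three in a group of Janko-four type.
-/

set_option autoImplicit false

namespace Cfsg.Agent.JFourType

open Cfsg
open Cfsg.Agent.GFour25
open Cfsg.Agent.SporB.FischerU (Vec)
open Cfsg.Agent.LargeFischer (IsSemi)
open Cfsg.Agent.LargeFischer.Thompson (Ext vec_self)
open Cfsg.Agent.TTClass
open scoped Pointwise

/-- Two elements of order three in a group whose order has 3-part three. -/
theorem conj_into_zpowers {L : Type*} [Group L] [Finite L] (hfac : (Nat.card L).factorization 3 = 1)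
    {a b : L} (ha : orderOf a = 3) (hb : orderOf b = 3) : ∃ e : L, e * a * e⁻¹ ∈ Subgroup.zpowers b := by
  haveI : Fact (Nat.Prime 3) := ⟨Nat.prime_three⟩
  let SA : Sylow 3 L := Sylow.ofCard (Subgroup.zpowers a) (by rw [Nat.card_zpowers, ha, hfac, pow_one])
  let SB : Sylow 3 L := Sylow.ofCard (Subgroup.zpowers b) (by rw [Nat.card_zpowers, hb, hfac, pow_one])
  obtain ⟨e, he⟩ := MulAction.exists_smul_eq L SA SB
  refine ⟨e, ?_⟩
  have h1 := Subgroup.smul_mem_pointwise_smul a (MulAut.conj e) _ (Subgroup.mem_zpowers a)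
  have h2 : MulAut.conj e • Subgroup.zpowers a = Subgroup.zpowers b :=
    congrArg (fun S : Sylow 3 L => (S : Subgroup L)) he
  rw [h2] at h1
  exact h1

namespace PFrame

variable {G : Type*} [Group G] [Finite G] {z : G} (F : PFrame z)
include F

theorem eq_one_of_q {u : CH z} (hu : u ∈ pCore 2 (CH z)) {n : ℕ} (hn : Odd n) (h : u ^ n = 1) :
    u = 1 := by
  have h1 : orderOf u ∣ 8192 := F.ext.card_q ▸ Subgroup.orderOf_dvd_natCard _ hu
  rw [← orderOf_eq_one_iff]
  refine Nat.eq_one_of_dvd_coprimes ?_ h1 (orderOf_dvd_of_pow_eq_one h)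
  rw [show 8192 = 2 ^ 13 by norm_num]
  exact ((Nat.prime_two.coprime_iff_not_dvd).2 fun h2 => (Nat.not_even_iff_odd.2 hn) (even_iff_two_dvd.2 h2)).pow_left _

theorem linear_of_three {h : CH z} (h3 : h ^ 3 = 1) : IsSemi false (F.rho h) := by
  rcases F.semi h with e | e
  · exact e
  · exfalso
    have := (e.mul e).mul e
    rw [← map_mul, ← map_mul, ← pow_two, ← pow_succ, h3, map_one] at this
    exact not_semi_both IsSemi.one (by simpa using this)

theorem linear_of_commute {h : CH z} (hc : Commute (F.rho h) omP) : IsSemi false (F.rho h) :=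
  (F.semi h).resolve_right fun e => false_of_comm e hc

theorem omP_mem_range : omP ∈ F.rho.range := F.hK omP_mem

theorem omP_commute {h : CH z} (hh : IsSemi false (F.rho h)) : Commute omP (F.rho h) :=
  (scalar_comm hh).symm

theorem card_comap_zpowers {r : Equiv.Perm Vec} (hr : r ∈ F.rho.range) (hr3 : orderOf r = 3) :
    Nat.card ((Subgroup.zpowers r).comap F.rho) = 3 * 8192 := by
  rw [F.ext.card_split ((Subgroup.zpowers r).comap F.rho),
    inf_eq_right.2 (fun u hu => by rw [Subgroup.mem_comap, F.ext.rho_q hu]; exact one_mem _),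
    F.ext.card_q, Subgroup.map_comap_eq_self (Subgroup.zpowers_le.2 hr), Nat.card_zpowers, hr3]

theorem orderOf_rho {y : CH z} (hy : y ^ 3 = 1) (hne : y ≠ 1) : orderOf (F.rho y) = 3 := by
  haveI : Fact (Nat.Prime 3) := ⟨Nat.prime_three⟩
  refine orderOf_eq_prime (by rw [← map_pow, hy, map_one]) fun h => hne ?_
  exact F.eq_one_of_q (F.ext.mem_q h) (by decide : Odd 3) hy

/-- Elements of order three with images in one cyclic subgroup are conjugate up to powers. -/
theorem exists_conj_powers {a b : CH z} (ha : a ^ 3 = 1) (ha1 : a ≠ 1) (hb : b ^ 3 = 1) (hb1 : b ≠ 1)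
    (hab : F.rho a ∈ Subgroup.zpowers (F.rho b)) :
    ∃ e : CH z, F.rho e ∈ Subgroup.zpowers (F.rho b) ∧ e * a * e⁻¹ ∈ Subgroup.zpowers b := by
  haveI : Fact (Nat.Prime 3) := ⟨Nat.prime_three⟩
  set L := (Subgroup.zpowers (F.rho b)).comap F.rho with hL
  have hc : Nat.card L = 3 * 8192 := F.card_comap_zpowers ⟨b, rfl⟩ (F.orderOf_rho hb hb1)
  have hfac : (Nat.card L).factorization 3 = 1 := by
    rw [hc, Nat.factorization_mul (by norm_num) (by norm_num), Finsupp.add_apply,
      Nat.Prime.factorization_self Nat.prime_three,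
      Nat.factorization_eq_zero_of_not_dvd (show ¬ 3 ∣ 8192 by norm_num)]
  have hoa : orderOf (⟨a, hab⟩ : L) = 3 :=
    (Subgroup.orderOf_mk a hab).trans (orderOf_eq_prime ha ha1)
  have hob : orderOf (⟨b, Subgroup.mem_zpowers _⟩ : L) = 3 :=
    (Subgroup.orderOf_mk b _).trans (orderOf_eq_prime hb hb1)
  obtain ⟨e, he⟩ := conj_into_zpowers hfac hoa hob
  obtain ⟨k, hk⟩ := he
  exact ⟨e, e.2, k, congrArg Subtype.val hk⟩

/-- A commuting element of the image lifts to a commuting element. -/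
theorem exists_lift_commute {y : CH z} (hy : y ^ 3 = 1) {r : Equiv.Perm Vec} (hr : r ∈ F.rho.range)
    (hc : Commute r (F.rho y)) : ∃ h : CH z, F.rho h = r ∧ Commute h y := by
  obtain ⟨h0, rfl⟩ := hr
  by_cases hy1 : y = 1
  · exact ⟨h0, rfl, hy1 ▸ Commute.one_right h0⟩
  have hy' : (h0 * y * h0⁻¹) ^ 3 = 1 := by rw [conj_pow, hy, mul_one, mul_inv_cancel]
  have hy'1 : h0 * y * h0⁻¹ ≠ 1 := fun h => hy1 (by simpa using h)
  have himg : F.rho (h0 * y * h0⁻¹) = F.rho y := by
    rw [map_mul, map_mul, map_inv, hc.eq, mul_inv_cancel_right]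
  obtain ⟨e, he, hey⟩ := F.exists_conj_powers hy' hy'1 hy hy1 (himg ▸ Subgroup.mem_zpowers _)
  obtain ⟨k, hk⟩ := Subgroup.mem_zpowers_iff.1 he
  obtain ⟨j, hj⟩ := Subgroup.mem_zpowers_iff.1 hey
  refine ⟨y ^ (-k) * (e * h0), ?_, ?_⟩
  · rw [map_mul, map_mul, map_zpow, ← hk, ← mul_assoc, ← zpow_add, neg_add_cancel, zpow_zero,
      one_mul]
  have hje : e * h0 * y = y ^ j * (e * h0) := by
    rw [hj]; group
  have hjy : y ^ j = y := by
    rw [← mul_inv_eq_one]
    refine F.eq_one_of_q (F.ext.mem_q ?_) (by decide : Odd 3) ?_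
    · rw [map_mul, map_inv, hj, map_mul, map_mul, map_inv, himg, mul_inv_eq_one, mul_inv_eq_iff_eq_mul]
      exact (((Commute.refl (F.rho y)).zpow_left k).symm.eq.trans (by rw [hk])).symm.trans
        (by rw [hk])
    · rw [((Commute.refl y).zpow_left j).inv_right.mul_pow, inv_pow, hy, inv_one, mul_one,
        ← zpow_natCast, ← zpow_mul, mul_comm, zpow_mul, zpow_natCast, hy, one_zpow]
  rw [hjy] at hje
  exact ((Commute.refl y).zpow_left (-k)).mul_left hje

/-- A fixed vector of an element of order three lifts to a commuting element. -/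
theorem exists_fix_lift {y : CH z} (hy : y ^ 3 = 1) {v : Vec} (hv : F.rho y v = v) :
    ∃ q : pCore 2 (CH z), F.psi q = v ∧ Commute (q : CH z) y := by
  obtain ⟨q, rfl⟩ := F.ext.psi_surj v
  refine ⟨q, rfl, ?_⟩
  have hk := F.ext.eq_of_psi ((F.ext.psi_conj y q).trans hv)
  rcases hk with e | e
  · exact ((mul_inv_eq_iff_eq_mul.1 e).symm : _ = _)
  · exfalso
    have e' : y * (q : CH z) * y⁻¹ = q * zH z := e
    have hz : y * zH z * y⁻¹ = zH z := by rw [F.ext.z_central y, mul_inv_cancel_right]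
    have h2 : y * (y * (q : CH z) * y⁻¹) * y⁻¹ = q := by
      rw [e', show y * ((q : CH z) * zH z) * y⁻¹ = (y * q * y⁻¹) * (y * zH z * y⁻¹) by group, e', hz,
        mul_assoc, F.ext.z_sq, mul_one]
    have h3 : y * (y * (y * (q : CH z) * y⁻¹) * y⁻¹) * y⁻¹ = q := by
      rw [show y * (y * (y * (q : CH z) * y⁻¹) * y⁻¹) * y⁻¹ = y ^ 3 * q * (y ^ 3)⁻¹ by
        rw [pow_succ, pow_two]; group, hy, one_mul, inv_one, mul_one]
    rw [h2, e'] at h3
    exact F.ext.z_ne (mul_eq_left.1 h3)

end PFrame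

end Cfsg.Agent.JFourType
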