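import Cfsg.Agent.JFourType.PLocal
import Cfsg.Agent.Cores.Basic

/-!
The centraliser of the subgroup of order three: it is perfect, has centre of order six and quotient
`M22`, and it lies in the centraliser of the involution, with the normaliser.
-/

set_option autoImplicit false

namespace Cfsg.Agent.JFourType

open Cfsg
open Cfsg.Agent.GFour25
open Cfsg.Agent.SporB.FischerU (Vec)
open Cfsg.Agent.LargeFischer (IsSemi)
open Cfsg.Agent.LargeFischer.Thompson (Ext vec_self)
open Cfsg.Agent.TTClass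
open scoped commutatorElement

/-- An element of odd order moved to its inverse by an involution. -/
theorem exists_root_inverted {G : Type*} [Group G] {σ u : G} {n : ℕ} (hn : Odd n) (hu : u ^ n = 1)
    (hσ : σ * u * σ⁻¹ = u⁻¹) : ∃ w : G, w * w = u ∧ σ * w * σ⁻¹ = w⁻¹ ∧ w ∈ Subgroup.zpowers u := by
  obtain ⟨k, rfl⟩ := hn
  refine ⟨u ^ (k + 1), ?_, by rw [← conj_pow, hσ, inv_pow], pow_mem (Subgroup.mem_zpowers u) _⟩
  rw [← pow_add, show k + 1 + (k + 1) = (2 * k + 1) + 1 by ring, pow_succ, hu, one_mul]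

namespace PGen

variable {G : Type*} [Group G] [Finite G]
variable {z : G} {F : PFrame z} {P : Subgroup G} {x : CH z} (X : PGen F P x)
include X

theorem z_sq : z * z = 1 := congrArg Subtype.val F.ext.z_sq

theorem z_ne : z ≠ 1 := fun h => F.ext.z_ne (Subtype.ext h)

theorem x_three : (x : G) ^ 3 = 1 := congrArg Subtype.val X.three

theorem z_pow_mem : z ∈ Subgroup.zpowers (z * (x : G)) := by
  refine ⟨3, ?_⟩
  show (z * (x : G)) ^ (3 : ℤ) = z
  rw [zpow_ofNat, X.z_comm_x.mul_pow, X.x_three, mul_one, pow_succ, pow_two, X.z_sq, one_mul]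

theorem x_pow_mem : (x : G) ∈ Subgroup.zpowers (z * (x : G)) := by
  refine ⟨4, ?_⟩
  show (z * (x : G)) ^ (4 : ℤ) = x
  rw [zpow_ofNat, X.z_comm_x.mul_pow, show (4 : ℕ) = 3 + 1 by norm_num, pow_succ (x : G), X.x_three,
    one_mul, pow_succ, pow_succ, pow_two, X.z_sq, one_mul, X.z_sq, one_mul]

theorem orderOf_zx : orderOf (z * (x : G)) = 6 := by
  haveI : Fact (Nat.Prime 2) := ⟨Nat.prime_two⟩
  haveI : Fact (Nat.Prime 3) := ⟨Nat.prime_three⟩
  rw [X.z_comm_x.orderOf_mul_eq_mul_orderOf_of_coprime] <;>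
    rw [orderOf_eq_prime (by rw [pow_two, X.z_sq]) X.z_ne, orderOf_eq_prime X.x_three X.x_ne]
  norm_num

/-- The map of the centraliser onto `M22`. -/
theorem exists_phi : ∃ φ : ↥(CG z P) →* Spor.M22, Function.Surjective φ ∧
    ∀ c : CG z P, φ c = 1 ↔ (c : G) ∈ Subgroup.zpowers (z * (x : G)) := by
  classical
  let ι : ↥(CG z P) →* CH z := Subgroup.inclusion inf_le_left
  have hcx : ∀ c : CG z P, Commute (ι c) x := fun c => Subtype.ext (X.mem_CG.1 c.2).2.eq
  have hlin : ∀ c : CG z P, ι c ∈ K22.comap F.rho := fun c => by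
    refine (F.linear _).1 (F.linear_of_commute ?_)
    rw [← X.image]
    exact (hcx c).map F.rho
  refine ⟨F.phi.comp (ι.codRestrict _ hlin), fun m => ?_, fun c => ?_⟩
  · obtain ⟨⟨a, ha⟩, rfl⟩ := F.phi_surj m
    obtain ⟨h, hh, hhx⟩ := F.exists_lift_commute X.three (r := F.rho a) ⟨a, rfl⟩
      (X.image ▸ scalar_comm (K22_linear ha))
    have hmem : (h : G) ∈ CG z P :=
      X.mem_CG.2 ⟨Subgroup.mem_centralizer_singleton_iff.1 h.2, congrArg Subtype.val hhx.eq⟩
    refine ⟨⟨h, hmem⟩, ?_⟩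
    show F.phi ⟨ι ⟨h, hmem⟩, _⟩ = _
    have hah : F.rho (a⁻¹ * h) = 1 := by rw [map_mul, map_inv, hh, inv_mul_cancel]
    have h1 : F.phi ((⟨a, ha⟩ : K22.comap F.rho)⁻¹ * ⟨ι ⟨h, hmem⟩, hlin _⟩) = 1 :=
      (F.phi_ker _).2 (by
        show F.rho (a⁻¹ * h) ∈ scal
        rw [hah]; exact one_mem _)
    rw [map_mul, map_inv, inv_mul_eq_one] at h1
    exact h1.symm
  · show F.phi ⟨ι c, _⟩ = 1 ↔ _
    rw [F.phi_ker]
    constructor
    · intro h
      obtain ⟨j, -, hj⟩ := mem_scal (show F.rho (ι c) ∈ scal from h)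
      have hq : ι c * (x ^ j)⁻¹ ∈ pCore 2 (CH z) :=
        F.ext.mem_q (by rw [map_mul, map_inv, map_pow, X.image, hj, mul_inv_cancel])
      have hqx : Commute (ι c * (x ^ j)⁻¹) x :=
        (hcx c).mul_left (((Commute.refl x).pow_left j).inv_left)
      rcases X.fix _ hq hqx with e | e
      · have e' : (c : G) = (x : G) ^ j := congrArg Subtype.val (mul_inv_eq_one.1 e)
        rw [e']
        exact pow_mem X.x_pow_mem j
      · have e' : (c : G) = z * (x : G) ^ j := congrArg Subtype.val (mul_inv_eq_iff_eq_mul.1 e)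
        rw [e']
        exact mul_mem X.z_pow_mem (pow_mem X.x_pow_mem j)
    · intro h
      obtain ⟨n, hn⟩ := Subgroup.mem_zpowers_iff.1 h
      have e : ι c = (zH z * x) ^ n := Subtype.ext hn.symm
      show F.rho (ι c) ∈ scal
      rw [e, map_zpow, map_mul, F.ext.rho_q F.ext.z_mem, one_mul, X.image]
      exact Subgroup.zpow_mem _ (Subgroup.mem_zpowers _) n

/-- Everything about the centraliser. -/
theorem centralizer_facts (hI : InvFacts F.rho.range) (hT : ThreeFacts F.rho.range) {g : G}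
    (hs : g * z * g⁻¹ ∈ CG z P) (hne : g * z * g⁻¹ ≠ z) :
    Subgroup.centralizer (P : Set G) ≤ Subgroup.centralizer ({z} : Set G) ∧
      ⁅CG z P, CG z P⁆ = CG z P := by
  classical
  haveI : Fact (Nat.Prime 2) := ⟨Nat.prime_two⟩
  haveI := Golay.isSimpleGroup_M22
  obtain ⟨hsz, hsx⟩ := X.mem_CG.1 hs
  have hzz : ∀ h : CH z, Commute (h : G) z := fun h => Subgroup.mem_centralizer_singleton_iff.1 h.2
  have hs2 : g * z * g⁻¹ * (g * z * g⁻¹) = 1 := by
    calc g * z * g⁻¹ * (g * z * g⁻¹) = g * (z * z) * g⁻¹ := by group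
      _ = 1 := by rw [X.z_sq]; group
  -- the two elements in the centraliser
  have hy0c : Commute (g⁻¹ * (x : G) * g) z := by
    calc g⁻¹ * (x : G) * g * z = g⁻¹ * ((x : G) * (g * z * g⁻¹)) * g := by group
      _ = g⁻¹ * ((g * z * g⁻¹) * (x : G)) * g := by rw [hsx.eq]
      _ = z * (g⁻¹ * (x : G) * g) := by group
  have hyc : Commute (g⁻¹ * z * g) z := by
    calc g⁻¹ * z * g * z = g⁻¹ * (z * (g * z * g⁻¹)) * g := by group
      _ = g⁻¹ * ((g * z * g⁻¹) * z) * g := by rw [hsz.eq]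
      _ = z * (g⁻¹ * z * g) := by group
  set y0 : CH z := ⟨g⁻¹ * (x : G) * g, Subgroup.mem_centralizer_singleton_iff.2 hy0c.eq⟩ with hy0
  set y : CH z := ⟨g⁻¹ * z * g, Subgroup.mem_centralizer_singleton_iff.2 hyc.eq⟩ with hy
  have hy03 : y0 ^ 3 = 1 := by
    refine Subtype.ext ?_
    show (g⁻¹ * (x : G) * g) ^ 3 = 1
    rw [show g⁻¹ * (x : G) * g = g⁻¹ * (x : G) * g⁻¹⁻¹ by rw [inv_inv], conj_pow, X.x_three, mul_one,
      mul_inv_cancel]
  have hy01 : y0 ≠ 1 := fun h => by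
    have h1 : g⁻¹ * (x : G) * g = 1 := congrArg Subtype.val h
    exact X.x_ne (by
      calc (x : G) = g * (g⁻¹ * (x : G) * g) * g⁻¹ := by group
        _ = 1 := by rw [h1]; group)
  have hy2 : y * y = 1 := by
    refine Subtype.ext ?_
    show g⁻¹ * z * g * (g⁻¹ * z * g) = 1
    calc g⁻¹ * z * g * (g⁻¹ * z * g) = g⁻¹ * (z * z) * g := by group
      _ = 1 := by rw [X.z_sq]; group
  have hyy0 : Commute y y0 := by
    refine Subtype.ext ?_
    show g⁻¹ * z * g * (g⁻¹ * (x : G) * g) = g⁻¹ * (x : G) * g * (g⁻¹ * z * g)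
    calc g⁻¹ * z * g * (g⁻¹ * (x : G) * g) = g⁻¹ * (z * (x : G)) * g := by group
      _ = g⁻¹ * ((x : G) * z) * g := by rw [X.z_comm_x.eq]
      _ = g⁻¹ * (x : G) * g * (g⁻¹ * z * g) := by group
  -- the element of order three is not scalar
  have hns : F.rho y0 ∉ scal := by
    intro hsc
    have hx1 : x ≠ 1 := fun h => X.x_ne (congrArg Subtype.val h)
    obtain ⟨e, -, he⟩ := F.exists_conj_powers hy03 hy01 X.three hx1 (X.image.symm ▸ hsc)
    obtain ⟨j, hj⟩ := Subgroup.mem_zpowers_iff.1 he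
    set g' : G := g * (e : G)⁻¹ with hg'
    have hgP : g'⁻¹ ∈ Subgroup.normalizer (P : Set G) := by
      refine X.mem_normalizer ?_
      rw [inv_inv, ← X.gen]
      refine ⟨j, ?_⟩
      show (x : G) ^ j = g'⁻¹ * (x : G) * g'
      have h1 : (x : G) ^ j = (e : G) * (g⁻¹ * (x : G) * g) * (e : G)⁻¹ := by
        have := congrArg Subtype.val hj
        rwa [Subgroup.coe_zpow] at this
      rw [h1, hg']
      group
    have hgz : g' * z * g'⁻¹ = g * z * g⁻¹ := by
      calc g' * z * g'⁻¹ = g * ((e : G)⁻¹ * z * (e : G)) * g⁻¹ := by rw [hg']; group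
        _ = g * z * g⁻¹ := by
          rw [(hzz e).inv_left.eq, mul_assoc z, inv_mul_cancel, mul_one]
    have hgn : g' ∈ Subgroup.normalizer (P : Set G) := by
      simpa using inv_mem hgP
    exact hne (hgz ▸ X.isolated hI hgn (hgz.symm ▸ hs))
  obtain ⟨⟨v0, hv0, hv0H⟩, hodd, hsqr⟩ := hT (p := F.rho y0) ⟨y0, rfl⟩ (by rw [← map_pow, hy03, map_one]) hns
  -- Glauberman
  set CP := Subgroup.centralizer (P : Set G) with hCP
  have hzCP : z ∈ CP := X.mem_centralizer.2 X.z_comm_x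
  have hiso : Invol.IsIsolatedInv (⟨z, hzCP⟩ : CP) := by
    refine ⟨by rw [Subgroup.orderOf_mk]; exact orderOf_eq_prime (by rw [pow_two, X.z_sq]) X.z_ne,
      fun c hc => Subtype.ext ?_⟩
    refine X.isolated hI (Subgroup.centralizer_le_normalizer _ c.2) ⟨?_, ?_⟩
    · exact Subgroup.mem_centralizer_singleton_iff.2 (congrArg Subtype.val hc.eq)
    · exact CP.mul_mem (CP.mul_mem c.2 hzCP) (CP.inv_mem c.2)
  set O := pPrimeCore 2 CP with hO
  set T : Subgroup G := O.map CP.subtype with hTdef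
  have hTCP : T ≤ CP := Subgroup.map_subtype_le _
  have hN : Odd (Nat.card T) := by
    rw [hTdef, Subgroup.card_map_of_injective CP.subtype_injective]
    exact Nat.odd_iff.2 (Nat.two_dvd_ne_zero.1 Cores.not_dvd_card_pPrimeCore)
  have hTn : ∀ c ∈ CP, ∀ t ∈ T, c * t * c⁻¹ ∈ T := by
    rintro c hc _ ⟨t, ht, rfl⟩
    exact ⟨_, (inferInstance : O.Normal).conj_mem t ht ⟨c, hc⟩, rfl⟩
  have hZ : ∀ c ∈ CP, z * c * z⁻¹ * c⁻¹ ∈ T := by
    intro c hc
    refine ⟨_, Invol.zStar_theorem CP ⟨z, hzCP⟩ hiso ⟨c, hc⟩, ?_⟩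
    rw [commutatorElement_def]
    rfl
  have hpowN : ∀ t ∈ T, t ^ Nat.card T = 1 := fun t ht => by
    have := pow_card_eq_one' (x := (⟨t, ht⟩ : T))
    exact congrArg Subtype.val this
  -- conjugation by g
  set cg : CH z →* G := (MulAut.conj g).toMonoidHom.comp (Subgroup.centralizer ({z} : Set G)).subtype with hcg
  have hcga : ∀ h, cg h = g * (h : G) * g⁻¹ := fun h => rfl
  have hcgy0 : cg y0 = (x : G) := by
    show g * (g⁻¹ * (x : G) * g) * g⁻¹ = x
    group
  have hcgy : cg y = z := by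
    show g * (g⁻¹ * z * g) * g⁻¹ = z
    group
  have hcginj : Function.Injective cg := fun a b h => Subtype.ext ((MulAut.conj g).injective h)
  have hCP_of : ∀ h : CH z, Commute h y0 → cg h ∈ CP := fun h hh =>
    X.mem_centralizer.2 (hcgy0 ▸ hh.map cg)
  have hof_CP : ∀ h : CH z, cg h ∈ CP → Commute h y0 := fun h hh =>
    hcginj (by rw [map_mul, map_mul, hcgy0]; exact X.mem_centralizer.1 hh)
  have hT0 : ∀ o : CH z, cg o ∈ T → o ∈ Subgroup.zpowers y0 := by
    intro o ho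
    have hoy : Commute o y0 := hof_CP o (hTCP ho)
    have hoN : o ^ Nat.card T = 1 := hcginj (by rw [map_pow, hpowN _ ho, map_one])
    have hord : Odd (orderOf (F.rho o)) :=
      hN.of_dvd_nat ((orderOf_map_dvd F.rho o).trans (orderOf_dvd_of_pow_eq_one hoN))
    have hfix : ∀ v, F.rho y0 v = v → F.rho o v = v := by
      intro v hv
      obtain ⟨q, rfl, hq⟩ := F.exists_fix_lift hy03 hv
      rw [← F.ext.psi_conj]
      refine congrArg F.psi (Subtype.ext ?_)
      show o * (q : CH z) * o⁻¹ = q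
      have hQn : (pCore 2 (CH z)).Normal := inferInstance
      have hQ : o * (q : CH z) * o⁻¹ * (q : CH z)⁻¹ ∈ pCore 2 (CH z) :=
        mul_mem (hQn.conj_mem _ q.2 o) (inv_mem q.2)
      have hT' : cg (o * (q : CH z) * o⁻¹ * (q : CH z)⁻¹) ∈ T := by
        rw [show o * (q : CH z) * o⁻¹ * (q : CH z)⁻¹ = o * ((q : CH z) * o⁻¹ * (q : CH z)⁻¹) by group,
          map_mul, map_mul, map_mul, map_inv, map_inv]
        exact mul_mem ho (hTn _ (hCP_of _ hq) _ (inv_mem ho))
      exact mul_inv_eq_one.1 (F.eq_one_of_q hQ hN (hcginj (by rw [map_pow, hpowN _ hT', map_one])))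
    obtain ⟨k, hk⟩ := Subgroup.mem_zpowers_iff.1
      (hodd _ ⟨o, rfl⟩ hord (hoy.map F.rho).eq hfix)
    refine ⟨k, ?_⟩
    show y0 ^ k = o
    refine (mul_inv_eq_one.1 (F.eq_one_of_q (u := o * (y0 ^ k)⁻¹) ?_ (n := Nat.card T * 3) ?_ ?_)).symm
    · exact F.ext.mem_q (by rw [map_mul, map_inv, map_zpow, hk, mul_inv_cancel])
    · exact hN.mul (by decide)
    · have hk3 : (y0 ^ k) ^ 3 = 1 := by
        rw [← zpow_natCast, ← zpow_mul, mul_comm k, zpow_mul, zpow_natCast, hy03, one_zpow]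
      rw [(hoy.zpow_right k).inv_right.mul_pow, pow_mul, hoN, one_pow, one_mul, inv_pow, inv_eq_one,
        mul_comm (Nat.card T) 3, pow_mul, hk3, one_pow]
  -- y is central in the centraliser of y0
  have hyinv : y⁻¹ = y := inv_eq_of_mul_eq_one_right hy2
  have hcent : ∀ h : CH z, Commute h y0 → Commute y h := by
    intro h hh
    set u := y * h * y⁻¹ * h⁻¹ with hu
    have h1 : u ∈ Subgroup.zpowers y0 := hT0 u (by
      rw [hu, map_mul, map_mul, map_mul, map_inv, map_inv, hcgy]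
      exact hZ _ (hCP_of h hh))
    obtain ⟨k, hk⟩ := Subgroup.mem_zpowers_iff.1 h1
    have hu3 : u ^ 3 = 1 := by
      rw [← hk, ← zpow_natCast, ← zpow_mul, mul_comm k, zpow_mul, zpow_natCast, hy03, one_zpow]
    have e1 : y * u * y⁻¹ = u := by rw [← hk, (hyy0.zpow_right k).eq, mul_inv_cancel_right]
    have e2 : y * u * y⁻¹ = u⁻¹ := by
      calc y * u * y⁻¹ = (y * y) * h * y⁻¹ * h⁻¹ * y⁻¹ := by rw [hu]; group
        _ = (y * h * y⁻¹ * h⁻¹)⁻¹ := by
          rw [hy2, one_mul, mul_inv_rev, mul_inv_rev, mul_inv_rev, inv_inv, inv_inv, hyinv]; group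
        _ = u⁻¹ := by rw [hu]
    have h2 : u ^ 2 = 1 := by
      rw [pow_two]
      nth_rewrite 1 [← e1, e2]
      exact inv_mul_cancel u
    have hu1 : u = 1 := by rw [pow_succ, h2, one_mul] at hu3; exact hu3
    exact mul_inv_eq_iff_eq_mul.1 (mul_inv_eq_one.1 (hu ▸ hu1))
  -- the derived subgroup
  obtain ⟨φ, hφs, hφk⟩ := X.exists_phi
  set D0 : Subgroup ↥(CG z P) := commutator ↥(CG z P) with hD0
  have hDmap : D0.map (CG z P).subtype = ⁅CG z P, CG z P⁆ := Subgroup.map_subtype_commutator _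
  have hD0φ : D0.map φ = ⊤ := by
    rcases IsSimpleGroup.eq_bot_or_eq_top_of_normal (D0.map φ)
      (Subgroup.Normal.map inferInstance _ hφs) with h | h
    · exfalso
      have hcomm : ∀ a b : Spor.M22, a * b = b * a := by
        intro a b
        obtain ⟨a, rfl⟩ := hφs a
        obtain ⟨b, rfl⟩ := hφs b
        have hm : φ ⁅a, b⁆ ∈ D0.map φ :=
          ⟨_, Subgroup.commutator_mem_commutator (Subgroup.mem_top a) (Subgroup.mem_top b), rfl⟩
        rw [h, Subgroup.mem_bot, map_commutatorElement, commutatorElement_def,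
          mul_inv_eq_one, mul_inv_eq_iff_eq_mul] at hm
        exact hm
      letI : CommGroup Spor.M22 := { (inferInstance : Group Spor.M22) with mul_comm := hcomm }
      have hp : (Nat.card Spor.M22).Prime := IsSimpleGroup.prime_card
      rw [Golay.card_M22] at hp
      norm_num at hp
    · exact h
  set D := ⁅CG z P, CG z P⁆ with hD
  have hDle : D ≤ CG z P := Subgroup.commutator_le_self _
  have hxD : (x : G) ∈ D := X.derived (X.gen ▸ Subgroup.mem_zpowers _)
  have hzCG : z ∈ CG z P := X.mem_CG.2 ⟨Commute.refl z, X.z_comm_x⟩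
  have hdec : ∀ c ∈ CG z P, c ∈ D ∨ c * z ∈ D := by
    intro c hc
    obtain ⟨d, hd, hde⟩ := (hD0φ.symm ▸ Subgroup.mem_top (φ ⟨c, hc⟩) : φ ⟨c, hc⟩ ∈ D0.map φ)
    have hk : φ (d⁻¹ * ⟨c, hc⟩) = 1 := by rw [map_mul, map_inv, hde, inv_mul_cancel]
    obtain ⟨n, hn⟩ := Subgroup.mem_zpowers_iff.1 ((hφk _).1 hk)
    have hdD : (d : G) ∈ D := hDmap ▸ ⟨d, hd, rfl⟩
    have hce : c = (d : G) * (z ^ n * (x : G) ^ n) := by
      rw [← X.z_comm_x.mul_zpow, hn]
      show c = (d : G) * ((d : G)⁻¹ * c)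
      group
    rcases Int.even_or_odd n with ⟨m, rfl⟩ | ⟨m, rfl⟩
    · left
      rw [hce, zpow_add, ← (Commute.refl z).mul_zpow, X.z_sq, one_zpow, one_mul]
      exact mul_mem hdD (zpow_mem hxD _)
    · right
      rw [hce, mul_assoc, mul_assoc, ← ((X.z_comm_x).zpow_right (2 * m + 1)).eq, ← mul_assoc (z ^ (2 * m + 1)),
        zpow_add, zpow_mul, zpow_one, zpow_ofNat, pow_two, X.z_sq, one_zpow, one_mul, X.z_sq, one_mul]
      exact mul_mem hdD (zpow_mem hxD _)
  have hzcent : ∀ c ∈ CG z P, Commute c z := fun c hc => (X.mem_CG.1 hc).1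
  have hsqD : ∀ c ∈ CG z P, c * c ∈ D := by
    intro c hc
    rcases hdec c hc with h | h
    · exact mul_mem h h
    · have := mul_mem h h
      rwa [show c * z * (c * z) = c * c * (z * z) by
        calc c * z * (c * z) = c * (z * c) * z := by group
          _ = c * c * (z * z) := by rw [← (hzcent c hc).eq]; group, X.z_sq, mul_one] at this
  have hto : ∀ h : CH z, Commute h y0 → cg h ∈ CG z P := fun h hh => by
    have e1 := (hcent h hh).symm.map cg
    have e2 := hh.map cg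
    rw [hcgy] at e1
    rw [hcgy0] at e2
    exact X.mem_CG.2 ⟨e1, e2⟩
  -- fixed vectors give elements of the derived subgroup
  have hp_lin : IsSemi false (F.rho y0) := F.linear_of_three hy03
  obtain ⟨w', hw', hw'c⟩ := F.exists_lift_commute hy03 F.omP_mem_range (F.omP_commute hp_lin)
  have hfix1 : ∀ v, F.rho y0 v = v → ∃ u : pCore 2 (CH z), F.psi u = v ∧ Commute (u : CH z) y0 ∧
      cg u ∈ D := by
    intro v hv
    obtain ⟨q, hq, hqc⟩ := F.exists_fix_lift hy03 (v := w4 • v) (by rw [hp_lin.2.1, hv]; rfl)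
    have hQn : (pCore 2 (CH z)).Normal := inferInstance
    refine ⟨⟨w' * q * w'⁻¹, hQn.conj_mem _ q.2 w'⟩ * q⁻¹, ?_, ?_, ?_⟩
    · have hinv : F.psi q⁻¹ = F.psi q := by
        have h := F.ext.psi_mul q q⁻¹
        rw [mul_inv_cancel, F.ext.psi_one] at h
        calc F.psi q⁻¹ = F.psi q + (F.psi q + F.psi q⁻¹) := by rw [← add_assoc, vec_self, zero_add]
          _ = F.psi q := by rw [← h, add_zero]
      rw [F.ext.psi_mul, F.ext.psi_conj, hw', hinv, hq, omP_apply, smul_smul, ← add_smul,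
        show w4 * w4 + w4 = 1 by decide, one_smul]
    · exact ((hw'c.mul_left hqc).mul_left hw'c.inv_left).mul_left hqc.inv_left
    · show cg (w' * (q : CH z) * w'⁻¹ * (q : CH z)⁻¹) ∈ D
      rw [map_mul, map_mul, map_mul, map_inv, map_inv, ← commutatorElement_def]
      exact Subgroup.commutator_mem_commutator (hto _ hw'c) (hto _ hqc)
  have hzD' : cg (zH z) ∈ D := by
    obtain ⟨u, hu, huc, huD⟩ := hfix1 v0 hv0
    have h0 : F.psi (u * u) = 0 := by rw [F.ext.psi_mul, vec_self]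
    rcases (F.ext.psi_ker _).1 h0 with h | h
    · exact absurd ((F.ext.psi_norm u).2 (Subtype.ext h)) (hu.symm ▸ hv0H)
    · rw [← show (u : CH z) * u = zH z from h, map_mul]
      exact mul_mem huD huD
  have hQD : ∀ q : CH z, q ∈ pCore 2 (CH z) → Commute q y0 → cg q ∈ D := by
    intro q hq hqc
    have hv : F.rho y0 (F.psi ⟨q, hq⟩) = F.psi ⟨q, hq⟩ := by
      rw [← F.ext.psi_conj]
      refine congrArg F.psi (Subtype.ext ?_)
      show y0 * q * y0⁻¹ = q
      rw [hqc.symm.eq, mul_inv_cancel_right]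
    obtain ⟨u, hu, -, huD⟩ := hfix1 _ hv
    rcases F.ext.eq_of_psi hu.symm with h | h
    · rw [show q = (u : CH z) from h]; exact huD
    · rw [show q = (u : CH z) * zH z from h, map_mul]; exact mul_mem huD hzD'
  have hzD : z ∈ D := by
    rw [← hcgy]
    by_cases hb1 : F.rho y = 1
    · exact hQD y (F.ext.mem_q hb1) hyy0
    have hblin : IsSemi false (F.rho y) := F.linear_of_commute (hw' ▸ (hcent w' hw'c).map F.rho)
    have hbfix : ∀ v, F.rho y0 v = v → F.rho y v = v := by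
      intro v hv
      obtain ⟨q, rfl, hq⟩ := F.exists_fix_lift hy03 hv
      rw [← F.ext.psi_conj]
      refine congrArg F.psi (Subtype.ext ?_)
      show y * (q : CH z) * y⁻¹ = q
      rw [(hcent _ hq).eq, mul_inv_cancel_right]
    have hbc : ∀ r ∈ F.rho.range, r * F.rho y0 = F.rho y0 * r → F.rho y * r = r * F.rho y := by
      intro r hr hrc
      obtain ⟨h, rfl, hhc⟩ := F.exists_lift_commute hy03 hr hrc
      exact ((hcent h hhc).map F.rho).eq
    obtain ⟨r, hr, hrc, hrr⟩ := hsqr _ ⟨y, rfl⟩ (by rw [← map_mul, hy2, map_one]) hb1 hblin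
      (hyy0.map F.rho).eq hbfix hbc
    obtain ⟨h, rfl, hhc⟩ := F.exists_lift_commute hy03 hr hrc
    have hq : (h * h)⁻¹ * y ∈ pCore 2 (CH z) :=
      F.ext.mem_q (by rw [map_mul, map_inv, map_mul, hrr, inv_mul_cancel])
    have := hQD _ hq ((hhc.mul_left hhc).inv_left.mul_left hyy0)
    have h2 : cg (h * h) ∈ D := by rw [map_mul]; exact hsqD _ (hto h hhc)
    have := mul_mem h2 this
    rwa [← map_mul, mul_inv_cancel_left] at this
  have hperfect : D = CG z P := le_antisymm hDle fun c hc => by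
    rcases hdec c hc with h | h
    · exact h
    · simpa [mul_assoc, X.z_sq] using mul_mem h hzD
  refine ⟨?_, hperfect⟩
  -- the odd core
  have hxc : ∀ c ∈ CP, ∀ p ∈ P, c * p = p * c := fun c hc p hp =>
    (Subgroup.mem_centralizer_iff.1 hc p hp).symm
  have hfixz : ∀ t ∈ T, Commute t z → t ∈ P := by
    intro t ht htz
    have htCG : t ∈ CG z P := X.mem_CG.2 ⟨htz, X.mem_centralizer.1 (hTCP ht)⟩
    set S : Subgroup Spor.M22 := (T.subgroupOf (CG z P)).map φ with hS
    haveI hTnn : (T.subgroupOf (CG z P)).Normal :=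
      ⟨fun a ha c => Subgroup.mem_subgroupOf.2 (hTn c c.2.2 a ha)⟩
    have hSb : S = ⊥ := by
      rcases IsSimpleGroup.eq_bot_or_eq_top_of_normal S (Subgroup.Normal.map hTnn _ hφs) with h | h
      · exact h
      · exfalso
        have h1 : Nat.card S ∣ Nat.card T := by
          refine (Subgroup.card_map_dvd _ _).trans ?_
          exact Subgroup.card_dvd_of_injective
            (((CG z P).subtype.comp (T.subgroupOf (CG z P)).subtype).codRestrict T fun a => a.2)
            fun a b e => Subtype.ext (Subtype.ext (congrArg (fun w : T => (w : G)) e))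
        rw [h, Subgroup.card_top, Golay.card_M22] at h1
        exact Nat.not_even_iff_odd.2 (hN.of_dvd_nat h1) (by decide)
    have h1 : φ ⟨t, htCG⟩ = 1 := by
      have : φ ⟨t, htCG⟩ ∈ S := ⟨⟨t, htCG⟩, ht, rfl⟩
      rwa [hSb, Subgroup.mem_bot] at this
    obtain ⟨n, hn⟩ := Subgroup.mem_zpowers_iff.1 ((hφk _).1 h1)
    have hn' : (z * (x : G)) ^ n = t := hn
    rw [X.z_comm_x.mul_zpow] at hn'
    rcases Int.even_or_odd n with ⟨m, rfl⟩ | ⟨m, rfl⟩
    · rw [← X.gen, ← hn', zpow_add z, ← (Commute.refl z).mul_zpow, X.z_sq, one_zpow, one_mul]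
      exact Subgroup.zpow_mem _ (Subgroup.mem_zpowers _) _
    · exfalso
      have hz1 : z ^ (2 * m + 1) = z := by
        rw [zpow_add, zpow_mul, zpow_ofNat, pow_two, X.z_sq, one_zpow, one_mul, zpow_one]
      rw [hz1] at hn'
      have h2 : t ^ (Nat.card T * 3) = 1 := by rw [pow_mul, hpowN t ht, one_pow]
      rw [← hn', ((X.z_comm_x).zpow_right _).mul_pow, mul_comm (Nat.card T) 3, pow_mul ((x : G) ^ _),
        ← zpow_natCast ((x : G) ^ _), ← zpow_mul, mul_comm _ ((3 : ℕ) : ℤ), zpow_mul, zpow_natCast,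
        X.x_three, one_zpow, one_pow, mul_one] at h2
      obtain ⟨l, hl⟩ := (show Odd 3 by decide).mul hN
      rw [hl, pow_succ, pow_mul, pow_two, X.z_sq, one_pow, one_mul] at h2
      exact X.z_ne h2
  have hfixs : ∀ t ∈ T, Commute t (g * z * g⁻¹) → t ∈ P := by
    intro t ht hts
    have hc : Commute (g⁻¹ * t * g) z := by
      calc g⁻¹ * t * g * z = g⁻¹ * (t * (g * z * g⁻¹)) * g := by group
        _ = g⁻¹ * ((g * z * g⁻¹) * t) * g := by rw [hts.eq]
        _ = z * (g⁻¹ * t * g) := by group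
    set o : CH z := ⟨g⁻¹ * t * g, Subgroup.mem_centralizer_singleton_iff.2 hc.eq⟩
    have hco : cg o = t := by
      show g * (g⁻¹ * t * g) * g⁻¹ = t
      group
    obtain ⟨k, hk⟩ := Subgroup.mem_zpowers_iff.1 (hT0 o (hco.symm ▸ ht))
    rw [← hco, ← hk, map_zpow, hcgy0, ← X.gen]
    exact Subgroup.zpow_mem _ (Subgroup.mem_zpowers _) _
  have hinv : ∀ σ : G, σ * σ = 1 → σ ∈ CP → (∀ t ∈ T, Commute t σ → t ∈ P) →
      ∀ t ∈ T, σ * t * σ * t ∈ P := by
    intro σ hσ2 hσ hfix t ht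
    have hσi : σ⁻¹ = σ := inv_eq_of_mul_eq_one_right hσ2
    have hconjT : σ * t * σ ∈ T := by have := hTn σ hσ t ht; rwa [hσi] at this
    set u := t⁻¹ * (σ * t * σ) with hu
    have huT : u ∈ T := mul_mem (inv_mem ht) hconjT
    have hus : σ * u * σ⁻¹ = u⁻¹ := by
      rw [hσi]
      calc σ * u * σ = σ * t⁻¹ * σ * t * (σ * σ) := by rw [hu]; group
        _ = σ⁻¹ * t⁻¹ * σ⁻¹ * t := by rw [hσ2, hσi, mul_one]
        _ = u⁻¹ := by rw [hu]; group
    obtain ⟨w, hw, hwσ, hwu⟩ := exists_root_inverted hN (hpowN u huT) hus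
    have hwT : w ∈ T := (Subgroup.zpowers_le.2 huT) hwu
    have hfixed : Commute (t * w) σ := by
      have h1 : σ * (t * w) * σ⁻¹ = t * w := by
        calc σ * (t * w) * σ⁻¹ = (σ * t * σ⁻¹) * (σ * w * σ⁻¹) := by group
          _ = (t * u) * w⁻¹ := by rw [hwσ, hσi, hu]; group
          _ = t * w := by rw [← hw]; group
      exact (mul_inv_eq_iff_eq_mul.1 h1).symm
    have hp := hfix _ (mul_mem ht hwT) hfixed
    have hwt : t * w * t = w * t * t := by
      have h1 : (t * w) * t = t * (t * w) := (hxc t (hTCP ht) _ hp).symm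
      have h2 : t * w = w * t := by
        calc t * w = t⁻¹ * (t * (t * w)) := by group
          _ = t⁻¹ * ((t * w) * t) := by rw [h1]
          _ = w * t := by group
      rw [h2]
    have key : σ * t * σ * t = (t * w) * (t * w) := by
      calc σ * t * σ * t = t * (w * w) * t := by rw [hw, hu]; group
        _ = t * w * (w * t) := by group
        _ = (t * w) * (t * w) := by
          rw [show w * t = t * w from mul_right_cancel (b := t) hwt.symm]
    rw [key]
    exact mul_mem hp hp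
  have hsCP : g * z * g⁻¹ ∈ CP := hs.2
  have hiz := hinv z X.z_sq hzCP hfixz
  have his := hinv (g * z * g⁻¹) hs2 hsCP hfixs
  -- the kernel of the action on the core
  let K : Subgroup ↥(CG z P) :=
    { carrier := {c | ∀ t ∈ T, (c : G) * t * (c : G)⁻¹ * t⁻¹ ∈ P}
      one_mem' := fun t _ => by simp
      mul_mem' := fun {a b} ha hb t ht => by
        have h1 := hb t ht
        have h2 := ha t ht
        have hcomm := hxc a a.2.2 _ h1
        have e : ((a * b : CG z P) : G) * t * ((a * b : CG z P) : G)⁻¹ * t⁻¹ =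
            ((a : G) * ((b : G) * t * (b : G)⁻¹ * t⁻¹) * (a : G)⁻¹) * ((a : G) * t * (a : G)⁻¹ * t⁻¹) := by
          rw [Subgroup.coe_mul]; group
        rw [e, hcomm, mul_inv_cancel_right]
        exact mul_mem h1 h2
      inv_mem' := fun {a} ha t ht => by
        have h1 := ha ((a : G)⁻¹ * t * (a : G)) (by
          have := hTn _ (inv_mem a.2.2) t ht
          rwa [inv_inv] at this)
        have h2 := inv_mem h1
        have e : ((a : G) * ((a : G)⁻¹ * t * (a : G)) * (a : G)⁻¹ * ((a : G)⁻¹ * t * (a : G))⁻¹)⁻¹ =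
            ((a⁻¹ : CG z P) : G) * t * ((a⁻¹ : CG z P) : G)⁻¹ * t⁻¹ := by
          rw [Subgroup.coe_inv]; group
        rwa [e] at h2 }
  haveI hKn : K.Normal := ⟨fun a ha c t ht => by
    have h1 := ha ((c : G)⁻¹ * t * (c : G)) (by
      have := hTn _ (inv_mem c.2.2) t ht
      rwa [inv_inv] at this)
    have hcomm := hxc c c.2.2 _ h1
    have e : ((c * a * c⁻¹ : CG z P) : G) * t * ((c * a * c⁻¹ : CG z P) : G)⁻¹ * t⁻¹ =
        (c : G) * ((a : G) * ((c : G)⁻¹ * t * (c : G)) * (a : G)⁻¹ * ((c : G)⁻¹ * t * (c : G))⁻¹) * (c : G)⁻¹ := by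
      simp only [Subgroup.coe_mul, Subgroup.coe_inv]; group
    rw [e, hcomm, mul_inv_cancel_right]
    exact h1⟩
  set sz : ↥(CG z P) := ⟨g * z * g⁻¹, hs⟩ * ⟨z, hzCG⟩ with hsz'
  have hszK : sz ∈ K := by
    intro t ht
    show g * z * g⁻¹ * z * t * (g * z * g⁻¹ * z)⁻¹ * t⁻¹ ∈ P
    set σ := g * z * g⁻¹ with hσ
    have hσi : σ⁻¹ = σ := inv_eq_of_mul_eq_one_right hs2
    have hzi : z⁻¹ = z := inv_eq_of_mul_eq_one_right X.z_sq
    have h1 := hiz t ht
    have h2 := his t⁻¹ (inv_mem ht)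
    have hcomm : σ * (z * t * z * t) * σ = z * t * z * t := by
      rw [hxc σ hsCP _ h1, mul_assoc, hs2, mul_one]
    have e : σ * z * t * (σ * z)⁻¹ * t⁻¹ = (σ * (z * t * z * t) * σ) * (σ * t⁻¹ * σ * t⁻¹) := by
      rw [mul_inv_rev, hσi, hzi]
      calc σ * z * t * (z * σ) * t⁻¹ = σ * (z * t * z * t) * (t⁻¹ * σ * t⁻¹) := by group
        _ = σ * (z * t * z * t) * ((σ * σ) * (t⁻¹ * σ * t⁻¹)) := by rw [hs2, one_mul]
        _ = (σ * (z * t * z * t) * σ) * (σ * t⁻¹ * σ * t⁻¹) := by group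
    rw [e, hcomm]
    exact mul_mem h1 h2
  have hφsz : φ sz ≠ 1 := by
    intro h
    obtain ⟨n, hn⟩ := Subgroup.mem_zpowers_iff.1 ((hφk _).1 h)
    have h1 : g * z * g⁻¹ = (z * (x : G)) ^ n * z := by
      rw [hn]
      show g * z * g⁻¹ = g * z * g⁻¹ * z * z
      rw [mul_assoc _ z z, X.z_sq, mul_one]
    -- its square is trivial, so the exponent of x is trivial
    have hxn : (x : G) ^ n = 1 := by
      have h2 : ((z * (x : G)) ^ n * z) * ((z * (x : G)) ^ n * z) = 1 := h1 ▸ hs2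
      rw [X.z_comm_x.mul_zpow] at h2
      have hc : Commute ((x : G) ^ n) z := (X.z_comm_x.zpow_right n).symm
      have h3 : z ^ n * (x : G) ^ n * z * (z ^ n * (x : G) ^ n * z) =
          (z ^ n * z * (z ^ n * z)) * ((x : G) ^ n * (x : G) ^ n) := by
        have c1 : Commute ((x : G) ^ n) (z ^ n * z) := (hc.zpow_right n).mul_right hc
        have e : z ^ n * (x : G) ^ n * z = z ^ n * z * (x : G) ^ n := by
          rw [mul_assoc, hc.eq, ← mul_assoc]
        calc z ^ n * (x : G) ^ n * z * (z ^ n * (x : G) ^ n * z)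
            = z ^ n * z * (x : G) ^ n * (z ^ n * z * (x : G) ^ n) := by rw [e]
          _ = z ^ n * z * ((x : G) ^ n * (z ^ n * z)) * (x : G) ^ n := by simp only [mul_assoc]
          _ = _ := by rw [c1.eq]; simp only [mul_assoc]
      rw [h3, ← zpow_add_one, ← (Commute.refl z).mul_zpow, X.z_sq, one_zpow, one_mul] at h2
      have h4 : ((x : G) ^ n) ^ 3 = 1 := by
        rw [← zpow_natCast, ← zpow_mul, mul_comm, zpow_mul, zpow_natCast, X.x_three, one_zpow]
      rw [pow_succ, pow_two, h2, one_mul] at h4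
      exact h4
    rw [X.z_comm_x.mul_zpow, hxn, mul_one] at h1
    rcases Int.even_or_odd n with ⟨m, rfl⟩ | ⟨m, rfl⟩
    · rw [zpow_add, ← (Commute.refl z).mul_zpow, X.z_sq, one_zpow, one_mul] at h1
      exact hne h1
    · have hz1 : z ^ (2 * m + 1) = z := by
        rw [zpow_add, zpow_mul, zpow_ofNat, pow_two, X.z_sq, one_zpow, one_mul, zpow_one]
      rw [hz1, X.z_sq, mul_inv_eq_one] at h1
      exact X.z_ne (mul_eq_left.1 h1)
  have hKφ : K.map φ = ⊤ :=
    (IsSimpleGroup.eq_bot_or_eq_top_of_normal _ (Subgroup.Normal.map hKn _ hφs)).resolve_left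
      fun h => hφsz (by
        have : φ sz ∈ K.map φ := ⟨sz, hszK, rfl⟩
        rwa [h, Subgroup.mem_bot] at this)
  have hKall : ∀ c, c ∈ K := by
    have hxK : (⟨(x : G), hDle hxD⟩ : CG z P) ∈ K := fun t ht => by
      have : (x : G) * t = t * (x : G) := (hxc t (hTCP ht) _ (X.gen ▸ Subgroup.mem_zpowers _)).symm
      show (x : G) * t * (x : G)⁻¹ * t⁻¹ ∈ P
      rw [this, mul_inv_cancel_right, mul_inv_cancel]
      exact one_mem P
    set Z' : CG z P := ⟨z, hzCG⟩
    have hZc : ∀ c : CG z P, c * Z' = Z' * c := fun c => Subtype.ext (hzcent c c.2).eq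
    have hdecK : ∀ c : CG z P, c ∈ K ∨ c * Z' ∈ K := by
      intro c
      obtain ⟨k, hk, hke⟩ := (hKφ.symm ▸ Subgroup.mem_top (φ c) : φ c ∈ K.map φ)
      have h1 : φ (k⁻¹ * c) = 1 := by rw [map_mul, map_inv, hke, inv_mul_cancel]
      obtain ⟨n, hn⟩ := Subgroup.mem_zpowers_iff.1 ((hφk _).1 h1)
      have hce : c = k * ((⟨(x : G), hDle hxD⟩ : CG z P) ^ n * Z' ^ n) := by
        refine Subtype.ext ?_
        simp only [Subgroup.coe_mul, Subgroup.coe_zpow]
        rw [(X.z_comm_x.zpow_zpow n n).symm.eq, ← X.z_comm_x.mul_zpow, hn]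
        show (c : G) = (k : G) * ((k : G)⁻¹ * (c : G))
        group
      have hZ2 : Z' * Z' = 1 := Subtype.ext X.z_sq
      rcases Int.even_or_odd n with ⟨m, rfl⟩ | ⟨m, rfl⟩
      · left
        rw [hce, zpow_add Z', ← (Commute.refl Z').mul_zpow, hZ2, one_zpow, mul_one]
        exact mul_mem hk (zpow_mem hxK _)
      · right
        rw [hce, zpow_add Z', zpow_mul, zpow_ofNat, pow_two, hZ2, one_zpow, one_mul, zpow_one,
          mul_assoc k, mul_assoc, hZ2, mul_one]
        exact mul_mem hk (zpow_mem hxK _)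
    have hcommK : ∀ a b : CG z P, ⁅a, b⁆ ∈ K := by
      have hstrip : ∀ a b : CG z P, ⁅a * Z', b⁆ = ⁅a, b⁆ ∧ ⁅a, b * Z'⁆ = ⁅a, b⁆ := by
        intro a b
        refine ⟨?_, ?_⟩ <;> rw [commutatorElement_def, commutatorElement_def]
        · calc a * Z' * b * (a * Z')⁻¹ * b⁻¹ = a * (Z' * b) * Z'⁻¹ * a⁻¹ * b⁻¹ := by group
            _ = a * b * a⁻¹ * b⁻¹ := by rw [← hZc b]; group
        · calc a * (b * Z') * a⁻¹ * (b * Z')⁻¹ = a * b * (Z' * a⁻¹) * Z'⁻¹ * b⁻¹ := by group
            _ = a * b * a⁻¹ * b⁻¹ := by rw [← hZc a⁻¹]; group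
      intro a b
      have hpair : ∀ a b : CG z P, a ∈ K → b ∈ K → ⁅a, b⁆ ∈ K := fun a b ha hb => by
        rw [commutatorElement_def]
        exact mul_mem (mul_mem (mul_mem ha hb) (inv_mem ha)) (inv_mem hb)
      rcases hdecK a with ha | ha <;> rcases hdecK b with hb | hb
      · exact hpair a b ha hb
      · rw [← (hstrip a b).2]; exact hpair _ _ ha hb
      · rw [← (hstrip a b).1]; exact hpair _ _ ha hb
      · rw [← (hstrip a b).1, ← (hstrip (a * Z') b).2]; exact hpair _ _ ha hb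
    have hD0K : D0 ≤ K := Subgroup.commutator_le.2 fun a _ b _ => hcommK a b
    intro c
    have h1 : (c : G) ∈ D0.map (CG z P).subtype := by rw [hDmap, hperfect]; exact c.2
    obtain ⟨d, hd, hde⟩ := h1
    rw [← Subtype.ext hde]
    exact hD0K hd
  have hTP : ∀ t ∈ T, t ∈ P := by
    intro t ht
    have h1 : z * t * z⁻¹ * t⁻¹ ∈ P := hKall ⟨z, hzCG⟩ t ht
    have hzi : z⁻¹ = z := inv_eq_of_mul_eq_one_right X.z_sq
    rw [hzi] at h1
    have h2 : t ^ 2 ∈ P := by
      have := mul_mem (inv_mem h1) (hiz t ht)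
      rwa [show (z * t * z * t⁻¹)⁻¹ * (z * t * z * t) = t * t by group, ← pow_two] at this
    obtain ⟨l, hl⟩ := hN
    have h3 := hpowN t ht
    rw [hl, pow_succ, pow_mul] at h3
    rw [eq_inv_of_mul_eq_one_right h3]
    exact inv_mem (pow_mem h2 l)
  intro c hc
  rw [Subgroup.mem_centralizer_singleton_iff]
  set u := z * c * z⁻¹ * c⁻¹ with hu
  have huP : u ∈ P := hTP u (hZ c hc)
  have hu3 : u ^ 3 = 1 := by
    rw [← X.gen] at huP
    obtain ⟨n, hn⟩ := Subgroup.mem_zpowers_iff.1 huP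
    rw [← hn, ← zpow_natCast, ← zpow_mul, mul_comm, zpow_mul, zpow_natCast, X.x_three, one_zpow]
  have hzi : z⁻¹ = z := inv_eq_of_mul_eq_one_right X.z_sq
  have e1 : z * u * z⁻¹ = u := by rw [hxc z hzCP u huP, mul_inv_cancel_right]
  have e2 : z * u * z⁻¹ = u⁻¹ := by
    calc z * u * z⁻¹ = (z * z) * c * z⁻¹ * c⁻¹ * z⁻¹ := by rw [hu]; group
      _ = (z * c * z⁻¹ * c⁻¹)⁻¹ := by
        rw [X.z_sq, one_mul, mul_inv_rev, mul_inv_rev, mul_inv_rev, inv_inv, inv_inv, hzi]; group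
      _ = u⁻¹ := by rw [hu]
  have h2 : u * u = 1 := by
    nth_rewrite 1 [← e1, e2]
    exact inv_mul_cancel u
  have hu1 : u = 1 := by rw [pow_succ, pow_two, h2, one_mul] at hu3; exact hu3
  exact (mul_inv_eq_iff_eq_mul.1 (mul_inv_eq_one.1 (hu ▸ hu1))).symm

/-- The normaliser lies in the centraliser of the involution. -/
theorem normalizer_le (hI : InvFacts F.rho.range)
    (hcen : Subgroup.centralizer (P : Set G) ≤ Subgroup.centralizer ({z} : Set G)) :
    Subgroup.normalizer (P : Set G) ≤ Subgroup.centralizer ({z} : Set G) := by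
  intro n hn
  have hzCP : z ∈ Subgroup.centralizer (P : Set G) := X.mem_centralizer.2 X.z_comm_x
  have hmem : n * z * n⁻¹ ∈ Subgroup.centralizer (P : Set G) := by
    refine X.mem_centralizer.2 ?_
    have h1 : n⁻¹ * (x : G) * n ∈ P := by
      have := (Subgroup.mem_normalizer_iff.1 (inv_mem hn) (x : G)).1 (X.gen ▸ Subgroup.mem_zpowers _)
      rwa [inv_inv] at this
    rw [← X.gen] at h1
    obtain ⟨l, hl⟩ := Subgroup.mem_zpowers_iff.1 h1
    have hc : Commute z (n⁻¹ * (x : G) * n) := hl ▸ X.z_comm_x.zpow_right l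
    calc n * z * n⁻¹ * (x : G) = n * (z * (n⁻¹ * (x : G) * n)) * n⁻¹ := by group
      _ = n * ((n⁻¹ * (x : G) * n) * z) * n⁻¹ := by rw [hc.eq]
      _ = (x : G) * (n * z * n⁻¹) := by group
  exact Subgroup.mem_centralizer_singleton_iff.2
    (mul_inv_eq_iff_eq_mul.1 (X.isolated hI hn ⟨hcen hmem, hmem⟩))

/-- Centre and quotient. -/
theorem center_facts : IsCyclic ↥(Subgroup.center ↥(CG z P)) ∧
    Nat.card ↥(Subgroup.center ↥(CG z P)) = 6 ∧
    Spor.IsoM22 (↥(CG z P) ⧸ Subgroup.center ↥(CG z P)) := by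
  haveI := Golay.isSimpleGroup_M22
  obtain ⟨φ, hφs, hφk⟩ := X.exists_phi
  have hzx : z * (x : G) ∈ CG z P := X.mem_CG.2
    ⟨(Commute.refl z).mul_left X.z_comm_x.symm, X.z_comm_x.mul_left (Commute.refl _)⟩
  set w : CG z P := ⟨z * (x : G), hzx⟩ with hw
  have hker : φ.ker = Subgroup.zpowers w := by
    ext c
    rw [MonoidHom.mem_ker, hφk, Subgroup.mem_zpowers_iff, Subgroup.mem_zpowers_iff]
    constructor
    · rintro ⟨n, hn⟩
      exact ⟨n, Subtype.ext ((Subgroup.coe_zpow _ w n).trans hn)⟩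
    · rintro ⟨n, rfl⟩
      exact ⟨n, (Subgroup.coe_zpow _ w n).symm⟩
  have hcenter : Subgroup.center ↥(CG z P) = φ.ker := by
    refine le_antisymm (fun c hc => ?_) ?_
    · have hc' : φ c ∈ Subgroup.center Spor.M22 := Subgroup.mem_center_iff.2 fun m => by
        obtain ⟨m, rfl⟩ := hφs m
        rw [← map_mul, Subgroup.mem_center_iff.1 hc m, map_mul]
      rcases IsSimpleGroup.eq_bot_or_eq_top_of_normal (Subgroup.center Spor.M22) inferInstance with h | h
      · rwa [h, Subgroup.mem_bot] at hc'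
      · exfalso
        letI : CommGroup Spor.M22 := { (inferInstance : Group Spor.M22) with
          mul_comm := fun a b => Subgroup.mem_center_iff.1 (h ▸ Subgroup.mem_top b) a }
        have hp : (Nat.card Spor.M22).Prime := IsSimpleGroup.prime_card
        rw [Golay.card_M22] at hp
        norm_num at hp
    · rw [hker, Subgroup.zpowers_le, Subgroup.mem_center_iff]
      intro c
      obtain ⟨h1, h2⟩ := X.mem_CG.1 c.2
      exact Subtype.ext (h1.mul_right h2).eq
  refine ⟨?_, ?_, ?_⟩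
  · rw [hcenter, hker]
    infer_instance
  · rw [hcenter, hker, Nat.card_zpowers, hw, Subgroup.orderOf_mk, X.orderOf_zx]
  · exact ⟨(QuotientGroup.quotientMulEquivOfEq hcenter).trans
      (QuotientGroup.quotientKerEquivOfSurjective φ hφs)⟩

end PGen

end Cfsg.Agent.JFourType
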