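import Cfsg.Agent.JFourType.PLocal
import Cfsg.Agent.JFourType.Fusion
import Cfsg.Agent.LargeExtra.Pair

/-!
A second conjugate of the involution in the centraliser of the subgroup of order three in a simple
group of Janko-four type.

The conjugates of the involution in the elementary abelian subgroup of order `2^11` are permuted
transitively by its normaliser. If none but the involution itself commutes with the element of
order three, they form with the identity a subgroup of the extraspecial group whose image in the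
space is a line, which the normaliser does not leave invariant.
-/

set_option autoImplicit false
set_option maxRecDepth 100000

namespace Cfsg.Agent.JFourType

open Cfsg
open Cfsg.Agent.GFour25 Cfsg.Agent.CosetCert
open Cfsg.Agent.SporB.FischerU (Vec vecN enc vecN_enc enc_lt)
open Cfsg.Agent.LargeFischer (IsSemi semiU twist)
open Cfsg.Agent.LargeFischer.Thompson
open Cfsg.Agent.LargeExtra (CentralInvolution exists_centralInvolution)
open Cfsg.Agent.TTClass
open Data

/-- No line of the fixed space is left invariant by the three elements of the normaliser. -/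
noncomputable def noLineOK : Bool :=
  uList.all fun u => Nat.beq u 0 || (List.range 3).any fun k =>
    !([0, u, apL omL u, apL omL (apL omL u)].contains (apL (nImgs.getD k idL) u))

theorem noLineOK_true : noLineOK = true := by decide +kernel

theorem enc_zero' : enc (0 : Vec) = 0 := by decide

/-- No line of the fixed space is left invariant by the normaliser. -/
theorem no_line {R : Subgroup (Equiv.Perm Vec)} (hR : Contains R) {r : Vec} (hr : r ∈ uSet)
    (hr0 : r ≠ 0) : ∃ k < 3, wPerm (nWords.getD k []) r ∉ ({0, r, omP r, omP (omP r)} : Set Vec) := by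
  have hne : enc r ≠ 0 := fun h => hr0 (by rw [← vecN_enc r, h, ← enc_zero', vecN_enc])
  have h := List.all_eq_true.1 noLineOK_true _ hr
  rw [Bool.or_eq_true] at h
  rcases h with h | h
  · exact absurd (Nat.eq_of_beq_eq_true h) hne
  obtain ⟨k, hk, hk'⟩ := List.any_eq_true.1 h
  rw [List.mem_range] at hk
  refine ⟨k, hk, fun hmem => ?_⟩
  have hrep := (good_word hR hk).2 r
  simp only [Bool.not_eq_true', List.contains_eq_mem, decide_eq_false_iff_not, List.mem_cons,
    List.not_mem_nil, or_false] at hk'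
  rw [← hrep, ← rep_omP r, ← rep_omP (omP r), ← enc_zero'] at hk'
  refine hk' ?_
  simp only [Set.mem_insert_iff, Set.mem_singleton_iff] at hmem
  rcases hmem with e | e | e | e <;> rw [e] <;> simp

namespace PFrame

variable {G : Type*} [Group G] [Finite G] {z : G} (F : PFrame z)

/-- The model of the image of the centraliser. -/
noncomputable def mdl : Model F.rho.range :=
  model ⟨F.hK⟩ candJ candJ_ok gP rep_gP.1 F.hg

/-- The elementary abelian subgroup of order `2^11` in the centraliser. -/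
noncomputable def kSub : Subgroup (CH z) := F.ext.K F.mdl

/-- The elementary abelian subgroup of order `2^11`. -/
noncomputable def vSub : Subgroup G := F.kSub.map (Subgroup.centralizer ({z} : Set G)).subtype

theorem kSub_sq {a : CH z} (ha : a ∈ F.kSub) : a * a = 1 := F.ext.K_sq F.mdl a ha

theorem kSub_comm {a b : CH z} (ha : a ∈ F.kSub) (hb : b ∈ F.kSub) : a * b = b * a :=
  comm_of_sq (F.kSub_sq ha) (F.kSub_sq hb) (F.kSub_sq (mul_mem ha hb))

theorem zH_mem : zH z ∈ F.kSub := ((F.ext.K_inf F.mdl).ge (F.ext.z_mem_P0 F.mdl)).1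

theorem rho_kSub {y : CH z} (hy : y ∈ F.kSub) : F.rho y ∈ aGrp := ((F.ext.mem_K F.mdl).1 hy).2

theorem psi_kSub {y : CH z} (hy : y ∈ F.kSub) (hq : y ∈ pCore 2 (CH z)) : F.psi ⟨y, hq⟩ ∈ uSet :=
  ((F.ext.K_inf F.mdl).le ⟨hy, hq⟩).2

theorem kSub_conj_q {e y : CH z} (he : e ∈ pCore 2 (CH z)) (hy : y ∈ F.kSub) :
    e * y * e⁻¹ ∈ F.kSub := by
  refine F.ext.conj_K F.mdl (fun u hu => ?_) (fun a ha => ?_) hy
  · rw [F.ext.rho_q he]; exact hu
  · rw [F.ext.rho_q he, one_mul, inv_one, mul_one]; exact ha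

theorem vSub_el : IsElementaryAbelian 2 F.vSub := by
  refine elem_map _ ⟨⟨⟨fun u v => Subtype.ext (F.kSub_comm u.2 v.2)⟩⟩, fun a ha => ?_⟩
  rw [pow_two]
  exact F.kSub_sq ha

theorem vSub_card : Nat.card F.vSub = 2 ^ 11 := by
  rw [vSub, Subgroup.card_map_of_injective (Subgroup.centralizer ({z} : Set G)).subtype_injective]
  exact F.ext.K_card F.mdl

theorem coe_mem_vSub {y : CH z} : (y : G) ∈ F.vSub ↔ y ∈ F.kSub :=
  ⟨fun ⟨_, hy, e⟩ => Subtype.ext e ▸ hy, fun hy => ⟨y, hy, rfl⟩⟩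

theorem exists_of_mem_vSub {g : G} (hg : g ∈ F.vSub) : ∃ y ∈ F.kSub, (y : G) = g := hg

/-- The normaliser is transitive on the conjugates of the involution in the subgroup. -/
theorem exists_trans {P : Subgroup G} (hJ : IsOfJankoFourTypeWith z P) {y : CH z} (hy : y ∈ F.kSub)
    (hc : IsConj z (y : G)) : ∃ n ∈ Subgroup.normalizer (F.vSub : Set G), n * z * n⁻¹ = y := by
  obtain ⟨g, hg⟩ := isConj_iff.1 hc
  let f : CH z →* G := (MulAut.conj g⁻¹).toMonoidHom.comp (Subgroup.centralizer ({z} : Set G)).subtype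
  have hf : ∀ k : CH z, f k = g⁻¹ * (k : G) * g := fun k => by
    show g⁻¹ * (k : G) * g⁻¹⁻¹ = _
    rw [inv_inv]
  have hWH : F.kSub.map f ≤ Subgroup.centralizer ({z} : Set G) := by
    rintro _ ⟨k, hk, rfl⟩
    rw [hf, Subgroup.mem_centralizer_singleton_iff]
    have hky : (k : G) * (y : G) = (y : G) * k := congrArg Subtype.val (F.kSub_comm hk hy)
    calc g⁻¹ * (k : G) * g * z = g⁻¹ * ((k : G) * (g * z * g⁻¹)) * g := by group
      _ = g⁻¹ * ((g * z * g⁻¹) * (k : G)) * g := by rw [hg, hky]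
      _ = z * (g⁻¹ * (k : G) * g) := by group
  have hKel : IsElementaryAbelian 2 F.kSub := by
    refine ⟨⟨⟨fun u v => Subtype.ext (F.kSub_comm u.2 v.2)⟩⟩, fun a ha => ?_⟩
    rw [pow_two]
    exact F.kSub_sq ha
  have hWel := elem_map f hKel
  set W := (F.kSub.map f).subgroupOf (Subgroup.centralizer ({z} : Set G)) with hW
  have hWel' : IsElementaryAbelian 2 W := by
    refine ⟨⟨⟨fun u v => Subtype.ext (Subtype.ext ?_)⟩⟩, fun a ha =>
      Subtype.ext (hWel.2 _ (Subgroup.mem_subgroupOf.1 ha))⟩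
    show ((u : CH z) : G) * (v : CH z) = ((v : CH z) : G) * (u : CH z)
    exact congrArg Subtype.val (hWel.1.is_comm.comm ⟨_, Subgroup.mem_subgroupOf.1 u.2⟩
      ⟨_, Subgroup.mem_subgroupOf.1 v.2⟩)
  have hinj : Function.Injective f := fun a b e => Subtype.ext ((MulAut.conj g⁻¹).injective e)
  obtain ⟨c, hcW⟩ := elementary_conj hJ hKel (F.ext.K_card F.mdl) hWel' (by
    rw [hW, Nat.card_congr (Subgroup.subgroupOfEquivOfLe hWH).toEquiv,
      Subgroup.card_map_of_injective hinj]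
    exact F.ext.K_card F.mdl)
  refine ⟨g * (c : G), ?_, ?_⟩
  · rw [Subgroup.mem_normalizer_iff_map_conj_eq]
    refine Subgroup.eq_of_le_of_card_ge ?_ (by
      rw [Subgroup.card_map_of_injective (MulAut.conj _).injective])
    rintro _ ⟨v, hv, rfl⟩
    obtain ⟨k, hk, rfl⟩ := F.exists_of_mem_vSub hv
    have h1 : c * k * c⁻¹ ∈ W := hcW.ge ⟨k, hk, rfl⟩
    obtain ⟨k', hk', he⟩ := Subgroup.mem_subgroupOf.1 h1
    rw [hf] at he
    refine ⟨k', hk', ?_⟩
    show (k' : G) = g * (c : G) * (k : G) * (g * (c : G))⁻¹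
    have he' : g⁻¹ * (k' : G) * g = (c : G) * (k : G) * (c : G)⁻¹ := he
    calc (k' : G) = g * (g⁻¹ * (k' : G) * g) * g⁻¹ := by group
      _ = g * (c : G) * (k : G) * (g * (c : G))⁻¹ := by rw [he']; group
  · calc g * (c : G) * z * (g * (c : G))⁻¹ = g * ((c : G) * z * (c : G)⁻¹) * g⁻¹ := by group
      _ = g * z * g⁻¹ := by
        rw [Subgroup.mem_centralizer_singleton_iff.1 c.2, mul_inv_cancel_right]
      _ = y := hg

include F in
/-- The central involution of the 2-subgroup. -/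
theorem centralInvolution {P : Subgroup G} (hJ : IsOfJankoFourTypeWith z P) :
    CentralInvolution (pCore 2 (CH z)) (zH z) := by
  obtain ⟨z', hz'⟩ := exists_centralInvolution
    (LargeExtra.isExtraspecial_map_equiv hJ.2.1
      ((pCore 2 (CH z)).equivMapOfInjective _
        (Subgroup.centralizer ({z} : Set G)).subtype_injective).symm)
  rcases hz'.of_central _ F.ext.z_mem (fun q _ => F.ext.z_central q) with e | e
  · exact absurd e F.ext.z_ne
  · rwa [e]

theorem psi_inv (q : pCore 2 (CH z)) : F.psi q⁻¹ = F.psi q := by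
  have h := F.ext.psi_mul q q⁻¹
  rw [mul_inv_cancel, F.ext.psi_one] at h
  calc F.psi q⁻¹ = F.psi q + (F.psi q + F.psi q⁻¹) := by rw [← add_assoc, vec_self, zero_add]
    _ = F.psi q := by rw [← h, add_zero]

end PFrame

namespace PGen

variable {G : Type*} [Group G] [Finite G]
variable {z : G} {F : PFrame z} {P : Subgroup G} {x : CH z} (X : PGen F P x)
include X

theorem kSub_conj_x {y : CH z} (hy : y ∈ F.kSub) : x * y * x⁻¹ ∈ F.kSub := by
  refine F.ext.conj_K F.mdl (fun u hu => ?_) (fun a ha => ?_) hy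
  · rw [X.image]; exact F.mdl.U_om u hu
  · rw [X.image, ← aGrp_om (σ := a) ha, mul_inv_cancel_right]; exact ha

/-- If no second conjugate commutes with the element of order three, the conjugates in the
elementary abelian subgroup are paired by the involution. -/
theorem pairing (hJ : IsOfJankoFourTypeWith z P)
    (hno : ∀ y ∈ F.kSub, IsConj z (y : G) → Commute y x → y = zH z)
    {v : CH z} (hv : v ∈ F.kSub) (hc : IsConj z (v : G)) (hne : v ≠ zH z) :
    IsConj z ((v * zH z : CH z) : G) := by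
  classical
  have hci := F.centralInvolution hJ
  have hzc : ∀ h : CH z, h * zH z = zH z * h := F.ext.z_central
  have hQn : (pCore 2 (CH z)).Normal := inferInstance
  have done : ∀ e : CH z, e * v * e⁻¹ = v * zH z → IsConj z ((v * zH z : CH z) : G) := fun e he =>
    hc.trans (isConj_iff.2 ⟨(e : G), congrArg Subtype.val he⟩)
  have hv1 : v ≠ 1 := fun e => F.ext.z_ne <| Subtype.ext <| show z = 1 by
    rw [e] at hc
    exact isConj_one_left.1 hc
  by_cases hvq : v ∈ pCore 2 (CH z)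
  · obtain ⟨q, -, hq⟩ := hci.exists_swap hvq hv1 hne
    exact done q hq
  by_cases hmove : ∃ q : pCore 2 (CH z), F.rho v (F.psi q) = F.psi q ∧
      v * (q : CH z) * v⁻¹ ≠ q
  · obtain ⟨q, hq, hqv⟩ := hmove
    have h1 : v * (q : CH z) * v⁻¹ = q * zH z :=
      (F.ext.eq_of_psi ((F.ext.psi_conj v q).trans hq)).resolve_left hqv
    refine done (q : CH z)⁻¹ ?_
    calc (q : CH z)⁻¹ * v * (q : CH z)⁻¹⁻¹ = (q : CH z)⁻¹ * (v * (q : CH z) * v⁻¹) * v := by group
      _ = zH z * v := by rw [h1]; group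
      _ = v * zH z := (hzc v).symm
  push Not at hmove
  exfalso
  -- the product of the three conjugates under the element of order three
  set v1 := x * v * x⁻¹ with hv1def
  set v2 := x * v1 * x⁻¹ with hv2def
  have hv1K : v1 ∈ F.kSub := X.kSub_conj_x hv
  have hv2K : v2 ∈ F.kSub := X.kSub_conj_x hv1K
  have hx3 : x * v2 * x⁻¹ = v := by
    rw [hv2def, hv1def, show x * (x * (x * v * x⁻¹) * x⁻¹) * x⁻¹ = x ^ 3 * v * (x ^ 3)⁻¹ by
      rw [pow_succ, pow_two]; group, X.three, one_mul, inv_one, mul_one]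
  set u := v * v1 * v2 with hudef
  have huK : u ∈ F.kSub := mul_mem (mul_mem hv hv1K) hv2K
  have hux : Commute u x := by
    refine (mul_inv_eq_iff_eq_mul.1 ?_).symm
    calc x * u * x⁻¹ = (x * v * x⁻¹) * (x * v1 * x⁻¹) * (x * v2 * x⁻¹) := by rw [hudef]; group
      _ = v1 * v2 * v := by rw [hx3, ← hv1def, ← hv2def]
      _ = v * (v1 * v2) := F.kSub_comm (mul_mem hv1K hv2K) hv
      _ = u := (mul_assoc _ _ _).symm
  have ha : F.rho v ∈ aGrp := F.rho_kSub hv
  have hr1 : F.rho v1 = F.rho v := by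
    rw [hv1def, map_mul, map_mul, map_inv, X.image, ← aGrp_om ha, mul_inv_cancel_right]
  have hr2 : F.rho v2 = F.rho v := by
    rw [hv2def, map_mul, map_mul, map_inv, hr1, X.image, ← aGrp_om ha, mul_inv_cancel_right]
  have hru : F.rho u = F.rho v := by
    rw [hudef, map_mul, map_mul, hr1, hr2, aGrp_sq ha, one_mul]
  have hrne : F.rho v ≠ 1 := fun e => hvq (F.ext.mem_q e)
  -- the elements with fixed image commute with both
  have hfixx : ∀ q : pCore 2 (CH z), F.rho v (F.psi q) = F.psi q →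
      F.rho v (F.psi ⟨x * q * x⁻¹, hQn.conj_mem _ q.2 x⟩) = F.psi ⟨x * q * x⁻¹, hQn.conj_mem _ q.2 x⟩ := by
    intro q hq
    rw [F.ext.psi_conj, X.image, ← Equiv.Perm.mul_apply, aGrp_om ha, Equiv.Perm.mul_apply, hq]
  have hcv : ∀ q : pCore 2 (CH z), F.rho v (F.psi q) = F.psi q → Commute v (q : CH z) :=
    fun q hq => mul_inv_eq_iff_eq_mul.1 (hmove q hq)
  have hxinv : x⁻¹ = x * x := by
    rw [inv_eq_iff_mul_eq_one, ← pow_two, ← pow_succ', X.three]
  have hcu : ∀ q : pCore 2 (CH z), F.rho v (F.psi q) = F.psi q → Commute u (q : CH z) := by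
    intro q hq
    have key : ∀ w : CH z, (∀ p : pCore 2 (CH z), F.rho v (F.psi p) = F.psi p → Commute w (p : CH z)) →
        ∀ p : pCore 2 (CH z), F.rho v (F.psi p) = F.psi p → Commute (x * w * x⁻¹) (p : CH z) := by
      intro w hw p hp
      have h1 := hfixx _ hp
      have h2 := hfixx _ h1
      have h3 := hw _ h2
      have e : x * (x * (p : CH z) * x⁻¹) * x⁻¹ = x⁻¹ * p * x := by
        calc x * (x * (p : CH z) * x⁻¹) * x⁻¹ = (x * x) * (p : CH z) * (x * x)⁻¹ := by group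
          _ = x⁻¹ * p * x := by rw [← hxinv, inv_inv]
      have h4 : Commute w (x⁻¹ * p * x) := e ▸ h3
      calc x * w * x⁻¹ * (p : CH z) = x * (w * (x⁻¹ * p * x)) * x⁻¹ := by group
        _ = x * ((x⁻¹ * p * x) * w) * x⁻¹ := by rw [h4.eq]
        _ = (p : CH z) * (x * w * x⁻¹) := by group
    exact ((hcv q hq).mul_left (key v hcv q hq)).mul_left (key v1 (key v hcv) q hq)
  -- the difference lies in the fixed space
  set w := u * v with hwdef
  have hwK : w ∈ F.kSub := mul_mem huK hv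
  have hwr : F.rho w = 1 := by rw [hwdef, map_mul, hru, aGrp_sq ha]
  have hwq : w ∈ pCore 2 (CH z) := F.ext.mem_q hwr
  let T : Subgroup (pCore 2 (CH z)) :=
    { carrier := {q | ∃ e, F.psi q = F.rho v (F.psi e) + F.psi e}
      one_mem' := ⟨1, by rw [F.ext.psi_one, F.ext.rho_zero, add_zero]⟩
      mul_mem' := by
        rintro a b ⟨e, he⟩ ⟨f, hf⟩
        exact ⟨e * f, by rw [F.ext.psi_mul, F.ext.psi_mul, he, hf, F.ext.rho_add]; abel⟩
      inv_mem' := by
        rintro a ⟨e, he⟩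
        exact ⟨e, by rw [F.psi_inv, he]⟩ }
  have hwT : (⟨w, hwq⟩ : pCore 2 (CH z)) ∈ T := by
    have hcc := PGroup.extraspecial_centralizer_centralizer hci.extra (H := T) (fun c hc' => by
      refine ⟨1, ?_⟩
      rw [F.ext.psi_one, F.ext.rho_zero, add_zero, F.ext.psi_ker]
      exact hci.eq_of_mem hc')
    rw [← hcc, Subgroup.mem_centralizer_iff]
    intro f hf
    refine Subtype.ext (Commute.eq ?_)
    show Commute (f : CH z) w
    suffices hfix : F.rho v (F.psi f) = F.psi f from ((hcu f hfix).mul_left (hcv f hfix)).symm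
    -- the commutator with `u` is central
    have hcQ : u * (f : CH z) * u⁻¹ * (f : CH z)⁻¹ ∈ pCore 2 (CH z) :=
      mul_mem (hQn.conj_mem _ f.2 u) (inv_mem f.2)
    have huinv : u⁻¹ = u := inv_eq_of_mul_eq_one_right (F.kSub_sq huK)
    have hcent : ∀ e ∈ pCore 2 (CH z), e * (u * (f : CH z) * u⁻¹ * (f : CH z)⁻¹) =
        (u * (f : CH z) * u⁻¹ * (f : CH z)⁻¹) * e := by
      intro e he
      have htQ : u * e * u⁻¹ * e⁻¹ ∈ pCore 2 (CH z) := mul_mem (hQn.conj_mem _ he u) (inv_mem he)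
      have htT : (⟨_, htQ⟩ : pCore 2 (CH z)) ∈ T := by
        refine ⟨⟨e, he⟩, ?_⟩
        rw [show (⟨_, htQ⟩ : pCore 2 (CH z)) = ⟨u * e * u⁻¹, hQn.conj_mem _ he u⟩ * ⟨e, he⟩⁻¹ from rfl,
          F.ext.psi_mul, F.psi_inv, F.ext.psi_conj u ⟨e, he⟩, hru]
      have htf : (u * e * u⁻¹ * e⁻¹) * (f : CH z) = (f : CH z) * (u * e * u⁻¹ * e⁻¹) :=
        congrArg Subtype.val (Subgroup.mem_centralizer_iff.1 hf _ htT)
      set ε := e * (f : CH z) * e⁻¹ with hε
      have hεc : ε = f ∨ ε = (f : CH z) * zH z := hci.conj_cases he f.2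
      have htε : (u * e * u⁻¹ * e⁻¹) * ε * (u * e * u⁻¹ * e⁻¹)⁻¹ = ε := by
        rw [mul_inv_eq_iff_eq_mul]
        rcases hεc with h | h <;> rw [h]
        · exact htf
        · rw [← mul_assoc, htf, mul_assoc, hzc, ← mul_assoc]
      rw [← mul_inv_eq_iff_eq_mul]
      calc e * (u * (f : CH z) * u⁻¹ * (f : CH z)⁻¹) * e⁻¹
          = u * ((u⁻¹ * e * u * e⁻¹) * ε * (u⁻¹ * e * u * e⁻¹)⁻¹) * u⁻¹ * ε⁻¹ := by rw [hε]; group
        _ = u * ε * u⁻¹ * ε⁻¹ := by
          rw [show u⁻¹ * e * u * e⁻¹ = u * e * u⁻¹ * e⁻¹ by rw [huinv], htε]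
        _ = _ := by
          rcases hεc with h | h <;> rw [h]
          rw [show u * ((f : CH z) * zH z) * u⁻¹ = u * (f : CH z) * u⁻¹ * zH z by
            rw [← mul_assoc, mul_assoc (u * (f : CH z)), ← hzc u⁻¹, ← mul_assoc]]
          group
    have h0 : F.psi ⟨_, hcQ⟩ = 0 := (F.ext.psi_ker _).2 (hci.of_central _ hcQ hcent)
    rw [show (⟨_, hcQ⟩ : pCore 2 (CH z)) = ⟨u * (f : CH z) * u⁻¹, hQn.conj_mem _ f.2 u⟩ * f⁻¹ from rfl,
      F.ext.psi_mul, F.psi_inv, F.ext.psi_conj u f, hru] at h0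
    calc F.rho v (F.psi f) = F.rho v (F.psi f) + (F.psi f + F.psi f) := by rw [vec_self, add_zero]
      _ = F.psi f := by rw [← add_assoc, h0, zero_add]
  obtain ⟨e, he⟩ := hwT
  have hcomm : u * (e : CH z) * u⁻¹ * (e : CH z)⁻¹ = w ∨
      u * (e : CH z) * u⁻¹ * (e : CH z)⁻¹ = w * zH z := by
    refine F.ext.eq_of_psi (a := ⟨u * (e : CH z) * u⁻¹, hQn.conj_mem _ e.2 u⟩ * e⁻¹) (b := ⟨w, hwq⟩) ?_
    rw [F.ext.psi_mul, F.psi_inv, F.ext.psi_conj u e, hru, he]
  have hu2 := F.kSub_sq huK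
  have huw : u * w = v := by rw [hwdef, ← mul_assoc, hu2, one_mul]
  have huv : u * w = w * u := F.kSub_comm huK hwK
  have hw2 : w⁻¹ = w := inv_eq_of_mul_eq_one_right (F.kSub_sq hwK)
  have hconj : (e : CH z) * u * (e : CH z)⁻¹ = v ∨ (e : CH z) * u * (e : CH z)⁻¹ = v * zH z := by
    have h1 : (e : CH z) * u * (e : CH z)⁻¹ =
        (u * (e : CH z) * u⁻¹ * (e : CH z)⁻¹)⁻¹ * u := by group
    rw [h1]
    rcases hcomm with h | h <;> rw [h]
    · exact Or.inl (by rw [hw2, ← huv, huw])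
    · right
      rw [mul_inv_rev, hw2, hci.inv_eq, mul_assoc, ← huv, huw, hzc]
  have fin : ∀ t ∈ F.kSub, Commute t x → F.rho t = F.rho v →
      (∃ d : CH z, d * t * d⁻¹ = v) → False := by
    rintro t ht htx htr ⟨d, hd⟩
    have htc : IsConj z (t : G) :=
      hc.trans (isConj_iff.2 ⟨(d : G), congrArg Subtype.val hd⟩ : IsConj (t : G) v).symm
    exact hrne (by rw [← htr, hno t ht htc htx, F.ext.rho_q F.ext.z_mem])
  rcases hconj with h | h
  · exact fin u huK hux hru ⟨e, h⟩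
  · refine fin (u * zH z) (mul_mem huK F.zH_mem) (hux.mul_left (hzc x).symm) ?_ ⟨e, ?_⟩
    · rw [map_mul, F.ext.rho_q F.ext.z_mem, mul_one, hru]
    · rw [show (e : CH z) * (u * zH z) * (e : CH z)⁻¹ = (e : CH z) * u * (e : CH z)⁻¹ * zH z by
        rw [← mul_assoc, mul_assoc ((e : CH z) * u), ← hzc (e : CH z)⁻¹, ← mul_assoc], h, mul_assoc,
        F.ext.z_sq, mul_one]

end PGen

/-- **A second conjugate of the involution commutes with the element of order three.** -/
theorem exists_conj_commute {G : Type*} [Group G] [Finite G] [IsSimpleGroup G]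
    (_hG : ¬ IsMulCommutative G) {z : G} {P : Subgroup G} (hJ : IsOfJankoFourTypeWith z P) :
    ∃ g : G, g * z * g⁻¹ ≠ z ∧
      g * z * g⁻¹ ∈ Subgroup.centralizer ({z} : Set G) ⊓ Subgroup.centralizer (P : Set G) := by
  classical
  obtain ⟨F⟩ := nonempty_pframe hJ
  obtain ⟨x, X⟩ := exists_pgen hJ F
  have hci := F.centralInvolution hJ
  have hzc : ∀ h : CH z, h * zH z = zH z * h := F.ext.z_central
  by_contra hcon
  push Not at hcon
  have hno : ∀ y ∈ F.kSub, IsConj z (y : G) → Commute y x → y = zH z := by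
    intro y _ hy hyx
    obtain ⟨g, hg⟩ := isConj_iff.1 hy
    by_contra hne
    refine hcon g (fun e => hne (Subtype.ext (hg.symm.trans e))) ?_
    rw [hg]
    exact ⟨y.2, X.mem_centralizer.2 (congrArg Subtype.val hyx.eq)⟩
  set N := Subgroup.normalizer (F.vSub : Set G) with hN
  have hNconj : ∀ n ∈ N, ∀ y ∈ F.kSub, ∃ k ∈ F.kSub, (k : G) = n * (y : G) * n⁻¹ := fun n hn y hy =>
    F.exists_of_mem_vSub ((Subgroup.mem_normalizer_iff.1 hn _).1 (F.coe_mem_vSub.2 hy))
  -- the conjugates and the identity form a subgroup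
  let S : CH z → Prop := fun y => y ∈ F.kSub ∧ (y = 1 ∨ IsConj z (y : G))
  have hSconj : ∀ n ∈ N, ∀ y, S y → ∃ k, S k ∧ (k : G) = n * (y : G) * n⁻¹ := by
    rintro n hn y ⟨hy, hy'⟩
    obtain ⟨k, hk, hke⟩ := hNconj n hn y hy
    refine ⟨k, ⟨hk, ?_⟩, hke⟩
    rcases hy' with rfl | h
    · exact Or.inl (Subtype.ext (by rw [hke, Subgroup.coe_one, mul_one, mul_inv_cancel]))
    · exact Or.inr (hke ▸ h.trans (isConj_iff.2 ⟨n, rfl⟩))
  have hSmul : ∀ a b, S a → S b → S (a * b) := by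
    rintro a b ⟨ha, ha'⟩ ⟨hb, hb'⟩
    refine ⟨mul_mem ha hb, ?_⟩
    rcases ha' with rfl | ha'
    · rwa [one_mul]
    rcases hb' with rfl | hb'
    · rw [mul_one]; exact Or.inr ha'
    by_cases hab : a = b
    · exact Or.inl (hab ▸ F.kSub_sq ha)
    right
    obtain ⟨n, hn, hna⟩ := F.exists_trans hJ ha ha'
    obtain ⟨k, hk, hke⟩ := hNconj n⁻¹ (inv_mem hn) b hb
    have hkz : k ≠ zH z := fun e => hab (Subtype.ext (by
      rw [← hna, show (b : G) = n * (k : G) * n⁻¹ by rw [hke]; group, e]; rfl))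
    have hkc : IsConj z (k : G) := hke ▸ hb'.trans (isConj_iff.2 ⟨n⁻¹, rfl⟩)
    refine (X.pairing hJ hno hk hkc hkz).trans (isConj_iff.2 ⟨n, ?_⟩)
    show n * ((k : G) * z) * n⁻¹ = (a : G) * b
    rw [hke, show (a : G) * b = b * a from congrArg Subtype.val (F.kSub_comm ha hb), ← hna]
    group
  have hSx : ∀ y, S y → S (x * y * x⁻¹) := by
    rintro y ⟨hy, hy'⟩
    refine ⟨X.kSub_conj_x hy, ?_⟩
    rcases hy' with rfl | h
    · exact Or.inl (by rw [mul_one, mul_inv_cancel])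
    · exact Or.inr (h.trans (isConj_iff.2 ⟨(x : G), rfl⟩))
  -- it lies in the 2-subgroup
  have hSQ : ∀ y, S y → y ∈ pCore 2 (CH z) := by
    intro y hy
    refine F.ext.mem_q ?_
    have ha := F.rho_kSub hy.1
    set y1 := x * y * x⁻¹ with hy1
    set y2 := x * y1 * x⁻¹ with hy2
    have hS1 := hSx y hy
    have hS2 := hSx y1 hS1
    have hu := hSmul _ _ (hSmul _ _ hy hS1) hS2
    have hux : Commute (y * y1 * y2) x := by
      refine (mul_inv_eq_iff_eq_mul.1 ?_).symm
      have h3 : x * y2 * x⁻¹ = y := by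
        rw [hy2, hy1, show x * (x * (x * y * x⁻¹) * x⁻¹) * x⁻¹ = x ^ 3 * y * (x ^ 3)⁻¹ by
          rw [pow_succ, pow_two]; group, X.three, one_mul, inv_one, mul_one]
      calc x * (y * y1 * y2) * x⁻¹ = (x * y * x⁻¹) * (x * y1 * x⁻¹) * (x * y2 * x⁻¹) := by group
        _ = y1 * y2 * y := by rw [h3, ← hy1, ← hy2]
        _ = y * (y1 * y2) := F.kSub_comm (mul_mem hS1.1 hS2.1) hy.1
        _ = y * y1 * y2 := (mul_assoc _ _ _).symm
    have hr : F.rho (y * y1 * y2) = F.rho y := by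
      have h1 : F.rho y1 = F.rho y := by
        rw [hy1, map_mul, map_mul, map_inv, X.image, ← aGrp_om ha, mul_inv_cancel_right]
      have h2 : F.rho y2 = F.rho y := by
        rw [hy2, map_mul, map_mul, map_inv, h1, X.image, ← aGrp_om ha, mul_inv_cancel_right]
      rw [map_mul, map_mul, h1, h2, aGrp_sq ha, one_mul]
    rw [← hr]
    rcases hu.2 with h | h
    · rw [h, map_one]
    · rw [hno _ hu.1 h hux, F.ext.rho_q F.ext.z_mem]
  -- the moved involution
  obtain ⟨hzV, n, hn, hne, hrV, -⟩ := exists_fused_normalizer hJ F.vSub_el F.vSub_card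
    (Subgroup.map_subtype_le _)
  obtain ⟨r, hr, hre⟩ := F.exists_of_mem_vSub hrV
  have hrS : S r := ⟨hr, Or.inr (hre ▸ isConj_iff.2 ⟨n, rfl⟩)⟩
  obtain ⟨q, hq, hqe⟩ := hNconj n⁻¹ (inv_mem hn) (zH z) F.zH_mem
  rw [inv_inv] at hqe
  have hqe' : (q : G) = n⁻¹ * z * n := hqe
  have hqS : S q := ⟨hq, Or.inr (hqe' ▸ isConj_iff.2 ⟨n⁻¹, by rw [inv_inv]⟩)⟩
  have hqz : q ≠ zH z := fun e => hne (by
    have h1 : n⁻¹ * z * n = z := hqe'.symm.trans (congrArg Subtype.val e)
    calc n * z * n⁻¹ = n * (n⁻¹ * z * n) * n⁻¹ := by rw [h1]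
      _ = z := by group)
  have hz1 : z ≠ 1 := fun h => F.ext.z_ne (Subtype.ext h)
  have hq1 : q ≠ 1 := fun e => hz1 (by
    have h1 : n⁻¹ * z * n = 1 := hqe'.symm.trans (congrArg Subtype.val e)
    calc z = n * (n⁻¹ * z * n) * n⁻¹ := by group
      _ = 1 := by rw [h1]; group)
  have hr1 : r ≠ 1 := fun e => hz1 (by
    have h1 : n * z * n⁻¹ = 1 := hre.symm.trans (congrArg Subtype.val e)
    calc z = n⁻¹ * (n * z * n⁻¹) * n := by group
      _ = 1 := by rw [h1]; group)
  have hrz : r ≠ zH z := fun e => hne (hre.symm.trans (congrArg Subtype.val e))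
  -- the image in the space
  let L : Set Vec := {l | ∃ y, ∃ hy : S y, F.psi ⟨y, hSQ y hy⟩ = l}
  set ρ := F.psi ⟨r, hSQ r hrS⟩ with hρ
  have hρ0 : ρ ≠ 0 := fun e => by
    rcases (F.ext.psi_ker _).1 e with h | h
    · exact hr1 h
    · exact hrz h
  have hom0 : ∀ {l : Vec}, omP l = l → l = 0 := fun h => F.ext.om_fix_zero F.mdl h
  have hLom : ∀ l ∈ L, omP l ∈ L := by
    rintro _ ⟨y, hy, rfl⟩
    exact ⟨x * y * x⁻¹, hSx y hy, by rw [← X.image]; exact F.ext.psi_conj x ⟨y, hSQ y hy⟩⟩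
  have hLadd : ∀ l ∈ L, ∀ l' ∈ L, l + l' ∈ L := by
    rintro _ ⟨y, hy, rfl⟩ _ ⟨y', hy', rfl⟩
    exact ⟨y * y', hSmul _ _ hy hy', F.ext.psi_mul ⟨y, hSQ y hy⟩ ⟨y', hSQ y' hy'⟩⟩
  -- the element acting as a transvection
  set p := x * q * x⁻¹ with hp
  have hpS : S p := hSx q hqS
  have hψq : F.psi ⟨q, hSQ q hqS⟩ ≠ 0 := fun e => by
    rcases (F.ext.psi_ker _).1 e with h | h
    · exact hq1 h
    · exact hqz h
  have hψp : F.psi ⟨p, hSQ p hpS⟩ = omP (F.psi ⟨q, hSQ q hqS⟩) := by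
    rw [← X.image]; exact F.ext.psi_conj x ⟨q, hSQ q hqS⟩
  have hpq : ¬ (p = 1 ∨ p = zH z ∨ p = q ∨ p = zH z * q) := by
    have hne0 : F.psi ⟨p, hSQ p hpS⟩ ≠ 0 := by
      rw [hψp]
      intro e
      refine hψq (omP.injective (e.trans ?_))
      rw [omP_apply, smul_zero]
    rintro (h | h | h | h)
    · exact hne0 ((F.ext.psi_ker _).2 (Or.inl h))
    · exact hne0 ((F.ext.psi_ker _).2 (Or.inr h))
    · refine hψq (hom0 (hψp.symm.trans (congrArg F.psi (Subtype.ext h))))
    · refine hψq (hom0 (hψp.symm.trans ?_))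
      rw [show (⟨p, hSQ p hpS⟩ : pCore 2 (CH z)) = ⟨zH z, F.ext.z_mem⟩ * ⟨q, hSQ q hqS⟩ from
        Subtype.ext h, F.ext.psi_mul, (F.ext.psi_ker ⟨zH z, F.ext.z_mem⟩).2 (Or.inr rfl), zero_add]
  obtain ⟨e, heQ, heq, hep⟩ : ∃ e ∈ pCore 2 (CH z), e * q = q * e ∧ e * p ≠ p * e := by
    by_contra h
    push Not at h
    exact hpq (hci.of_commute_centralizer (hSQ q hqS) hq1 hqz (hSQ p hpS) h)
  have hhz : Commute (n * (e : G) * n⁻¹) z := by
    have h1 : (e : G) * (n⁻¹ * z * n) = n⁻¹ * z * n * e := by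
      rw [← hqe']; exact congrArg Subtype.val heq
    calc n * (e : G) * n⁻¹ * z = n * ((e : G) * (n⁻¹ * z * n)) * n⁻¹ := by group
      _ = n * (n⁻¹ * z * n * e) * n⁻¹ := by rw [h1]
      _ = z * (n * (e : G) * n⁻¹) := by group
  set h : CH z := ⟨n * (e : G) * n⁻¹, Subgroup.mem_centralizer_singleton_iff.2 hhz.eq⟩ with hh
  set σ := F.rho h with hσ
  have hact : ∀ y (hy : S y), σ (F.psi ⟨y, hSQ y hy⟩) = F.psi ⟨y, hSQ y hy⟩ ∨
      σ (F.psi ⟨y, hSQ y hy⟩) = F.psi ⟨y, hSQ y hy⟩ + ρ := by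
    intro y hy
    obtain ⟨k, hk, hke⟩ := hSconj n⁻¹ (inv_mem hn) y hy
    rw [hσ, ← F.ext.psi_conj]
    rcases hci.conj_cases heQ (hSQ k hk) with hek | hek
    · refine Or.inl (congrArg F.psi (Subtype.ext (Subtype.ext ?_)))
      show n * (e : G) * n⁻¹ * (y : G) * (n * (e : G) * n⁻¹)⁻¹ = y
      have h1 : (e : G) * (k : G) * (e : G)⁻¹ = k := congrArg Subtype.val hek
      rw [hke] at h1
      calc n * (e : G) * n⁻¹ * (y : G) * (n * (e : G) * n⁻¹)⁻¹
          = n * ((e : G) * (n⁻¹ * (y : G) * n⁻¹⁻¹) * (e : G)⁻¹) * n⁻¹ := by group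
        _ = y := by rw [h1]; group
    · right
      rw [hρ, ← F.ext.psi_mul]
      refine congrArg F.psi (Subtype.ext (Subtype.ext ?_))
      show n * (e : G) * n⁻¹ * (y : G) * (n * (e : G) * n⁻¹)⁻¹ = (y : G) * r
      have h1 : (e : G) * (k : G) * (e : G)⁻¹ = (k : G) * z := congrArg Subtype.val hek
      rw [hke] at h1
      calc n * (e : G) * n⁻¹ * (y : G) * (n * (e : G) * n⁻¹)⁻¹
          = n * ((e : G) * (n⁻¹ * (y : G) * n⁻¹⁻¹) * (e : G)⁻¹) * n⁻¹ := by group
        _ = (y : G) * r := by rw [h1, hre]; group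
  -- a moved vector
  obtain ⟨p', hp'S, hp'e⟩ := hSconj n hn p hpS
  set l0 := F.psi ⟨p', hSQ p' hp'S⟩ with hl0
  have hmoved : σ l0 = l0 + ρ := by
    refine (hact p' hp'S).resolve_left fun hfix => ?_
    rw [hσ, ← F.ext.psi_conj] at hfix
    have hep' : e * p * e⁻¹ = p * zH z := (hci.conj_cases heQ (hSQ p hpS)).resolve_left
      fun h' => hep (mul_inv_eq_iff_eq_mul.1 h')
    have h1 : (e : G) * (p : G) * (e : G)⁻¹ = (p : G) * z := congrArg Subtype.val hep'
    have h2 : ((h * p' * h⁻¹ : CH z) : G) = (p' : G) * r := by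
      show n * (e : G) * n⁻¹ * (p' : G) * (n * (e : G) * n⁻¹)⁻¹ = (p' : G) * r
      rw [hp'e, hre]
      calc n * (e : G) * n⁻¹ * (n * (p : G) * n⁻¹) * (n * (e : G) * n⁻¹)⁻¹
          = n * ((e : G) * (p : G) * (e : G)⁻¹) * n⁻¹ := by group
        _ = n * (p : G) * n⁻¹ * (n * z * n⁻¹) := by rw [h1]; group
    have h3 : h * p' * h⁻¹ = p' * r := Subtype.ext h2
    rcases F.ext.eq_of_psi hfix with h4 | h4 <;> change h * p' * h⁻¹ = _ at h4 <;> rw [h3] at h4
    · exact hr1 (mul_eq_left.1 h4)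
    · exact hrz (mul_left_cancel h4)
  have hl0L : l0 ∈ L := ⟨p', hp'S, rfl⟩
  have hcases : ∀ l ∈ L, σ l = l ∨ σ l = l + ρ := by
    rintro _ ⟨y, hy, rfl⟩
    exact hact y hy
  have hωadd : ∀ l : Vec, omP l + l = omP (omP l) := fun l => by
    rw [omP_apply, omP_apply, smul_smul]
    conv_lhs => arg 2; rw [← one_smul F4 l]
    rw [← add_smul, show w4 + 1 = w4 * w4 by decide]
  have hline : ∀ l ∈ L, l ∈ ({0, ρ, omP ρ, omP (omP ρ)} : Set Vec) := by
    rcases F.semi h with hs | hs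
    · exfalso
      have h1 : σ (omP l0) = omP l0 + omP ρ := by
        rw [omP_apply, omP_apply, hσ, hs.2.1, ← hσ, hmoved, smul_add]
        rfl
      rcases hcases _ (hLom _ hl0L) with h2 | h2 <;> rw [h1] at h2
      · refine hρ0 (omP.injective ?_)
        rw [add_eq_left.1 h2, omP_apply, smul_zero]
      · exact hρ0 (hom0 (add_left_cancel h2))
    · have hfix : ∀ l ∈ L, σ l = l → l = 0 ∨ l = ρ := by
        intro l hl hfl
        have h1 : σ (omP l) = (w4 ^ 2) • l := by
          rw [omP_apply, hσ, hs.2.1, ← hσ, hfl]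
          rfl
        have h3 : (w4 ^ 2) • l + w4 • l = l := by
          rw [← add_smul, show w4 ^ 2 + w4 = 1 by decide, one_smul]
        rcases hcases _ (hLom _ hl) with h2 | h2 <;> rw [h1, omP_apply] at h2 <;> rw [h2] at h3
        · exact Or.inl (h3.symm.trans (vec_self _))
        · refine Or.inr (h3.symm.trans ?_)
          rw [add_assoc, add_comm ρ, ← add_assoc, vec_self, zero_add]
      have hfour : ∀ l ∈ L, l = 0 ∨ l = ρ ∨ l = l0 ∨ l = l0 + ρ := by
        intro l hl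
        rcases hcases l hl with h1 | h1
        · rcases hfix l hl h1 with e' | e'
          · exact Or.inl e'
          · exact Or.inr (Or.inl e')
        have h2 : σ (l + l0) = l + l0 := by
          rw [hσ, F.ext.rho_add, ← hσ, h1, hmoved, add_add_add_comm, vec_self, add_zero]
        have h3 : l = (l + l0) + l0 := by rw [add_assoc, vec_self, add_zero]
        rcases hfix _ (hLadd _ hl _ hl0L) h2 with e' | e' <;> rw [e'] at h3
        · exact Or.inr (Or.inr (Or.inl (by rw [h3, zero_add])))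
        · exact Or.inr (Or.inr (Or.inr (by rw [h3, add_comm])))
      have hl0' : l0 = omP ρ ∨ l0 = omP (omP ρ) := by
        rcases hfour _ (hLom _ ⟨r, hrS, rfl⟩) with h1 | h1 | h1 | h1
        · exact absurd (omP.injective (h1.trans (by rw [omP_apply, smul_zero]))) hρ0
        · exact absurd (hom0 h1) hρ0
        · exact Or.inl h1.symm
        · right
          rw [← hωadd, h1, add_assoc, vec_self, add_zero]
      intro l hl
      simp only [Set.mem_insert_iff, Set.mem_singleton_iff]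
      rcases hfour l hl with h1 | h1 | h1 | h1
      · exact Or.inl h1
      · exact Or.inr (Or.inl h1)
      · rw [h1]
        rcases hl0' with h2 | h2
        · exact Or.inr (Or.inr (Or.inl h2))
        · exact Or.inr (Or.inr (Or.inr h2))
      · rw [h1]
        rcases hl0' with h2 | h2 <;> rw [h2]
        · exact Or.inr (Or.inr (Or.inr (hωadd ρ)))
        · refine Or.inr (Or.inr (Or.inl ?_))
          rw [← hωadd, add_assoc, vec_self, add_zero]
  -- the normaliser moves the line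
  have hR : Contains F.rho.range := ⟨F.hK⟩
  obtain ⟨i, hi, hout⟩ := no_line hR (F.psi_kSub hr (hSQ r hrS)) hρ0
  obtain ⟨⟨⟨m, hm⟩, hgood⟩, -⟩ := good_word hR hi
  refine hout ?_
  rw [← hm]
  refine hline _ ⟨m * r * m⁻¹, ⟨?_, Or.inr ?_⟩, F.ext.psi_conj m ⟨r, hSQ r hrS⟩⟩
  · refine F.ext.conj_K F.mdl (fun u hu => ?_) (fun a ha => ?_) hr
    · rw [hm]; exact hgood.2.1 u hu
    · rw [hm]; exact hgood.2.2 a ha
  · exact ((hrS.2.resolve_left hr1) : IsConj z (r : G)).trans (isConj_iff.2 ⟨(m : G), rfl⟩)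

end Cfsg.Agent.JFourType
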