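import Cfsg.Agent.JFourType.PBasic
import Cfsg.Agent.Invol.RankOneQuot
import Mathlib.GroupTheory.SpecificGroups.Cyclic

/-!
The centraliser and the normaliser of the subgroup of order three in a group of Janko-four type:
no conjugate of the involution is fused to it inside the normaliser, the centraliser lies in the
centraliser of the involution and is perfect with centre of order six and quotient `M22`.

The facts about the concrete cover of `M22` and the existence of a second conjugate of the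
involution in the centraliser are hypotheses here.
-/

set_option autoImplicit false

namespace Cfsg.Agent.JFourType

open Cfsg
open Cfsg.Agent.GFour25
open Cfsg.Agent.SporB.FischerU (Vec)
open Cfsg.Agent.LargeFischer (IsSemi)
open Cfsg.Agent.LargeFischer.Thompson (Ext vec_self)
open Cfsg.Agent.TTClass

/-- The facts used about elements of order three. -/
def ThreeFacts (R : Subgroup (Equiv.Perm Vec)) : Prop :=
  ∀ {p : Equiv.Perm Vec}, p ∈ R → p ^ 3 = 1 → p ∉ scal →
    (∃ v, p v = v ∧ UnitF4.H v v ≠ 0) ∧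
    (∀ g ∈ R, Odd (orderOf g) → g * p = p * g → (∀ v, p v = v → g v = v) → g ∈ Subgroup.zpowers p) ∧
    (∀ b ∈ R, b * b = 1 → b ≠ 1 → IsSemi false b → b * p = p * b → (∀ v, p v = v → b v = v) →
      (∀ r ∈ R, r * p = p * r → b * r = r * b) → ∃ r ∈ R, r * p = p * r ∧ r * r = b)

/-- The fact used about involutions. -/
def InvFacts (R : Subgroup (Equiv.Perm Vec)) : Prop :=
  ∀ {b : Equiv.Perm Vec}, b ∈ R → b * b = 1 → IsSemi false b → ∃ v, b v = v ∧ UnitF4.H v v ≠ 0

variable {G : Type*} [Group G] [Finite G]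

/-- The centraliser of `P` in the centraliser of `z`. -/
abbrev CG (z : G) (P : Subgroup G) : Subgroup G :=
  Subgroup.centralizer ({z} : Set G) ⊓ Subgroup.centralizer (P : Set G)

/-- A generator of `P` placed in the frame. -/
structure PGen {z : G} (F : PFrame z) (P : Subgroup G) (x : CH z) : Prop where
  three : x ^ 3 = 1
  image : F.rho x = omP
  gen : Subgroup.zpowers (x : G) = P
  fix : ∀ q : CH z, q ∈ pCore 2 (CH z) → Commute q x → q = 1 ∨ q = zH z
  derived : P ≤ ⁅CG z P, CG z P⁆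

theorem exists_pgen {z : G} {P : Subgroup G} (hJ : IsOfJankoFourTypeWith z P) (F : PFrame z) :
    ∃ x : CH z, PGen F P x := by
  classical
  obtain ⟨hz, hEx, hcardE, hself, ⟨N, hEN, hNH, -, hN3, ⟨hNn, -⟩, hPN⟩, hP3, hfix, -, hder⟩ := hJ
  haveI : Fact (Nat.Prime 3) := ⟨Nat.prime_three⟩
  haveI := Golay.isSimpleGroup_M22
  haveI := hNn
  obtain ⟨⟨a, haP⟩, ha3⟩ := exists_prime_orderOf_dvd_card' (G := P) 3 (by rw [hP3])
  rw [Subgroup.orderOf_mk] at ha3
  set a' : CH z := ⟨a, hNH (hPN haP)⟩ with ha'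
  have ha'3 : orderOf a' = 3 := by rw [ha', Subgroup.orderOf_mk, ha3]
  have hpow3 : a' ^ 3 = 1 := by rw [← ha'3, pow_orderOf_eq_one]
  have hne : a' ≠ 1 := fun h => by rw [h, orderOf_one] at ha'3; omega
  set N' : Subgroup (CH z) := N.subgroupOf (Subgroup.centralizer ({z} : Set G)) with hN'
  have hN'c : Nat.card N' = 3 * 2 ^ 13 := by
    rw [Nat.card_congr (Subgroup.subgroupOfEquivOfLe hNH).toEquiv, hN3, hcardE]
  -- the image of the normal subgroup in M22 is trivial
  set S : Subgroup Spor.M22 := (N'.subgroupOf (K22.comap F.rho)).map F.phi with hS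
  haveI hSn : S.Normal := Subgroup.Normal.map inferInstance _ F.phi_surj
  have hSbot : S = ⊥ := by
    rcases IsSimpleGroup.eq_bot_or_eq_top_of_normal S hSn with h | h
    · exact h
    · exfalso
      have h1 : Nat.card S ≤ Nat.card N' := by
        refine (Nat.le_of_dvd Nat.card_pos (Subgroup.card_map_dvd _ _)).trans ?_
        exact Nat.card_le_card_of_injective
          (fun u : N'.subgroupOf (K22.comap F.rho) => (⟨_, u.2⟩ : N'))
          fun u v e => Subtype.ext (Subtype.ext (congrArg (fun w : N' => (w : CH z)) e))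
      rw [h, Subgroup.card_top, Golay.card_M22, hN'c] at h1
      norm_num at h1
  have hlin : F.rho a' ∈ K22 := (F.linear _).1 (F.linear_of_three hpow3)
  have hmem : F.rho a' ∈ scal := by
    refine (F.phi_ker ⟨a', hlin⟩).1 ?_
    have : F.phi ⟨a', hlin⟩ ∈ S := ⟨⟨a', hlin⟩, show a ∈ N from hPN haP, rfl⟩
    rwa [hSbot, Subgroup.mem_bot] at this
  obtain ⟨j, hj, hje⟩ := mem_scal hmem
  have hord := F.orderOf_rho hpow3 hne
  have hgen : Subgroup.zpowers a = P := Subgroup.eq_of_le_of_card_ge (Subgroup.zpowers_le.2 haP)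
    (by rw [hP3, Nat.card_zpowers, ha3])
  have hfix' : ∀ {x : CH z}, Subgroup.zpowers (x : G) = P →
      ∀ q : CH z, q ∈ pCore 2 (CH z) → Commute q x → q = 1 ∨ q = zH z := by
    intro x hx q hq hqx
    have h1 : (q : G) ∈ twoCoreOfCentralizer z ⊓ Subgroup.centralizer (P : Set G) := by
      refine ⟨⟨q, hq, rfl⟩, Subgroup.mem_centralizer_iff.2 fun p hp => ?_⟩
      rw [← hx] at hp
      obtain ⟨k, rfl⟩ := Subgroup.mem_zpowers_iff.1 hp
      exact ((show Commute (x : G) q from congrArg Subtype.val hqx.eq.symm).zpow_left k).eq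
    rw [hfix] at h1
    obtain ⟨k, hk⟩ := ((isOfFinOrder_of_finite z).mem_powers_iff_mem_zpowers).2 h1
    have hk' : z ^ k = (q : G) := hk
    rw [← pow_mod_orderOf, hz] at hk'
    rcases Nat.mod_two_eq_zero_or_one k with h | h <;> rw [h] at hk'
    · exact Or.inl (Subtype.ext (hk'.symm.trans (pow_zero z)))
    · exact Or.inr (Subtype.ext (hk'.symm.trans (pow_one z)))
  interval_cases j
  · rw [pow_zero] at hje
    rw [hje, orderOf_one] at hord
    omega
  · exact ⟨a', hpow3, by rw [hje, pow_one], hgen, hfix' hgen, hder⟩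
  · have hg2 : Subgroup.zpowers ((a' ^ 2 : CH z) : G) = P := by
      rw [← hgen]
      refine le_antisymm (Subgroup.zpowers_le.2 ?_) (Subgroup.zpowers_le.2 ⟨2, ?_⟩)
      · exact pow_mem (Subgroup.mem_zpowers a) 2
      · show ((a' ^ 2 : CH z) : G) ^ (2 : ℤ) = a
        rw [Subgroup.coe_pow, zpow_ofNat, ← pow_mul]
        show a ^ (2 * 2) = a
        rw [← pow_mod_orderOf, ha3, show 2 * 2 % 3 = 1 from rfl, pow_one]
    refine ⟨a' ^ 2, by rw [← pow_mul, mul_comm, pow_mul, hpow3, one_pow], ?_, hg2, hfix' hg2, hder⟩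
    rw [map_pow, hje, ← pow_mul, pow_eq_pow_mod (2 * 2) omP_pow_three,
      show 2 * 2 % 3 = 1 from rfl, pow_one]

namespace PGen

variable {z : G} {F : PFrame z} {P : Subgroup G} {x : CH z} (X : PGen F P x)
include X

theorem mem_centralizer {c : G} : c ∈ Subgroup.centralizer (P : Set G) ↔ Commute c (x : G) := by
  rw [← X.gen, Subgroup.mem_centralizer_iff]
  constructor
  · intro h
    exact (h _ (Subgroup.mem_zpowers _)).symm
  · intro h p hp
    obtain ⟨k, rfl⟩ := Subgroup.mem_zpowers_iff.1 hp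
    exact ((h.zpow_right k).eq).symm

theorem mem_CG {c : G} : c ∈ CG z P ↔ Commute c z ∧ Commute c (x : G) := by
  rw [Subgroup.mem_inf, Subgroup.mem_centralizer_singleton_iff, X.mem_centralizer]
  rfl

theorem x_ne : (x : G) ≠ 1 := fun h => by
  have hx : x = 1 := Subtype.ext h
  have h1 := X.image
  rw [hx, map_one] at h1
  have := card_scal
  rw [scal, ← h1, Nat.card_zpowers, orderOf_one] at this
  omega

theorem z_comm_x : Commute z (x : G) := (Subgroup.mem_centralizer_singleton_iff.1 x.2).symm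

/-- An element moving the generator into `P` normalises `P`. -/
theorem mem_normalizer {n : G} (h : n * (x : G) * n⁻¹ ∈ P) :
    n ∈ Subgroup.normalizer (P : Set G) := by
  have hmap : P.map (MulAut.conj n).toMonoidHom = P := by
    refine Subgroup.eq_of_le_of_card_ge ?_ ?_
    · rw [← X.gen, MonoidHom.map_zpowers, Subgroup.zpowers_le, X.gen]
      exact h
    · rw [Subgroup.card_map_of_injective (MulAut.conj n).injective]
  rw [Subgroup.mem_normalizer_iff]
  intro p
  constructor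
  · intro hp
    rw [← hmap]
    exact ⟨p, hp, rfl⟩
  · intro hp
    rw [← hmap] at hp
    obtain ⟨q, hq, hqe⟩ := hp
    rwa [← (MulAut.conj n).injective hqe]

/-- No conjugate of the involution is fused to it by the normaliser of `P`. -/
theorem isolated (hI : InvFacts F.rho.range) {g : G} (hg : g ∈ Subgroup.normalizer (P : Set G))
    (hs : g * z * g⁻¹ ∈ CG z P) : g * z * g⁻¹ = z := by
  by_contra hne
  obtain ⟨hsz, hsx⟩ := X.mem_CG.1 hs
  set s : CH z := ⟨g * z * g⁻¹, Subgroup.mem_centralizer_singleton_iff.2 hsz.eq⟩ with hsdef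
  have hsx' : Commute s x := Subtype.ext hsx.eq
  have hb : IsSemi false (F.rho s) := F.linear_of_commute (by
    rw [← X.image]; exact hsx'.map F.rho)
  have hb2 : F.rho s * F.rho s = 1 := by
    rw [← map_mul]
    refine (congrArg F.rho (Subtype.ext ?_)).trans (map_one _)
    show g * z * g⁻¹ * (g * z * g⁻¹) = 1
    have hzz : z * z = 1 := congrArg Subtype.val F.ext.z_sq
    calc g * z * g⁻¹ * (g * z * g⁻¹) = g * (z * z) * g⁻¹ := by group
      _ = 1 := by rw [hzz]; group
  obtain ⟨v, hv, hvH⟩ := hI ⟨s, rfl⟩ hb2 hb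
  refine hvH ?_
  obtain ⟨e, rfl⟩ := F.ext.psi_surj v
  have hzc : ∀ h : CH z, h * zH z = zH z * h := F.ext.z_central
  have hz2 : zH z * zH z = 1 := F.ext.z_sq
  -- the lift commutes with the conjugate
  have hse : Commute s (e : CH z) := by
    rcases F.ext.eq_of_psi ((F.ext.psi_conj s e).trans hv) with h | h
    · exact mul_inv_eq_iff_eq_mul.1 h
    exfalso
    have h0 : s * (e : CH z) * s⁻¹ = e * zH z := h
    have hQn : (pCore 2 (CH z)).Normal := inferInstance
    set e1 : CH z := x * e * x⁻¹ with he1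
    set e2 : CH z := x * e1 * x⁻¹ with he2
    have he1Q : e1 ∈ pCore 2 (CH z) := hQn.conj_mem _ e.2 x
    have he2Q : e2 ∈ pCore 2 (CH z) := hQn.conj_mem _ he1Q x
    have hstep : ∀ {u : CH z}, s * u * s⁻¹ = u * zH z →
        s * (x * u * x⁻¹) * s⁻¹ = x * u * x⁻¹ * zH z := by
      intro u hu
      calc s * (x * u * x⁻¹) * s⁻¹ = (s * x) * u * (s * x)⁻¹ := by group
        _ = (x * s) * u * (x * s)⁻¹ := by rw [hsx'.eq]
        _ = x * (s * u * s⁻¹) * x⁻¹ := by group
        _ = x * u * (zH z * x⁻¹) := by rw [hu]; group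
        _ = x * u * x⁻¹ * zH z := by rw [← hzc x⁻¹]; group
    have h1 := hstep h0
    have h2 := hstep h1
    have hp1 : F.psi ⟨e1, he1Q⟩ = omP (F.psi e) := by rw [← X.image]; exact F.ext.psi_conj x e
    have hp2 : F.psi ⟨e2, he2Q⟩ = omP (omP (F.psi e)) := by
      rw [← hp1, ← X.image]; exact F.ext.psi_conj x ⟨e1, he1Q⟩
    have hp : F.psi (e * ⟨e1, he1Q⟩ * ⟨e2, he2Q⟩) = 0 := by
      rw [F.ext.psi_mul, F.ext.psi_mul, hp1, hp2, omP_apply, omP_apply, smul_smul]
      conv_lhs => arg 1; arg 1; rw [← one_smul F4 (F.psi e)]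
      rw [← add_smul, ← add_smul, show (1 : F4) + w4 + w4 * w4 = 0 by decide, zero_smul]
    have hfixed : Commute s ((e : CH z) * e1 * e2) := by
      rcases (F.ext.psi_ker _).1 hp with h' | h'
      · rw [show (e : CH z) * e1 * e2 = 1 from h']; exact Commute.one_right s
      · rw [show (e : CH z) * e1 * e2 = zH z from h']; exact hzc s
    have h3 : s * ((e : CH z) * e1 * e2) * s⁻¹ = (e : CH z) * e1 * e2 * zH z := by
      calc s * ((e : CH z) * e1 * e2) * s⁻¹ = (s * e * s⁻¹) * (s * e1 * s⁻¹) * (s * e2 * s⁻¹) := by group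
        _ = (e : CH z) * (zH z * e1) * zH z * (e2 * zH z) := by
          rw [h0, show s * e1 * s⁻¹ = e1 * zH z from h1, show s * e2 * s⁻¹ = e2 * zH z from h2]; group
        _ = (e : CH z) * e1 * (zH z * zH z) * (e2 * zH z) := by rw [← hzc e1]; group
        _ = (e : CH z) * e1 * e2 * zH z := by rw [hz2]; group
    rw [hfixed.eq, mul_inv_cancel_right] at h3
    exact F.ext.z_ne (mul_eq_left.1 h3.symm)
  -- the commutator with the generator
  have hQn : (pCore 2 (CH z)).Normal := inferInstance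
  set u : CH z := (e : CH z) * (x * (e : CH z)⁻¹ * x⁻¹) with hu
  have huQ : u ∈ pCore 2 (CH z) := mul_mem e.2 (hQn.conj_mem _ (inv_mem e.2) x)
  have hpu : F.psi ⟨u, huQ⟩ = omP (omP (F.psi e)) := by
    have hinv : F.psi e⁻¹ = F.psi e := by
      have h := F.ext.psi_mul e e⁻¹
      rw [mul_inv_cancel, F.ext.psi_one] at h
      calc F.psi e⁻¹ = F.psi e + (F.psi e + F.psi e⁻¹) := by rw [← add_assoc, vec_self, zero_add]
        _ = F.psi e := by rw [← h, add_zero]
    have hconj : F.psi ⟨x * (e : CH z)⁻¹ * x⁻¹, hQn.conj_mem _ (inv_mem e.2) x⟩ = omP (F.psi e) := by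
      have h := F.ext.psi_conj x e⁻¹
      rw [X.image, hinv] at h
      exact h
    rw [show (⟨u, huQ⟩ : pCore 2 (CH z)) = e * ⟨x * (e : CH z)⁻¹ * x⁻¹, hQn.conj_mem _ (inv_mem e.2) x⟩
      from rfl, F.ext.psi_mul, hconj, omP_apply, omP_apply, smul_smul]
    conv_lhs => arg 1; rw [← one_smul F4 (F.psi e)]
    rw [← add_smul, show (1 : F4) + w4 = w4 * w4 by decide]
  -- the conjugated commutator lies in the 2-subgroup
  have hgi : g⁻¹ ∈ Subgroup.normalizer (P : Set G) := inv_mem hg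
  obtain ⟨k, hk⟩ : g⁻¹ * (x : G) * g ∈ Subgroup.zpowers (x : G) := by
    rw [X.gen]
    have h1 := (Subgroup.mem_normalizer_iff.1 hgi (x : G)).1 (X.gen ▸ Subgroup.mem_zpowers _)
    rwa [inv_inv] at h1
  have hec : Commute (g⁻¹ * ((e : CH z) : G) * g) z := by
    have h1 : Commute ((e : CH z) : G) (g * z * g⁻¹) := congrArg Subtype.val hse.symm.eq
    calc g⁻¹ * ((e : CH z) : G) * g * z = g⁻¹ * (((e : CH z) : G) * (g * z * g⁻¹)) * g := by group
      _ = g⁻¹ * ((g * z * g⁻¹) * ((e : CH z) : G)) * g := by rw [h1.eq]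
      _ = z * (g⁻¹ * ((e : CH z) : G) * g) := by group
  set e' : CH z := ⟨g⁻¹ * ((e : CH z) : G) * g, Subgroup.mem_centralizer_singleton_iff.2 hec.eq⟩
  set u' : CH z := e' * (x ^ k) * e'⁻¹ * (x ^ k)⁻¹ with hu'
  have hcoe : (u' : G) = g⁻¹ * (u : G) * g := by
    show g⁻¹ * ((e : CH z) : G) * g * ((x ^ k : CH z) : G) * (g⁻¹ * ((e : CH z) : G) * g)⁻¹ *
      ((x ^ k : CH z) : G)⁻¹ = g⁻¹ * (((e : CH z) : G) * ((x : G) * ((e : CH z) : G)⁻¹ * (x : G)⁻¹)) * g
    rw [Subgroup.coe_zpow, show (x : G) ^ k = g⁻¹ * (x : G) * g from hk]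
    group
  have hu2 : ∃ m, orderOf u = 2 ^ m := by
    obtain ⟨m, -, hm⟩ := (Nat.dvd_prime_pow Nat.prime_two).1
      (show orderOf u ∣ 2 ^ 13 by
        have := Subgroup.orderOf_dvd_natCard _ huQ
        rwa [F.ext.card_q, show (8192 : ℕ) = 2 ^ 13 by norm_num] at this)
    exact ⟨m, hm⟩
  have hu'Q : u' ∈ pCore 2 (CH z) := by
    refine F.ext.mem_q ?_
    have hsc : F.rho u' ∈ scal := by
      obtain ⟨b, hb'⟩ : ∃ b, IsSemi b (F.rho e') := (F.semi e').elim (fun h => ⟨_, h⟩) fun h => ⟨_, h⟩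
      have hx' : F.rho (x ^ k) ∈ scal := by rw [map_zpow, X.image]; exact Subgroup.zpow_mem _ (Subgroup.mem_zpowers _) k
      rw [hu', map_mul, map_mul, map_mul, map_inv, map_inv]
      exact mul_mem (semi_conj_scal hb' hx') (inv_mem hx')
    obtain ⟨m, hm⟩ := hu2
    have h3 : (F.rho u') ^ 3 = 1 := scal_pow_three hsc
    have h2 : (F.rho u') ^ (2 ^ m) = 1 := by
      rw [← map_pow]
      refine (congrArg F.rho (Subtype.ext ?_)).trans (map_one _)
      show (u' : G) ^ (2 ^ m) = ((1 : CH z) : G)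
      rw [hcoe, show g⁻¹ * (u : G) * g = g⁻¹ * (u : G) * g⁻¹⁻¹ by rw [inv_inv], conj_pow,
        ← Subgroup.coe_pow, ← hm, pow_orderOf_eq_one, Subgroup.coe_one, mul_one, mul_inv_cancel]
    have h := pow_gcd_eq_one.2 ⟨h3, h2⟩
    rwa [show Nat.gcd 3 (2 ^ m) = 1 from
      Nat.Coprime.pow_right m (by norm_num : Nat.Coprime 3 2), pow_one] at h
  -- the square is trivial
  have hsq : (⟨u, huQ⟩ : pCore 2 (CH z)) * ⟨u, huQ⟩ = 1 := by
    have h0 : F.psi (⟨u, huQ⟩ * ⟨u, huQ⟩) = 0 := by rw [F.ext.psi_mul, vec_self]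
    rcases (F.ext.psi_ker _).1 h0 with h | h
    · exact Subtype.ext h
    exfalso
    have huu : u * u = zH z := h
    have hz' : ((u' * u' : CH z) : G) = g⁻¹ * z * g := by
      rw [Subgroup.coe_mul, hcoe]
      have hgen : ∀ U : G, g⁻¹ * U * g * (g⁻¹ * U * g) = g⁻¹ * (U * U) * g := fun U => by group
      calc g⁻¹ * (u : G) * g * (g⁻¹ * (u : G) * g) = g⁻¹ * ((u * u : CH z) : G) * g := hgen _
        _ = g⁻¹ * z * g := by rw [huu]; rfl
    have hmem : u' * u' ∈ pCore 2 (CH z) := mul_mem hu'Q hu'Q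
    have hcx : Commute (u' * u') x := by
      refine Subtype.ext ?_
      show ((u' * u' : CH z) : G) * (x : G) = (x : G) * ((u' * u' : CH z) : G)
      have hzc' : Commute z (g * (x : G) * g⁻¹) := by
        have h1 : g * (x : G) * g⁻¹ ∈ P := (Subgroup.mem_normalizer_iff.1 hg _).1 (X.gen ▸ Subgroup.mem_zpowers _)
        rw [← X.gen] at h1
        obtain ⟨l, hl⟩ := Subgroup.mem_zpowers_iff.1 h1
        rw [← hl]
        exact X.z_comm_x.zpow_right l
      rw [hz']
      calc g⁻¹ * z * g * (x : G) = g⁻¹ * (z * (g * (x : G) * g⁻¹)) * g := by group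
        _ = g⁻¹ * ((g * (x : G) * g⁻¹) * z) * g := by rw [hzc'.eq]
        _ = (x : G) * (g⁻¹ * z * g) := by group
    rcases X.fix _ hmem hcx with h' | h' <;> rw [h'] at hz'
    · have h1 : g⁻¹ * z * g = 1 := hz'.symm
      exact F.ext.z_ne (Subtype.ext (show z = 1 from
        calc z = g * (g⁻¹ * z * g) * g⁻¹ := by group
          _ = 1 := by rw [h1]; group))
    · refine hne ?_
      have h1 : g⁻¹ * z * g = z := hz'.symm
      calc g * z * g⁻¹ = g * (g⁻¹ * z * g) * g⁻¹ := by rw [h1]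
        _ = z := by group
  have hn := (F.ext.psi_norm _).2 hsq
  rw [hpu] at hn
  have hH := semi_facts.1.2.2
  rwa [hH, hH] at hn

end PGen

end Cfsg.Agent.JFourType
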