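import Cfsg.Agent.JFourType.PCentral
import Cfsg.Agent.JFourType.PFusion
import Cfsg.Agent.JFourType.ThreeFacts

/-!
The subgroup of order three in a group of Janko-four type: centraliser and normaliser.
-/

set_option autoImplicit false

namespace Cfsg.Agent.JFourType

open Cfsg

/-- The frame satisfies the facts about the concrete cover. -/
theorem PFrame.threeFacts {G : Type*} [Group G] [Finite G] {z : G} (F : PFrame z) :
    ThreeFacts F.rho.range := fun {_} hp hp3 hns => three_facts F.hK F.hg F.hcR F.hcK hp hp3 hns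

theorem PFrame.invFacts {G : Type*} [Group G] [Finite G] {z : G} (F : PFrame z) :
    InvFacts F.rho.range := fun {_} hb hb2 hs => inv_fix_aniso F.hK F.hg F.hcR F.hcK hb hb2 hs

theorem centralizer_three {G : Type*} [Group G] [Finite G] [IsSimpleGroup G]
    (hG : ¬ IsMulCommutative G) {z : G} {P : Subgroup G} (hJ : IsOfJankoFourTypeWith z P) :
    ⁅(Subgroup.centralizer ({z} : Set G) ⊓ Subgroup.centralizer (P : Set G)),
      (Subgroup.centralizer ({z} : Set G) ⊓ Subgroup.centralizer (P : Set G))⁆ =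
      (Subgroup.centralizer ({z} : Set G) ⊓ Subgroup.centralizer (P : Set G)) ∧
    IsCyclic ↥(Subgroup.center ↥(Subgroup.centralizer ({z} : Set G) ⊓ Subgroup.centralizer (P : Set G))) ∧
    Nat.card ↥(Subgroup.center ↥(Subgroup.centralizer ({z} : Set G) ⊓ Subgroup.centralizer (P : Set G))) = 6 ∧
    Spor.IsoM22 (↥(Subgroup.centralizer ({z} : Set G) ⊓ Subgroup.centralizer (P : Set G)) ⧸
      Subgroup.center ↥(Subgroup.centralizer ({z} : Set G) ⊓ Subgroup.centralizer (P : Set G))) ∧
    Subgroup.normalizer (P : Set G) ≤ Subgroup.centralizer ({z} : Set G) := by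
  obtain ⟨F⟩ := nonempty_pframe hJ
  obtain ⟨x, X⟩ := exists_pgen hJ F
  obtain ⟨g, hne, hs⟩ := exists_conj_commute hG hJ
  obtain ⟨hcen, hperf⟩ := X.centralizer_facts F.invFacts F.threeFacts hs hne
  obtain ⟨h1, h2, h3⟩ := X.center_facts
  exact ⟨hperf, h1, h2, h3, X.normalizer_le F.invFacts hcen⟩

end Cfsg.Agent.JFourType
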