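import Cfsg.Agent.JFourType.Outer

/-!
The Sylow 3-subgroup of the triple cover of `M22` among the linear isometries and its normalizer
in the cover, which has order 216.
-/

set_option autoImplicit false
set_option maxRecDepth 100000

namespace Cfsg.Agent.JFourType.SylThree

open Cfsg.Agent.GFour25 Cfsg.Agent.CosetCert
open Cfsg.Agent.SporB.FischerU (Vec vecN enc vecN_enc enc_lt)
open Cfsg.Agent.LargeFischer (IsSemi)
open Cfsg.Agent.LargeFischer.Thompson
open Cfsg.Agent.TTClass
open Data

/-- The listed element with a given number. -/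
noncomputable def eL (i : ℕ) : List ℕ := threeEls.getD i []

/-- A word for the listed element with a given number. -/
noncomputable def wd (i : ℕ) : List ℕ :=
  ((threeIdx.getD i []).map fun k => threeGens.getD k []).foldr (· ++ ·) []

theorem els_ok : ((List.range 27).all fun i => (wImg (wd i) == eL i) && (comp (eL i) idL == eL i) &&
    (comp (comp (eL i) (eL i)) (eL i) == idL) &&
    (List.range i).all fun j => !(eL i == eL j)) = true := by decide +kernel

theorem mul_ok : ((List.range 27).all fun i => (List.range 27).all fun j =>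
    (List.range 27).any fun k => eL k == comp (eL i) (eL j)) = true := by decide +kernel

theorem special_ok : eL 0 = idL ∧ eL 1 = omL ∧ comp (eL 2) (eL 3) = comp (comp (eL 3) (eL 2)) omL ∧
    ¬ comp (eL 2) (eL 3) = comp (eL 3) (eL 2) := by decide +kernel

theorem wd_spec {i : ℕ} (hi : i < 27) : Rep (eL i) (wPerm (wd i)) ∧ comp (eL i) idL = eL i ∧
    comp (comp (eL i) (eL i)) (eL i) = idL ∧ ∀ j < i, eL i ≠ eL j := by
  have h := List.all_eq_true.1 els_ok i (List.mem_range.2 hi)
  simp only [Bool.and_eq_true, beq_iff_eq, List.all_eq_true, List.mem_range, Bool.not_eq_true',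
    beq_eq_false_iff_ne] at h
  exact ⟨h.1.1.1 ▸ rep_word _, h.1.1.2, h.1.2, h.2⟩

theorem cube_of_rep {i : ℕ} (hi : i < 27) {x : Equiv.Perm Vec} (hx : Rep (eL i) x) : x ^ 3 = 1 := by
  rw [pow_succ, pow_two]
  exact ((hx.mul hx).mul hx).eq ((wd_spec hi).2.2.1 ▸ Rep.one)

/-- The listed subgroup of order 27. -/
noncomputable def Gam : Subgroup (Equiv.Perm Vec) where
  carrier := {x | ∃ i < 27, Rep (eL i) x}
  one_mem' := ⟨0, by norm_num, special_ok.1.symm ▸ Rep.one⟩
  mul_mem' := by
    rintro x y ⟨i, hi, hx⟩ ⟨j, hj, hy⟩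
    have h := List.all_eq_true.1 (List.all_eq_true.1 mul_ok i (List.mem_range.2 hi)) j (List.mem_range.2 hj)
    obtain ⟨k, hk, hke⟩ := List.any_eq_true.1 h
    exact ⟨k, List.mem_range.1 hk, (beq_iff_eq.1 hke) ▸ hx.mul hy⟩
  inv_mem' := by
    rintro x ⟨i, hi, hx⟩
    have hinv : x⁻¹ = x * x := inv_eq_of_mul_eq_one_right (by
      rw [← mul_assoc]
      exact ((hx.mul hx).mul hx).eq ((wd_spec hi).2.2.1 ▸ Rep.one))
    have h := List.all_eq_true.1 (List.all_eq_true.1 mul_ok i (List.mem_range.2 hi)) i (List.mem_range.2 hi)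
    obtain ⟨k, hk, hke⟩ := List.any_eq_true.1 h
    exact ⟨k, List.mem_range.1 hk, hinv ▸ (beq_iff_eq.1 hke) ▸ hx.mul hx⟩

theorem mem_Gam {x : Equiv.Perm Vec} : x ∈ Gam ↔ ∃ i < 27, Rep (eL i) x := Iff.rfl

theorem wd_mem {i : ℕ} (hi : i < 27) : wPerm (wd i) ∈ Gam := ⟨i, hi, (wd_spec hi).1⟩

theorem Gam_le : Gam ≤ K22 := by
  rintro x ⟨i, hi, hx⟩
  exact hx.eq (wd_spec hi).1 ▸ word_mem _

theorem Gam_pow {x : Equiv.Perm Vec} (hx : x ∈ Gam) : x ^ 3 = 1 := by
  obtain ⟨i, hi, hx⟩ := hx
  exact cube_of_rep hi hx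

theorem inj_wd {i j : ℕ} (hi : i < 27) (hj : j < 27) (h : wPerm (wd i) = wPerm (wd j)) : i = j := by
  have he := (wd_spec hi).1.list_eq (h ▸ (wd_spec hj).1) (wd_spec hi).2.1 (wd_spec hj).2.1
  rcases lt_trichotomy i j with hlt | heq | hlt
  · exact absurd he.symm ((wd_spec hj).2.2.2 i hlt)
  · exact heq
  · exact absurd he ((wd_spec hi).2.2.2 j hlt)

/-- The numbering of the listed subgroup. -/
noncomputable def gEquiv : Fin 27 ≃ Gam :=
  Equiv.ofBijective (fun i => (⟨wPerm (wd i), wd_mem i.2⟩ : Gam))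
    ⟨fun i j h => Fin.ext (inj_wd i.2 j.2 (congrArg Subtype.val h)), fun x => by
      obtain ⟨i, hi, hx⟩ := x.2
      exact ⟨⟨i, hi⟩, Subtype.ext ((wd_spec hi).1.eq hx)⟩⟩

theorem gEquiv_rep (i : Fin 27) : Rep (eL i) (gEquiv i : Equiv.Perm Vec) := (wd_spec i.2).1

theorem card_Gam : Nat.card Gam = 27 := by
  rw [← Nat.card_congr gEquiv, Nat.card_fin]

/-- The two noncentral generators. -/
noncomputable def uP : Equiv.Perm Vec := wPerm (wd 2)
/-- The two noncentral generators. -/
noncomputable def vP : Equiv.Perm Vec := wPerm (wd 3)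

theorem rep_uP : Rep (eL 2) uP := (wd_spec (by norm_num)).1
theorem rep_vP : Rep (eL 3) vP := (wd_spec (by norm_num)).1
theorem uP_mem : uP ∈ Gam := ⟨2, by norm_num, rep_uP⟩
theorem vP_mem : vP ∈ Gam := ⟨3, by norm_num, rep_vP⟩

theorem omP_mem_Gam : omP ∈ Gam := ⟨1, by norm_num, special_ok.2.1.symm ▸ rep_omP⟩

theorem scal_le_Gam : scal ≤ Gam := Subgroup.zpowers_le.2 omP_mem_Gam

theorem comp_normal {g h : List ℕ} (hh : comp h idL = h) : comp (comp g h) idL = comp g h := by
  conv_rhs => rw [← hh]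
  simp only [comp, List.map_map]
  refine List.map_congr_left fun x _ => ?_
  exact apL_comp g h x

theorem uv_rel : uP * vP = vP * uP * omP ∧ uP * vP ≠ vP * uP := by
  obtain ⟨-, -, h3, h4⟩ := special_ok
  refine ⟨(rep_uP.mul rep_vP).eq (h3 ▸ (rep_vP.mul rep_uP).mul rep_omP), fun e => h4 ?_⟩
  have hh : Rep (comp (eL 3) (eL 2)) (uP * vP) := by rw [e]; exact rep_vP.mul rep_uP
  exact (rep_uP.mul rep_vP).list_eq hh
    (comp_normal (wd_spec (i := 3) (by norm_num)).2.1) (comp_normal (wd_spec (i := 2) (by norm_num)).2.1)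

theorem not_comm_Gam : ¬ IsMulCommutative Gam := fun h =>
  uv_rel.2 (congrArg Subtype.val (h.is_comm.comm (⟨uP, uP_mem⟩ : Gam) ⟨vP, vP_mem⟩))

/-! ### The centralizer in the cover -/

/-- The base: two fixed vectors of the first generator and their translates. -/
noncomputable def baseR (a b : ℕ) : List ℕ :=
  [a, b, apL (eL 3) a, apL (eL 3) b, apL (eL 3) (apL (eL 3) a), apL (eL 3) (apL (eL 3) b)]

/-- A first fixed vector. -/
noncomputable def e1 : ℕ := 280
/-- A second fixed vector. -/
noncomputable def e2 : ℕ := 1053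

/-- The fixed vectors of the first generator. -/
noncomputable def fixU : List ℕ :=
  [0, 280, 556, 820, 1053, 1285, 1585, 1833, 2086, 2366, 2570, 2834, 3131, 3363, 3607, 3855]

/-- Vectors of the invariant set with their coordinates in the base. -/
noncomputable def witR : List (ℕ × ℕ) :=
  [(6, 546), (24, 2457), (7, 1101), (28, 1570), (111, 3840), (125, 2686)]

/-- The coordinates of the standard basis. -/
noncomputable def maskR : List ℕ :=
  [1647, 3481, 4027, 382, 2279, 291, 2832, 3884, 2456, 4006, 79, 897]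

theorem fix_ok : allB (fun x => !(Nat.beq (apL (eL 2) x) x) || fixU.contains x) 12 0 = true ∧
    apL (eL 2) e1 = e1 ∧ apL (eL 2) e2 = e2 ∧
    ([0, 1, 2].all fun j => !(Nat.beq (apL (pwL omL j) e1) e2)) = true ∧ Nat.beq e2 0 = false ∧
    Nat.beq e1 0 = false := by decide +kernel

theorem maskR_ok : ((List.range 12).all fun j => Nat.beq
    (comboL (baseR e1 e2 ++ (baseR e1 e2).map (apL omL)) (maskR.getD j 0)) (idL.getD j 0)) = true ∧
    ((baseR e1 e2).all fun x => Nat.blt x 4096) = true ∧
    (witR.all fun p => inS p.1 &&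
      Nat.beq (comboL (baseR e1 e2 ++ (baseR e1 e2).map (apL omL)) p.2) p.1) = true := by
  decide +kernel

theorem pairs_table : (fixU.all fun a => fixU.all fun b =>
    Nat.beq a 0 || Nat.beq b 0 || ([0, 1, 2].any fun j => Nat.beq (apL (pwL omL j) a) b) ||
      ([0, 1, 2].any fun j => Nat.beq (apL (pwL omL j) e1) a && Nat.beq (apL (pwL omL j) e2) b) ||
      witR.any fun p => !(inS (comboL (baseR a b ++ (baseR a b).map (apL omL)) p.2))) = true := by
  decide +kernel

theorem enc_map_comboL {t : Equiv.Perm Vec} (ht : IsSemi false t) :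
    ∀ (l : List ℕ) (m : ℕ), enc (t (vecN (comboL l m))) =
      comboL (l.map fun x => enc (t (vecN x))) m := by
  have h0 : enc (t (vecN 0)) = 0 := by
    rw [show vecN 0 = 0 by decide, show t 0 = 0 by simpa using ht.1 0 0]
    decide
  intro l
  induction l with
  | nil => intro m; simp only [List.map_nil, comboL, h0]
  | cons a l ih =>
    intro m
    rw [List.map_cons, comboL, comboL, vecN_xor, ht.1, enc_add, ih]
    congr 1
    cases Nat.beq (Nat.mod m 2) 1
    · rw [cond_false, cond_false, h0]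
    · rfl

theorem centralizer_Gam {t : Equiv.Perm Vec} (htK : t ∈ K22) (hu : Commute t uP) (hv : Commute t vP) :
    t ∈ scal := by
  have hl : IsSemi false t := K22_linear htK
  have hcom : ∀ {g : List ℕ} {σ : Equiv.Perm Vec}, Rep g σ → Commute t σ → ∀ {x : ℕ}, x < 4096 →
      apL g x < 4096 ∧ enc (t (vecN (apL g x))) = apL g (enc (t (vecN x))) := by
    intro g σ hr hc x hx
    have h1 : σ (vecN x) = vecN (apL g x) := rep_vec hr hx
    refine ⟨?_, ?_⟩
    · have := hr (vecN x)
      rw [enc_vecN hx] at this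
      rw [← this]
      exact enc_lt _
    · rw [← h1, ← Equiv.Perm.mul_apply, hc.eq, Equiv.Perm.mul_apply, hr]
  have hom : Commute t omP := scalar_comm hl
  obtain ⟨hfix, hu1, hu2, hindep, he2, he1⟩ := fix_ok
  have hlt := maskR_ok.2.1
  have hl1 : e1 < 4096 := Nat.blt_eq.mp (List.all_eq_true.1 hlt e1 (List.mem_cons_self))
  have hl2 : e2 < 4096 :=
    Nat.blt_eq.mp (List.all_eq_true.1 hlt e2 (List.mem_cons_of_mem _ List.mem_cons_self))
  set a := enc (t (vecN e1)) with ha
  set b := enc (t (vecN e2)) with hb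
  have hmemF : ∀ {x : ℕ}, x < 4096 → apL (eL 2) x = x → enc (t (vecN x)) ∈ fixU := by
    intro x hx hfx
    have h2 := allB_spec_zero hfix (by norm_num : 4096 ≤ 2 ^ 12) (enc_lt (t (vecN x)))
    have h3 := (hcom rep_uP hu hx).2
    rw [hfx] at h3
    rw [← h3, Nat.beq_refl, Bool.not_true, Bool.false_or, List.contains_iff_mem] at h2
    exact h2
  have hinj : ∀ {x y : ℕ}, x < 4096 → y < 4096 → enc (t (vecN x)) = enc (t (vecN y)) → x = y := by
    intro x y hx hy h
    have := congrArg enc (t.injective (enc_injective h))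
    rwa [enc_vecN hx, enc_vecN hy] at this
  have hzero : enc (t (vecN 0)) = 0 := by
    rw [show vecN 0 = 0 by decide, show t 0 = 0 by simpa using hl.1 0 0]
    decide
  have hpw : ∀ (j : ℕ) {x : ℕ}, x < 4096 → apL (pwL omL j) x < 4096 ∧
      enc (t (vecN (apL (pwL omL j) x))) = apL (pwL omL j) (enc (t (vecN x))) := fun j _ hx =>
    hcom (rep_pow rep_omP j) (hom.pow_right j) hx
  have himg : (baseR e1 e2 ++ (baseR e1 e2).map (apL omL)).map (fun x => enc (t (vecN x))) =
      baseR a b ++ (baseR a b).map (apL omL) := by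
    have hv1 := hcom rep_vP hv hl1
    have hv2 := hcom rep_vP hv hl2
    have hvv1 := hcom rep_vP hv hv1.1
    have hvv2 := hcom rep_vP hv hv2.1
    have hbase : (baseR e1 e2).map (fun x => enc (t (vecN x))) = baseR a b := by
      simp only [baseR, List.map_cons, List.map_nil, ha, hb, hv1.2, hv2.2, hvv1.2, hvv2.2]
    rw [List.map_append, List.map_map, ← hbase, List.map_map]
    congr 1
    exact List.map_congr_left fun x hx =>
      (hcom rep_omP hom (Nat.blt_eq.mp (List.all_eq_true.1 hlt x hx))).2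
  have h := List.all_eq_true.1 (List.all_eq_true.1 pairs_table a (hmemF hl1 hu1)) b (hmemF hl2 hu2)
  simp only [Bool.or_eq_true, List.any_eq_true, Bool.and_eq_true, Bool.not_eq_true'] at h
  rcases h with (((h | h) | ⟨j, hj, h⟩) | ⟨j, hj, h1, h2⟩) | ⟨p, hp, h⟩
  · exfalso
    have := hinj hl1 (by norm_num) ((Nat.eq_of_beq_eq_true h).trans hzero.symm)
    rw [this] at he1
    exact absurd he1 (by decide)
  · exfalso
    have := hinj hl2 (by norm_num) ((Nat.eq_of_beq_eq_true h).trans hzero.symm)
    rw [this] at he2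
    exact absurd he2 (by decide)
  · exfalso
    have h' := Nat.eq_of_beq_eq_true h
    rw [ha, ← (hpw j hl1).2] at h'
    have := hinj (hpw j hl1).1 hl2 h'
    have h3 := List.all_eq_true.1 hindep j hj
    rw [this, Nat.beq_refl] at h3
    exact absurd h3 (by decide)
  · have h1' := Nat.eq_of_beq_eq_true h1
    have h2' := Nat.eq_of_beq_eq_true h2
    have hs : IsSemi false (omP ^ j) := mem_linU.1 (pow_mem (mem_linU.2 semi_facts.1) j)
    have hse : t = omP ^ j := by
      refine eq_of_span hl hs maskR_ok.1 hlt ?_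
      have key : ∀ {x : ℕ}, x < 4096 → enc (t (vecN x)) = apL (pwL omL j) x →
          t (vecN x) = (omP ^ j) (vecN x) := fun {x} hx hxe => by
        rw [rep_vec (rep_pow rep_omP j) hx, ← hxe, vecN_enc]
      have k1 := key hl1 h1'.symm
      have k2 := key hl2 h2'.symm
      have hcv : Commute vP (omP ^ j) := (scalar_comm (K22_linear (Gam_le vP_mem))).pow_right j
      have step : ∀ {x : ℕ}, x < 4096 → t (vecN x) = (omP ^ j) (vecN x) →
          t (vecN (apL (eL 3) x)) = (omP ^ j) (vecN (apL (eL 3) x)) := fun {x} hx hxe => by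
        rw [← rep_vec rep_vP hx, ← Equiv.Perm.mul_apply, hv.eq, Equiv.Perm.mul_apply, hxe,
          ← Equiv.Perm.mul_apply, hcv.eq, Equiv.Perm.mul_apply]
      intro x hx
      simp only [baseR, List.mem_cons, List.not_mem_nil, or_false] at hx
      rcases hx with rfl | rfl | rfl | rfl | rfl | rfl
      exacts [k1, k2, step hl1 k1, step hl2 k2,
        step (hcom rep_vP hv hl1).1 (step hl1 k1), step (hcom rep_vP hv hl2).1 (step hl2 k2)]
    rw [hse]
    exact pow_mem (Subgroup.mem_zpowers _) _
  · exfalso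
    have hw := List.all_eq_true.1 maskR_ok.2.2 p hp
    rw [Bool.and_eq_true] at hw
    have hS := K22_invariant htK (x := vecN p.1) (by
      rw [enc_vecN]
      · exact hw.1
      · by_contra hc
        rw [inS] at hw
        have hb : ∀ q ∈ witR, q.1 < 4096 := by decide +kernel
        exact hc (hb p hp))
    rw [← Nat.eq_of_beq_eq_true hw.2, enc_map_comboL hl, himg, h] at hS
    exact Bool.false_ne_true hS

/-! ### The normalizer in the cover -/

/-- The normalizer in the cover. -/
noncomputable def norK : Subgroup (Equiv.Perm Vec) := Subgroup.normalizer (Gam : Set (Equiv.Perm Vec)) ⊓ K22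

/-- Pairs of elements of the subgroup with the distinguished commutator. -/
def Pairs : Type :=
  {p : Equiv.Perm Vec × Equiv.Perm Vec // p.1 ∈ Gam ∧ p.2 ∈ Gam ∧ p.1 * p.2 = p.2 * p.1 * omP}

noncomputable instance : SMul norK Pairs where
  smul t p := ⟨((t : Equiv.Perm Vec) * p.1.1 * (t : Equiv.Perm Vec)⁻¹,
      (t : Equiv.Perm Vec) * p.1.2 * (t : Equiv.Perm Vec)⁻¹),
    (Subgroup.mem_normalizer_iff.1 t.2.1 _).1 p.2.1, (Subgroup.mem_normalizer_iff.1 t.2.1 _).1 p.2.2.1, by
      have hc : (t : Equiv.Perm Vec) * omP = omP * (t : Equiv.Perm Vec) :=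
        (scalar_comm (K22_linear t.2.2)).eq
      calc (t : Equiv.Perm Vec) * p.1.1 * (t : Equiv.Perm Vec)⁻¹ *
            ((t : Equiv.Perm Vec) * p.1.2 * (t : Equiv.Perm Vec)⁻¹)
          = (t : Equiv.Perm Vec) * (p.1.1 * p.1.2) * (t : Equiv.Perm Vec)⁻¹ := by group
        _ = (t : Equiv.Perm Vec) * (p.1.2 * p.1.1) * (t : Equiv.Perm Vec)⁻¹ *
              ((t : Equiv.Perm Vec) * omP * (t : Equiv.Perm Vec)⁻¹) := by rw [p.2.2.2]; group
        _ = _ := by rw [hc, mul_inv_cancel_right]; group⟩

theorem smul_val (t : norK) (p : Pairs) : (t • p).1 = ((t : Equiv.Perm Vec) * p.1.1 * (t : Equiv.Perm Vec)⁻¹,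
    (t : Equiv.Perm Vec) * p.1.2 * (t : Equiv.Perm Vec)⁻¹) := rfl

noncomputable instance : MulAction norK Pairs where
  one_smul p := Subtype.ext (by simp [smul_val])
  mul_smul s t p := Subtype.ext (by simp [smul_val, mul_assoc])

theorem count_ok : ((List.range 729).filter fun k => comp (eL (k / 27)) (eL (k % 27)) ==
    comp (comp (eL (k % 27)) (eL (k / 27))) omL).length = 216 := by decide +kernel

theorem card_Pairs : Nat.card Pairs = 216 := by
  classical
  let f : {k : Fin 729 // comp (eL ((k : ℕ) / 27)) (eL ((k : ℕ) % 27)) =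
      comp (comp (eL ((k : ℕ) % 27)) (eL ((k : ℕ) / 27))) omL} → Pairs := fun k =>
    ⟨(wPerm (wd ((k.1 : ℕ) / 27)), wPerm (wd ((k.1 : ℕ) % 27))),
      wd_mem (by have := k.1.2; omega), wd_mem (Nat.mod_lt _ (by norm_num)), by
        have h1 := (wd_spec (i := (k.1 : ℕ) / 27) (by have := k.1.2; omega)).1
        have h2 := (wd_spec (i := (k.1 : ℕ) % 27) (Nat.mod_lt _ (by norm_num))).1
        exact (h1.mul h2).eq (k.2.symm ▸ (h2.mul h1).mul rep_omP)⟩
  have hf : Function.Bijective f := by
    refine ⟨fun k l h => ?_, fun p => ?_⟩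
    · have h1 := congrArg (fun p : Pairs => p.1.1) h
      have h2 := congrArg (fun p : Pairs => p.1.2) h
      have hk := k.1.2
      have hl := l.1.2
      have e1 := inj_wd (by omega) (by omega) h1
      have e2 := inj_wd (Nat.mod_lt _ (by norm_num)) (Nat.mod_lt _ (by norm_num)) h2
      exact Subtype.ext (Fin.ext (by omega))
    · obtain ⟨i, hi, h1⟩ := p.2.1
      obtain ⟨j, hj, h2⟩ := p.2.2.1
      have hd : (27 * i + j) / 27 = i := by omega
      have hm : (27 * i + j) % 27 = j := by omega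
      have hom : comp omL idL = omL := by decide +kernel
      refine ⟨⟨⟨27 * i + j, by omega⟩, ?_⟩, ?_⟩
      · simp only [hd, hm]
        exact (h1.mul h2).list_eq (p.2.2.2 ▸ (h2.mul h1).mul rep_omP)
          (comp_normal (wd_spec hj).2.1) (comp_normal hom)
      · refine Subtype.ext (Prod.ext ?_ ?_)
        · show wPerm (wd ((27 * i + j) / 27)) = _
          rw [hd]; exact (wd_spec hi).1.eq h1
        · show wPerm (wd ((27 * i + j) % 27)) = _
          rw [hm]; exact (wd_spec hj).1.eq h2
  rw [← Nat.card_congr (Equiv.ofBijective f hf), Nat.card_eq_fintype_card]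
  have hc := count_ok
  rw [← List.toFinset_card_of_nodup (List.nodup_range.filter _)] at hc
  rw [← hc, Fintype.card_subtype]
  refine Finset.card_bij (fun k _ => (k : ℕ)) (fun k hk => ?_) (fun k _ l _ h => Fin.ext h)
    (fun n hn => ?_)
  · simp only [Finset.mem_filter, Finset.mem_univ, true_and] at hk
    simp [hk, k.2]
  · simp only [List.mem_toFinset, List.mem_filter, List.mem_range, beq_iff_eq] at hn
    exact ⟨⟨n, hn.1⟩, by simp [hn.2], rfl⟩

theorem closure_pair {x y : Equiv.Perm Vec} (hx : x ∈ Gam) (hy : y ∈ Gam) (hne : x * y ≠ y * x) :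
    Subgroup.closure {x, y} = Gam := by
  have hle : Subgroup.closure {x, y} ≤ Gam := by
    rw [Subgroup.closure_le]
    rintro w (rfl | rfl) <;> assumption
  set L := Subgroup.closure {x, y} with hL
  have hxL : x ∈ L := Subgroup.subset_closure (Or.inl rfl)
  have hyL : y ∈ L := Subgroup.subset_closure (Or.inr rfl)
  have hnc : ¬ IsMulCommutative L := fun h => hne
    (congrArg Subtype.val (h.is_comm.comm (⟨x, hxL⟩ : L) ⟨y, hyL⟩))
  refine Subgroup.eq_of_le_of_card_ge hle ?_
  have hd : Nat.card L ∣ 3 ^ 3 := by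
    rw [show (3 : ℕ) ^ 3 = 27 by norm_num, ← card_Gam]
    exact Subgroup.card_dvd_of_le hle
  obtain ⟨n, hn, hc⟩ := (Nat.dvd_prime_pow Nat.prime_three).1 hd
  haveI : Fact (Nat.Prime 3) := ⟨Nat.prime_three⟩
  interval_cases n
  · exact absurd ⟨⟨fun u v => (Nat.card_eq_one_iff_unique.1 (by simpa using hc)).1.elim _ _⟩⟩ hnc
  · haveI : IsCyclic L := isCyclic_of_prime_card (p := 3) (by simpa using hc)
    exact absurd IsCyclic.isMulCommutative hnc
  · exact absurd ⟨⟨IsPGroup.commutative_of_card_eq_prime_sq hc⟩⟩ hnc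
  · rw [hc, card_Gam]; norm_num

theorem card_orbit (p : Pairs) :
    Nat.card (MulAction.orbit norK p) * 3 = Nat.card norK := by
  have hst : MulAction.stabilizer norK p = scal.subgroupOf norK := by
    ext t
    rw [MulAction.mem_stabilizer_iff, Subgroup.mem_subgroupOf]
    constructor
    · intro h
      have h1 : Commute (t : Equiv.Perm Vec) p.1.1 := mul_inv_eq_iff_eq_mul.1 (congrArg (fun q : Pairs => q.1.1) h)
      have h2 : Commute (t : Equiv.Perm Vec) p.1.2 := mul_inv_eq_iff_eq_mul.1 (congrArg (fun q : Pairs => q.1.2) h)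
      have hne : p.1.1 * p.1.2 ≠ p.1.2 * p.1.1 := fun e => by
        have h3 := e.symm.trans p.2.2.2
        refine uv_rel.2 ?_
        rw [uv_rel.1, show omP = 1 from mul_eq_left.1 h3.symm, mul_one]
      have hcl := closure_pair p.2.1 p.2.2.1 hne
      have hle : Gam ≤ Subgroup.centralizer {(t : Equiv.Perm Vec)} := by
        rw [← hcl, Subgroup.closure_le]
        rintro w (rfl | rfl) <;> rw [SetLike.mem_coe, Subgroup.mem_centralizer_singleton_iff]
        exacts [h1.symm.eq, h2.symm.eq]
      exact centralizer_Gam t.2.2 (Subgroup.mem_centralizer_singleton_iff.1 (hle uP_mem)).symm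
        (Subgroup.mem_centralizer_singleton_iff.1 (hle vP_mem)).symm
    · intro h
      refine Subtype.ext (Prod.ext ?_ ?_) <;> rw [smul_val] <;> refine mul_inv_eq_iff_eq_mul.2 ?_
      · exact (scal_commute h (K22_linear (Gam_le p.2.1))).symm.eq
      · exact (scal_commute h (K22_linear (Gam_le p.2.2.1))).symm.eq
  have hle : scal ≤ norK := le_inf (scal_le_Gam.trans Subgroup.le_normalizer) scal_le
  have h3 : Nat.card (MulAction.stabilizer norK p) = 3 := by
    rw [hst, Nat.card_congr (Subgroup.subgroupOfEquivOfLe hle).toEquiv, scal, Nat.card_zpowers]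
    haveI : Fact (Nat.Prime 3) := ⟨Nat.prime_three⟩
    refine orderOf_eq_prime omP_pow_three fun e => uv_rel.2 ?_
    rw [uv_rel.1, e, mul_one]
  rw [← h3, ← Nat.card_prod]
  exact Nat.card_congr (MulAction.orbitProdStabilizerEquivGroup norK p)

theorem card_norK_dvd : Nat.card norK ∣ 648 := by
  classical
  haveI : Finite Pairs := Subtype.finite
  haveI : Fintype (MulAction.orbitRel.Quotient norK Pairs) := Fintype.ofFinite _
  have h := Nat.card_congr (MulAction.selfEquivSigmaOrbits norK Pairs)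
  rw [card_Pairs, Nat.card_sigma] at h
  rw [show 648 = 216 * 3 by norm_num, h, Finset.sum_mul]
  exact Finset.dvd_sum fun ω _ => dvd_of_eq (card_orbit _).symm

/-- A word for an element of order 4 normalizing the subgroup. -/
noncomputable def fourW : List ℕ := [2, 1, 3, 5, 5, 0, 5]

theorem four_ok : ((List.range 27).all fun i => (List.range 27).any fun j =>
      comp (wImg fourW) (eL i) == comp (eL j) (wImg fourW)) = true ∧
    comp (comp (wImg fourW) (wImg fourW)) (comp (wImg fourW) (wImg fourW)) = idL ∧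
    ¬ comp (wImg fourW) (wImg fourW) = idL ∧
    comp (comp (wImg fourW) (wImg fourW)) idL = comp (wImg fourW) (wImg fourW) ∧
    comp idL idL = idL := by decide +kernel

theorem mem_normalizer_of_map {X : Type*} [Group X] [Finite X] {A : Subgroup X} {t : X}
    (h : ∀ x ∈ A, t * x * t⁻¹ ∈ A) : t ∈ Subgroup.normalizer (A : Set X) := by
  have he : A.map (MulAut.conj t).toMonoidHom = A := by
    refine Subgroup.eq_of_le_of_card_ge ?_ ?_
    · rintro _ ⟨x, hx, rfl⟩; exact h x hx
    · rw [Subgroup.card_map_of_injective (MulAut.conj t).injective]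
  refine Subgroup.mem_normalizer_iff.2 fun x => ⟨h x, fun hx => ?_⟩
  rw [← he] at hx
  obtain ⟨y, hy, hye⟩ := hx
  exact (MulAut.conj t).injective hye ▸ hy

/-- The normalizer in the cover has order 216. -/
theorem card_norK (hK : Nat.card K22 = 1330560) : Nat.card norK = 216 := by
  classical
  haveI : Fact (Nat.Prime 3) := ⟨Nat.prime_three⟩
  haveI : Fact (Nat.Prime 2) := ⟨Nat.prime_two⟩
  obtain ⟨hnorm, h4, h2, hn2, hid⟩ := four_ok
  set t := wPerm fourW with ht
  have htn : t ∈ norK := by
    refine ⟨mem_normalizer_of_map fun x hx => ?_, word_mem _⟩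
    obtain ⟨i, hi, hxi⟩ := hx
    obtain ⟨j, hj, hje⟩ := List.any_eq_true.1 (List.all_eq_true.1 hnorm i (List.mem_range.2 hi))
    rw [List.mem_range] at hj
    refine ⟨j, hj, ?_⟩
    have e : t * x = wPerm (wd j) * t :=
      ((rep_word fourW).mul hxi).eq ((beq_iff_eq.1 hje).symm ▸ (wd_spec hj).1.mul (rep_word fourW))
    rw [e, mul_inv_cancel_right]
    exact (wd_spec hj).1
  have hot : orderOf t = 2 ^ 2 := by
    refine orderOf_eq_prime_pow ?_ ?_
    · intro e
      rw [pow_one, pow_two] at e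
      exact h2 (((rep_word fourW).mul (rep_word fourW)).list_eq (e ▸ Rep.one) hn2 hid)
    · rw [show (2 : ℕ) ^ (1 + 1) = 2 + 2 by norm_num, pow_add, pow_two]
      exact (((rep_word fourW).mul (rep_word fourW)).mul ((rep_word fourW).mul (rep_word fourW))).eq
        (h4 ▸ Rep.one)
  have hle : Gam ≤ norK := le_inf Subgroup.le_normalizer Gam_le
  have h27 : 27 ∣ Nat.card norK := card_Gam ▸ Subgroup.card_dvd_of_le hle
  have h4' : 4 ∣ Nat.card norK := by
    have := Subgroup.orderOf_dvd_natCard norK htn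
    rwa [hot] at this
  obtain ⟨k, hk⟩ : 108 ∣ Nat.card norK := Nat.Coprime.mul_dvd_of_dvd_of_dvd (by norm_num : Nat.Coprime 27 4) h27 h4'
  have hk6 : k ∣ 6 := by
    have := card_norK_dvd
    rw [hk, show 648 = 108 * 6 by norm_num] at this
    exact Nat.dvd_of_mul_dvd_mul_left (by norm_num) this
  have hdvd : Nat.card norK ∣ 1330560 := hK ▸ Subgroup.card_dvd_of_le inf_le_right
  have hfac : (Nat.card K22).factorization 3 = 3 := by
    rw [hK, show (1330560 : ℕ) = 3 ^ 3 * 49280 by norm_num, Nat.factorization_mul (by norm_num) (by norm_num),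
      Finsupp.add_apply, Nat.factorization_pow, Finsupp.smul_apply,
      Nat.Prime.factorization_self Nat.prime_three,
      Nat.factorization_eq_zero_of_not_dvd (by norm_num)]
    rfl
  let S : Sylow 3 K22 := Sylow.ofCard (Gam.subgroupOf K22)
    (by rw [Nat.card_congr (Subgroup.subgroupOfEquivOfLe Gam_le).toEquiv, card_Gam, hfac]; norm_num)
  have hmod := card_sylow_modEq_one 3 K22
  have hS : (S : Subgroup K22) = Gam.subgroupOf K22 := rfl
  have hnS : Subgroup.normalizer (S : Set K22) = norK.subgroupOf K22 := by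
    ext g
    rw [show (S : Set K22) = ((Gam.subgroupOf K22 : Subgroup K22) : Set K22) from rfl, Subgroup.mem_normalizer_iff, Subgroup.mem_subgroupOf]
    constructor
    · exact fun h => ⟨mem_normalizer_of_map fun x hx => (h ⟨x, Gam_le hx⟩).1 hx, g.2⟩
    · exact fun h x => Subgroup.mem_normalizer_iff.1 h.1 (x : Equiv.Perm Vec)
  have hidx : Nat.card (Sylow 3 K22) * Nat.card norK = 1330560 := by
    have hc : Nat.card (norK.subgroupOf K22) = Nat.card norK :=
      Nat.card_congr (Subgroup.subgroupOfEquivOfLe (show norK ≤ K22 from inf_le_right)).toEquiv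
    rw [Sylow.card_eq_index_normalizer S, hnS, ← hc, Subgroup.index_mul_card, hK]
  have hk' : k = 1 ∨ k = 2 ∨ k = 3 ∨ k = 6 := by
    have := Nat.le_of_dvd (by norm_num) hk6
    interval_cases k <;> norm_num at hk6 <;> omega
  rw [Nat.ModEq] at hmod
  rw [hk] at hdvd hidx ⊢
  rcases hk' with rfl | rfl | rfl | rfl
  · omega
  · rfl
  · norm_num at hdvd
  · norm_num at hdvd

end Cfsg.Agent.JFourType.SylThree
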