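import Cfsg.Agent.JFourType.Main
import Cfsg.Agent.JFourType.SylThreeCert
import Cfsg.Agent.H73.Pearl.Basic

/-!
The Sylow 3-subgroup of the centralizer of the involution in a group of Janko-four type: it is
extraspecial of order 27 and exponent 3, its centre is a conjugate of the subgroup of order three
in the data, and its normalizer in the centralizer has order 864.
-/

set_option autoImplicit false

namespace Cfsg.Agent.JFourType.SylThree

open Cfsg
open Cfsg.Agent.GFour25
open Cfsg.Agent.SporB.FischerU (Vec)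
open Cfsg.Agent.LargeFischer (IsSemi semiU twist)
open Cfsg.Agent.LargeFischer.Thompson (Ext)
open Cfsg.Agent.TTClass

/-- Subgroups of order 27 of a subgroup whose 3-part is 27 are conjugate in it. -/
theorem conj_of_card {X : Type*} [Group X] [Finite X] {K A B : Subgroup X} {n : ℕ}
    (hK : Nat.card K = 27 * n) (hn : ¬ 3 ∣ n) (hA : A ≤ K) (hB : B ≤ K) (hAc : Nat.card A = 27)
    (hBc : Nat.card B = 27) : ∃ k ∈ K, A.map (MulAut.conj k).toMonoidHom = B := by
  haveI : Fact (Nat.Prime 3) := ⟨Nat.prime_three⟩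
  have hfac : (Nat.card K).factorization 3 = 3 := by
    rw [hK, show 27 = 3 ^ 3 by norm_num, Nat.factorization_mul (by norm_num) (by rintro rfl; exact hn (dvd_zero 3)),
      Finsupp.add_apply, Nat.factorization_pow, Finsupp.smul_apply,
      Nat.Prime.factorization_self Nat.prime_three, Nat.factorization_eq_zero_of_not_dvd hn]
    rfl
  have hc : ∀ {D : Subgroup X}, D ≤ K → Nat.card D = 27 →
      Nat.card (D.subgroupOf K) = 3 ^ (Nat.card K).factorization 3 := fun {D} hD hc => by
    rw [Nat.card_congr (Subgroup.subgroupOfEquivOfLe hD).toEquiv, hc, hfac]; norm_num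
  obtain ⟨k, hk⟩ := MulAction.exists_smul_eq K (Sylow.ofCard (A.subgroupOf K) (hc hA hAc))
    (Sylow.ofCard (B.subgroupOf K) (hc hB hBc))
  refine ⟨k, k.2, Subgroup.eq_of_le_of_card_ge ?_ ?_⟩
  · rintro _ ⟨a, ha, rfl⟩
    have h1 : k * ⟨a, hA ha⟩ * k⁻¹ ∈ ((k • Sylow.ofCard (A.subgroupOf K) (hc hA hAc) : Sylow 3 K) : Subgroup K) := by
      rw [Sylow.smul_def, Sylow.pointwise_smul_def]
      exact ⟨⟨a, hA ha⟩, ha, rfl⟩
    rw [hk] at h1
    exact h1
  · rw [hBc, Subgroup.card_map_of_injective (MulAut.conj (k : X)).injective, hAc]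

variable {G : Type*} [Group G] [Finite G] {z : G} {P : Subgroup G}

theorem exists_rho (hJ : IsOfJankoFourTypeWith z P) :
    ∃ (rho : Subgroup.centralizer ({z} : Set G) →* Equiv.Perm Vec)
      (psi : pCore 2 (Subgroup.centralizer ({z} : Set G)) → Vec),
      Ext (pCore 2 (Subgroup.centralizer ({z} : Set G)))
        ⟨z, Subgroup.mem_centralizer_singleton_iff.2 rfl⟩ rho psi ∧
      K22 ≤ rho.range ∧ Nat.card rho.range = 2661120 ∧ Nat.card K22 = 1330560 ∧
      ∀ h, rho h * rho h ∈ K22 := by
  obtain ⟨rho, psi, M, q, D, -, hlin, hsq, -, -, hlift, hscal, hker, hcM, hcR⟩ := exists_frame hJ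
  obtain ⟨g, hg, hgK⟩ := exists_conjugate rho M q hlin hlift hscal hker hcM
  refine ⟨_, _, ext_conj D hg, ?_, ?_, ?_, fun h => ?_⟩
  · rw [← hgK, MonoidHom.range_comp]
    exact Subgroup.map_mono (Subgroup.map_le_range _ _)
  · rw [MonoidHom.range_comp, Subgroup.card_map_of_injective (MulAut.conj g).injective, hcR]
  · rw [← hgK, Subgroup.card_map_of_injective (MulAut.conj g).injective, hcM]
  · rw [← hgK, ← map_mul]
    refine ⟨rho (h * h), ⟨h * h, ?_, rfl⟩, rfl⟩
    by_cases hh : h ∈ M
    · exact mul_mem hh hh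
    · exact hsq h h hh hh

/-- The order of the centralizer. -/
theorem card_centralizer (hJ : IsOfJankoFourTypeWith z P) :
    Nat.card (Subgroup.centralizer ({z} : Set G)) = 27 * (8192 * 98560) := by
  obtain ⟨rho, psi, D, -, hcR, -, -⟩ := exists_rho hJ
  have h := rho.ker.card_mul_index
  rw [Subgroup.index_ker, hcR, D.ker_rho, D.card_q] at h
  rw [← h]

/-- There are subgroups of order 27. -/
theorem exists_of (hJ : IsOfJankoFourTypeWith z P) :
    ∃ R : Subgroup (Subgroup.centralizer ({z} : Set G)), Nat.card R = 27 := by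
  haveI : Fact (Nat.Prime 3) := ⟨Nat.prime_three⟩
  obtain ⟨R, hR⟩ := Sylow.exists_subgroup_card_pow_prime (G := Subgroup.centralizer ({z} : Set G)) 3
    (n := 3) (by rw [card_centralizer hJ]; norm_num)
  exact ⟨R, by rw [hR]; norm_num⟩

/-- A representation taking a given subgroup of order 27 to the listed one. -/
theorem exists_adapted (hJ : IsOfJankoFourTypeWith z P)
    (R : Subgroup (Subgroup.centralizer ({z} : Set G))) (hR : Nat.card R = 27) :
    ∃ (rho : Subgroup.centralizer ({z} : Set G) →* Equiv.Perm Vec)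
      (psi : pCore 2 (Subgroup.centralizer ({z} : Set G)) → Vec),
      Ext (pCore 2 (Subgroup.centralizer ({z} : Set G)))
        ⟨z, Subgroup.mem_centralizer_singleton_iff.2 rfl⟩ rho psi ∧
      K22 ≤ rho.range ∧ Nat.card rho.range = 2661120 ∧ Nat.card K22 = 1330560 ∧
      (∀ h, rho h * rho h ∈ K22) ∧ R ⊓ pCore 2 (Subgroup.centralizer ({z} : Set G)) = ⊥ ∧
      R.map rho = Gam := by
  obtain ⟨rho, psi, D, hKR, hcR, hcK, hsq⟩ := exists_rho hJ
  have hcop : R ⊓ pCore 2 (Subgroup.centralizer ({z} : Set G)) = ⊥ := by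
    refine Subgroup.inf_eq_bot_of_coprime ?_
    rw [hR, D.card_q]; norm_num
  have himg : Nat.card (R.map rho) = 27 := by
    have hinj : Function.Injective (rho.comp R.subtype) := by
      rw [← MonoidHom.ker_eq_bot_iff, eq_bot_iff]
      intro x hx
      have : (x : Subgroup.centralizer ({z} : Set G)) ∈ R ⊓ pCore 2 (Subgroup.centralizer ({z} : Set G)) :=
        ⟨x.2, D.mem_q hx⟩
      rw [hcop, Subgroup.mem_bot] at this
      exact Subgroup.mem_bot.2 (Subtype.ext this)
    have hr : (rho.comp R.subtype).range = R.map rho := by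
      rw [MonoidHom.range_comp, Subgroup.range_subtype]
    rw [← hr, ← Nat.card_congr (MonoidHom.ofInjective hinj).toEquiv, hR]
  have hle : R.map rho ≤ K22 := by
    rintro x hx
    obtain ⟨h, -, rfl⟩ := id hx
    have h27 : rho h ^ 27 = 1 := by
      have := Subgroup.orderOf_dvd_natCard _ hx
      rw [himg] at this
      exact orderOf_dvd_iff_pow_eq_one.1 this
    have : rho h = (rho h * rho h) ^ 14 := by
      rw [← pow_two, ← pow_mul, show 2 * 14 = 27 + 1 by norm_num, pow_succ, h27, one_mul]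
    rw [this]
    exact pow_mem (hsq h) _
  obtain ⟨k, hk, hkR⟩ := conj_of_card (n := 49280) (by rw [hcK]) (by norm_num) hle Gam_le himg card_Gam
  have hkU : k ∈ semiU := ⟨false, K22_linear hk⟩
  have hfix : ∀ {L : Subgroup (Equiv.Perm Vec)}, K22 ≤ L → L.map (MulAut.conj k).toMonoidHom = L :=
    fun {L} hL => by
      refine Subgroup.eq_of_le_of_card_ge ?_ ?_
      · rintro _ ⟨l, hl, rfl⟩
        exact mul_mem (mul_mem (hL hk) hl) (inv_mem (hL hk))
      · rw [Subgroup.card_map_of_injective (MulAut.conj k).injective]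
  refine ⟨_, _, ext_conj D hkU, ?_, ?_, hcK, fun h => ?_, hcop, ?_⟩
  · rw [MonoidHom.range_comp, hfix hKR]; exact hKR
  · rw [MonoidHom.range_comp, hfix hKR, hcR]
  · rw [← hfix le_rfl, ← map_mul]
    refine ⟨_, hsq h, ?_⟩
    simp [mul_assoc]
  · rw [← Subgroup.map_map, hkR]

theorem smul_fix_zero {v : Vec} (h : w4 • v = v) : v = 0 := funext fun i => by
  have h1 : w4 * v i = v i := congrFun h i
  have : ∀ x : F4, w4 * x = x → x = 0 := by decide
  exact this _ h1

/-- The normalizer of the listed subgroup in a group containing the cover with index two. -/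
theorem card_normalizer {L : Subgroup (Equiv.Perm Vec)} (hL : K22 ≤ L) (hcL : Nat.card L = 2661120)
    (hcK : Nat.card K22 = 1330560) :
    Nat.card ↥(Subgroup.normalizer (Gam : Set (Equiv.Perm Vec)) ⊓ L) = 432 := by
  haveI : Fact (Nat.Prime 3) := ⟨Nat.prime_three⟩
  set K' := K22.subgroupOf L with hK'
  have hc' : Nat.card K' = 1330560 := by
    rw [hK', Nat.card_congr (Subgroup.subgroupOfEquivOfLe hL).toEquiv, hcK]
  have hidx : K'.index = 2 := by
    have := K'.card_mul_index
    rw [hc', hcL] at this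
    omega
  haveI : K'.Normal := Subgroup.normal_of_index_eq_two hidx
  set J := Subgroup.normalizer (Gam : Set (Equiv.Perm Vec)) ⊓ L with hJdef
  -- an element outside the cover
  obtain ⟨s, hsJ, hsK⟩ : ∃ s ∈ J, s ∉ K22 := by
    obtain ⟨s0, hs0⟩ : ∃ s0 : L, s0 ∉ K' := by
      by_contra h
      push Not at h
      rw [show K' = ⊤ from eq_top_iff.2 fun x _ => h x, Subgroup.index_top] at hidx
      norm_num at hidx
    have hconj : Gam.map (MulAut.conj (s0 : Equiv.Perm Vec)).toMonoidHom ≤ K22 := by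
      rintro _ ⟨x, hx, rfl⟩
      exact (inferInstance : K'.Normal).conj_mem ⟨x, hL (Gam_le hx)⟩ (Gam_le hx) s0
    obtain ⟨k, hk, hkG⟩ := conj_of_card (n := 49280) (by rw [hcK]) (by norm_num) hconj Gam_le
      (by rw [Subgroup.card_map_of_injective (MulAut.conj (s0 : Equiv.Perm Vec)).injective, card_Gam]) card_Gam
    refine ⟨k * s0, ⟨mem_normalizer_of_map fun x hx => ?_, mul_mem (hL hk) s0.2⟩, fun h => hs0 ?_⟩
    · rw [← hkG]
      exact ⟨_, ⟨x, hx, rfl⟩, by simp [mul_assoc]⟩
    · have := mul_mem (inv_mem hk) h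
      rwa [inv_mul_cancel_left] at this
  let φ : J →* L ⧸ K' := (QuotientGroup.mk' K').comp (Subgroup.inclusion inf_le_right)
  have hker : φ.ker = norK.subgroupOf J := by
    ext x
    rw [MonoidHom.mem_ker, Subgroup.mem_subgroupOf]
    show ((Subgroup.inclusion _ x : L) : L ⧸ K') = 1 ↔ _
    rw [QuotientGroup.eq_one_iff, Subgroup.mem_subgroupOf]
    exact ⟨fun h => ⟨x.2.1, h⟩, fun h => h.2⟩
  have hran : φ.range = ⊤ := by
    haveI : Fact (Nat.Prime 2) := ⟨Nat.prime_two⟩
    have hq : Nat.card (L ⧸ K') = 2 := by rw [← Subgroup.index_eq_card, hidx]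
    haveI : Fact (Nat.card (L ⧸ K')).Prime := ⟨hq ▸ Nat.prime_two⟩
    rcases φ.range.eq_bot_or_eq_top_of_prime_card with h | h
    · exfalso
      have : φ ⟨s, hsJ⟩ = 1 := Subgroup.mem_bot.1 (h ▸ ⟨_, rfl⟩)
      rw [← MonoidHom.mem_ker, hker, Subgroup.mem_subgroupOf] at this
      exact hsK this.2
    · exact h
  have h := φ.ker.card_mul_index
  rw [Subgroup.index_ker, hran, Subgroup.card_top, ← Subgroup.index_eq_card, hidx, hker,
    Nat.card_congr (Subgroup.subgroupOfEquivOfLe (show norK ≤ J from inf_le_inf_left _ hL)).toEquiv,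
    card_norK hcK] at h
  rw [← h]

/-- A subgroup of order three normalized by an element of order dividing three is centralized by it. -/
theorem comm_of_card_three {X : Type*} [Group X] [Finite X] {T : Subgroup X} (hT : Nat.card T = 3)
    {x : X} (hx : x ^ 3 = 1) (hn : ∀ t ∈ T, x * t * x⁻¹ ∈ T) {p : X} (hp : p ∈ T) : Commute x p := by
  haveI : Fact (Nat.Prime 3) := ⟨Nat.prime_three⟩
  rcases eq_or_ne p 1 with rfl | hne
  · exact Commute.one_right x
  have hp3 : p ^ 3 = 1 := by
    rw [← hT]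
    exact congrArg Subtype.val (pow_card_eq_one' (x := (⟨p, hp⟩ : T)))
  have hz : Subgroup.zpowers p = T := Subgroup.eq_of_le_of_card_ge (Subgroup.zpowers_le.2 hp)
    (by rw [hT, Nat.card_zpowers, orderOf_eq_prime hp3 hne])
  obtain ⟨n, hn'⟩ := ((isOfFinOrder_of_finite p).mem_powers_iff_mem_zpowers).2 (hz.symm ▸ hn p hp)
  have hn1 : p ^ (n % 3) = x * p * x⁻¹ := by rw [← pow_eq_pow_mod n hp3]; exact hn'
  have : n % 3 < 3 := Nat.mod_lt _ (by norm_num)
  interval_cases h : n % 3
  · exact absurd (conj_eq_one_iff.1 (by rw [← hn1, pow_zero])) hne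
  · exact mul_inv_eq_iff_eq_mul.1 (by rw [← hn1, pow_one])
  · exfalso
    have e2 : x * p ^ 2 * x⁻¹ = p := by
      rw [← conj_pow, ← hn1, ← pow_mul, pow_succ, hp3, one_mul]
    have e3 : x ^ 3 * p * (x ^ 3)⁻¹ = p ^ 2 := by
      calc x ^ 3 * p * (x ^ 3)⁻¹ = x * (x * (x * p * x⁻¹) * x⁻¹) * x⁻¹ := by
            simp only [pow_succ, pow_zero, one_mul, mul_inv_rev, mul_assoc]
        _ = x * (x * p ^ 2 * x⁻¹) * x⁻¹ := by rw [← hn1]
        _ = p ^ 2 := by rw [e2, hn1]
    rw [hx, one_mul, inv_one, mul_one, pow_two] at e3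
    exact hne (mul_eq_left.1 e3.symm)

/-- The centralizer: everything about a subgroup of order 27. -/
theorem core (hJ : IsOfJankoFourTypeWith z P) (R : Subgroup (Subgroup.centralizer ({z} : Set G)))
    (hR : Nat.card R = 27) :
    IsExtraspecial 3 R ∧ Monoid.exponent R = 3 ∧ Nat.card (Subgroup.normalizer (R : Set (Subgroup.centralizer ({z} : Set G)))) = 864 ∧
    ∃ c : Subgroup.centralizer ({z} : Set G),
      ((Subgroup.center R).map R.subtype) =
        (P.subgroupOf (Subgroup.centralizer ({z} : Set G))).map (MulAut.conj c).toMonoidHom := by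
  obtain ⟨rho, psi, D, hKR, hcR, hcK, -, hcop, hmap⟩ := exists_adapted hJ R hR
  haveI : Fact (Nat.Prime 3) := ⟨Nat.prime_three⟩
  haveI : Fact (Nat.Prime 2) := ⟨Nat.prime_two⟩
  set Q := pCore 2 (Subgroup.centralizer ({z} : Set G)) with hQ
  set f := rho.comp R.subtype with hf
  have hinj : Function.Injective f := by
    rw [← MonoidHom.ker_eq_bot_iff, eq_bot_iff]
    intro x hx
    have : (x : Subgroup.centralizer ({z} : Set G)) ∈ R ⊓ Q := ⟨x.2, D.mem_q hx⟩
    rw [hcop, Subgroup.mem_bot] at this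
    exact Subgroup.mem_bot.2 (Subtype.ext this)
  have hfG : ∀ x : R, f x ∈ Gam := fun x => hmap ▸ ⟨x, x.2, rfl⟩
  have h3 : ∀ x : R, x ^ 3 = 1 := fun x => hinj (by rw [map_pow, Gam_pow (hfG x), map_one])
  have hna : ¬ IsMulCommutative R := fun h => uv_rel.2 (by
    obtain ⟨a, ha, hae⟩ := hmap.ge uP_mem
    obtain ⟨b, hb, hbe⟩ := hmap.ge vP_mem
    rw [← hae, ← hbe, ← map_mul, ← map_mul]
    exact congrArg rho (congrArg Subtype.val (h.is_comm.comm (⟨a, ha⟩ : R) ⟨b, hb⟩)))
  have hext : IsExtraspecial 3 R :=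
    H73.Pearl.isExtraspecial_of_card_cube (IsPGroup.of_card (n := 3) (by rw [hR]; norm_num))
      (by rw [hR]; norm_num) hna h3
  haveI : Nontrivial R := Finite.one_lt_card_iff_nontrivial.1 (by rw [hR]; norm_num)
  refine ⟨hext, ?_, ?_, ?_⟩
  · rcases (Nat.dvd_prime Nat.prime_three).1 (Monoid.exponent_dvd_of_forall_pow_eq_one h3) with h | h
    · exact absurd (Monoid.exp_eq_one_iff.1 h) (not_subsingleton R)
    · exact h
  · set N := Subgroup.normalizer (R : Set (Subgroup.centralizer ({z} : Set G))) with hN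
    set F := rho.comp N.subtype with hF
    have hRQ : ∀ a ∈ R, a ∈ Q → a = 1 := fun a ha hq => Subgroup.mem_bot.1 (hcop ▸ ⟨ha, hq⟩)
    have hran : F.range = Subgroup.normalizer (Gam : Set (Equiv.Perm Vec)) ⊓ rho.range := by
      refine le_antisymm ?_ ?_
      · rintro _ ⟨n, rfl⟩
        refine ⟨mem_normalizer_of_map fun x hx => ?_, ⟨n, rfl⟩⟩
        rw [← hmap] at hx ⊢
        obtain ⟨r, hr, rfl⟩ := hx
        exact ⟨_, (Subgroup.mem_normalizer_iff.1 n.2 r).1 hr, by simp [F]⟩
      · rintro _ ⟨hn, h, rfl⟩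
        -- the two Sylow subgroups of the preimage
        set K := Gam.comap rho with hKdef
        have hQK : Q ≤ K := fun q hq => by
          rw [hKdef, Subgroup.mem_comap, D.rho_q hq]; exact one_mem _
        have hKc : Nat.card K = 27 * 8192 := by
          let φ := rho.comp K.subtype
          have hr : φ.range = Gam := by
            rw [MonoidHom.range_comp, Subgroup.range_subtype, hKdef, Subgroup.map_comap_eq,
              inf_eq_right.2 ((Gam_le).trans hKR)]
          have hk : φ.ker = Q.subgroupOf K := by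
            ext y
            rw [MonoidHom.mem_ker, Subgroup.mem_subgroupOf]
            exact ⟨fun e => D.mem_q e, fun e => D.rho_q e⟩
          have hh := φ.ker.card_mul_index
          rw [Subgroup.index_ker, hr, card_Gam, hk,
            Nat.card_congr (Subgroup.subgroupOfEquivOfLe hQK).toEquiv, D.card_q] at hh
          rw [← hh, mul_comm]
        have hA : R.map (MulAut.conj h).toMonoidHom ≤ K := by
          rintro _ ⟨r, hr, rfl⟩
          rw [hKdef, Subgroup.mem_comap]
          show rho (h * r * h⁻¹) ∈ Gam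
          rw [map_mul, map_mul, map_inv]
          exact (Subgroup.mem_normalizer_iff.1 hn _).1 (hmap ▸ ⟨r, hr, rfl⟩)
        obtain ⟨k, hk, hke⟩ := conj_of_card hKc (by norm_num) hA
          (fun r hr => show rho r ∈ Gam from hmap ▸ ⟨r, hr, rfl⟩)
          (by rw [Subgroup.card_map_of_injective (MulAut.conj h).injective, hR]) hR
        obtain ⟨r0, hr0, hr0e⟩ := hmap.ge (show rho k ∈ Gam from hk)
        have hkh : k * h ∈ N := mem_normalizer_of_map fun r hr => by
          rw [← hke]
          exact ⟨_, ⟨r, hr, rfl⟩, by simp [mul_assoc]⟩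
        have hr0N : r0⁻¹ ∈ N := inv_mem (Subgroup.le_normalizer hr0)
        exact ⟨⟨r0⁻¹ * (k * h), mul_mem hr0N hkh⟩, by simp [F, hr0e]⟩
    have hker : Nat.card F.ker = 2 := by
      obtain ⟨x, hx, hxe⟩ := hmap.ge omP_mem_Gam
      let zc : Subgroup.centralizer ({z} : Set G) := ⟨z, Subgroup.mem_centralizer_singleton_iff.2 rfl⟩
      have hzN : zc ∈ N := mem_normalizer_of_map fun r hr => by
        rw [show zc * r * zc⁻¹ = r by rw [← D.z_central r, mul_inv_cancel_right]]
        exact hr
      have hset : (F.ker : Set N) = {1, ⟨zc, hzN⟩} := by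
        ext n
        rw [SetLike.mem_coe, MonoidHom.mem_ker, Set.mem_insert_iff, Set.mem_singleton_iff]
        constructor
        · intro hn
          have hq : (n : Subgroup.centralizer ({z} : Set G)) ∈ Q := D.mem_q hn
          set a : Q := ⟨_, hq⟩ with ha
          have hc : x * (n : Subgroup.centralizer ({z} : Set G)) * x⁻¹ = n := by
            have h1 : (n : Subgroup.centralizer ({z} : Set G)) * x * (n : Subgroup.centralizer ({z} : Set G))⁻¹ * x⁻¹ = 1 := by
              refine hRQ _ (mul_mem ((Subgroup.mem_normalizer_iff.1 n.2 x).1 hx) (inv_mem hx)) ?_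
              rw [mul_assoc, mul_assoc, ← mul_assoc x]
              exact mul_mem hq ((inferInstance : Q.Normal).conj_mem _ (inv_mem hq) x)
            rw [mul_inv_eq_one, mul_inv_eq_iff_eq_mul] at h1
            rw [← h1, mul_inv_cancel_right]
          have h2 := D.psi_conj x a
          rw [show (⟨x * (a : Subgroup.centralizer ({z} : Set G)) * x⁻¹, (inferInstance : Q.Normal).conj_mem _ a.2 x⟩ : Q) = a from
            Subtype.ext hc, hxe, omP_apply] at h2
          rcases (D.psi_ker a).1 (smul_fix_zero h2.symm) with e | e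
          · exact Or.inl (Subtype.ext e)
          · exact Or.inr (Subtype.ext e)
        · rintro (rfl | rfl)
          · exact map_one _
          · exact D.rho_q D.z_mem
      have hne : (1 : N) ≠ ⟨zc, hzN⟩ := fun e => D.z_ne (congrArg Subtype.val e).symm
      rw [← SetLike.coe_sort_coe, hset, Nat.card_coe_set_eq, Set.ncard_pair hne]
    have h := F.ker.card_mul_index
    rw [Subgroup.index_ker, hran, card_normalizer hKR hcR hcK, hker] at h
    rw [← h]
  · obtain ⟨hz, -, hcE, -, ⟨NN, -, hNH, -, hN3, ⟨hNn, -⟩, hPN⟩, hP3, -⟩ := hJ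
    haveI := hNn
    set N' := NN.subgroupOf (Subgroup.centralizer ({z} : Set G)) with hN'
    set P' := P.subgroupOf (Subgroup.centralizer ({z} : Set G)) with hP'
    have hP'c : Nat.card P' = 3 := by
      rw [hP', Nat.card_congr (Subgroup.subgroupOfEquivOfLe (hPN.trans hNH)).toEquiv, hP3]
    obtain ⟨S, hS⟩ := (IsPGroup.of_card (n := 1) (by rw [hP'c]; norm_num) : IsPGroup 3 P').exists_le_sylow
    have hCc : Nat.card (⊤ : Subgroup (Subgroup.centralizer ({z} : Set G))) = 27 * (8192 * 98560) := by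
      rw [Subgroup.card_top]
      have h := rho.ker.card_mul_index
      rw [Subgroup.index_ker, hcR, D.ker_rho, D.card_q] at h
      rw [← h]
    have hSc : Nat.card S = 27 := by
      rw [Subgroup.card_top] at hCc
      rw [S.card_eq_multiplicity, hCc, show 27 = 3 ^ 3 by norm_num, Nat.factorization_mul (by norm_num) (by norm_num),
        Finsupp.add_apply, Nat.factorization_pow, Finsupp.smul_apply,
        Nat.Prime.factorization_self Nat.prime_three, Nat.factorization_eq_zero_of_not_dvd (by norm_num)]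
      norm_num
    obtain ⟨c, -, hc⟩ := conj_of_card hCc (by norm_num) (le_top : (S : Subgroup _) ≤ ⊤) le_top hSc hR
    refine ⟨c, ?_⟩
    set T := P'.map (MulAut.conj c).toMonoidHom with hT
    have hTR : T ≤ R := hc ▸ Subgroup.map_mono hS
    have hTN : T ≤ N' := by
      rintro _ ⟨p, hp, rfl⟩
      exact hNn.conj_mem p (hPN hp) c
    have hTc : Nat.card T = 3 := by
      rw [hT, Subgroup.card_map_of_injective (MulAut.conj c).injective, hP'c]
    have hRN : R ⊓ N' = T := by
      refine (Subgroup.eq_of_le_of_card_ge (le_inf hTR hTN) ?_).symm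
      rw [hTc]
      have h1 : Nat.card ↥(R ⊓ N') ∣ 27 := hR ▸ Subgroup.card_dvd_of_le inf_le_left
      have h2 : Nat.card ↥(R ⊓ N') ∣ 3 * 2 ^ 13 := by
        rw [← hcE, ← hN3, ← Nat.card_congr (Subgroup.subgroupOfEquivOfLe hNH).toEquiv]
        exact Subgroup.card_dvd_of_le inf_le_right
      exact Nat.le_of_dvd (by norm_num) (Nat.dvd_trans (Nat.dvd_gcd h1 h2) (by norm_num))
    have hcen : T.subgroupOf R ≤ Subgroup.center R := by
      intro p hp
      refine Subgroup.mem_center_iff.2 fun x => Subtype.ext ?_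
      refine (comm_of_card_three hTc (congrArg Subtype.val (h3 x)) (fun t ht => ?_) hp).eq
      rw [← hRN] at ht ⊢
      exact ⟨R.mul_mem (R.mul_mem x.2 ht.1) (R.inv_mem x.2), hNn.conj_mem t ht.2 x⟩
    have heq : T.subgroupOf R = Subgroup.center R := Subgroup.eq_of_le_of_card_ge hcen (by
      rw [hext.2, Nat.card_congr (Subgroup.subgroupOfEquivOfLe hTR).toEquiv, hTc])
    rw [← heq, Subgroup.map_subgroupOf_eq_of_le hTR]

/-- With the normalizer of the subgroup of order three in the centralizer, a subgroup of order 27 of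
the centralizer is a Sylow subgroup of the group and its normalizer lies in the centralizer. -/
theorem normalizer_le (hJ : IsOfJankoFourTypeWith z P)
    (hNP : Subgroup.normalizer (P : Set G) ≤ Subgroup.centralizer ({z} : Set G)) {R : Subgroup G}
    (hR : R ≤ Subgroup.centralizer ({z} : Set G)) (hRc : Nat.card R = 27) :
    Subgroup.normalizer (R : Set G) ≤ Subgroup.centralizer ({z} : Set G) := by
  set C := Subgroup.centralizer ({z} : Set G) with hC
  have hPC : P ≤ C := fun p hp => hNP (Subgroup.le_normalizer hp)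
  obtain ⟨-, -, -, c, hc⟩ := core hJ (R.subgroupOf C)
    (by rw [Nat.card_congr (Subgroup.subgroupOfEquivOfLe hR).toEquiv, hRc])
  intro g hg
  have hgm : ∀ y, y ∈ R → g * y * g⁻¹ ∈ R := fun y => (Subgroup.mem_normalizer_iff.1 hg y).1
  -- the centre is moved into itself
  have hkey : ∀ p ∈ P, ∃ p' ∈ P, (c : G) * p' * (c : G)⁻¹ = g * ((c : G) * p * (c : G)⁻¹) * g⁻¹ := by
    intro p hp
    have h1 : (MulAut.conj c).toMonoidHom (⟨p, hPC hp⟩ : C) ∈ (Subgroup.center (R.subgroupOf C)).map (R.subgroupOf C).subtype := by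
      rw [hc]; exact ⟨_, hp, rfl⟩
    obtain ⟨u, hu, hue⟩ := h1
    have huv : ((u : C) : G) = (c : G) * p * (c : G)⁻¹ := congrArg Subtype.val hue
    have hgu : g * ((c : G) * p * (c : G)⁻¹) * g⁻¹ ∈ R := hgm _ (huv ▸ u.2)
    set w : R.subgroupOf C := ⟨⟨_, hR hgu⟩, hgu⟩ with hw
    have hwc : w ∈ Subgroup.center (R.subgroupOf C) := by
      refine Subgroup.mem_center_iff.2 fun y => Subtype.ext (Subtype.ext ?_)
      have hy : g⁻¹ * ((y : C) : G) * g ∈ R := by
        have := (Subgroup.mem_normalizer_iff.1 (inv_mem hg) _).1 y.2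
        simpa using this
      have h2 := congrArg (fun t : R.subgroupOf C => ((t : C) : G))
        (Subgroup.mem_center_iff.1 hu ⟨⟨_, hR hy⟩, hy⟩)
      simp only [Subgroup.coe_mul, huv] at h2
      show ((y : C) : G) * (g * ((c : G) * p * (c : G)⁻¹) * g⁻¹) = g * ((c : G) * p * (c : G)⁻¹) * g⁻¹ * ((y : C) : G)
      calc ((y : C) : G) * (g * ((c : G) * p * (c : G)⁻¹) * g⁻¹)
          = g * (g⁻¹ * ((y : C) : G) * g * ((c : G) * p * (c : G)⁻¹)) * g⁻¹ := by group
        _ = g * ((c : G) * p * (c : G)⁻¹ * (g⁻¹ * ((y : C) : G) * g)) * g⁻¹ := by rw [h2]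
        _ = g * ((c : G) * p * (c : G)⁻¹) * g⁻¹ * ((y : C) : G) := by group
    have h3 : (w : C) ∈ (Subgroup.center (R.subgroupOf C)).map (R.subgroupOf C).subtype := ⟨w, hwc, rfl⟩
    rw [hc] at h3
    obtain ⟨p', hp', hpe⟩ := h3
    exact ⟨p', hp', congrArg Subtype.val hpe⟩
  have hN : (c : G)⁻¹ * g * c ∈ Subgroup.normalizer (P : Set G) := by
    refine mem_normalizer_of_map fun p hp => ?_
    obtain ⟨p', hp', hpe⟩ := hkey p hp
    have : (c : G)⁻¹ * g * c * p * ((c : G)⁻¹ * g * c)⁻¹ = p' := by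
      calc (c : G)⁻¹ * g * c * p * ((c : G)⁻¹ * g * c)⁻¹
          = (c : G)⁻¹ * (g * ((c : G) * p * (c : G)⁻¹) * g⁻¹) * c := by group
        _ = p' := by rw [← hpe]; group
    rw [this]; exact hp'
  have := mul_mem (mul_mem c.2 (hNP hN)) (inv_mem c.2)
  simpa [mul_assoc] using this

/-- With that hypothesis a subgroup of order 27 of the centralizer is a Sylow subgroup. -/
theorem exists_sylow (hJ : IsOfJankoFourTypeWith z P)
    (hNP : Subgroup.normalizer (P : Set G) ≤ Subgroup.centralizer ({z} : Set G)) {R : Subgroup G}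
    (hR : R ≤ Subgroup.centralizer ({z} : Set G)) (hRc : Nat.card R = 27) :
    ∃ S : Sylow 3 G, (S : Subgroup G) = R := by
  haveI : Fact (Nat.Prime 3) := ⟨Nat.prime_three⟩
  obtain ⟨S, hS⟩ := (IsPGroup.of_card (n := 3) (by rw [hRc]; norm_num) : IsPGroup 3 R).exists_le_sylow
  refine ⟨S, ?_⟩
  by_contra hne
  have hlt : R.subgroupOf S < ⊤ := lt_top_iff_ne_top.2 fun e =>
    hne (le_antisymm (fun y hy => Subgroup.mem_subgroupOf.1 (e ▸ Subgroup.mem_top (⟨y, hy⟩ : (S : Subgroup G)))) hS)
  haveI : Group.IsNilpotent (S : Subgroup G) := S.2.isNilpotent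
  obtain ⟨y, hyN, hyR⟩ := SetLike.exists_of_lt (Group.normalizerCondition_of_isNilpotent _ hlt)
  have hyC : (y : G) ∈ Subgroup.centralizer ({z} : Set G) := normalizer_le hJ hNP hR hRc
    (mem_normalizer_of_map fun x hx => (Subgroup.mem_normalizer_iff.1 hyN ⟨x, hS hx⟩).1 hx)
  -- the larger 3-subgroup of the centralizer
  set C := Subgroup.centralizer ({z} : Set G) with hC
  have hd : Nat.card ↥((S : Subgroup G) ⊓ C) ∣ 27 := by
    obtain ⟨n, hn⟩ := IsPGroup.iff_card.1 (S.2.to_le (inf_le_left : (S : Subgroup G) ⊓ C ≤ S))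
    have hdc : Nat.card ↥((S : Subgroup G) ⊓ C) ∣ 27 * (8192 * 98560) :=
      card_centralizer hJ ▸ Subgroup.card_dvd_of_le inf_le_right
    have hcop : Nat.Coprime (Nat.card ↥((S : Subgroup G) ⊓ C)) (8192 * 98560) := by
      rw [hn]; exact Nat.Coprime.pow_left n (by norm_num)
    exact hcop.dvd_of_dvd_mul_right hdc
  have heq : R = (S : Subgroup G) ⊓ C := Subgroup.eq_of_le_of_card_ge (le_inf hS hR)
    (by rw [hRc]; exact Nat.le_of_dvd (by norm_num) hd)
  exact hyR (Subgroup.mem_subgroupOf.2 (heq ▸ ⟨y.2, hyC⟩))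

/-- The statement about a Sylow subgroup in the centralizer, from the normalizer hypothesis. -/
theorem structure_of (hJ : IsOfJankoFourTypeWith z P)
    (hNP : Subgroup.normalizer (P : Set G) ≤ Subgroup.centralizer ({z} : Set G)) (R : Sylow 3 G)
    (hR : (R : Subgroup G) ≤ Subgroup.centralizer ({z} : Set G)) :
    IsExtraspecial 3 ↥(R : Subgroup G) ∧ Nat.card ↥(R : Subgroup G) = 27 ∧
    Monoid.exponent ↥(R : Subgroup G) = 3 ∧
    Subgroup.normalizer ((R : Subgroup G) : Set G) ≤ Subgroup.centralizer ({z} : Set G) ∧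
    Nat.card ↥(Subgroup.normalizer ((R : Subgroup G) : Set G)) = 864 := by
  haveI : Fact (Nat.Prime 3) := ⟨Nat.prime_three⟩
  set C := Subgroup.centralizer ({z} : Set G) with hC
  obtain ⟨R0, hR0⟩ := exists_of hJ
  have hc0 : Nat.card (R0.map C.subtype) = 27 := by
    rw [Subgroup.card_map_of_injective C.subtype_injective, hR0]
  obtain ⟨S, hS⟩ := exists_sylow hJ hNP (Subgroup.map_subtype_le R0) hc0
  have hRc : Nat.card (R : Subgroup G) = 27 := by
    rw [R.card_eq_multiplicity, ← S.card_eq_multiplicity, hS, hc0]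
  have hRC : Nat.card ((R : Subgroup G).subgroupOf C) = 27 := by
    rw [Nat.card_congr (Subgroup.subgroupOfEquivOfLe hR).toEquiv, hRc]
  obtain ⟨h1, h2, h4, -⟩ := core hJ _ hRC
  have hle := normalizer_le hJ hNP hR hRc
  have e := Subgroup.subgroupOfEquivOfLe hR
  have hpow : ∀ g : (R : Subgroup G), g ^ 3 = 1 := fun g => e.symm.injective (by
    have h3 := Monoid.pow_exponent_eq_one (e.symm g)
    rw [h2] at h3
    rw [map_pow, map_one, h3])
  have hext : IsExtraspecial 3 ↥(R : Subgroup G) :=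
    H73.Pearl.isExtraspecial_of_card_cube R.2 (by rw [hRc]; norm_num) (fun hc => by
      have hcc := h1.2
      rw [show Subgroup.center ↥((R : Subgroup G).subgroupOf C) = ⊤ from eq_top_iff.2 fun a _ =>
        Subgroup.mem_center_iff.2 fun b => e.injective (by rw [map_mul, map_mul, hc.is_comm.comm]),
        Subgroup.card_top, hRC] at hcc
      norm_num at hcc) hpow
  refine ⟨hext, hRc, ?_, hle, ?_⟩
  · rw [← Monoid.exponent_eq_of_mulEquiv e]; exact h2
  · rw [← h4, ← Nat.card_congr (Subgroup.subgroupOfEquivOfLe hle).toEquiv]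
    refine Nat.card_congr (MulEquiv.subgroupCongr ?_).toEquiv
    ext g
    rw [Subgroup.mem_subgroupOf, Subgroup.mem_normalizer_iff, Subgroup.mem_normalizer_iff]
    constructor
    · exact fun h x => h (x : G)
    · intro h x
      by_cases hx : x ∈ C
      · exact h ⟨x, hx⟩
      · constructor
        · exact fun hxR => absurd (hR hxR) hx
        · intro hxR
          refine absurd ?_ hx
          have := mul_mem (mul_mem (inv_mem g.2) (hR hxR)) g.2
          simpa [mul_assoc] using this

end Cfsg.Agent.JFourType.SylThree
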