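import Cfsg.Agent.JFourType.InvolSetup
import Cfsg.Agent.JFourType.SylThree
import Cfsg.Agent.JFourType.ThreeFacts
import Mathlib.GroupTheory.Perm.Fin
import Cfsg.Agent.LargeFischer.EightQuot
import Cfsg.Agent.Golay.TransvectionStructure
import Cfsg.Prelude.Def_TwoFusion
import Mathlib.GroupTheory.PGroup

/-!
The elementary group of order eight attached to an element of order five in a group of Janko-four
type: transitivity and the order of its centraliser.
-/

set_option autoImplicit false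

namespace Cfsg.Agent.JFourType.Pentad

open Cfsg

section Generic

variable {G : Type*} [Group G] [Finite G]

/-- A normalised subgroup and the elements centralised in it are congruent modulo the prime. -/
theorem modeq_fix {p : ℕ} [Fact p.Prime] {S W : Subgroup G} {n : ℕ} (hS : Nat.card S = p ^ n)
    (hW : S ≤ Subgroup.normalizer (W : Set G)) :
    Nat.card W ≡ Nat.card ↥(W ⊓ Subgroup.centralizer (S : Set G)) [MOD p] := by
  have hm : ∀ (a : S) (w : W), (a : G) * w * (a : G)⁻¹ ∈ W := fun a w =>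
    (Subgroup.mem_normalizer_iff.1 (hW a.2) w).1 w.2
  letI : MulAction S W :=
    { smul := fun a w => ⟨(a : G) * w * (a : G)⁻¹, hm a w⟩
      one_smul := fun w => Subtype.ext (by
        show ((1 : S) : G) * w * ((1 : S) : G)⁻¹ = w
        simp)
      mul_smul := fun a b w => Subtype.ext (by
        show ((a * b : S) : G) * w * ((a * b : S) : G)⁻¹ =
          (a : G) * ((b : G) * w * (b : G)⁻¹) * (a : G)⁻¹
        simp [mul_assoc]) }
  refine ((IsPGroup.of_card hS).card_modEq_card_fixedPoints W).trans ?_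
  refine congrArg (· % p) (Nat.card_congr
    { toFun := fun w => ⟨(w : W), (w : W).2, Subgroup.mem_centralizer_iff.2 fun a ha => ?_⟩
      invFun := fun x => ⟨⟨x, x.2.1⟩, fun a => Subtype.ext ?_⟩
      left_inv := fun _ => rfl
      right_inv := fun _ => rfl })
  · have h : a * ((w : W) : G) * a⁻¹ = ((w : W) : G) := congrArg Subtype.val (w.2 ⟨a, ha⟩)
    exact mul_inv_eq_iff_eq_mul.1 h
  · show (a : G) * (x : G) * (a : G)⁻¹ = x
    exact mul_inv_eq_iff_eq_mul.2 (Subgroup.mem_centralizer_iff.1 x.2.2 a a.2)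

variable {A B C : Subgroup G}

theorem IDP.exists_eq (h : IsInternalDirectProduct A B C) {x : G} (hx : x ∈ C) :
    ∃ a ∈ A, ∃ b ∈ B, a * b = x := by
  obtain ⟨-, -, hc, -, hsup⟩ := h
  rw [← hsup] at hx
  have hn : B ≤ Subgroup.normalizer (A : Set G) := fun b hb =>
    Subgroup.mem_normalizer_iff.2 fun a => by
      constructor
      · intro ha
        rwa [← hc a ha b hb, mul_inv_cancel_right]
      · intro ha
        have e := hc _ ha b hb
        have : a = b * a * b⁻¹ := by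
          calc a = b⁻¹ * (b * a * b⁻¹ * b) := by group
            _ = b⁻¹ * (b * (b * a * b⁻¹)) := by rw [e]
            _ = b * a * b⁻¹ := by group
        rwa [this]
  rw [← SetLike.mem_coe, Subgroup.coe_mul_of_right_le_normalizer_left A B hn] at hx
  obtain ⟨a, ha, b, hb, e⟩ := hx
  exact ⟨a, ha, b, hb, e⟩

theorem IDP.card_eq (h : IsInternalDirectProduct A B C) : Nat.card C = Nat.card A * Nat.card B := by
  have h0 := h
  obtain ⟨hA, hB, -, hdisj, -⟩ := h
  rw [← Nat.card_prod]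
  refine (Nat.card_congr (Equiv.ofBijective
    (fun x : A × B => (⟨(x.1 : G) * x.2, C.mul_mem (hA x.1.2) (hB x.2.2)⟩ : C)) ⟨?_, ?_⟩)).symm
  · rintro ⟨a, b⟩ ⟨a', b'⟩ e
    have e1 : (a : G) * b = a' * b' := congrArg Subtype.val e
    have h1 : (a' : G)⁻¹ * a ∈ A ⊓ B := by
      refine ⟨A.mul_mem (A.inv_mem a'.2) a.2, ?_⟩
      rw [show (a' : G)⁻¹ * a = b' * (b : G)⁻¹ by
        rw [eq_mul_inv_iff_mul_eq, mul_assoc, e1, inv_mul_cancel_left]]
      exact B.mul_mem b'.2 (B.inv_mem b.2)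
    rw [hdisj, Subgroup.mem_bot, inv_mul_eq_one] at h1
    have ha : a = a' := Subtype.ext h1.symm
    subst ha
    exact Prod.ext rfl (Subtype.ext (mul_left_cancel e1))
  · intro c
    obtain ⟨a, ha, b, hb, e⟩ := IDP.exists_eq h0 c.2
    exact ⟨(⟨a, ha⟩, ⟨b, hb⟩), Subtype.ext e⟩

/-- An element of the product of order prime to the first factor lies in the second. -/
theorem IDP.mem_right (h : IsInternalDirectProduct A B C) {x : G} (hx : x ∈ C) {m : ℕ}
    (hm : x ^ m = 1) (hcop : (Nat.card A).Coprime m) : x ∈ B := by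
  obtain ⟨a, ha, b, hb, rfl⟩ := IDP.exists_eq h hx
  obtain ⟨-, -, hc, hdisj, -⟩ := h
  have hp : a ^ m * b ^ m = 1 := by rw [← (show Commute a b from hc a ha b hb).mul_pow, hm]
  have h1 : a ^ m ∈ A ⊓ B := ⟨A.pow_mem ha m, by
    rw [eq_inv_of_mul_eq_one_left hp]
    exact B.inv_mem (B.pow_mem hb m)⟩
  rw [hdisj, Subgroup.mem_bot] at h1
  have h2 : a ^ Nat.card A = 1 := by
    have := pow_card_eq_one' (G := A) (x := ⟨a, ha⟩)
    exact congrArg Subtype.val this
  have h3 := pow_gcd_eq_one.2 ⟨h2, h1⟩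
  rw [show Nat.gcd (Nat.card A) m = 1 from hcop, pow_one] at h3
  rwa [h3, one_mul]

end Generic

/-- Commuting with an involution, in `SL(3,2)`, is no element of order three. -/
theorem sl_three_invol : ∀ a b : Matrix (Fin 3) (Fin 3) (ZMod 2),
    a * a = 1 → a ≠ 1 → b * b * b = 1 → a * b = b * a → b = 1 := by
  decide +kernel

/-- The local data at an element of order five. -/
structure Ctx {G : Type*} [Group G] (z : G) (P : Subgroup G) where
  hJ : IsOfJankoFourTypeWith z P
  /-- the subgroup of order five -/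
  Q : Subgroup G
  /-- its complement in the centraliser -/
  J : Subgroup G
  /-- the elementary normal subgroup -/
  Z : Subgroup G
  card_Q : Nat.card Q = 5
  Q_le : Q ≤ Subgroup.centralizer ({z} : Set G)
  h25 : ¬ 25 ∣ Nat.card G
  prod : IsInternalDirectProduct Q J (Subgroup.centralizer (Q : Set G))
  Z_le : Z ≤ J
  Z_elem : IsElementaryAbelian 2 Z
  card_Z : Nat.card Z = 8
  J_norm : J ≤ Subgroup.normalizer (Z : Set G)
  quot : ∃ f : J →* Matrix.SpecialLinearGroup (Fin 3) (ZMod 2),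
    Function.Surjective f ∧ f.ker = Z.subgroupOf J
  nonsplit : ∀ K : Subgroup G, K ≤ J → K ⊓ Z = ⊥ → Nat.card K ≠ 168
  card_NQ : Nat.card (Subgroup.normalizer (Q : Set G)) = 26880
  seven : ∀ S : Subgroup G, Nat.card S = 7 →
    (∃ I : Subgroup G, IsInternalDirectProduct S I (Subgroup.centralizer (S : Set G)) ∧
      Nonempty (I ≃* Equiv.Perm (Fin 5))) ∧
    Nat.card (Subgroup.normalizer (S : Set G)) = 2520
  h49 : ¬ 49 ∣ Nat.card G

namespace Ctx

open Cfsg.Agent.GFour25
open Cfsg.Agent.SporB.FischerU (Vec)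
open Cfsg.Agent.LargeFischer (IsSemi semiU twist)
open Cfsg.Agent.LargeFischer.Thompson
open Cfsg.Agent.TTClass
open Cfsg.Agent.JFourType
open Cfsg.Agent.LargeFischer.Eight (sl_three_facts)

variable {G : Type*} [Group G] [Finite G] {z : G} {P : Subgroup G} (c : Ctx z P)

theorem card_J : Nat.card c.J = 1344 := by
  obtain ⟨f, hf, hk⟩ := c.quot
  have h := Subgroup.card_mul_index f.ker
  rw [Subgroup.index_ker, MonoidHom.range_eq_top.2 hf, Subgroup.card_top, sl_three_facts.1, hk,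
    Nat.card_congr (Subgroup.subgroupOfEquivOfLe c.Z_le).toEquiv, c.card_Z] at h
  omega

theorem card_CQ : Nat.card (Subgroup.centralizer (c.Q : Set G)) = 6720 := by
  rw [IDP.card_eq c.prod, c.card_Q, c.card_J]

theorem J_le : c.J ≤ Subgroup.centralizer (c.Q : Set G) := c.prod.2.1

theorem Z_sq {e : G} (he : e ∈ c.Z) : e * e = 1 := by
  have := c.Z_elem.2 e he
  rwa [pow_two] at this

theorem Z_comm {a b : G} (ha : a ∈ c.Z) (hb : b ∈ c.Z) : a * b = b * a :=
  congrArg Subtype.val (c.Z_elem.1.is_comm.comm ⟨a, ha⟩ ⟨b, hb⟩)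

/-- The elementary group contains every 2-element of `J` that it has to. -/
theorem mem_Z_of_three {x y : G} (hx : x ∈ c.J) (hx2 : x * x = 1) (hy : y ∈ c.J)
    (hy3 : orderOf y = 3) (hc : x * y = y * x) : x ∈ c.Z := by
  obtain ⟨f, -, hk⟩ := c.quot
  by_contra hn
  have hfx : f ⟨x, hx⟩ ≠ 1 := fun h => hn (by
    have : (⟨x, hx⟩ : c.J) ∈ f.ker := h
    rwa [hk] at this)
  have hyy : y ^ 3 = 1 := by rw [← hy3, pow_orderOf_eq_one]
  have e : ∀ (A : Matrix.SpecialLinearGroup (Fin 3) (ZMod 2)), A = 1 ↔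
      (A : Matrix (Fin 3) (Fin 3) (ZMod 2)) = 1 := fun A =>
    ⟨fun h => by rw [h]; rfl, fun h => Subtype.ext h⟩
  have hfy : f ⟨y, hy⟩ = 1 := by
    rw [e]
    refine sl_three_invol (f ⟨x, hx⟩ : Matrix.SpecialLinearGroup (Fin 3) (ZMod 2))
      (f ⟨y, hy⟩ : Matrix.SpecialLinearGroup (Fin 3) (ZMod 2)) ?_ (fun h => hfx ((e _).2 h)) ?_ ?_
    · rw [← Matrix.SpecialLinearGroup.coe_mul, ← map_mul,
        show (⟨x, hx⟩ : c.J) * ⟨x, hx⟩ = 1 from Subtype.ext hx2, map_one,
        Matrix.SpecialLinearGroup.coe_one]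
    · rw [← Matrix.SpecialLinearGroup.coe_mul, ← map_mul, ← Matrix.SpecialLinearGroup.coe_mul,
        ← map_mul,
        show (⟨y, hy⟩ : c.J) * ⟨y, hy⟩ * ⟨y, hy⟩ = 1 from Subtype.ext (by
          simpa [pow_succ, pow_zero] using hyy), map_one, Matrix.SpecialLinearGroup.coe_one]
    · rw [← Matrix.SpecialLinearGroup.coe_mul, ← map_mul, ← Matrix.SpecialLinearGroup.coe_mul,
        ← map_mul, show (⟨x, hx⟩ : c.J) * ⟨y, hy⟩ = ⟨y, hy⟩ * ⟨x, hx⟩ from Subtype.ext hc]
  have hyZ : y ∈ c.Z := by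
    have : (⟨y, hy⟩ : c.J) ∈ f.ker := hfy
    rwa [hk] at this
  have hd : orderOf y ∣ Nat.card c.Z := Subgroup.orderOf_dvd_natCard c.Z hyZ
  rw [hy3, c.card_Z] at hd
  norm_num at hd

/-- A subgroup of order seven of `J`. -/
theorem exists_seven : ∃ s : G, s ∈ c.J ∧ orderOf s = 7 := by
  haveI : Fact (Nat.Prime 7) := ⟨by norm_num⟩
  obtain ⟨⟨s, hs⟩, ho⟩ := exists_prime_orderOf_dvd_card' (G := c.J) 7 (by rw [c.card_J]; norm_num)
  exact ⟨s, hs, by rwa [Subgroup.orderOf_mk] at ho⟩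

theorem seven_fix {s e : G} (hs : s ∈ c.J) (hs7 : orderOf s = 7) (he : e ∈ c.Z)
    (hc : s * e = e * s) : e = 1 := by
  set S := Subgroup.zpowers s with hSdef
  have hS : Nat.card S = 7 := by rw [Nat.card_zpowers, hs7]
  obtain ⟨I, hI, ⟨φ⟩⟩ := (c.seven S hS).1
  have hQ5 : ∀ q ∈ c.Q, q ^ 5 = 1 := fun q hq => by
    have := pow_card_eq_one' (G := c.Q) (x := ⟨q, hq⟩)
    rw [c.card_Q] at this
    exact congrArg Subtype.val this
  have hcs : ∀ x : G, s * x = x * s → x ∈ Subgroup.centralizer (S : Set G) := fun x hx => by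
    refine Subgroup.mem_centralizer_iff.2 ?_
    rintro _ ⟨n, rfl⟩
    exact (show Commute s x from hx).zpow_left n
  have heI : e ∈ I := IDP.mem_right hI (hcs e hc) (m := 2) (by rw [pow_two, c.Z_sq he])
    (by rw [hS]; norm_num)
  haveI : Fact (Nat.Prime 5) := ⟨by norm_num⟩
  obtain ⟨⟨q, hq⟩, hqo⟩ := exists_prime_orderOf_dvd_card' (G := c.Q) 5 (by rw [c.card_Q])
  rw [Subgroup.orderOf_mk] at hqo
  have hJQ : ∀ x ∈ c.J, q * x = x * q := fun x hx => c.prod.2.2.1 q hq x hx
  have hqI : q ∈ I := IDP.mem_right hI (hcs q (hJQ s hs).symm) (m := 5) (hQ5 q hq)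
    (by rw [hS]; norm_num)
  have h5 : ∀ a : Equiv.Perm (Fin 5), a ^ 5 = 1 → a ≠ 1 → ∀ b : Equiv.Perm (Fin 5),
      b * b = 1 → a * b = b * a → b = 1 := by
    decide +kernel
  have hb := h5 (φ ⟨q, hqI⟩)
    (by rw [← map_pow, show (⟨q, hqI⟩ : I) ^ 5 = 1 from Subtype.ext (hQ5 q hq), map_one])
    (fun h => by
      rw [map_eq_one_iff φ φ.injective] at h
      rw [show q = 1 from congrArg Subtype.val h, orderOf_one] at hqo
      norm_num at hqo)
    (φ ⟨e, heI⟩)
    (by rw [← map_mul, show (⟨e, heI⟩ : I) * ⟨e, heI⟩ = 1 from Subtype.ext (c.Z_sq he), map_one])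
    (by rw [← map_mul, ← map_mul]
        exact congrArg φ (Subtype.ext (hJQ e (c.Z_le he))))
  rw [map_eq_one_iff φ φ.injective] at hb
  exact congrArg Subtype.val hb

/-- The centraliser in `J` of the elementary group is itself. -/
theorem J_inf_centralizer : c.J ⊓ Subgroup.centralizer (c.Z : Set G) = c.Z := by
  obtain ⟨f, hf, hk⟩ := c.quot
  haveI := sl_three_facts.2
  let K : Subgroup c.J := (Subgroup.centralizer (c.Z : Set G)).subgroupOf c.J
  haveI : K.Normal := ⟨fun k hk g => Subgroup.mem_subgroupOf.2 (Subgroup.mem_centralizer_iff.2 fun e he => by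
    have h := Subgroup.mem_centralizer_iff.1 (Subgroup.mem_subgroupOf.1 hk) ((g : G)⁻¹ * e * g)
      ((Subgroup.mem_normalizer_iff''.1 (c.J_norm g.2) e).1 he)
    show e * ((g : G) * k * (g : G)⁻¹) = (g : G) * k * (g : G)⁻¹ * e
    calc e * ((g : G) * k * (g : G)⁻¹) = (g : G) * ((g : G)⁻¹ * e * g * k) * (g : G)⁻¹ := by group
      _ = (g : G) * k * (g : G)⁻¹ * e := by rw [h]; group)⟩
  refine le_antisymm (fun x hx => ?_) fun x hx => ⟨c.Z_le hx,
    Subgroup.mem_centralizer_iff.2 fun e he => c.Z_comm he hx⟩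
  rcases ((inferInstance : K.Normal).map f hf).eq_bot_or_eq_top with hb | ht
  · have h : (⟨x, hx.1⟩ : c.J) ∈ f.ker := (Subgroup.map_eq_bot_iff K).1 hb hx.2
    rw [hk] at h
    exact h
  · exfalso
    obtain ⟨s, hs, hs7⟩ := c.exists_seven
    obtain ⟨k, hkK, hke⟩ := (show f ⟨s, hs⟩ ∈ K.map f from ht ▸ Subgroup.mem_top _)
    have hd : (⟨s, hs⟩ : c.J) * k⁻¹ ∈ f.ker := by rw [MonoidHom.mem_ker, map_mul, map_inv, hke, mul_inv_cancel]
    rw [hk] at hd
    have hd' : s * (k : G)⁻¹ ∈ c.Z := hd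
    obtain ⟨e, he, he1⟩ : ∃ e ∈ c.Z, e ≠ 1 := by
      by_contra hc
      push Not at hc
      have : c.Z = ⊥ := (Subgroup.eq_bot_iff_forall _).2 hc
      have h8 := c.card_Z
      rw [this, Subgroup.card_bot] at h8
      norm_num at h8
    refine he1 (c.seven_fix hs hs7 he ?_)
    have h1 : Commute (s * (k : G)⁻¹) e := c.Z_comm hd' he
    have h2 : Commute (k : G) e := (Subgroup.mem_centralizer_iff.1 hkK e he).symm
    have h3 := h1.mul_left h2
    rwa [inv_mul_cancel_right] at h3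

include c in
theorem hz1 : z ≠ 1 := fun h => by
  have := c.hJ.1
  rw [h, orderOf_one] at this
  norm_num at this

include c in
theorem hzz : z * z = 1 := by
  have h := pow_orderOf_eq_one z
  rwa [c.hJ.1, pow_two] at h

include c in
theorem card_Cz : Nat.card (Subgroup.centralizer ({z} : Set G)) = 27 * (8192 * 98560) :=
  SylThree.card_centralizer c.hJ

include c in
theorem card_K22 : Nat.card K22 = 1330560 := by
  obtain ⟨-, -, -, -, -, h, -⟩ := SylThree.exists_rho c.hJ
  exact h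

include c in
theorem card_range (S : Invol.Setup z P) : Nat.card S.rho.range = 2661120 := by
  have h := S.rho.ker.card_mul_index
  rw [Subgroup.index_ker, S.D.ker_rho, S.D.card_q, c.card_Cz] at h
  omega

/-- A scalar element of order three in the centraliser of `Q`. -/
theorem exists_scalar (S : Invol.Setup z P) : ∃ y : Subgroup.centralizer ({z} : Set G),
    (y : G) ∈ c.J ∧ orderOf (y : G) = 3 ∧ ∀ v, S.rho y v = S.c • v := by
  haveI : Fact (Nat.Prime 5) := ⟨by norm_num⟩
  set H := Subgroup.centralizer ({z} : Set G)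
  set core := pCore 2 H
  let Q' : Subgroup H := c.Q.subgroupOf H
  have hQ' : Nat.card Q' = 5 ^ 1 := by
    rw [Nat.card_congr (Subgroup.subgroupOfEquivOfLe c.Q_le).toEquiv, c.card_Q, pow_one]
  have hlin : ∀ a ∈ Q', IsSemi false (S.rho a) := fun a ha => by
    have h5 : a ^ 5 = 1 := by
      have := pow_card_eq_one' (G := Q') (x := ⟨a, ha⟩)
      rw [hQ', pow_one] at this
      exact congrArg Subtype.val this
    exact K22_linear (mem_K22_of_odd S.K22_le (c.card_range S) c.card_K22 ⟨a, rfl⟩ (m := 2)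
      (show S.rho a ^ 5 = 1 by rw [← map_pow, h5, map_one]))
  have hcomm : ∀ a ∈ Q', S.rho a * S.rho S.p = S.rho S.p * S.rho a := fun a ha => Equiv.ext fun v => by
    rw [Equiv.Perm.mul_apply, Equiv.Perm.mul_apply, S.p_apply, S.p_apply, (hlin a ha).2.1]
    rfl
  let Ω : Set H := {x | S.rho x = S.rho S.p}
  letI : MulAction Q' Ω :=
    { smul := fun a x => ⟨(a : H) * x * (a : H)⁻¹, by
        show S.rho ((a : H) * x * (a : H)⁻¹) = S.rho S.p
        rw [map_mul, map_mul, map_inv, show S.rho (x : H) = S.rho S.p from x.2, hcomm a a.2,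
          mul_inv_cancel_right]⟩
      one_smul := fun x => Subtype.ext (by
        show ((1 : Q') : H) * x * ((1 : Q') : H)⁻¹ = x
        simp)
      mul_smul := fun a b x => Subtype.ext (by
        show ((a * b : Q') : H) * x * ((a * b : Q') : H)⁻¹ =
          (a : H) * ((b : H) * x * (b : H)⁻¹) * (a : H)⁻¹
        simp [mul_assoc]) }
  have hΩ : Nat.card Ω = 8192 := by
    rw [← S.D.card_q]
    exact Nat.card_congr
      { toFun := fun x => ⟨S.p⁻¹ * x, S.D.mem_q (by
          rw [map_mul, map_inv, show S.rho (x : H) = S.rho S.p from x.2, inv_mul_cancel])⟩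
        invFun := fun q => ⟨S.p * q, by
          show S.rho (S.p * q) = S.rho S.p
          rw [map_mul, S.D.rho_q q.2, mul_one]⟩
        left_inv := fun x => Subtype.ext (mul_inv_cancel_left _ _)
        right_inv := fun q => Subtype.ext (inv_mul_cancel_left _ _) }
  obtain ⟨x, hx⟩ := (IsPGroup.of_card hQ').nonempty_fixed_point_of_prime_not_dvd_card Ω
    (by rw [hΩ]; norm_num)
  have hxc : ∀ a ∈ Q', a * (x : H) = x * a := fun a ha =>
    mul_inv_eq_iff_eq_mul.1 (congrArg Subtype.val (hx ⟨a, ha⟩))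
  have hp3 : S.p ^ 3 = 1 := by
    have h := pow_orderOf_eq_one (S.p : G)
    rw [S.p_order] at h
    exact Subtype.ext (by rw [Subgroup.coe_pow, h]; rfl)
  have hx3 : (x : H) ^ 3 ∈ core := S.D.mem_q (by
    rw [map_pow, show S.rho (x : H) = S.rho S.p from x.2, ← map_pow, hp3, map_one])
  set y : H := (x : H) ^ (2 ^ 26) with hydef
  have hy3 : y ^ 3 = 1 := by
    rw [hydef, ← pow_mul, mul_comm, pow_mul]
    have h := pow_card_eq_one' (G := core) (x := ⟨_, hx3⟩)
    rw [S.D.card_q] at h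
    have h' : ((x : H) ^ 3) ^ 8192 = 1 := congrArg Subtype.val h
    rw [show (2 : ℕ) ^ 26 = 8192 * 8192 by norm_num, pow_mul, h', one_pow]
  have hrho : S.rho y = S.rho S.p := by
    rw [hydef, map_pow, show S.rho (x : H) = S.rho S.p from x.2, ← map_pow,
      show (2 : ℕ) ^ 26 = 3 * 22369621 + 1 by norm_num, pow_succ, pow_mul, hp3, one_pow, one_mul]
  have hy1 : y ≠ 1 := fun h => by
    rw [h, map_one] at hrho
    have h1 : ∀ v : Vec, S.c • v = v := fun v => by
      rw [← S.p_apply, ← hrho, Equiv.Perm.one_apply]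
    have h2 := congrFun (h1 fun _ => 1) 0
    exact S.c_ne.2 (by simpa using h2)
  have hyo : orderOf (y : G) = 3 := orderOf_eq_prime
    (by rw [← Subgroup.coe_pow, hy3]; rfl) (fun h => hy1 (Subtype.ext h))
  refine ⟨y, IDP.mem_right c.prod ?_ (m := 3) (by rw [← Subgroup.coe_pow, hy3]; rfl)
    (by rw [c.card_Q]; norm_num), hyo, fun v => by rw [hrho, S.p_apply]⟩
  refine Subgroup.mem_centralizer_iff.2 fun q hq => ?_
  have h : (⟨q, c.Q_le hq⟩ : H) * y = y * ⟨q, c.Q_le hq⟩ :=
    ((show Commute (⟨q, c.Q_le hq⟩ : H) (x : H) from hxc _ hq).pow_right _).eq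
  exact congrArg Subtype.val h

theorem z_mem_Z : z ∈ c.Z := by
  obtain ⟨S⟩ := Invol.exists_setup c.hJ
  obtain ⟨y, hyJ, hy3, -⟩ := c.exists_scalar S
  have hzJ : z ∈ c.J := IDP.mem_right c.prod
    (Subgroup.mem_centralizer_iff.2 fun q hq => Subgroup.mem_centralizer_singleton_iff.1 (c.Q_le hq))
    (m := 2) (by rw [pow_two, c.hzz]) (by rw [c.card_Q]; norm_num)
  exact c.mem_Z_of_three hzJ c.hzz hyJ hy3 (Subgroup.mem_centralizer_singleton_iff.1 y.2).symm

theorem centralizer_Z_le : Subgroup.centralizer (c.Z : Set G) ≤ Subgroup.centralizer ({z} : Set G) :=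
  Subgroup.centralizer_le (Set.singleton_subset_iff.2 c.z_mem_Z)

theorem Z_le_Cz : c.Z ≤ Subgroup.centralizer ({z} : Set G) := fun _ he =>
  Subgroup.mem_centralizer_singleton_iff.2 (c.Z_comm he c.z_mem_Z)

end Ctx

end Cfsg.Agent.JFourType.Pentad
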