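import Cfsg.Agent.JFourType.PentadData
import Cfsg.Agent.JFourType.Fusion
import Cfsg.Agent.Golay.M24

/-!
The two orbits of the triple cover on the nonzero singular vectors have lengths 693 and 1386.
-/

set_option autoImplicit false
set_option maxRecDepth 100000

namespace Cfsg.Agent.JFourType.Pentad

open Cfsg.Agent.GFour25 Cfsg.Agent.CosetCert
open Cfsg.Agent.SporB.FischerU (Vec vecN enc vecN_enc enc_lt)
open Cfsg.Agent.LargeFischer.Thompson
open Cfsg.Agent.TTClass
open Cfsg.Agent.JFourType

/-- The entry of a vector. -/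
noncomputable def cd (n : ℕ) : ℕ := (Data.orbCode.getD (n / 64) []).getD (n % 64) 255

/-- The number of the orbit, or 2. -/
noncomputable def key (n : ℕ) : ℕ := bif Nat.beq (cd n) 255 then 2 else cd n % 2

noncomputable def keyOK (j : ℕ) : Bool :=
  allB (fun n => Nat.beq (key (apL (letterL j) n)) (key n) && Nat.blt (apL (letterL j) n) 4096) 12 0

noncomputable def pathOK : Bool :=
  allB (fun n => bif Nat.blt (key n) 2 then
      (bif Nat.beq (cd n / 16) 0 then Nat.beq n (Data.orbRep.getD (key n) 0)
      else Nat.blt (cd (apL (letterL (backLetter (cd n / 2 % 8))) n) / 16) (cd n / 16) &&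
        Nat.beq (key (apL (letterL (backLetter (cd n / 2 % 8))) n)) (key n))
    else (Nat.beq n 0 || !qN n)) 12 0

noncomputable def countOK : Bool :=
  Nat.beq ((List.range 4096).countP fun n => Nat.beq (key n) 0) 693 &&
    Nat.beq ((List.range 4096).countP fun n => Nat.beq (key n) 1) 1386

set_option maxHeartbeats 4000000 in
theorem keyOK_true : (keyOK 0 && keyOK 2 && keyOK 4) = true := by decide +kernel

set_option maxHeartbeats 4000000 in
theorem pathOK_true : pathOK = true := by decide +kernel

set_option maxHeartbeats 4000000 in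
theorem countOK_true : countOK = true := by decide +kernel

theorem key_letter {j : ℕ} (h : keyOK j = true) (v : Vec) : key (enc (letter j v)) = key (enc v) := by
  have h1 := allB_spec_zero h (by norm_num : 4096 ≤ 2 ^ 12) (enc_lt v)
  rw [Bool.and_eq_true] at h1
  rw [rep_letter j v]
  exact Nat.eq_of_beq_eq_true h1.1

theorem key_K22 {g : Equiv.Perm Vec} (hg : g ∈ K22) : ∀ v, key (enc (g v)) = key (enc v) := by
  have h := keyOK_true
  simp only [Bool.and_eq_true] at h
  unfold K22 at hg
  induction hg using Subgroup.closure_induction with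
  | mem x hx =>
    intro v
    rcases hx with rfl | rfl | rfl
    · exact key_letter h.1.1 v
    · exact key_letter h.1.2 v
    · exact key_letter h.2 v
  | one => intro v; rfl
  | mul a b _ _ ha hb => intro v; rw [Equiv.Perm.mul_apply, ha, hb]
  | inv a _ ha =>
    intro v
    have h1 := ha (a⁻¹ v)
    rw [Equiv.Perm.coe_inv, Equiv.apply_symm_apply] at h1
    rw [Equiv.Perm.coe_inv]
    exact h1.symm

theorem reach_rep (v : Vec) (h : key (enc v) < 2) :
    ∃ k ∈ K22, k v = vecN (Data.orbRep.getD (key (enc v)) 0) := by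
  suffices hd : ∀ d, ∀ w : Vec, cd (enc w) / 16 = d → key (enc w) < 2 →
      ∃ k ∈ K22, k w = vecN (Data.orbRep.getD (key (enc w)) 0) from hd _ v rfl h
  intro d
  induction d using Nat.strong_induction_on with
  | _ d ih =>
    intro w hd hk
    have h1 := allB_spec_zero (show pathOK = true from pathOK_true) (by norm_num : 4096 ≤ 2 ^ 12) (enc_lt w)
    rw [show Nat.blt (key (enc w)) 2 = true from Nat.blt_eq.mpr hk, cond_true] at h1
    cases hb : Nat.beq (cd (enc w) / 16) 0
    · rw [hb, cond_false, Bool.and_eq_true] at h1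
      set j := backLetter (cd (enc w) / 2 % 8)
      have hr : enc (letter j w) = apL (letterL j) (enc w) := rep_letter j w
      have hkey : key (enc (letter j w)) = key (enc w) := by rw [hr]; exact Nat.eq_of_beq_eq_true h1.2
      obtain ⟨k, hkK, he⟩ := ih (cd (enc (letter j w)) / 16) (by
        rw [← hd, hr]; exact Nat.blt_eq.mp h1.1) (letter j w) rfl (hkey ▸ hk)
      exact ⟨k * letter j, mul_mem hkK (letter_mem j), by rw [Equiv.Perm.mul_apply, he, hkey]⟩
    · rw [hb, cond_true] at h1
      exact ⟨1, one_mem _, by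
        rw [← Nat.eq_of_beq_eq_true h1, vecN_enc, Equiv.Perm.one_apply]⟩

/-- The stabilisers of nonzero singular vectors. -/
theorem card_stab {v : Vec} (hne : v ≠ 0) (hv : UnitF4.H v v = 0) :
    Nat.card K22 = 693 * Nat.card ↥(K22 ⊓ MulAction.stabilizer (Equiv.Perm Vec) v) ∨
    Nat.card K22 = 1386 * Nat.card ↥(K22 ⊓ MulAction.stabilizer (Equiv.Perm Vec) v) := by
  classical
  have hk : key (enc v) < 2 := by
    have h1 := allB_spec_zero (show pathOK = true from pathOK_true) (by norm_num : 4096 ≤ 2 ^ 12) (enc_lt v)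
    cases hb : Nat.blt (key (enc v)) 2
    · exfalso
      rw [hb, cond_false, Bool.or_eq_true, Bool.not_eq_true'] at h1
      rcases h1 with h0 | h0
      · exact hne (by rw [← vecN_enc v, Nat.eq_of_beq_eq_true h0]; decide +kernel)
      · rw [(qN_enc v).2 hv] at h0
        exact Bool.noConfusion h0
    · exact Nat.blt_eq.mp hb
  let T : Finset Vec := Finset.univ.filter fun w => key (enc w) = key (enc v)
  have h := Golay.card_eq_orbit_mul K22 v T
    (fun g hg => Finset.mem_filter.2 ⟨Finset.mem_univ _, key_K22 hg v⟩)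
    (fun y hy => by
      have hy' := (Finset.mem_filter.1 hy).2
      obtain ⟨k, hkK, hkv⟩ := reach_rep v hk
      obtain ⟨l, hlK, hly⟩ := reach_rep y (hy' ▸ hk)
      refine ⟨l⁻¹ * k, mul_mem (inv_mem hlK) hkK, ?_⟩
      rw [Equiv.Perm.mul_apply, hkv, ← hy', ← hly, Equiv.Perm.coe_inv, Equiv.symm_apply_apply])
  have hT : ∀ i, key (enc v) = i → T.card = (List.range 4096).countP fun n => Nat.beq (key n) i := by
    intro i hi
    rw [List.countP_eq_length_filter, ← List.toFinset_card_of_nodup (List.nodup_range.filter _)]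
    refine Finset.card_bij (fun w _ => enc w) (fun w hw => ?_) (fun a _ b _ e => enc_injective e)
      (fun n hn => ?_)
    · rw [List.mem_toFinset, List.mem_filter, List.mem_range]
      exact ⟨enc_lt w, by rw [(Finset.mem_filter.1 hw).2, hi]; exact Nat.beq_refl i⟩
    · rw [List.mem_toFinset, List.mem_filter, List.mem_range] at hn
      exact ⟨vecN n, Finset.mem_filter.2 ⟨Finset.mem_univ _, by
        rw [enc_vecN hn.1, Nat.eq_of_beq_eq_true hn.2, hi]⟩, enc_vecN hn.1⟩
  have hc := countOK_true
  simp only [countOK, Bool.and_eq_true] at hc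
  have hcases : key (enc v) = 0 ∨ key (enc v) = 1 := by omega
  rcases hcases with h0 | h0
  · left; rw [h, hT 0 h0, Nat.eq_of_beq_eq_true hc.1]
  · right; rw [h, hT 1 h0, Nat.eq_of_beq_eq_true hc.2]

end Cfsg.Agent.JFourType.Pentad
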