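import Cfsg.Agent.JFourType.PentadBase
import Cfsg.Agent.JFourType.PentadOrbit
import Cfsg.Agent.Monster.ExtraForm
import Cfsg.Agent.JFourType.FiveRecog

/-!
The order of the centraliser of the elementary group of order eight.
-/

set_option autoImplicit false

namespace Cfsg.Agent.JFourType.Pentad.Ctx

open Cfsg
open Cfsg.Agent.GFour25
open Cfsg.Agent.SporB.FischerU (Vec)
open Cfsg.Agent.LargeFischer (IsSemi semiU twist)
open Cfsg.Agent.LargeFischer.Thompson
open Cfsg.Agent.TTClass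
open Cfsg.Agent.JFourType

variable {G : Type*} [Group G] [Finite G] {z : G} {P : Subgroup G} (c : Ctx z P)

set_option maxHeartbeats 1000000 in
/-- The order of the centraliser through a vector of the model, and its part in the core. -/
theorem card_centralizer_cases :
    (Nat.card (Subgroup.centralizer (c.Z : Set G)) = 2 ^ 11 * 1920 ∨
    Nat.card (Subgroup.centralizer (c.Z : Set G)) = 2 ^ 11 * 960) ∧
    c.Z ≤ twoCoreOfCentralizer z ∧
    Nat.card ↥(twoCoreOfCentralizer z ⊓ Subgroup.centralizer (c.Z : Set G)) = 2 ^ 11 := by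
  classical
  obtain ⟨S⟩ := Invol.exists_setup c.hJ
  set H := Subgroup.centralizer ({z} : Set G) with hH
  obtain ⟨y, hyJ, hy3, hyv⟩ := c.exists_scalar S
  set core := pCore 2 H with hcore
  obtain ⟨-, hEx, hcardE, -, -⟩ := c.hJ
  have hE : IsExtraspecial 2 core :=
    LargeExtra.isExtraspecial_map_equiv hEx (core.equivMapOfInjective _ H.subtype_injective).symm
  set zH : H := ⟨z, Subgroup.mem_centralizer_singleton_iff.2 rfl⟩ with hzH
  have hzH1 : zH ≠ 1 := fun h => c.hz1 (congrArg Subtype.val h)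
  have hzcore : zH ∈ core := S.D.z_mem
  let ZH : Subgroup H := c.Z.subgroupOf H
  have hyn : (y : G) ∈ Subgroup.normalizer (c.Z : Set G) := c.J_norm hyJ
  have hyZ : ∀ e ∈ ZH, y * e * y⁻¹ ∈ ZH := fun e he =>
    Subgroup.mem_subgroupOf.2 ((Subgroup.mem_normalizer_iff.1 hyn (e : G)).1 he)
  have hZsq : ∀ e ∈ ZH, e * e = 1 := fun e he => Subtype.ext (c.Z_sq he)
  have hZcomm : ∀ a ∈ ZH, ∀ b ∈ ZH, a * b = b * a := fun a ha b hb => Subtype.ext (c.Z_comm ha hb)
  -- commutators with the scalar element are in the core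
  have hsc : ∀ d : F4, d ≠ 0 → d * d = 1 → d = 1 := by decide
  have hc0 : S.c ≠ 0 := S.c_ne.1
  have htw : ∀ (b : Bool) (x : F4), x ≠ 0 → twist b x ≠ 0 := by decide
  have hinv : ∀ x : F4, x ≠ 0 → ∃ x', x' * x = 1 := by decide
  have hcom : ∀ e ∈ ZH, e * y * e⁻¹ * y⁻¹ ∈ core := fun e he => by
    refine S.D.mem_q (Equiv.ext fun v => ?_)
    obtain ⟨b, hb⟩ := S.semi e
    obtain ⟨c', hc'⟩ := hinv S.c hc0
    have hyi : ∀ w, S.rho y⁻¹ w = c' • w := fun w => (S.rho y).injective (by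
      rw [map_inv, Equiv.Perm.coe_inv, Equiv.apply_symm_apply, hyv, smul_smul, mul_comm, hc', one_smul])
    set d := twist b S.c * c' with hd
    have hval : ∀ w, S.rho (e * y * e⁻¹ * y⁻¹) w = d • w := fun w => by
      rw [map_mul, map_mul, map_mul, Equiv.Perm.mul_apply, Equiv.Perm.mul_apply, Equiv.Perm.mul_apply,
        hyi, hyv, hb.2.1, ← Equiv.Perm.mul_apply (S.rho e), ← map_mul, mul_inv_cancel, map_one,
        Equiv.Perm.one_apply, smul_smul, hd]
    have h2 : (e * y * e⁻¹ * y⁻¹) * (e * y * e⁻¹ * y⁻¹) = 1 := hZsq _ (by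
      have h := mul_mem he (hyZ _ (inv_mem he))
      simpa [mul_assoc] using h)
    have hd2 : ∀ w : Vec, (d * d) • w = w := fun w => by
      rw [← smul_smul, ← hval, ← hval, ← Equiv.Perm.mul_apply, ← map_mul, h2, map_one, Equiv.Perm.one_apply]
    have hdd : d * d = 1 := by
      have := congrFun (hd2 fun _ => 1) 0
      simpa using this
    have hd1 : d = 1 := hsc d (fun h => by rw [h, mul_zero] at hdd; exact zero_ne_one hdd) hdd
    rw [hval, hd1, one_smul, Equiv.Perm.one_apply]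
  -- some element of the group is outside the centre of the core
  have hy1 : (y : G) ^ 3 = 1 := by rw [← hy3, pow_orderOf_eq_one]
  have hy3' : y ^ 3 = 1 := Subtype.ext (by rw [Subgroup.coe_pow, hy1]; rfl)
  obtain ⟨e0, he0, hne⟩ : ∃ e ∈ ZH, e * y * e⁻¹ * y⁻¹ ≠ 1 ∧ e * y * e⁻¹ * y⁻¹ ≠ zH := by
    by_contra hcc
    push Not at hcc
    have hall : ∀ e ∈ ZH, y * e * y⁻¹ = e := fun e he => by
      rcases Decidable.em (e * y * e⁻¹ * y⁻¹ = 1) with h | h
      · rw [mul_inv_eq_one, mul_inv_eq_iff_eq_mul] at h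
        rw [← h, mul_inv_cancel_right]
      · exfalso
        have h' := hcc e he h
        have hei : e⁻¹ = e := inv_eq_of_mul_eq_one_right (hZsq e he)
        have h1 : y * e * y⁻¹ = e * zH := by
          rw [← h', hei, ← mul_assoc, ← mul_assoc, ← mul_assoc, hZsq e he, one_mul]
        have hzy : y * zH * y⁻¹ = zH := mul_inv_eq_iff_eq_mul.2 (S.D.z_central y)
        have h2 : y * (y * e * y⁻¹) * y⁻¹ = e := by
          rw [h1, show y * (e * zH) * y⁻¹ = y * e * y⁻¹ * (y * zH * y⁻¹) by group, h1, hzy, mul_assoc,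
            S.D.z_sq, mul_one]
        have h3 : y ^ 3 * e * (y ^ 3)⁻¹ = e * zH := by
          calc y ^ 3 * e * (y ^ 3)⁻¹ = y * (y * (y * e * y⁻¹) * y⁻¹) * y⁻¹ := by
                simp only [pow_succ, pow_zero, one_mul, mul_inv_rev, mul_assoc]
            _ = e * zH := by rw [h2, h1]
        rw [hy3', one_mul, inv_one, mul_one] at h3
        exact hzH1 (left_eq_mul.1 h3)
    obtain ⟨s7, hs7J, hs7o⟩ := c.exists_seven
    have hmem : (y : G) ∈ c.J ⊓ Subgroup.centralizer (c.Z : Set G) :=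
      ⟨hyJ, Subgroup.mem_centralizer_iff.2 fun e he => (congrArg Subtype.val
        (mul_inv_eq_iff_eq_mul.1 (hall ⟨e, c.Z_le_Cz he⟩ (Subgroup.mem_subgroupOf.2 he)))).symm⟩
    rw [c.J_inf_centralizer] at hmem
    have hd : orderOf (y : G) ∣ Nat.card c.Z := Subgroup.orderOf_dvd_natCard c.Z hmem
    rw [hy3, c.card_Z] at hd
    norm_num at hd
  obtain ⟨hne1, hnez⟩ := hne
  set s : H := e0 * y * e0⁻¹ * y⁻¹ with hs
  have hsQ : s ∈ core := hcom e0 he0
  have hsZ : s ∈ ZH := by
    have h := mul_mem he0 (hyZ _ (inv_mem he0))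
    simpa [hs, mul_assoc] using h
  set p : Vec := S.psi ⟨s, hsQ⟩ with hp
  set t : H := y * s * y⁻¹ with ht
  have htQ : t ∈ core := (inferInstance : core.Normal).conj_mem s hsQ y
  have htZ : t ∈ ZH := hyZ s hsZ
  have hpt : S.psi ⟨t, htQ⟩ = S.c • p := by
    rw [show S.psi ⟨t, htQ⟩ = S.rho y (S.psi ⟨s, hsQ⟩) from S.D.psi_conj y ⟨s, hsQ⟩, hyv]
  have hp0 : p ≠ 0 := fun h => by
    rcases (S.D.psi_ker _).1 h with e | e
    · exact hne1 e
    · exact hnez e
  have hpH : UnitF4.H p p = 0 := (S.D.psi_norm _).2 (Subtype.ext (hZsq s hsZ))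
  have hnec : ∀ a : F4, a • p = p → a = 1 := fun a ha => by
    obtain ⟨i, hi⟩ : ∃ i, p i ≠ 0 := by
      by_contra h
      push Not at h
      exact hp0 (funext h)
    have h := congrFun ha i
    simp only [Pi.smul_apply, smul_eq_mul] at h
    have key : ∀ x w : F4, w ≠ 0 → x * w = w → x = 1 := by decide
    exact key a _ hi h
  -- the group is generated by the two elements and the involution
  have hvec : ∀ a b : Vec, a + b = 0 → a = b := fun a b h => by
    calc a = a + (b + b) := by rw [vec_self, add_zero]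
      _ = b := by rw [← add_assoc, h, zero_add]
  let ψ : core → Vec := S.psi
  have hz0 : ψ ⟨zH, hzcore⟩ = 0 := (S.D.psi_ker _).2 (Or.inr rfl)
  have hspan : ∀ e ∈ ZH, e ∈ Subgroup.closure ({zH, s, t} : Set H) := by
    let K := Subgroup.closure ({zH, s, t} : Set H)
    have hK : K ≤ ZH := by
      rw [Subgroup.closure_le]
      rintro x (rfl | rfl | rfl)
      · exact Subgroup.mem_subgroupOf.2 c.z_mem_Z
      · exact hsZ
      · exact htZ
    have hZc : Nat.card ZH = 8 := by
      rw [Nat.card_congr (Subgroup.subgroupOfEquivOfLe c.Z_le_Cz).toEquiv, c.card_Z]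
    suffices h : K = ZH from fun e he => (SetLike.ext_iff.1 h e).2 he
    refine Subgroup.eq_of_le_of_card_ge hK (hZc.le.trans ?_)
    have hz' : zH ∈ K := Subgroup.subset_closure (Or.inl rfl)
    have hs' : s ∈ K := Subgroup.subset_closure (Or.inr (Or.inl rfl))
    have ht' : t ∈ K := Subgroup.subset_closure (Or.inr (Or.inr rfl))
    let f : Fin 2 × Fin 2 × Fin 2 → K := fun x =>
      ⟨zH ^ x.1.val * s ^ x.2.1.val * t ^ x.2.2.val,
        mul_mem (mul_mem (pow_mem hz' _) (pow_mem hs' _)) (pow_mem ht' _)⟩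
    have hpow : ∀ (q : core) (i : Fin 2), ψ (q ^ i.val) = (if i = 0 then 0 else ψ q) := by
      rintro q ⟨v, hv⟩
      interval_cases v
      · rw [if_pos (show (⟨0, hv⟩ : Fin 2) = 0 from rfl)]
        show ψ (q ^ 0) = 0
        rw [pow_zero]
        exact S.D.psi_one
      · rw [if_neg (show ¬ (⟨1, hv⟩ : Fin 2) = 0 by simp [Fin.ext_iff])]
        show ψ (q ^ 1) = ψ q
        rw [pow_one]
    have hfψ : ∀ x, ∀ hx : (f x : H) ∈ core, ψ ⟨(f x : H), hx⟩ =
        (if x.2.1 = 0 then 0 else p) + (if x.2.2 = 0 then 0 else S.c • p) := by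
      intro x hx
      rw [show (⟨(f x : H), hx⟩ : core) = ⟨zH, hzcore⟩ ^ x.1.val * ⟨s, hsQ⟩ ^ x.2.1.val * ⟨t, htQ⟩ ^ x.2.2.val
        from Subtype.ext (by simp [f])]
      simp only [ψ, S.D.psi_mul]
      rw [show S.psi (⟨zH, hzcore⟩ ^ x.1.val) = 0 by
        rw [show S.psi (⟨zH, hzcore⟩ ^ x.1.val) = ψ (⟨zH, hzcore⟩ ^ x.1.val) from rfl, hpow, hz0]
        exact ite_self _, zero_add]
      rw [show S.psi (⟨s, hsQ⟩ ^ x.2.1.val) = ψ (⟨s, hsQ⟩ ^ x.2.1.val) from rfl, hpow,
        show S.psi (⟨t, htQ⟩ ^ x.2.2.val) = ψ (⟨t, htQ⟩ ^ x.2.2.val) from rfl, hpow]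
      simp only [ψ, hpt, ← hp]
    have hker : ∀ (i j : Fin 2), (if i = 0 then 0 else p) +
        (if j = 0 then 0 else S.c • p) = 0 → i = 0 ∧ j = 0 := by
      intro i j h
      fin_cases i <;> fin_cases j <;> simp at h ⊢
      · exact absurd h (not_or.2 ⟨hc0, hp0⟩)
      · exact absurd h hp0
      · exact absurd (hnec _ (hvec _ _ h).symm) S.c_ne.2
    have hinj : Function.Injective f := by
      intro a b hab
      have ha : ∀ x, (f x : H) ∈ core := fun x =>
        mul_mem (mul_mem (pow_mem hzcore _) (pow_mem hsQ _)) (pow_mem htQ _)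
      have e1 := hfψ a (ha a)
      have e2 : ψ ⟨(f b : H), ha b⟩ = _ := hfψ b (ha b)
      have e3 : ψ ⟨(f a : H), ha a⟩ = ψ ⟨(f b : H), ha b⟩ := by
        congr 1
        exact Subtype.ext (congrArg (fun k : K => (k : H)) hab)
      rw [e1, e2] at e3
      have hsum : ∀ i j : Fin 2, (if i = 0 then 0 else p) + (if j = 0 then 0 else p) =
          (if i + j = 0 then 0 else p) := by
        intro i j; fin_cases i <;> fin_cases j <;> simp [vec_self]
      have hsum2 : ∀ i j : Fin 2, (if i = 0 then 0 else S.c • p) + (if j = 0 then 0 else S.c • p) =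
          (if i + j = 0 then 0 else S.c • p) := by
        intro i j; fin_cases i <;> fin_cases j <;> simp [vec_self]
      have h12 := hker (a.2.1 + b.2.1) (a.2.2 + b.2.2) (by
        rw [← hsum, ← hsum2, add_add_add_comm, e3]
        exact vec_self _)
      have f1 : ∀ i j : Fin 2, i + j = 0 → i = j := by decide
      have hb1 := f1 _ _ h12.1
      have hb2 := f1 _ _ h12.2
      have hab' : zH ^ a.1.val * s ^ a.2.1.val * t ^ a.2.2.val = zH ^ b.1.val * s ^ b.2.1.val * t ^ b.2.2.val :=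
        congrArg Subtype.val hab
      rw [hb1, hb2] at hab'
      have h0 := mul_right_cancel (mul_right_cancel hab')
      have hb0 : a.1 = b.1 := by
        have g1 : ∀ i j : Fin 2, i = j ∨ (i.val = 0 ∧ j.val = 1) ∨ (i.val = 1 ∧ j.val = 0) := by decide
        rcases g1 a.1 b.1 with h | ⟨h, h'⟩ | ⟨h, h'⟩
        · exact h
        · rw [h, h', pow_zero, pow_one] at h0; exact absurd h0.symm hzH1
        · rw [h, h', pow_zero, pow_one] at h0; exact absurd h0 hzH1
      exact Prod.ext hb0 (Prod.ext hb1 hb2)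
    have hcard := Nat.card_le_card_of_injective f hinj
    simpa using hcard
  -- the centraliser inside the centraliser of the involution
  let B : Subgroup H := Subgroup.centralizer ({s} : Set H) ⊓ Subgroup.centralizer ({t} : Set H)
  have hmemB : ∀ h, h ∈ B ↔ h * s = s * h ∧ h * t = t * h := fun h => by
    rw [Subgroup.mem_inf, Subgroup.mem_centralizer_singleton_iff, Subgroup.mem_centralizer_singleton_iff]
  have hBset : (Subgroup.centralizer (c.Z : Set G)).subgroupOf H = B := by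
    ext h
    rw [Subgroup.mem_subgroupOf, hmemB]
    constructor
    · intro hh
      exact ⟨Subtype.ext (Subgroup.mem_centralizer_iff.1 hh (s : G) (Subgroup.mem_subgroupOf.1 hsZ)).symm,
        Subtype.ext (Subgroup.mem_centralizer_iff.1 hh (t : G) (Subgroup.mem_subgroupOf.1 htZ)).symm⟩
    · rintro ⟨h1, h2⟩
      refine Subgroup.mem_centralizer_iff.2 fun e he => ?_
      have hle : Subgroup.closure ({zH, s, t} : Set H) ≤ Subgroup.centralizer ({h} : Set H) := by
        rw [Subgroup.closure_le]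
        rintro x (rfl | rfl | rfl) <;> rw [SetLike.mem_coe, Subgroup.mem_centralizer_singleton_iff]
        · exact (S.D.z_central h).symm
        · exact h1.symm
        · exact h2.symm
      exact congrArg Subtype.val (Subgroup.mem_centralizer_singleton_iff.1
        (hle (hspan ⟨e, c.Z_le_Cz he⟩ (Subgroup.mem_subgroupOf.2 he))))
  have hBeq : Nat.card (Subgroup.centralizer (c.Z : Set G)) = Nat.card B := by
    rw [← hBset, Nat.card_congr (Subgroup.subgroupOfEquivOfLe c.centralizer_Z_le).toEquiv]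
  -- commutators with elements of trivial or fixing image
  have hdiff : ∀ (h : H) (a : H) (ha : a ∈ core), S.rho h (S.psi ⟨a, ha⟩) = S.psi ⟨a, ha⟩ →
      h * a * h⁻¹ = a ∨ h * a * h⁻¹ = a * zH := by
    intro h a ha e
    have hm := (inferInstance : core.Normal).conj_mem a ha h
    have h0 : S.psi (⟨a, ha⟩⁻¹ * ⟨h * a * h⁻¹, hm⟩) = 0 := by
      have hi : S.psi (⟨a, ha⟩⁻¹ : core) = S.psi ⟨a, ha⟩ := hvec _ _ (by
        rw [← S.D.psi_mul, inv_mul_cancel, S.D.psi_one])
      rw [S.D.psi_mul, hi, show S.psi ⟨h * a * h⁻¹, hm⟩ = S.rho h (S.psi ⟨a, ha⟩) from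
        S.D.psi_conj h ⟨a, ha⟩, e, vec_self]
    rcases (S.D.psi_ker _).1 h0 with e' | e'
    · left
      have : a⁻¹ * (h * a * h⁻¹) = 1 := e'
      exact (inv_mul_eq_one.1 this).symm
    · right
      have : a⁻¹ * (h * a * h⁻¹) = zH := e'
      exact inv_mul_eq_iff_eq_mul.1 this
  have hcq : ∀ q ∈ core, ∀ a, ∀ ha : a ∈ core, q * a * q⁻¹ = a ∨ q * a * q⁻¹ = a * zH := fun q hq a ha =>
    hdiff q a ha (by rw [S.D.rho_q hq, Equiv.Perm.one_apply])
  have hcenter : ∀ a : H, ∀ ha : a ∈ core, (∀ q ∈ core, q * a = a * q) → S.psi ⟨a, ha⟩ = 0 := by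
    intro a ha hq
    refine (S.D.psi_ker _).2 ?_
    have hzc : (⟨zH, hzcore⟩ : core) ∈ Subgroup.center core :=
      Subgroup.mem_center_iff.2 fun q => Subtype.ext (S.D.z_central q)
    have hac : (⟨a, ha⟩ : core) ∈ Subgroup.center core :=
      Subgroup.mem_center_iff.2 fun q => Subtype.ext (hq q q.2)
    obtain ⟨u, v, huv, huniv⟩ := Nat.card_eq_two_iff.1 hE.2
    have h1 : (1 : Subgroup.center core) ∈ ({u, v} : Set _) := huniv ▸ Set.mem_univ _
    have h2 : (⟨_, hzc⟩ : Subgroup.center core) ∈ ({u, v} : Set _) := huniv ▸ Set.mem_univ _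
    have h3 : (⟨_, hac⟩ : Subgroup.center core) ∈ ({u, v} : Set _) := huniv ▸ Set.mem_univ _
    have h12 : (1 : Subgroup.center core) ≠ ⟨_, hzc⟩ := fun e =>
      hzH1 (congrArg (fun x : Subgroup.center core => ((x : core) : H)) e).symm
    simp only [Set.mem_insert_iff, Set.mem_singleton_iff] at h1 h2 h3
    have h : (⟨_, hac⟩ : Subgroup.center core) = 1 ∨ (⟨_, hac⟩ : Subgroup.center core) = ⟨_, hzc⟩ := by
      rcases h1 with e1 | e1 <;> rcases h2 with e2 | e2 <;> rcases h3 with e3 | e3 <;>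
        first
          | exact Or.inl (e3.trans e1.symm)
          | exact Or.inr (e3.trans e2.symm)
          | exact absurd (e1.trans e2.symm) h12
    rcases h with e | e
    · exact Or.inl (congrArg (fun x : Subgroup.center core => ((x : core) : H)) e)
    · exact Or.inr (congrArg (fun x : Subgroup.center core => ((x : core) : H)) e)
  -- an element moving the first and fixing the second, and conversely
  have hmove : ∀ a b : H, ∀ ha : a ∈ core, ∀ hb : b ∈ core, S.psi ⟨a, ha⟩ ≠ 0 →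
      S.psi ⟨a, ha⟩ + S.psi ⟨b, hb⟩ ≠ 0 → S.psi ⟨b, hb⟩ ≠ 0 →
      ∃ q ∈ core, q * a * q⁻¹ = a * zH ∧ q * b * q⁻¹ = b := by
    intro a b ha hb hna hnab hnb
    have hf : ∀ x y : H, ∀ hx : x ∈ core, S.psi ⟨x, hx⟩ ≠ 0 →
        ∃ q ∈ core, q * x * q⁻¹ = x * zH := by
      intro x _ hx hn
      by_contra hq
      push Not at hq
      exact hn (hcenter x hx fun q hq' => mul_inv_eq_iff_eq_mul.1 ((hcq q hq' x hx).resolve_right (hq q hq')))
    obtain ⟨qa, hqa, hqae⟩ := hf a a ha hna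
    rcases hcq qa hqa b hb with e | e
    · exact ⟨qa, hqa, hqae, e⟩
    obtain ⟨qc, hqc, hqce⟩ : ∃ q ∈ core, q * (a * b) * q⁻¹ = a * b * zH :=
      hf (a * b) a (mul_mem ha hb) (by
        rw [show (⟨a * b, mul_mem ha hb⟩ : core) = ⟨a, ha⟩ * ⟨b, hb⟩ from rfl, S.D.psi_mul]
        exact hnab)
    have hsplit : qc * (a * b) * qc⁻¹ = qc * a * qc⁻¹ * (qc * b * qc⁻¹) := by group
    have hzc : ∀ g : H, g * zH * g⁻¹ = zH := fun g => mul_inv_eq_iff_eq_mul.2 (S.D.z_central g)
    rcases hcq qc hqc a ha with e1 | e1 <;> rcases hcq qc hqc b hb with e2 | e2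
    · exfalso
      rw [hsplit, e1, e2] at hqce
      exact hzH1 (left_eq_mul.1 hqce)
    · -- fixes a, moves b: compose
      refine ⟨qc * qa, mul_mem hqc hqa, ?_, ?_⟩
      · calc qc * qa * a * (qc * qa)⁻¹ = qc * (qa * a * qa⁻¹) * qc⁻¹ := by group
          _ = qc * a * qc⁻¹ * (qc * zH * qc⁻¹) := by rw [hqae]; group
          _ = a * zH := by rw [e1, hzc]
      · calc qc * qa * b * (qc * qa)⁻¹ = qc * (qa * b * qa⁻¹) * qc⁻¹ := by group
          _ = qc * b * qc⁻¹ * (qc * zH * qc⁻¹) := by rw [e]; group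
          _ = b := by rw [e2, hzc, mul_assoc, S.D.z_sq, mul_one]
    · exact ⟨qc, hqc, e1, e2⟩
    · exfalso
      rw [hsplit, e1, e2, show a * zH * (b * zH) = a * b * (zH * zH) by
        rw [mul_assoc a zH, ← mul_assoc zH b, ← S.D.z_central b, mul_assoc b zH, ← mul_assoc a],
        S.D.z_sq, mul_one] at hqce
      exact hzH1 (left_eq_mul.1 hqce)
  have hpc0 : S.c • p ≠ 0 := fun h' => hp0 (by
    obtain ⟨c', hc'⟩ := hinv S.c hc0
    rw [← one_smul F4 p, ← hc', ← smul_smul, h', smul_zero])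
  have hpc : p + S.c • p ≠ 0 := fun h => S.c_ne.2 (hnec _ (hvec _ _ h).symm)
  obtain ⟨g1, hg1, hg1s, hg1t⟩ := hmove s t hsQ htQ hp0 (by rw [hpt]; exact hpc) (by rw [hpt]; exact hpc0)
  obtain ⟨g2, hg2, hg2t, hg2s⟩ := hmove t s htQ hsQ (by rw [hpt]; exact hpc0)
    (by rw [hpt, add_comm]; exact hpc) hp0
  -- the part in the core
  have hBc : Nat.card (B ⊓ core : Subgroup H) = 2 ^ 11 := by
    have h1 := LargeFischer.Eight.card_orbit_conj core s ({s, s * zH} : Set H) fun b => by
      constructor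
      · rintro (rfl | rfl)
        · exact ⟨1, one_mem _, by simp⟩
        · exact ⟨g1, hg1, hg1s⟩
      · rintro ⟨q, hq, rfl⟩
        exact hcq q hq s hsQ
    have h2 := LargeFischer.Eight.card_orbit_conj (core ⊓ Subgroup.centralizer ({s} : Set H)) t
        ({t, t * zH} : Set H) fun b => by
      constructor
      · rintro (rfl | rfl)
        · exact ⟨1, one_mem _, by simp⟩
        · exact ⟨g2, ⟨hg2, Subgroup.mem_centralizer_singleton_iff.2 (mul_inv_eq_iff_eq_mul.1 hg2s)⟩, hg2t⟩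
      · rintro ⟨q, hq, rfl⟩
        exact hcq q hq.1 t htQ
    have hne : ∀ a : H, a ≠ a * zH := fun a h => hzH1 (left_eq_mul.1 h)
    rw [Set.ncard_pair (hne s), S.D.card_q] at h1
    rw [Set.ncard_pair (hne t)] at h2
    rw [show B ⊓ core = core ⊓ Subgroup.centralizer ({s} : Set H) ⊓ Subgroup.centralizer ({t} : Set H) by
      rw [inf_comm, ← inf_assoc]]
    omega
  -- the image
  have hmap : B.map S.rho = K22 ⊓ MulAction.stabilizer (Equiv.Perm Vec) p := by
    refine le_antisymm ?_ ?_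
    · rintro _ ⟨h, hh, rfl⟩
      obtain ⟨h1, h2⟩ := (hmemB h).1 hh
      have e1 : S.rho h p = p := by
        rw [hp, ← S.D.psi_conj h ⟨s, hsQ⟩]
        exact congrArg S.psi (Subtype.ext (mul_inv_eq_iff_eq_mul.2 h1))
      have e2 : S.rho h (S.c • p) = S.c • p := by
        rw [← hpt, ← S.D.psi_conj h ⟨t, htQ⟩]
        exact congrArg S.psi (Subtype.ext (mul_inv_eq_iff_eq_mul.2 h2))
      obtain ⟨b, hb⟩ := S.semi h
      have hlin : IsSemi false (S.rho h) := by
        cases b
        · exact hb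
        exfalso
        rw [hb.2.1, e1] at e2
        have key : ∀ x : F4, x ≠ 0 → x ≠ 1 → ∃ x', x' * x = 1 ∧ x' * twist true x ≠ 1 := by decide
        obtain ⟨c', hc', hne'⟩ := key S.c hc0 S.c_ne.2
        exact hne' (hnec _ (by rw [← smul_smul, e2, smul_smul, hc', one_smul]))
      exact ⟨mem_K22_of_linear S.K22_le S.gP_mem (c.card_range S) c.card_K22 ⟨h, rfl⟩ hlin, e1⟩
    · rintro σ ⟨hσK, hσp⟩
      obtain ⟨h, rfl⟩ := S.K22_le hσK
      have hσp' : S.rho h p = p := hσp
      have hlin := K22_linear hσK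
      have h1 := hdiff h s hsQ hσp'
      have h2 := hdiff h t htQ (by rw [hpt, hlin.2.1, hσp']; rfl)
      have adj : ∀ k : H, S.rho k = S.rho h → k * s * k⁻¹ = s → k * t * k⁻¹ = t → S.rho h ∈ B.map S.rho :=
        fun k hk e1 e2 => hk ▸ ⟨k, (hmemB k).2 ⟨mul_inv_eq_iff_eq_mul.1 e1, mul_inv_eq_iff_eq_mul.1 e2⟩, rfl⟩
      have hzc : ∀ g : H, g * zH * g⁻¹ = zH := fun g => mul_inv_eq_iff_eq_mul.2 (S.D.z_central g)
      have cmb : ∀ (k q a : H), k * a * k⁻¹ = a * zH → q * a * q⁻¹ = a * zH → (q * k) * a * (q * k)⁻¹ = a := by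
        intro k q a e e'
        calc (q * k) * a * (q * k)⁻¹ = q * (k * a * k⁻¹) * q⁻¹ := by group
          _ = q * a * q⁻¹ * (q * zH * q⁻¹) := by rw [e]; group
          _ = a := by rw [e', hzc, mul_assoc, S.D.z_sq, mul_one]
      have cmb2 : ∀ (k q a : H), k * a * k⁻¹ = a → q * a * q⁻¹ = a → (q * k) * a * (q * k)⁻¹ = a := by
        intro k q a e e'
        calc (q * k) * a * (q * k)⁻¹ = q * (k * a * k⁻¹) * q⁻¹ := by group
          _ = a := by rw [e, e']
      have hrq : ∀ q ∈ core, ∀ k, S.rho (q * k) = S.rho k := fun q hq k => by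
        rw [map_mul, S.D.rho_q hq, one_mul]
      obtain ⟨k, hk, hks, hkt⟩ : ∃ k, S.rho k = S.rho h ∧ k * s * k⁻¹ = s ∧
          (k * t * k⁻¹ = t ∨ k * t * k⁻¹ = t * zH) := by
        rcases h1 with e | e
        · exact ⟨h, rfl, e, h2⟩
        · refine ⟨g1 * h, hrq g1 hg1 h, cmb h g1 s e hg1s, ?_⟩
          rcases h2 with e2 | e2
          · exact Or.inl (cmb2 h g1 t e2 hg1t)
          · right
            calc g1 * h * t * (g1 * h)⁻¹ = g1 * (h * t * h⁻¹) * g1⁻¹ := by group
              _ = g1 * t * g1⁻¹ * (g1 * zH * g1⁻¹) := by rw [e2]; group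
              _ = t * zH := by rw [hg1t, hzc]
      rcases hkt with e | e
      · exact adj k hk hks e
      · exact adj (g2 * k) (by rw [hrq g2 hg2 k, hk]) (cmb2 k g2 s hks hg2s) (cmb k g2 t e hg2t)
  have hsplit := S.D.card_split B
  rw [hBc, hmap] at hsplit
  refine ⟨?_, fun e he => ?_, ?_⟩
  rotate_left
  · have hle : Subgroup.closure ({zH, s, t} : Set H) ≤ core := by
      rw [Subgroup.closure_le]
      rintro x (rfl | rfl | rfl) <;> assumption
    exact ⟨_, hle (hspan ⟨e, c.Z_le_Cz he⟩ (Subgroup.mem_subgroupOf.2 he)), rfl⟩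
  · rw [← hBc, ← Subgroup.card_map_of_injective H.subtype_injective (K := B ⊓ core)]
    congr! 2
    ext g
    constructor
    · rintro ⟨⟨x, hx, rfl⟩, hg⟩
      exact ⟨x, ⟨hBset.le (Subgroup.mem_subgroupOf.2 hg), hx⟩, rfl⟩
    · rintro ⟨x, ⟨hxB, hxc⟩, rfl⟩
      exact ⟨⟨x, hxc, rfl⟩, Subgroup.mem_subgroupOf.1 (hBset.ge hxB)⟩
  rcases card_stab hp0 hpH with h | h <;> rw [c.card_K22] at h
  · left; rw [hBeq, hsplit, show Nat.card ↥(K22 ⊓ MulAction.stabilizer (Equiv.Perm Vec) p) = 1920 by omega]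
    norm_num
  · right; rw [hBeq, hsplit, show Nat.card ↥(K22 ⊓ MulAction.stabilizer (Equiv.Perm Vec) p) = 960 by omega]
    norm_num

/-- The normaliser in the centraliser of the subgroup of order five. -/
theorem card_normalizer_inf :
    Nat.card ↥(Subgroup.normalizer (c.Q : Set G) ⊓ Subgroup.centralizer (c.Z : Set G)) = 160 ∧
      c.Q ≤ Subgroup.centralizer (c.Z : Set G) ∧
      Subgroup.normalizer (c.Q : Set G) ≤ Subgroup.normalizer (c.Z : Set G) := by
  have hQZ : c.Q ≤ Subgroup.centralizer (c.Z : Set G) := fun q hq =>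
    Subgroup.mem_centralizer_iff.2 fun e he => (c.prod.2.2.1 q hq e (c.Z_le he)).symm
  refine (fun h : _ ∧ _ => ⟨h.1, hQZ, h.2⟩) ?_
  set N := Subgroup.normalizer (c.Q : Set G) with hN
  set CQ := Subgroup.centralizer (c.Q : Set G)
  set CZ := Subgroup.centralizer (c.Z : Set G)
  have hNQ : N ≤ Subgroup.normalizer (c.Z : Set G) := by
    intro n hn
    obtain ⟨f, hf, hk⟩ := c.quot
    haveI := LargeFischer.Eight.sl_three_facts.2
    have hCn : ∀ g ∈ CQ, n * g * n⁻¹ ∈ CQ := fun g hg => Subgroup.mem_centralizer_iff.2 fun q hq => by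
      have hq' : n⁻¹ * q * n ∈ c.Q := (Subgroup.mem_normalizer_iff''.1 hn q).1 hq
      have h := Subgroup.mem_centralizer_iff.1 hg _ hq'
      calc q * (n * g * n⁻¹) = n * (n⁻¹ * q * n * g) * n⁻¹ := by group
        _ = n * g * n⁻¹ * q := by rw [h]; group
    have hZn : ∀ e ∈ c.Z, n * e * n⁻¹ ∈ c.J := fun e he =>
      IDP.mem_right c.prod (hCn e (c.J_le (c.Z_le he))) (m := 2)
        (by rw [pow_two, show n * e * n⁻¹ * (n * e * n⁻¹) = n * (e * e) * n⁻¹ by group, c.Z_sq he]; group)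
        (by rw [c.card_Q]; norm_num)
    let Y : Subgroup c.J := (c.Z.map (MulAut.conj n).toMonoidHom).subgroupOf c.J
    have hmemY : ∀ x : c.J, x ∈ Y ↔ n⁻¹ * (x : G) * n ∈ c.Z := fun x => by
      rw [Subgroup.mem_subgroupOf, Subgroup.mem_map_equiv, MulAut.conj_symm_apply]
    have hYn : Y.Normal := ⟨fun x hx g => by
      rw [hmemY] at hx ⊢
      have hg : n⁻¹ * (g : G) * n ∈ CQ := by
        refine Subgroup.mem_centralizer_iff.2 fun q hq => ?_
        have hq' : n * q * n⁻¹ ∈ c.Q := (Subgroup.mem_normalizer_iff.1 hn q).1 hq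
        have h := Subgroup.mem_centralizer_iff.1 (c.J_le g.2) _ hq'
        calc q * (n⁻¹ * (g : G) * n) = n⁻¹ * (n * q * n⁻¹ * g) * n := by group
          _ = n⁻¹ * (g : G) * n * q := by rw [h]; group
      obtain ⟨a, ha, b, hb, hab⟩ := IDP.exists_eq c.prod hg
      have hw : b * (n⁻¹ * (x : G) * n) * b⁻¹ ∈ c.Z :=
        (Subgroup.mem_normalizer_iff.1 (c.J_norm hb) _).1 hx
      have hca : a * (b * (n⁻¹ * (x : G) * n) * b⁻¹) = (b * (n⁻¹ * (x : G) * n) * b⁻¹) * a :=
        c.prod.2.2.1 a ha _ (c.Z_le hw)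
      have : n⁻¹ * (((g * x * g⁻¹ : c.J)) : G) * n = b * (n⁻¹ * (x : G) * n) * b⁻¹ := by
        rw [← mul_inv_eq_iff_eq_mul] at hca
        calc n⁻¹ * (((g * x * g⁻¹ : c.J)) : G) * n
            = (n⁻¹ * (g : G) * n) * (n⁻¹ * (x : G) * n) * (n⁻¹ * (g : G) * n)⁻¹ := by
              simp only [Subgroup.coe_mul, Subgroup.coe_inv]; group
          _ = a * (b * (n⁻¹ * (x : G) * n) * b⁻¹) * a⁻¹ := by rw [← hab]; group
          _ = _ := hca
      rw [this]
      exact hw⟩
    have hYc : Nat.card Y = 8 := by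
      rw [Nat.card_congr (Subgroup.subgroupOfEquivOfLe (show c.Z.map (MulAut.conj n).toMonoidHom ≤ c.J by
        rintro _ ⟨e, he, rfl⟩
        exact hZn e he)).toEquiv, Subgroup.card_map_of_injective (MulAut.conj n).injective, c.card_Z]
    have hYk : Y = f.ker := by
      have hfk : Nat.card f.ker = 8 := by
        rw [hk, Nat.card_congr (Subgroup.subgroupOfEquivOfLe c.Z_le).toEquiv, c.card_Z]
      rcases (hYn.map f hf).eq_bot_or_eq_top with hb | ht
      · exact Subgroup.eq_of_le_of_card_ge ((Subgroup.map_eq_bot_iff Y).1 hb) (by rw [hfk, hYc])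
      · exfalso
        have hd : Nat.card (Y.map f) ∣ Nat.card Y := Subgroup.card_map_dvd Y f
        rw [ht, Subgroup.card_top, LargeFischer.Eight.sl_three_facts.1, hYc] at hd
        norm_num at hd
    refine Subgroup.mem_normalizer_iff.2 fun e => ?_
    constructor
    · intro he
      have hx : (⟨n * e * n⁻¹, hZn e he⟩ : c.J) ∈ Y := (hmemY _).2 (by
        show n⁻¹ * (n * e * n⁻¹) * n ∈ c.Z
        simpa [mul_assoc] using he)
      rw [hYk, hk] at hx
      exact hx
    · intro he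
      have hx : (⟨_, c.Z_le he⟩ : c.J) ∈ Y := by
        rw [hYk, hk]
        exact he
      have := (hmemY _).1 hx
      simpa [mul_assoc] using this
  -- upper bound
  have hCQZ : CQ ⊓ CZ = c.Q ⊔ c.Z := by
    refine le_antisymm (fun g hg => ?_) (sup_le (fun q hq => ⟨?_, hQZ hq⟩)
      fun e he => ⟨c.J_le (c.Z_le he), Subgroup.mem_centralizer_iff.2 fun u hu => c.Z_comm hu he⟩)
    · obtain ⟨a, ha, b, hb, rfl⟩ := IDP.exists_eq c.prod hg.1
      have hbZ : b ∈ c.J ⊓ CZ := ⟨hb, by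
        have := CZ.mul_mem (CZ.inv_mem (hQZ ha)) hg.2
        rwa [inv_mul_cancel_left] at this⟩
      rw [c.J_inf_centralizer] at hbZ
      exact Subgroup.mul_mem_sup ha hbZ
    · exact c.prod.1 hq
  have h40 : Nat.card ↥(CQ ⊓ CZ) = 40 := by
    rw [IDP.card_eq (A := c.Q) (B := c.Z) ⟨hCQZ.ge.trans' le_sup_left, hCQZ.ge.trans' le_sup_right,
      fun a ha b hb => c.prod.2.2.1 a ha b (c.Z_le hb), ?_, hCQZ.symm⟩, c.card_Q, c.card_Z]
    exact le_bot_iff.1 ((inf_le_inf_left _ c.Z_le).trans c.prod.2.2.2.1.le)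
  set A := N ⊓ CZ with hA
  let ψ : A →* MulAut c.Q := c.Q.normalizerMonoidHom.comp (Subgroup.inclusion inf_le_left)
  have hker : ψ.ker = (CQ ⊓ CZ).subgroupOf A := by
    ext a
    have e : a ∈ ψ.ker ↔ Subgroup.inclusion (inf_le_left : A ≤ N) a ∈ c.Q.normalizerMonoidHom.ker := Iff.rfl
    rw [e, c.Q.normalizerMonoidHom_ker, Subgroup.mem_subgroupOf, Subgroup.mem_subgroupOf]
    exact ⟨fun h => ⟨h, a.2.2⟩, fun h => h.1⟩
  have hCle : CQ ⊓ CZ ≤ A := inf_le_inf_right _ (Subgroup.centralizer_le_normalizer _)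
  haveI : IsCyclic c.Q := isCyclic_of_prime_card (p := 5) (hp := ⟨by norm_num⟩) c.card_Q
  have haut : Nat.card (MulAut c.Q) = 4 := by
    rw [IsCyclic.card_mulAut, c.card_Q]
    rfl
  have hi : ψ.ker.index ∣ 4 := by
    rw [Subgroup.index_ker]
    exact haut ▸ Subgroup.card_subgroup_dvd_card _
  have hAc := Subgroup.card_mul_index ψ.ker
  rw [hker, Nat.card_congr (Subgroup.subgroupOfEquivOfLe hCle).toEquiv, h40] at hAc
  rw [hker] at hi
  have hupper : Nat.card A ≤ 160 := by
    have := Nat.le_of_dvd (by norm_num) hi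
    rw [← hAc]
    omega
  -- lower bound
  obtain ⟨e⟩ := FiveRecog.exists_coord c.Z_elem c.card_Z
  obtain ⟨F, hF⟩ := LargeFischer.Eight.aut_to_SL e
  let χ : N →* Matrix.SpecialLinearGroup (Fin 3) (ZMod 2) :=
    F.comp (c.Z.normalizerMonoidHom.comp (Subgroup.inclusion hNQ))
  have hkχ : χ.ker = CZ.subgroupOf N := by
    ext a
    have e : a ∈ χ.ker ↔ Subgroup.inclusion hNQ a ∈ c.Z.normalizerMonoidHom.ker := by
      rw [MonoidHom.mem_ker, MonoidHom.mem_ker]
      exact map_eq_one_iff F hF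
    rw [e, c.Z.normalizerMonoidHom_ker, Subgroup.mem_subgroupOf, Subgroup.mem_subgroupOf]
    rfl
  have hk2 : Nat.card χ.ker = Nat.card A := by
    rw [hkχ]
    exact Nat.card_congr
      { toFun := fun x => ⟨(x.1 : G), x.1.2, x.2⟩
        invFun := fun a => ⟨⟨a.1, a.2.1⟩, a.2.2⟩
        left_inv := fun x => rfl
        right_inv := fun a => rfl }
  have hlow := Subgroup.card_mul_index χ.ker
  rw [Subgroup.index_ker, hk2, c.card_NQ] at hlow
  have hle168 : Nat.card χ.range ≤ 168 := LargeFischer.Eight.sl_three_facts.1 ▸ Subgroup.card_le_card_group _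
  have : 26880 ≤ Nat.card A * 168 := hlow ▸ Nat.mul_le_mul_left _ hle168
  exact ⟨by omega, hNQ⟩

/-- The order of the centraliser. -/
theorem card_centralizer_Z : Nat.card (Subgroup.centralizer (c.Z : Set G)) = 3932160 := by
  rcases c.card_centralizer_cases.1 with h | h
  · rw [h]
    norm_num
  exfalso
  obtain ⟨h160, hQZ, -⟩ := c.card_normalizer_inf
  haveI : Fact (Nat.Prime 5) := ⟨by norm_num⟩
  set CZ := Subgroup.centralizer (c.Z : Set G)
  have hQ' : Nat.card (c.Q.subgroupOf CZ) = 5 := by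
    rw [Nat.card_congr (Subgroup.subgroupOfEquivOfLe hQZ).toEquiv, c.card_Q]
  let T : Sylow 5 CZ := Sylow.ofCard (c.Q.subgroupOf CZ) (by
    rw [hQ', h, show (2 ^ 11 * 960 : ℕ) = 5 ^ 1 * 393216 by norm_num,
      Nat.factorization_mul (by norm_num) (by norm_num), Finsupp.add_apply, Nat.factorization_pow,
      Finsupp.smul_apply, Nat.Prime.factorization_self (by norm_num : (5 : ℕ).Prime),
      Nat.factorization_eq_zero_of_not_dvd (show ¬ 5 ∣ 393216 by norm_num)]
    norm_num)
  have hnT : Nat.card (Sylow 5 CZ) = 12288 := by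
    rw [T.card_eq_index_normalizer]
    have hN : Subgroup.normalizer (T : Set CZ) =
        (Subgroup.normalizer (c.Q : Set G) ⊓ CZ).subgroupOf CZ := by
      ext g
      show g ∈ Subgroup.normalizer ((c.Q.subgroupOf CZ : Subgroup CZ) : Set CZ) ↔ _
      rw [Subgroup.mem_subgroupOf, Subgroup.mem_inf, and_iff_left g.2, Subgroup.mem_normalizer_iff,
        Subgroup.mem_normalizer_iff]
      constructor
      · intro hg q
        constructor
        · intro hq
          exact (hg ⟨q, hQZ hq⟩).1 hq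
        · intro hq
          have hq' : q ∈ CZ := by
            have := CZ.mul_mem (CZ.mul_mem (CZ.inv_mem g.2) (hQZ hq)) g.2
            simpa [mul_assoc] using this
          exact (hg ⟨q, hq'⟩).2 hq
      · intro hg q
        exact hg q
    have hc := Subgroup.card_mul_index (Subgroup.normalizer (T : Set CZ))
    rw [hN, Nat.card_congr (Subgroup.subgroupOfEquivOfLe inf_le_right).toEquiv, h160, h] at hc
    rw [hN]
    omega
  have := card_sylow_modEq_one 5 CZ
  rw [hnT] at this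
  exact absurd this (by decide)

end Cfsg.Agent.JFourType.Pentad.Ctx
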