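import Cfsg.Agent.Golay.FixedPoints
import Cfsg.Prelude.Def_Spor_Mathieu
import Mathlib.GroupTheory.PGroup

/-!
A subgroup of order 1344 of `M22` with a normal subgroup of order eight and simple quotient splits
over it.
-/

set_option autoImplicit false

namespace Cfsg.Agent.JFourType.Pentad

open Cfsg Cfsg.Agent.Golay
open scoped Pointwise

theorem m22_fix_two {g : Equiv.Perm GolayPt} (hg : g ∈ Spor.M22) :
    g ∈ M24 ∧ g none = none ∧ g (some 0) = some 0 :=
  ⟨hg.1.1, hg.1.2, hg.2⟩

/-- A simple group of order 168 has no proper subgroup of index at most 4. -/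
theorem eq_top_of_small_index {Y : Type*} [Group Y] [Finite Y] [IsSimpleGroup Y]
    (hY : Nat.card Y = 168) {H : Subgroup Y} (hi : H.index ≤ 4) : H = ⊤ := by
  by_contra hne
  rcases (Subgroup.normalCore_normal H).eq_bot_or_eq_top with hb | ht
  · let f := MulAction.toPermHom Y (Y ⧸ H)
    have hf : Function.Injective f := by
      rw [← MonoidHom.ker_eq_bot_iff, ← Subgroup.normalCore_eq_ker, hb]
    have hle := Nat.card_le_card_of_injective f hf
    rw [hY, Nat.card_perm, ← Subgroup.index_eq_card] at hle
    have := Nat.factorial_le hi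
    simp only [show Nat.factorial 4 = 24 from rfl] at this
    omega
  · exact hne (top_le_iff.1 (ht ▸ H.normalCore_le))

theorem exists_complement_of_m22 {R : Type*} [Group R] [Finite R] (E : Subgroup R) [E.Normal]
    (hE8 : Nat.card E = 8) (hR : Nat.card R = 1344) (hq : IsSimpleGroup (R ⧸ E))
    (s : R) (hs : orderOf s = 7) (hfix : ∀ e ∈ E, s * e = e * s → e = 1)
    (f : R →* Spor.M22) (hf : Function.Injective f) :
    ∃ X : Subgroup R, Nat.card X = 168 ∧ X ⊓ E = ⊥ := by
  classical
  haveI : Fact (Nat.Prime 7) := ⟨by norm_num⟩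
  haveI : Fact (Nat.Prime 2) := ⟨Nat.prime_two⟩
  let φ : R →* Equiv.Perm GolayPt := Spor.M22.subtype.comp f
  have hφ : Function.Injective φ := Spor.M22.subtype_injective.comp hf
  have hm : ∀ r, φ r ∈ M24 ∧ φ r none = none ∧ φ r (some 0) = some 0 := fun r => m22_fix_two (f r).2
  set σ := φ s with hσ
  have hσo : orderOf σ = 7 := by rw [hσ, orderOf_injective φ hφ, hs]
  have hσ3 : (fixSet σ).card = 3 := card_fixSet_eq (hm s).1 (by norm_num) hσo 3 (by norm_num)
  -- a third fixed point
  obtain ⟨p, hp⟩ : ((fixSet σ) \ {none, some 0}).Nonempty := by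
    rw [← Finset.card_pos]
    have h2 : ({none, some 0} : Finset GolayPt).card ≤ 2 := Finset.card_le_two
    have := Finset.le_card_sdiff ({none, some 0} : Finset GolayPt) (fixSet σ)
    omega
  rw [Finset.mem_sdiff, mem_fixSet] at hp
  obtain ⟨hpσ, hpne⟩ := hp
  -- the subgroup of order eight does not fix it
  have hEp : ¬ ∀ e ∈ E, φ e p = p := by
    intro hall
    let F : Finset GolayPt := Finset.univ.filter fun x => ∀ e ∈ E, φ e x = x
    have hmemF : ∀ x, x ∈ F ↔ ∀ e ∈ E, φ e x = x := fun x => by simp [F]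
    obtain ⟨e, he, he1⟩ : ∃ e ∈ E, e ≠ 1 := by
      by_contra hc
      push Not at hc
      have : E = ⊥ := (Subgroup.eq_bot_iff_forall _).2 hc
      rw [this, Subgroup.card_bot] at hE8
      norm_num at hE8
    have hF8 : F.card ≤ 8 := by
      refine le_trans (Finset.card_le_card ?_) (card_fixSet_le_eight (hm e).1
        (fun h => he1 (hφ (h.trans (map_one φ).symm))))
      exact fun x hx => mem_fixSet.2 ((hmemF x).1 hx e he)
    have hFσ : ∀ x ∈ F, σ x ∈ F := fun x hx => (hmemF _).2 fun e he => by
      have h1 := (hmemF x).1 hx (s⁻¹ * e * s) (by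
        simpa using (inferInstance : E.Normal).conj_mem e he s⁻¹)
      rw [map_mul, map_mul, map_inv, Equiv.Perm.mul_apply, Equiv.Perm.mul_apply,
        Equiv.Perm.inv_eq_iff_eq] at h1
      exact h1
    have h7 := card_mod_fix hσo F hFσ
    have hFfix : (F.filter fun x => σ x = x) = fixSet σ := by
      refine Finset.eq_of_subset_of_card_le (fun x hx => mem_fixSet.2 (Finset.mem_filter.1 hx).2) ?_
      rw [hσ3]
      have h3 : ({none, some 0, p} : Finset GolayPt).card = 3 := by
        simp only [Finset.mem_insert, Finset.mem_singleton, not_or] at hpne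
        rw [Finset.card_insert_of_notMem, Finset.card_pair (Ne.symm hpne.2)]
        simp only [Finset.mem_insert, Finset.mem_singleton, not_or]
        exact ⟨by decide, Ne.symm hpne.1⟩
      rw [← h3]
      refine Finset.card_le_card fun x hx => ?_
      simp only [Finset.mem_insert, Finset.mem_singleton] at hx
      refine Finset.mem_filter.2 ⟨(hmemF x).2 fun e he => ?_, ?_⟩
      · rcases hx with rfl | rfl | rfl
        · exact (hm e).2.1
        · exact (hm e).2.2
        · exact hall e he
      · rcases hx with rfl | rfl | rfl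
        · exact (hm s).2.1
        · exact (hm s).2.2
        · exact hpσ
    rw [hFfix, hσ3] at h7
    letI : MulAction E GolayPt := MulAction.compHom GolayPt (φ.comp E.subtype)
    have h2 := (IsPGroup.of_card (p := 2) (n := 3) (G := E) hE8).card_modEq_card_fixedPoints GolayPt
    have hfc : Nat.card (MulAction.fixedPoints E GolayPt) = F.card := by
      rw [← Nat.card_eq_finsetCard F]
      exact Nat.card_congr (Equiv.subtypeEquivRight fun x => by
        rw [hmemF]
        exact ⟨fun h e he => h ⟨e, he⟩, fun h e => h e e.2⟩)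
    rw [hfc, Nat.card_eq_fintype_card (α := GolayPt), card_golayPt] at h2
    have h2' : 24 % 2 = F.card % 2 := h2
    omega
  -- the stabiliser
  let X : Subgroup R := (MulAction.stabilizer (Equiv.Perm GolayPt) p).comap φ
  have hmemX : ∀ r, r ∈ X ↔ φ r p = p := fun r => Iff.rfl
  have hsX : s ∈ X := (hmemX s).2 hpσ
  have hXE : X ⊓ E = ⊥ := by
    letI : MulAction (Subgroup.zpowers s) ↥(X ⊓ E : Subgroup R) :=
      MulAction.compHom ↥(X ⊓ E : Subgroup R) ({
        toFun := fun g => ({
          toFun := fun x => ⟨(g : R) * x * (g : R)⁻¹,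
            X.mul_mem (X.mul_mem (Subgroup.zpowers_le.2 hsX g.2) x.2.1)
              (X.inv_mem (Subgroup.zpowers_le.2 hsX g.2)), (inferInstance : E.Normal).conj_mem _ x.2.2 _⟩
          invFun := fun x => ⟨(g : R)⁻¹ * x * (g : R),
            X.mul_mem (X.mul_mem (X.inv_mem (Subgroup.zpowers_le.2 hsX g.2)) x.2.1)
              (Subgroup.zpowers_le.2 hsX g.2), by
                simpa using (inferInstance : E.Normal).conj_mem _ x.2.2 (g : R)⁻¹⟩
          left_inv := fun x => Subtype.ext (by simp [mul_assoc])
          right_inv := fun x => Subtype.ext (by simp [mul_assoc]) } : Equiv.Perm ↥(X ⊓ E : Subgroup R))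
        map_one' := Equiv.ext fun x => Subtype.ext (by simp)
        map_mul' := fun g h => Equiv.ext fun x => Subtype.ext (by simp [mul_assoc]) } :
          Subgroup.zpowers s →* Equiv.Perm ↥(X ⊓ E : Subgroup R))
    have h7 := (IsPGroup.of_card (p := 7) (n := 1) (G := Subgroup.zpowers s)
      (by rw [Nat.card_zpowers, hs, pow_one])).card_modEq_card_fixedPoints ↥(X ⊓ E : Subgroup R)
    have h1 : Nat.card (MulAction.fixedPoints (Subgroup.zpowers s) ↥(X ⊓ E : Subgroup R)) = 1 := by
      rw [Nat.card_eq_one_iff_unique]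
      refine ⟨⟨fun a b => ?_⟩, ⟨⟨1, fun g => Subtype.ext (?_ : (g : R) * 1 * (g : R)⁻¹ = 1)⟩⟩⟩
      · have key : ∀ a : MulAction.fixedPoints (Subgroup.zpowers s) ↥(X ⊓ E : Subgroup R),
            ((a : ↥(X ⊓ E : Subgroup R)) : R) = 1 := fun a => by
          have h : s * ((a : ↥(X ⊓ E : Subgroup R)) : R) * s⁻¹ = _ :=
            congrArg Subtype.val (a.2 ⟨s, Subgroup.mem_zpowers s⟩)
          exact hfix _ a.1.2.2 (mul_inv_eq_iff_eq_mul.1 h)
        exact Subtype.ext (Subtype.ext ((key a).trans (key b).symm))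
      · simp
    rw [h1] at h7
    have hd := Subgroup.card_dvd_of_le (show X ⊓ E ≤ E from inf_le_right)
    rw [hE8] at hd
    have h7' : Nat.card ↥(X ⊓ E : Subgroup R) % 7 = 1 % 7 := h7
    have hle8 := Nat.le_of_dvd (by norm_num) hd
    by_contra hne
    have hn1 : Nat.card ↥(X ⊓ E : Subgroup R) ≠ 1 := fun h => hne (Subgroup.card_eq_one.1 h)
    have h8 : Nat.card ↥(X ⊓ E : Subgroup R) = 8 := by
      have hpos : 0 < Nat.card ↥(X ⊓ E : Subgroup R) := Nat.card_pos
      interval_cases h : Nat.card ↥(X ⊓ E : Subgroup R) <;> omega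
    have heq : X ⊓ E = E := Subgroup.eq_of_le_of_card_ge inf_le_right (by rw [h8, hE8])
    exact hEp fun e he => (hmemX e).1 (heq.ge he).1
  -- orbit counting
  have hXcard : 56 ≤ Nat.card X := by
    have hi : X.index ≤ 24 := by
      letI : MulAction R GolayPt := MulAction.compHom GolayPt φ
      have hX : X = MulAction.stabilizer R p := rfl
      rw [hX, MulAction.index_stabilizer]
      exact (Set.ncard_le_card _).trans (le_of_eq (by rw [Nat.card_eq_fintype_card, card_golayPt]))
    have hc := Subgroup.card_mul_index X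
    rw [hR] at hc
    nlinarith
  let g : X →* R ⧸ E := (QuotientGroup.mk' E).comp X.subtype
  have hg : Function.Injective g := by
    rw [← MonoidHom.ker_eq_bot_iff, eq_bot_iff]
    intro x hx
    have hxE : (x : R) ∈ E := (QuotientGroup.eq_one_iff _).1 hx
    have : (x : R) ∈ X ⊓ E := ⟨x.2, hxE⟩
    rw [hXE, Subgroup.mem_bot] at this
    exact Subgroup.mem_bot.2 (Subtype.ext this)
  have hY : Nat.card (R ⧸ E) = 168 := by
    have := Subgroup.card_eq_card_quotient_mul_card_subgroup E
    rw [hR, hE8] at this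
    omega
  have hgr : Nat.card g.range = Nat.card X := (Nat.card_congr (MonoidHom.ofInjective hg).toEquiv).symm
  have htop : g.range = ⊤ := by
    refine eq_top_of_small_index hY ?_
    have hc := Subgroup.card_mul_index g.range
    rw [hgr, hY] at hc
    nlinarith
  refine ⟨X, ?_, hXE⟩
  rw [← hgr, htop, Subgroup.card_top, hY]

end Cfsg.Agent.JFourType.Pentad
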