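import Cfsg.Agent.JFourType.Outer
import Cfsg.Agent.JFourType.ThreeData

/-!
The elements of order 3 of the triple cover of `M22`: outside the scalars they are conjugate, and the
centre of a Sylow 3-subgroup consists of scalars.
-/

set_option autoImplicit false
set_option maxRecDepth 100000
set_option maxHeartbeats 1000000

namespace Cfsg.Agent.JFourType

open Cfsg.Agent.GFour25 Cfsg.Agent.CosetCert
open Cfsg.Agent.SporB.FischerU (Vec vecN enc vecN_enc enc_lt)
open Cfsg.Agent.LargeFischer (IsSemi semiU)
open Cfsg.Agent.LargeFischer.Thompson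
open Data

/-- The word of a listed element. -/
noncomputable def threeWord (i : ℕ) : List ℕ :=
  (threeIdx.getD i []).flatMap fun k => threeGens.getD k []

/-- Equality of lists of natural numbers. -/
noncomputable def eqL (g h : List ℕ) : Bool := g == h

/-- The check of the listed subgroup. -/
noncomputable def threeSubOK : Bool :=
  Nat.beq threeEls.length 27 && (threeEls.getD 0 [] == idL) &&
    (threeEls.all fun g => (comp g (comp g g) == idL) &&
      (List.range threeGens.length).all fun k =>
        threeEls.contains (comp g (wImg (threeGens.getD k [])))) &&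
    (List.range 27).all fun i =>
      (wImg (threeWord i) == threeEls.getD i []) &&
        (comp (threeEls.getD i []) idL == threeEls.getD i []) &&
        (threeIdx.getD i []).all (Nat.blt · threeGens.length) &&
        (List.range i).all fun j => !(threeEls.getD i [] == threeEls.getD j [])

theorem threeSubOK_true : threeSubOK = true := by decide +kernel

/-- A listed element is a scalar. -/
noncomputable def isScalL (g : List ℕ) : Bool := (g == idL) || (g == omL) || (g == comp omL omL)

/-- The check of conjugacy and of the centre. -/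
noncomputable def threeFusionOK : Bool :=
  (List.range 27).all fun i =>
    isScalL (threeEls.getD i []) ||
      ((comp (wImg (threeConj.getD i [])) (threeEls.getD i []) ==
          comp (threeEls.getD 2 []) (wImg (threeConj.getD i []))) &&
        !((List.range threeGens.length).all fun k =>
          comp (threeEls.getD i []) (wImg (threeGens.getD k [])) ==
            comp (wImg (threeGens.getD k [])) (threeEls.getD i [])))

theorem threeFusionOK_true : threeFusionOK = true := by decide +kernel

/-- The subgroup of order 27. -/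
noncomputable def threeGrp : Subgroup (Equiv.Perm Vec) :=
  Subgroup.closure {x | ∃ k < threeGens.length, x = wPerm (threeGens.getD k [])}

/-- The chosen element outside the scalars. -/
noncomputable def threeElt : Equiv.Perm Vec := wPerm (threeWord 2)

theorem threeGrp_le : threeGrp ≤ K22 := by
  rw [threeGrp, Subgroup.closure_le]
  rintro x ⟨k, -, rfl⟩
  exact word_mem _

theorem threeSub_facts : threeEls.length = 27 ∧ threeEls.getD 0 [] = idL ∧
    (∀ g ∈ threeEls, comp g (comp g g) = idL ∧
      ∀ k < threeGens.length, comp g (wImg (threeGens.getD k [])) ∈ threeEls) ∧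
    ∀ i < 27, wImg (threeWord i) = threeEls.getD i [] ∧
      comp (threeEls.getD i []) idL = threeEls.getD i [] ∧
      (∀ k ∈ threeIdx.getD i [], k < threeGens.length) ∧
      ∀ j < i, threeEls.getD i [] ≠ threeEls.getD j [] := by
  have h := threeSubOK_true
  simp only [threeSubOK, Bool.and_eq_true, beq_iff_eq, List.all_eq_true, List.contains_iff_mem,
    List.mem_range, Bool.not_eq_true', beq_eq_false_iff_ne, Nat.blt_eq] at h
  exact ⟨Nat.eq_of_beq_eq_true h.1.1.1, h.1.1.2, fun g hg => h.1.2 g hg, fun i hi =>
    ⟨(h.2 i hi).1.1.1, (h.2 i hi).1.1.2, (h.2 i hi).1.2, (h.2 i hi).2⟩⟩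

theorem threeGrp_rep {σ : Equiv.Perm Vec} (hσ : σ ∈ threeGrp) :
    ∃ i < 27, Rep (threeEls.getD i []) σ := by
  classical
  obtain ⟨hlen, h0, hcl, -⟩ := threeSub_facts
  rw [threeGrp] at hσ
  have hmem : σ ∈ Submonoid.closure {x | ∃ k < threeGens.length, x = wPerm (threeGens.getD k [])} := by
    rw [← Subgroup.closure_toSubmonoid_of_finite]
    exact hσ
  induction hmem using Submonoid.closure_induction_right with
  | one => exact ⟨0, by norm_num, h0.symm ▸ Rep.one⟩
  | mul_right x hx y hy ih =>
    obtain ⟨i, hi, hr⟩ := ih ((Subgroup.closure_toSubmonoid_of_finite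
      (s := {x | ∃ k < threeGens.length, x = wPerm (threeGens.getD k [])})).ge hx)
    obtain ⟨k, hk, rfl⟩ := hy
    have hm := (hcl (threeEls.getD i []) (by
      rw [List.getD_eq_getElem _ _ (hlen.symm ▸ hi : i < threeEls.length)]
      exact List.getElem_mem _)).2 k hk
    obtain ⟨j, hj, hje⟩ := List.getElem_of_mem hm
    exact ⟨j, hlen ▸ hj, by rw [List.getD_eq_getElem _ _ hj, hje]; exact hr.mul (rep_word _)⟩

theorem threeWord_mem {i : ℕ} (hi : i < 27) : wPerm (threeWord i) ∈ threeGrp := by
  have hk := (threeSub_facts.2.2.2 i hi).2.2.1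
  unfold threeWord
  generalize threeIdx.getD i [] = ix at hk
  induction ix with
  | nil => exact one_mem threeGrp
  | cons k ix ih =>
    have e : wPerm ((k :: ix).flatMap fun k => threeGens.getD k []) =
        wPerm (threeGens.getD k []) * wPerm (ix.flatMap fun k => threeGens.getD k []) := by
      simp [wPerm, List.map_append, List.prod_append]
    rw [e]
    exact mul_mem (Subgroup.subset_closure ⟨k, hk k List.mem_cons_self, rfl⟩)
      (ih fun j hj => hk j (List.mem_cons_of_mem _ hj))

theorem threeGrp_isPGroup : IsPGroup 3 threeGrp := by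
  intro x
  refine ⟨1, Subtype.ext ?_⟩
  obtain ⟨i, hi, hr⟩ := threeGrp_rep x.2
  obtain ⟨hlen, -, hcl, -⟩ := threeSub_facts
  have h3 := (hcl (threeEls.getD i []) (by
    rw [List.getD_eq_getElem _ _ (hlen.symm ▸ hi : i < threeEls.length)]
    exact List.getElem_mem _)).1
  have h := hr.mul (hr.mul hr)
  rw [h3] at h
  rw [pow_one, Subgroup.coe_pow, Subgroup.coe_one, pow_succ', pow_two]
  exact h.eq Rep.one

theorem card_threeGrp_ge : 27 ≤ Nat.card threeGrp := by
  classical
  have hinj : Function.Injective fun i : Fin 27 =>
      (⟨wPerm (threeWord i), threeWord_mem i.2⟩ : threeGrp) := by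
    intro i j e
    obtain ⟨h1, h2, -, h3⟩ := threeSub_facts.2.2.2 i i.2
    obtain ⟨k1, k2, -, k3⟩ := threeSub_facts.2.2.2 j j.2
    have e' : wPerm (threeWord i) = wPerm (threeWord j) := congrArg Subtype.val e
    have ri := rep_word (threeWord i)
    have rj := rep_word (threeWord j)
    rw [h1] at ri
    rw [k1, ← e'] at rj
    have heq := ri.list_eq rj h2 k2
    rcases lt_trichotomy (i : ℕ) j with hlt | heq' | hlt
    · exact absurd heq.symm (k3 i hlt)
    · exact Fin.ext heq'
    · exact absurd heq (h3 j hlt)
  have := Nat.card_le_card_of_injective _ hinj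
  rwa [Nat.card_fin] at this

theorem mem_scal_of_rep {σ : Equiv.Perm Vec} {g : List ℕ} (hr : Rep g σ) (h : isScalL g = true) :
    σ ∈ scal := by
  simp only [isScalL, Bool.or_eq_true, beq_iff_eq] at h
  rcases h with (h | h) | h <;> subst h
  · rw [hr.eq Rep.one]; exact one_mem _
  · rw [hr.eq rep_omP]; exact Subgroup.mem_zpowers _
  · rw [hr.eq (rep_omP.mul rep_omP)]
    exact mul_mem (Subgroup.mem_zpowers _) (Subgroup.mem_zpowers _)

theorem threeElt_rep : Rep (threeEls.getD 2 []) threeElt := by
  have h := rep_word (threeWord 2)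
  rwa [(threeSub_facts.2.2.2 2 (by norm_num)).1] at h

theorem threeGrp_cases {σ : Equiv.Perm Vec} (hσ : σ ∈ threeGrp) :
    σ ∈ scal ∨ ((∃ k ∈ K22, k * σ * k⁻¹ = threeElt) ∧ ∃ τ ∈ threeGrp, σ * τ ≠ τ * σ) := by
  obtain ⟨i, hi, hr⟩ := threeGrp_rep hσ
  have h := List.all_eq_true.1 threeFusionOK_true i (List.mem_range.2 hi)
  rw [Bool.or_eq_true] at h
  rcases h with h | h
  · exact Or.inl (mem_scal_of_rep hr h)
  simp only [Bool.and_eq_true, beq_iff_eq, Bool.not_eq_true', List.all_eq_false, List.mem_range] at h
  obtain ⟨hconj, k, hk, hne⟩ := h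
  refine Or.inr ⟨⟨wPerm (threeConj.getD i []), word_mem _, ?_⟩, wPerm (threeGens.getD k []),
    Subgroup.subset_closure ⟨k, hk, rfl⟩, fun e => hne ?_⟩
  · rw [mul_inv_eq_iff_eq_mul]
    exact ((rep_word _).mul hr).eq (hconj.symm ▸ threeElt_rep.mul (rep_word _))
  · have h1 := hr.mul (rep_word (threeGens.getD k []))
    have h2 := (rep_word (threeGens.getD k [])).mul hr
    rw [e] at h1
    have hw : ∀ w, comp (wImg w) idL = wImg w := by
      intro w
      have hid : comp idL idL = idL := by decide +kernel
      induction w with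
      | nil => exact hid
      | cons a w ih =>
        show comp (comp (letterL a) (wImg w)) idL = comp (letterL a) (wImg w)
        conv_rhs => rw [← ih]
        simp [comp, List.map_map, Function.comp_def]
        exact fun x _ => apL_comp _ _ x
    have hn : comp (threeEls.getD i []) idL = threeEls.getD i [] := (threeSub_facts.2.2.2 i hi).2.1
    refine h1.list_eq h2 ?_ ?_
    · conv_rhs => rw [← hw]
      simp [comp, List.map_map, Function.comp_def]
      exact fun x _ => apL_comp _ _ x
    · conv_rhs => rw [← hn]
      simp [comp, List.map_map, Function.comp_def]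
      exact fun x _ => apL_comp _ _ x

theorem threeElt_fix : ∃ v : Vec, v ≠ 0 ∧ threeElt v = v := by
  have h : Nat.beq (apL (threeEls.getD 2 []) 280) 280 = true ∧ ¬ enc (0 : Vec) = 280 := by decide +kernel
  have he : enc (vecN 280) = 280 := enc_vecN (by norm_num)
  refine ⟨vecN 280, fun e => h.2 (e ▸ he), enc_injective ?_⟩
  rw [threeElt_rep, he, Nat.eq_of_beq_eq_true h.1]

theorem threeElt_not_scal : threeElt ∉ scal := by
  intro h
  obtain ⟨v, hv, hfix⟩ := threeElt_fix
  obtain ⟨j, hj, he⟩ := mem_scal h
  interval_cases j
  · have hne : ¬ threeEls.getD 2 [] = idL := by decide +kernel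
    rw [pow_zero] at he
    exact hne (threeElt_rep.list_eq (he ▸ Rep.one) (threeSub_facts.2.2.2 2 (by norm_num)).2.1
      (by decide +kernel))
  · rw [he, pow_one, omP_apply] at hfix
    exact hv (funext fun i => by
      have hi := congrFun hfix i
      rw [Pi.smul_apply, smul_eq_mul] at hi; rw [Pi.zero_apply]
      revert hi; generalize v i = x; revert x; decide)
  · rw [he, pow_two, Equiv.Perm.mul_apply, omP_apply, omP_apply, smul_smul] at hfix
    exact hv (funext fun i => by
      have hi := congrFun hfix i
      rw [Pi.smul_apply, smul_eq_mul] at hi; rw [Pi.zero_apply]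
      revert hi; generalize v i = x; revert x; decide)

end Cfsg.Agent.JFourType
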