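import Cfsg.Agent.JFourType.Main
import Cfsg.Agent.JFourType.ThreeModel

/-!
The elements of order 3 of a group of Janko-four type: in the centraliser of the involution they fall
into the class of a generator of `P` and one other class; given that `P` is fused to an element of the
other class and that its normaliser lies in the centraliser, there is one class in the group.
-/

set_option autoImplicit false

namespace Cfsg.Agent.JFourType.ThreeClass

open Cfsg
open Cfsg.Agent.GFour25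
open Cfsg.Agent.SporB.FischerU (Vec)
open Cfsg.Agent.LargeFischer (IsSemi semiU)
open Cfsg.Agent.LargeFischer.Thompson (Ext)
open Cfsg.Agent.JFourType

/-- Two elements of order dividing 3 with one image, modulo a 2-group, are conjugate. -/
theorem conj_of_map_eq {C B : Type*} [Group C] [Finite C] [Group B] (f : C →* B)
    (hker : IsPGroup 2 f.ker) {x y : C} (hx : x ^ 3 = 1) (hy : y ^ 3 = 1) (h : f x = f y) :
    IsConj x y := by
  classical
  haveI : Fact (Nat.Prime 3) := ⟨Nat.prime_three⟩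
  have hone : ∀ a : C, a ^ 3 = 1 → f a = 1 → a = 1 := fun a ha h1 => by
    obtain ⟨n, hn⟩ := hker ⟨a, h1⟩
    have hn' : a ^ 2 ^ n = 1 := congrArg Subtype.val hn
    have := pow_gcd_eq_one.2 ⟨hn', ha⟩
    rwa [show Nat.gcd (2 ^ n) 3 = 1 from Nat.Coprime.pow_left n (by norm_num), pow_one] at this
  by_cases h1 : f x = 1
  · rw [hone x hx h1, hone y hy (h ▸ h1)]
  set S := (Subgroup.zpowers (f x)).comap f with hS
  have hord : orderOf (f x) = 3 := orderOf_eq_prime (by rw [← map_pow, hx, map_one]) h1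
  -- a 3-subgroup of the preimage embeds in the image
  have hsyl : ∀ (a : C) (_ : a ^ 3 = 1) (_ : f a = f x) (haS : a ∈ S) (T : Sylow 3 S),
      (⟨a, haS⟩ : S) ∈ (T : Subgroup S) → (T : Subgroup S) = Subgroup.zpowers ⟨a, haS⟩ := by
    intro a ha hfa haS T haT
    have hinj : Function.Injective fun t : (T : Subgroup S) =>
        (⟨f ((t : S) : C), (t : S).2⟩ : Subgroup.zpowers (f x)) := by
      intro s t e
      have e' : f ((s : S) : C) = f ((t : S) : C) := congrArg Subtype.val e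
      obtain ⟨n, hn⟩ := T.2 (s * t⁻¹)
      have hn' : (((s * t⁻¹ : (T : Subgroup S)) : S) : C) ^ 3 ^ n = 1 := by
        have := congrArg (fun u : (T : Subgroup S) => ((u : S) : C)) hn
        simpa using this
      have hk : f (((s * t⁻¹ : (T : Subgroup S)) : S) : C) = 1 := by simp [e']
      obtain ⟨m, hm⟩ := hker ⟨_, hk⟩
      have hm' : (((s * t⁻¹ : (T : Subgroup S)) : S) : C) ^ 2 ^ m = 1 := congrArg Subtype.val hm
      have := pow_gcd_eq_one.2 ⟨hn', hm'⟩
      rw [show Nat.gcd (3 ^ n) (2 ^ m) = 1 from Nat.Coprime.pow n m (by norm_num), pow_one] at this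
      exact mul_inv_eq_one.1 (Subtype.ext (Subtype.ext this))
    have hle : Nat.card (T : Subgroup S) ≤ 3 := by
      have hc : Nat.card (Subgroup.zpowers (f x)) = 3 := by rw [Nat.card_zpowers, hord]
      haveI : Finite (Subgroup.zpowers (f x)) := Nat.finite_of_card_ne_zero (by omega)
      exact (Nat.card_le_card_of_injective _ hinj).trans hc.le
    have hge : Nat.card (Subgroup.zpowers (⟨a, haS⟩ : S)) = 3 := by
      rw [Nat.card_zpowers]
      exact orderOf_eq_prime (Subtype.ext (by simpa using ha))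
        fun e => h1 (by rw [← hfa, show a = 1 from congrArg Subtype.val e, map_one])
    exact (Subgroup.eq_of_le_of_card_ge (Subgroup.zpowers_le.2 haT) (by omega)).symm
  have hxS : x ∈ S := Subgroup.mem_comap.2 (Subgroup.mem_zpowers _)
  have hyS : y ∈ S := Subgroup.mem_comap.2 (h ▸ Subgroup.mem_zpowers (f x))
  have hp : ∀ (a : S), a ^ 3 = 1 → IsPGroup 3 (Subgroup.zpowers a) := fun a ha b => by
    obtain ⟨_, n, rfl⟩ := b
    refine ⟨1, Subtype.ext ?_⟩
    show (a ^ n) ^ 3 ^ 1 = 1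
    rw [pow_one, ← zpow_natCast, ← zpow_mul, mul_comm, zpow_mul, zpow_natCast, ha, one_zpow]
  obtain ⟨Tx, hTx⟩ := (hp ⟨x, hxS⟩ (Subtype.ext (by simpa using hx))).exists_le_sylow
  obtain ⟨Ty, hTy⟩ := (hp ⟨y, hyS⟩ (Subtype.ext (by simpa using hy))).exists_le_sylow
  obtain ⟨s, hs⟩ := MulAction.exists_smul_eq S Tx Ty
  have hx' := hsyl x hx rfl hxS Tx (hTx (Subgroup.mem_zpowers _))
  have hy' := hsyl y hy h.symm hyS Ty (hTy (Subgroup.mem_zpowers _))
  have hm : (MulAut.conj s) (⟨x, hxS⟩ : S) ∈ (Ty : Subgroup S) := by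
    rw [← hs, Sylow.coe_subgroup_smul]
    exact Subgroup.smul_mem_pointwise_smul _ _ _ (hx' ▸ Subgroup.mem_zpowers _)
  rw [hy'] at hm
  obtain ⟨n, hn⟩ := hm
  have hn' : y ^ n = (s : C) * x * (s : C)⁻¹ := by simpa using congrArg Subtype.val hn
  have hfx : f ((s : C) * x * (s : C)⁻¹) = f x := by
    obtain ⟨m, hm⟩ := Subgroup.mem_zpowers_iff.1 (Subgroup.mem_comap.1 s.2)
    rw [map_mul, map_mul, map_inv, ← hm, ((Commute.refl (f x)).zpow_left m).eq, mul_inv_cancel_right]
  have hy1 : y ^ n = y := by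
    have e1 : (f y) ^ (n - 1) = 1 := by
      rw [zpow_sub, zpow_one, ← map_zpow, hn', hfx, h, mul_inv_cancel]
    have hoy : orderOf (f y) = 3 := by rw [← h, hord]
    have hd := orderOf_dvd_iff_zpow_eq_one.2 e1
    rw [hoy] at hd
    obtain ⟨j, hj⟩ := hd
    rw [show n = 1 + 3 * j by push_cast at hj; omega, zpow_add, zpow_one, zpow_mul,
      show y ^ (3 : ℤ) = 1 by exact_mod_cast hy, one_zpow, mul_one]
  exact isConj_iff.2 ⟨s, by rw [← hn', hy1]⟩

section Image

variable {R : Subgroup (Equiv.Perm Vec)} (hK : K22 ≤ R) (hcK : Nat.card K22 = 1330560)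
  (hcR : Nat.card R = 2661120)

include hK hcK hcR in
theorem index_eq : (K22.subgroupOf R).index = 2 := by
  have h := (K22.subgroupOf R).card_mul_index
  rw [Nat.card_congr (Subgroup.subgroupOfEquivOfLe hK).toEquiv, hcK, hcR] at h
  omega

include hK hcK hcR in
/-- Elements of the image with order dividing 27 lie in the triple cover. -/
theorem odd_mem {σ : Equiv.Perm Vec} (hσ : σ ∈ R) (h27 : σ ^ 27 = 1) : σ ∈ K22 := by
  have h := Subgroup.sq_mem_of_index_two (index_eq hK hcK hcR) (⟨σ, hσ⟩ ^ 14 : R)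
  rw [← pow_mul] at h
  have h' : σ ^ (14 * 2) ∈ K22 := h
  rwa [show 14 * 2 = 27 + 1 by norm_num, pow_succ, h27, one_mul] at h'

include hcK in
theorem card_threeGrp : Nat.card threeGrp = 27 := by
  haveI : Fact (Nat.Prime 3) := ⟨Nat.prime_three⟩
  obtain ⟨n, hn⟩ := IsPGroup.iff_card.1 threeGrp_isPGroup
  have hd := Subgroup.card_dvd_of_le threeGrp_le
  have h27 := card_threeGrp_ge
  rw [hn] at h27 hd ⊢
  rw [hcK] at hd
  have h3 : n ≤ 3 := by
    by_contra hlt
    exact absurd ((Nat.pow_dvd_pow 3 (by omega : 4 ≤ n)).trans hd) (by norm_num)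
  interval_cases n <;> simp_all

include hcK in
/-- A 3-subgroup of the triple cover is conjugate into the listed one. -/
theorem conj_into {T : Subgroup (Equiv.Perm Vec)} (hT : T ≤ K22) (hp : IsPGroup 3 T) :
    ∃ k ∈ K22, ∀ σ ∈ T, k * σ * k⁻¹ ∈ threeGrp := by
  classical
  haveI : Fact (Nat.Prime 3) := ⟨Nat.prime_three⟩
  have hp1 : IsPGroup 3 (T.subgroupOf K22) :=
    hp.of_injective (Subgroup.subgroupOfEquivOfLe hT).toMonoidHom
      (Subgroup.subgroupOfEquivOfLe hT).injective
  obtain ⟨S1, hS1⟩ := hp1.exists_le_sylow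
  have hcard : Nat.card (threeGrp.subgroupOf K22) =
      3 ^ (Nat.card K22).factorization 3 := by
    rw [Nat.card_congr (Subgroup.subgroupOfEquivOfLe threeGrp_le).toEquiv, card_threeGrp hcK, hcK,
      show (1330560 : ℕ) = 3 ^ 3 * 49280 by norm_num, Nat.factorization_mul (by norm_num) (by norm_num),
      Finsupp.add_apply, Nat.factorization_pow, Finsupp.smul_apply,
      Nat.Prime.factorization_self Nat.prime_three,
      Nat.factorization_eq_zero_of_not_dvd (show ¬ 3 ∣ 49280 by norm_num)]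
    norm_num
  obtain ⟨k, hk⟩ := MulAction.exists_smul_eq K22 S1 (Sylow.ofCard _ hcard)
  refine ⟨k, k.2, fun σ hσ => ?_⟩
  have h : (MulAut.conj k) (⟨σ, hT hσ⟩ : K22) ∈ (Sylow.ofCard _ hcard : Sylow 3 K22).toSubgroup := by
    rw [← hk, Sylow.coe_subgroup_smul]
    exact Subgroup.smul_mem_pointwise_smul _ _ _ (hS1 hσ)
  rw [Sylow.coe_ofCard, Subgroup.mem_subgroupOf] at h
  simpa using h

theorem K22_commute {s k : Equiv.Perm Vec} (hs : s ∈ scal) (hk : k ∈ K22) : k * s = s * k :=
  (scal_commute hs (K22_linear hk)).eq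

theorem scal_of_conj {s k : Equiv.Perm Vec} (hk : k ∈ K22) (hs : k * s * k⁻¹ ∈ scal) : s ∈ scal := by
  have h := K22_commute hs hk
  have e : k * s * k⁻¹ = s := by
    have : k * (k * s * k⁻¹) = k * s := by rw [h]; group
    exact mul_left_cancel this
  rwa [e] at hs

include hK hcK hcR in
/-- The elements of order 3 of the image. -/
theorem image_cases {σ : Equiv.Perm Vec} (hσ : σ ∈ R) (h3 : σ ^ 3 = 1) :
    σ ∈ scal ∨ ∃ k ∈ K22, k * σ * k⁻¹ = threeElt := by
  have hσK : σ ∈ K22 := odd_mem hK hcK hcR hσ (by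
    rw [show 27 = 3 * 9 by norm_num, pow_mul, h3, one_pow])
  obtain ⟨k, hk, hk'⟩ := conj_into hcK (Subgroup.zpowers_le.2 hσK) (fun b => by
    obtain ⟨_, n, rfl⟩ := b
    refine ⟨1, Subtype.ext ?_⟩
    show (σ ^ n) ^ 3 ^ 1 = 1
    rw [pow_one, ← zpow_natCast, ← zpow_mul, mul_comm, zpow_mul, zpow_natCast, h3, one_zpow])
  rcases threeGrp_cases (hk' σ (Subgroup.mem_zpowers σ)) with h | ⟨⟨k', hk1, hk2⟩, -⟩
  · exact Or.inl (scal_of_conj hk h)
  · exact Or.inr ⟨k' * k, mul_mem hk1 hk, by rw [← hk2]; group⟩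

theorem scal_fix {s : Equiv.Perm Vec} (hs : s ∈ scal) (hne : s ≠ 1) {v : Vec} (hv : s v = v) :
    v = 0 := by
  obtain ⟨j, hj, he⟩ := mem_scal hs
  interval_cases j
  · exact absurd (by rw [he, pow_zero]) hne
  · rw [he, pow_one, omP_apply] at hv
    exact funext fun i => by
      have hi := congrFun hv i
      rw [Pi.smul_apply, smul_eq_mul] at hi; rw [Pi.zero_apply]
      revert hi; generalize v i = x; revert x; decide
  · rw [he, pow_two, Equiv.Perm.mul_apply, omP_apply, omP_apply, smul_smul] at hv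
    exact funext fun i => by
      have hi := congrFun hv i
      rw [Pi.smul_apply, smul_eq_mul] at hi; rw [Pi.zero_apply]
      revert hi; generalize v i = x; revert x; decide

theorem scal_two {s t : Equiv.Perm Vec} (hs : s ∈ scal) (ht : t ∈ scal) (hs1 : s ≠ 1) (ht1 : t ≠ 1) :
    t = s ∨ t = s⁻¹ := by
  obtain ⟨i, hi, rfl⟩ := mem_scal hs
  obtain ⟨j, hj, rfl⟩ := mem_scal ht
  have h3 := omP_pow_three
  interval_cases i <;> interval_cases j
  all_goals first
    | exact absurd (pow_zero omP) hs1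
    | exact absurd (pow_zero omP) ht1
    | exact Or.inl rfl
    | exact Or.inr (eq_inv_of_mul_eq_one_left (by rw [← pow_add]; exact h3))

end Image

/-- The centraliser of the involution with its image containing the concrete triple cover. -/
theorem exists_ext_three {G : Type*} [Group G] [Finite G] {z : G} {P : Subgroup G}
    (hJ : IsOfJankoFourTypeWith z P) :
    ∃ (rho : Subgroup.centralizer ({z} : Set G) →* Equiv.Perm Vec)
      (psi : pCore 2 (Subgroup.centralizer ({z} : Set G)) → Vec),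
      Ext (pCore 2 (Subgroup.centralizer ({z} : Set G)))
        ⟨z, Subgroup.mem_centralizer_singleton_iff.2 rfl⟩ rho psi ∧
      K22 ≤ rho.range ∧ Nat.card K22 = 1330560 ∧ Nat.card rho.range = 2661120 := by
  obtain ⟨rho, psi, M, q, D, -, hlin, -, -, -, hlift, hscal, hker, hcM, hcR⟩ := exists_frame hJ
  obtain ⟨g, hg, hgK⟩ := exists_conjugate rho M q hlin hlift hscal hker hcM
  refine ⟨_, _, ext_conj D hg, ?_, ?_, ?_⟩
  · rw [← hgK, MonoidHom.range_comp]
    exact Subgroup.map_mono (Subgroup.map_le_range _ _)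
  · rw [← hgK, Subgroup.card_map_of_injective (MulAut.conj g).injective, hcM]
  · rw [MonoidHom.range_comp, Subgroup.card_map_of_injective (MulAut.conj g).injective, hcR]

section Centraliser

variable {H : Type*} [Group H] [Finite H] {Q : Subgroup H} [Q.Normal] {z : H}
  {rho : H →* Equiv.Perm Vec} {psi : Q → Vec} (D : Ext Q z rho psi)
  (hK : K22 ≤ rho.range) (hcK : Nat.card K22 = 1330560) (hcR : Nat.card rho.range = 2661120)

include D in
theorem ker_two : IsPGroup 2 rho.ker := by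
  rw [D.ker_rho]
  exact IsPGroup.of_card (n := 13) (by rw [D.card_q]; norm_num)

include D in
theorem rho_ne {x : H} (hx : orderOf x = 3) : rho x ≠ 1 := by
  intro h
  have h2 : x ^ 8192 = 1 := by
    have := pow_card_eq_one' (x := (⟨x, D.mem_q h⟩ : Q))
    rw [D.card_q] at this
    exact congrArg Subtype.val this
  have := orderOf_dvd_of_pow_eq_one h2
  rw [hx] at this
  norm_num at this

omit [Finite H] in
include D hK hcK hcR in
/-- Scalar image exactly when only `1` and `z` of the 2-core are fixed. -/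
theorem fixed_of_not_scal {x : H} (hx : orderOf x = 3) (hs : rho x ∉ scal) :
    ∃ a ∈ Q, a ≠ 1 ∧ a ≠ z ∧ x * a = a * x := by
  have hx3 : x ^ 3 = 1 := hx ▸ pow_orderOf_eq_one x
  obtain ⟨k, hk, he⟩ := (image_cases hK hcK hcR ⟨x, rfl⟩ (by rw [← map_pow, hx3, map_one])).resolve_left hs
  obtain ⟨v, hv, hfix⟩ := threeElt_fix
  have hk0 : k 0 = 0 := by simpa using (K22_linear hk).1 0 0
  have hu : rho x (k⁻¹ v) = k⁻¹ v := by
    apply k.injective
    rw [← he] at hfix
    simpa [Equiv.Perm.mul_apply] using hfix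
  have hu0 : k⁻¹ v ≠ 0 := fun e => hv (by
    have := congrArg k e
    rwa [hk0, show k (k⁻¹ v) = v by simp] at this)
  obtain ⟨a, ha⟩ := D.psi_surj (k⁻¹ v)
  have hne : ¬ ((a : H) = 1 ∨ (a : H) = z) := fun e => hu0 (ha ▸ (D.psi_ker a).2 e)
  refine ⟨a, a.2, fun e => hne (Or.inl e), fun e => hne (Or.inr e), ?_⟩
  have hc := D.psi_conj x a
  rw [ha, hu, ← ha] at hc
  rcases D.eq_of_psi hc with e | e
  · exact mul_inv_eq_iff_eq_mul.1 e
  exfalso
  have e' : x * a * x⁻¹ = (a : H) * z := e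
  have hxz : ∀ b : H, x * (b * z) * x⁻¹ = x * b * x⁻¹ * z := fun b => by
    rw [← mul_assoc, mul_assoc (x * b) z x⁻¹, ← D.z_central, ← mul_assoc]
  have e2 : x * (x * a * x⁻¹) * x⁻¹ = a := by
    rw [e', hxz, e', mul_assoc, D.z_sq, mul_one]
  have e3 : x * a * x⁻¹ = a := by
    have h3 : x * (x * (x * a * x⁻¹) * x⁻¹) * x⁻¹ = a := by
      calc _ = x ^ 3 * a * (x ^ 3)⁻¹ := by simp only [pow_succ, pow_zero, one_mul, mul_inv_rev, mul_assoc]
        _ = a := by rw [hx3]; group
    rwa [e2] at h3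
  rw [e3] at e'
  exact D.z_ne (mul_left_cancel (a := (a : H)) (by rw [mul_one]; exact e'.symm))

include D in
theorem fixed_of_scal {x : H} (hx : orderOf x = 3) (hs : rho x ∈ scal) {a : H} (ha : a ∈ Q)
    (hc : x * a = a * x) : a = 1 ∨ a = z := by
  refine (D.psi_ker ⟨a, ha⟩).1 (scal_fix hs (rho_ne D hx) ?_)
  rw [← D.psi_conj]
  exact congrArg psi (Subtype.ext (by show x * a * x⁻¹ = a; rw [hc, mul_inv_cancel_right]))

include D in
theorem conj_of_image {x y : H} (hx : orderOf x = 3) (hy : orderOf y = 3) {σ : Equiv.Perm Vec}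
    (hσ : σ ∈ rho.range) (h : σ * rho x * σ⁻¹ = rho y) : IsConj x y := by
  obtain ⟨c, rfl⟩ := hσ
  refine (isConj_iff.2 ⟨c, rfl⟩ : IsConj x (c * x * c⁻¹)).trans
    (conj_of_map_eq rho (ker_two D) ?_ (hy ▸ pow_orderOf_eq_one y) (by simpa using h))
  rw [conj_pow, show x ^ 3 = 1 from hx ▸ pow_orderOf_eq_one x, mul_one, mul_inv_cancel]

include D hK hcK hcR in
theorem conj_not_scal {x y : H} (hx : orderOf x = 3) (hy : orderOf y = 3) (hxs : rho x ∉ scal)
    (hys : rho y ∉ scal) : IsConj x y := by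
  have h3 : ∀ a : H, orderOf a = 3 → (rho a) ^ 3 = 1 := fun a ha => by
    rw [← map_pow, ← ha, pow_orderOf_eq_one, map_one]
  obtain ⟨k, hk, he⟩ := (image_cases hK hcK hcR ⟨x, rfl⟩ (h3 x hx)).resolve_left hxs
  obtain ⟨l, hl, hf⟩ := (image_cases hK hcK hcR ⟨y, rfl⟩ (h3 y hy)).resolve_left hys
  refine conj_of_image D hx hy (σ := l⁻¹ * k) (mul_mem (inv_mem (hK hl)) (hK hk)) ?_
  calc l⁻¹ * k * rho x * (l⁻¹ * k)⁻¹ = l⁻¹ * (k * rho x * k⁻¹) * l := by group
    _ = l⁻¹ * (l * rho y * l⁻¹) * l := by rw [he, hf]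
    _ = rho y := by group

include D in
theorem conj_scal {x y h : H} (hx : orderOf x = 3) (hy : orderOf y = 3) (hxs : rho x ∈ scal)
    (hys : rho y ∈ scal) (hh : h * x * h⁻¹ = x⁻¹) : IsConj x y := by
  rcases scal_two hxs hys (rho_ne D hx) (rho_ne D hy) with e | e
  · exact conj_of_image D hx hy (one_mem _) (by rw [e]; group)
  · refine conj_of_image D hx hy ⟨h, rfl⟩ ?_
    rw [e, ← map_inv, ← map_mul, ← map_mul, hh, map_inv]

end Centraliser

/-- One class of elements of order 3, from the two facts about the normaliser of `P`. -/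
theorem one_class {G : Type*} [Group G] [Finite G] {z : G} {P : Subgroup G}
    (hJ : IsOfJankoFourTypeWith z P)
    (hNP : Subgroup.normalizer (P : Set G) ≤ Subgroup.centralizer ({z} : Set G))
    (hfus : ∃ g : G, g * z * g⁻¹ ≠ z ∧
      g * z * g⁻¹ ∈ Subgroup.centralizer ({z} : Set G) ⊓ Subgroup.centralizer (P : Set G))
    (x y : G) (hx : orderOf x = 3) (hy : orderOf y = 3) : IsConj x y := by
  classical
  haveI : Fact (Nat.Prime 3) := ⟨Nat.prime_three⟩
  haveI : Fact (Nat.Prime 2) := ⟨Nat.prime_two⟩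
  set C := Subgroup.centralizer ({z} : Set G) with hC
  obtain ⟨rho, psi, D, hK, hcK, hcR⟩ := exists_ext_three hJ
  obtain ⟨-, -, -, -, ⟨N, -, hNC, -, -, -, hPN⟩, hP3, hfix, hne, -⟩ := hJ
  obtain ⟨p, hp3⟩ := exists_prime_orderOf_dvd_card' (G := P) 3 (by rw [hP3])
  have hPC : P ≤ C := hPN.trans hNC
  set x0 : C := ⟨(p : G), hPC p.2⟩ with hx0
  have ho : ∀ a : C, orderOf a = orderOf (a : G) := fun a => (Subgroup.orderOf_coe a).symm
  have hx0o : orderOf x0 = 3 := by rw [ho, hx0]; simpa using hp3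
  have hPgen : Subgroup.zpowers (p : G) = P :=
    Subgroup.eq_of_le_of_card_ge (Subgroup.zpowers_le.2 p.2) (by
      rw [hP3, Nat.card_zpowers, Subgroup.orderOf_coe, hp3])
  have hcP : ∀ a : G, a * (p : G) = (p : G) * a → a ∈ Subgroup.centralizer (P : Set G) := by
    intro a ha
    rw [Subgroup.mem_centralizer_iff]
    intro b hb
    rw [← hPgen] at hb
    obtain ⟨n, rfl⟩ := hb
    exact ((show Commute a (p : G) from ha).zpow_right n).eq.symm
  have hscal0 : rho x0 ∈ scal := by
    by_contra hs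
    obtain ⟨a, haQ, ha1, haz, hc⟩ := fixed_of_not_scal D hK hcK hcR hx0o hs
    have hm : (a : G) ∈ twoCoreOfCentralizer z ⊓ Subgroup.centralizer (P : Set G) :=
      ⟨⟨a, haQ, rfl⟩, hcP _ (congrArg Subtype.val hc).symm⟩
    rw [hfix] at hm
    obtain ⟨n, hn⟩ := hm
    have hz2 : z ^ (2 : ℤ) = 1 := by
      rw [show (2 : ℤ) = ((2 : ℕ) : ℤ) from rfl, zpow_natCast, pow_two]
      exact congrArg Subtype.val D.z_sq
    have hn' : (a : G) = z ^ n := hn.symm
    rcases Int.even_or_odd n with ⟨m, rfl⟩ | ⟨m, rfl⟩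
    · exact ha1 (Subtype.ext (by rw [hn', ← two_mul, zpow_mul, hz2, one_zpow]; rfl))
    · exact haz (Subtype.ext (by rw [hn', zpow_add, zpow_mul, hz2, one_zpow, one_mul, zpow_one]))
  -- an element inverting the generator
  obtain ⟨h, hh⟩ : ∃ h : C, h * x0 * h⁻¹ = x0⁻¹ := by
    obtain ⟨h, hhN, hhC⟩ : ∃ h, h ∈ C ⊓ Subgroup.normalizer (P : Set G) ∧
        h ∉ C ⊓ Subgroup.centralizer (P : Set G) := by
      by_contra hall
      push Not at hall
      exact hne (le_antisymm hall (inf_le_inf_left _ (Subgroup.centralizer_le_normalizer _)))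
    refine ⟨⟨h, hhN.1⟩, Subtype.ext ?_⟩
    have hm : h * (p : G) * h⁻¹ ∈ P := (Subgroup.mem_normalizer_iff.1 hhN.2 _).1 p.2
    obtain ⟨n, hn⟩ := Subgroup.mem_zpowers_iff.1 (hPgen.ge hm)
    have hp3' : (p : G) ^ (3 : ℤ) = 1 := by
      rw [show (3 : ℤ) = ((3 : ℕ) : ℤ) from rfl, zpow_natCast, ← Subgroup.coe_pow, ← hp3,
        pow_orderOf_eq_one, Subgroup.coe_one]
    have hn' : h * (p : G) * h⁻¹ = (p : G) ^ (n % 3) := by
      show _ = _
      rw [← show (p : G) ^ n = h * (p : G) * h⁻¹ from hn]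
      conv_lhs => rw [← Int.mul_ediv_add_emod n 3, zpow_add, zpow_mul, hp3', one_zpow, one_mul]
    show h * (p : G) * h⁻¹ = (p : G)⁻¹
    have h3 := Int.emod_nonneg n (show (3 : ℤ) ≠ 0 by norm_num)
    have h3' := Int.emod_lt_of_pos n (show (0 : ℤ) < 3 by norm_num)
    obtain h0 | h1 | h2 : n % 3 = 0 ∨ n % 3 = 1 ∨ n % 3 = 2 := by omega
    · rw [h0, zpow_zero, mul_inv_eq_one] at hn'
      have : (p : G) = 1 := mul_left_cancel (a := h) (by rw [mul_one]; exact hn')
      rw [← Subgroup.orderOf_coe, this, orderOf_one] at hp3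
      norm_num at hp3
    · rw [h1, zpow_one] at hn'
      exact absurd ⟨hhN.1, hcP _ (mul_inv_eq_iff_eq_mul.1 hn')⟩ hhC
    · rw [hn', h2]
      exact eq_inv_of_mul_eq_one_left (by
        rw [← zpow_add_one]
        exact hp3')
  -- the conjugate of `p` outside the type of `P`
  obtain ⟨g, hgne, hgC, hgP⟩ := hfus
  have hx1C : g⁻¹ * (p : G) * g ∈ C := by
    have hcomm : (p : G) * (g * z * g⁻¹) = g * z * g⁻¹ * p :=
      Subgroup.mem_centralizer_iff.1 hgP _ p.2
    refine Subgroup.mem_centralizer_singleton_iff.2 ?_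
    calc g⁻¹ * (p : G) * g * z = g⁻¹ * ((p : G) * (g * z * g⁻¹)) * g := by group
      _ = g⁻¹ * (g * z * g⁻¹ * p) * g := by rw [hcomm]
      _ = z * (g⁻¹ * p * g) := by group
  set x1 : C := ⟨_, hx1C⟩ with hx1
  have hx1o : orderOf x1 = 3 := by
    rw [ho, ← hp3, ← Subgroup.orderOf_coe p]
    exact (MulAut.conj g⁻¹).orderOf_eq (p : G) ▸ by simp [hx1]
  have hcen : ∀ a : G, a * (p : G) * a⁻¹ = (p : G) → a ∈ C := fun a ha =>
    hNP (Subgroup.centralizer_le_normalizer _ (hcP a (mul_inv_eq_iff_eq_mul.1 ha)))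
  have hscal1 : rho x1 ∉ scal := by
    intro hs
    obtain ⟨c, hc⟩ := isConj_iff.1 (conj_scal D hx0o hx1o hscal0 hs hh)
    have hc' : (c : G) * p * (c : G)⁻¹ = g⁻¹ * p * g := congrArg Subtype.val hc
    have hgc : g * (c : G) ∈ C := hcen _ (by
      calc g * (c : G) * p * (g * (c : G))⁻¹ = g * ((c : G) * p * (c : G)⁻¹) * g⁻¹ := by group
        _ = p := by rw [hc']; group)
    have hg : g ∈ C := by simpa using mul_mem hgc (inv_mem c.2)
    exact hgne (mul_inv_eq_iff_eq_mul.2 (Subgroup.mem_centralizer_singleton_iff.1 hg))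
  -- every element of order 3 of the centraliser is conjugate to `p`
  have hclass : ∀ a : C, orderOf a = 3 → IsConj (p : G) (a : G) := by
    intro a ha
    by_cases hs : rho a ∈ scal
    · exact C.subtype.map_isConj (conj_scal D hx0o ha hscal0 hs hh)
    · exact (isConj_iff.2 ⟨g⁻¹, by simp [hx1]⟩ : IsConj (p : G) (x1 : G)).trans
        (C.subtype.map_isConj (conj_not_scal D hK hcK hcR hx1o ha hscal1 hs))
  -- a Sylow 3-subgroup of the centraliser is one of the group
  have hcardC : (Nat.card C).factorization 3 = 3 := by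
    have h := D.card_split (⊤ : Subgroup C)
    rw [← MonoidHom.range_eq_map, hcR, top_inf_eq, Subgroup.card_top, D.card_q] at h
    rw [h, show 2661120 * 8192 = 3 ^ 3 * 807403520 by norm_num,
      Nat.factorization_mul (by norm_num) (by norm_num), Finsupp.add_apply, Nat.factorization_pow,
      Finsupp.smul_apply, Nat.Prime.factorization_self Nat.prime_three,
      Nat.factorization_eq_zero_of_not_dvd (show ¬ 3 ∣ 807403520 by norm_num)]
    norm_num
  have hPp : IsPGroup 3 (Subgroup.zpowers x0) := IsPGroup.of_card (n := 1) (by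
    rw [Nat.card_zpowers, hx0o, pow_one])
  obtain ⟨T0, hT0⟩ := hPp.exists_le_sylow
  have hcT : Nat.card (T0 : Subgroup C) = 27 := by
    rw [Sylow.card_eq_multiplicity, hcardC]; norm_num
  have hT0K : (T0 : Subgroup C).map rho ≤ K22 := by
    rintro _ ⟨t, ht, rfl⟩
    refine odd_mem hK hcK hcR ⟨t, rfl⟩ ?_
    have := pow_card_eq_one' (x := (⟨t, ht⟩ : (T0 : Subgroup C)))
    rw [hcT] at this
    rw [← map_pow, show t ^ 27 = 1 from congrArg Subtype.val this, map_one]
  obtain ⟨k, hk, hkT⟩ := conj_into hcK hT0K (T0.2.map rho)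
  set T := (T0 : Subgroup C).map C.subtype with hTdef
  have hTC : T ≤ C := Subgroup.map_subtype_le _
  have hx0cen : ∀ t : C, t ∈ (T0 : Subgroup C) → t * x0 = x0 * t := by
    intro t ht
    have hm : t * x0 * t⁻¹ * x0⁻¹ ∈ (T0 : Subgroup C) :=
      mul_mem (mul_mem (mul_mem ht (hT0 (Subgroup.mem_zpowers _))) (inv_mem ht))
        (inv_mem (hT0 (Subgroup.mem_zpowers _)))
    have h1 : rho (t * x0 * t⁻¹ * x0⁻¹) = 1 := by
      simp only [map_mul, map_inv]
      rw [K22_commute hscal0 (hT0K ⟨t, ht, rfl⟩)]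
      group
    have h2 : (t * x0 * t⁻¹ * x0⁻¹) ^ 27 = 1 := by
      have := pow_card_eq_one' (x := (⟨_, hm⟩ : (T0 : Subgroup C)))
      rw [hcT] at this
      exact congrArg Subtype.val this
    obtain ⟨m, hm2⟩ := ker_two D ⟨_, h1⟩
    have h3 : (t * x0 * t⁻¹ * x0⁻¹) ^ 2 ^ m = 1 := congrArg Subtype.val hm2
    have := pow_gcd_eq_one.2 ⟨h2, h3⟩
    rw [show Nat.gcd 27 (2 ^ m) = 1 from Nat.Coprime.pow_right m (by norm_num), pow_one] at this
    exact mul_inv_eq_iff_eq_mul.1 (mul_inv_eq_one.1 this)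
  have hNT : Subgroup.normalizer (T : Set G) ≤ C := by
    intro a ha
    have hpT : (p : G) ∈ T := ⟨x0, hT0 (Subgroup.mem_zpowers _), rfl⟩
    obtain ⟨x', hx'T, hx'⟩ := (Subgroup.mem_normalizer_iff.1 ha _).1 hpT
    have hx'o : orderOf x' = 3 := by
      rw [ho, ← hp3, ← Subgroup.orderOf_coe p, show (x' : G) = a * p * a⁻¹ from hx']
      exact (MulAut.conj a).orderOf_eq (p : G)
    have hx's : rho x' ∈ scal := by
      by_contra hs
      rcases threeGrp_cases (hkT _ ⟨x', hx'T, rfl⟩) with h' | ⟨-, τ, hτ, hτne⟩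
      · exact hs (scal_of_conj hk h')
      -- `x'` is central in `T0`, so its image is central in the listed group
      have hmap : ((T0 : Subgroup C).map rho).map (MulAut.conj k).toMonoidHom = threeGrp := by
        refine Subgroup.eq_of_le_of_card_ge ?_ ?_
        · rintro _ ⟨σ, hσ, rfl⟩
          exact hkT σ hσ
        · have h := D.card_split (T0 : Subgroup C)
          rw [hcT] at h
          have h1 : Nat.card ((T0 : Subgroup C) ⊓ pCore 2 C : Subgroup C) = 1 := by
            have ha := Subgroup.card_dvd_of_le (inf_le_left : (T0 : Subgroup C) ⊓ pCore 2 C ≤ _)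
            have hb := Subgroup.card_dvd_of_le (inf_le_right : (T0 : Subgroup C) ⊓ pCore 2 C ≤ _)
            rw [hcT] at ha
            rw [D.card_q] at hb
            exact Nat.eq_one_of_dvd_coprimes (by norm_num) ha hb
          rw [h1, mul_one] at h
          rw [card_threeGrp hcK, Subgroup.card_map_of_injective (MulAut.conj k).injective, ← h]
      rw [← hmap] at hτ
      obtain ⟨_, ⟨t, ht, rfl⟩, rfl⟩ := hτ
      obtain ⟨t', ht', htt⟩ := (Subgroup.mem_normalizer_iff.1 ha (a⁻¹ * (t : G) * a)).2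
        (by rw [show a * (a⁻¹ * (t : G) * a) * a⁻¹ = t by group]; exact ⟨t, ht, rfl⟩)
      have e1 : (t' : G) * p = p * t' := congrArg Subtype.val (hx0cen t' ht')
      have e2 : t * x' = x' * t := Subtype.ext (by
        have et : (t : G) = a * t' * a⁻¹ := by
          rw [show (t' : G) = a⁻¹ * t * a from htt]; group
        have ex : (x' : G) = a * p * a⁻¹ := hx'
        show (t : G) * x' = x' * t
        rw [et, ex]
        calc a * t' * a⁻¹ * (a * p * a⁻¹) = a * (t' * p) * a⁻¹ := by group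
          _ = a * (p * t') * a⁻¹ := by rw [e1]
          _ = a * p * a⁻¹ * (a * t' * a⁻¹) := by group)
      refine hτne ?_
      show k * rho x' * k⁻¹ * (MulAut.conj k (rho t)) = MulAut.conj k (rho t) * (k * rho x' * k⁻¹)
      rw [← MulAut.conj_apply, ← map_mul, ← map_mul, ← map_mul, ← map_mul, e2]
    obtain ⟨c, hc⟩ := isConj_iff.1 (conj_scal D hx0o hx'o hscal0 hx's hh)
    have hc' : (c : G) * p * (c : G)⁻¹ = a * p * a⁻¹ :=
      (congrArg Subtype.val hc).trans hx'
    have hac : (c : G)⁻¹ * a ∈ C := hcen _ (by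
      calc (c : G)⁻¹ * a * p * ((c : G)⁻¹ * a)⁻¹ = (c : G)⁻¹ * (a * p * a⁻¹) * c := by group
        _ = p := by rw [← hc']; group)
    simpa using mul_mem c.2 hac
  have hTp : IsPGroup 3 T := T0.2.map _
  obtain ⟨S, hS⟩ := hTp.exists_le_sylow
  have hST : (S : Subgroup G) = T := by
    by_contra hne'
    have hlt : T.subgroupOf (S : Subgroup G) < ⊤ :=
      lt_top_iff_ne_top.2 fun e => hne' (le_antisymm (Subgroup.subgroupOf_eq_top.1 e) hS)
    haveI : Group.IsNilpotent (S : Subgroup G) := S.2.isNilpotent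
    have hnc := Group.normalizerCondition_of_isNilpotent (G := (S : Subgroup G)) _ hlt
    obtain ⟨s, hsN, hsT⟩ := SetLike.exists_of_lt hnc
    have hsG : (s : G) ∈ Subgroup.normalizer (T : Set G) := by
      rw [Subgroup.mem_normalizer_iff]
      intro b
      constructor
      · intro hb
        exact (Subgroup.mem_normalizer_iff.1 hsN ⟨b, hS hb⟩).1 hb
      · intro hb
        have hbS : b ∈ (S : Subgroup G) := by
          have := mul_mem (mul_mem (inv_mem s.2) (hS hb)) s.2
          simpa [mul_assoc] using this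
        exact (Subgroup.mem_normalizer_iff.1 hsN ⟨b, hbS⟩).2 hb
    have hle : (T0 : Subgroup C) ≤ (S : Subgroup G).subgroupOf C := fun b hb => hS ⟨b, hb, rfl⟩
    have hpS : IsPGroup 3 ((S : Subgroup G).subgroupOf C) :=
      S.2.comap_of_injective C.subtype C.subtype_injective
    have heq : (S : Subgroup G).subgroupOf C = T0 := T0.3 hpS hle
    refine hsT (Subgroup.mem_subgroupOf.2 ⟨⟨(s : G), hNT hsG⟩, ?_, rfl⟩)
    rw [← heq]
    exact s.2
  have hall : ∀ a : G, orderOf a = 3 → IsConj (p : G) a := by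
    intro a ha
    have hp1 : IsPGroup 3 (Subgroup.zpowers a) :=
      IsPGroup.of_card (n := 1) (by rw [Nat.card_zpowers, ha, pow_one])
    obtain ⟨S', hS'⟩ := hp1.exists_le_sylow
    obtain ⟨c, hc⟩ := MulAction.exists_smul_eq G S' S
    have hm : (MulAut.conj c) a ∈ (S : Subgroup G) := by
      rw [← hc, Sylow.coe_subgroup_smul]
      exact Subgroup.smul_mem_pointwise_smul _ _ _ (hS' (Subgroup.mem_zpowers a))
    rw [hST] at hm
    have h1 := hclass ⟨_, hTC hm⟩ (by rw [ho]; exact ((MulAut.conj c).orderOf_eq a).trans ha)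
    exact h1.trans (isConj_iff.2 ⟨c⁻¹, by simp [mul_assoc]⟩)
  exact (hall x hx).symm.trans (hall y hy)

end Cfsg.Agent.JFourType.ThreeClass
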