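import Cfsg.Agent.JFourType.PentadBase
import Cfsg.Agent.JFourType.PentadSplit
import Cfsg.Agent.JFourType.ThreeClass
import Cfsg.Agent.JFourType.FiveRecog
import Cfsg.Agent.Golay.MathieuSimple

/-!
A complement `SL(3, 2)` inside the normaliser of the elementary group of order eight, found in the
centraliser of an element of order three.
-/

set_option autoImplicit false
set_option linter.style.haveILetI false
set_option linter.unusedVariables false

namespace Cfsg.Agent.JFourType.Pentad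

open Cfsg

theorem exists_sl_three {G : Type*} [Group G] [Finite G] {z : G} {P : Subgroup G} (c : Ctx z P)
    (hone : ∀ x y : G, orderOf x = 3 → orderOf y = 3 → IsConj x y)
    (hNP : Subgroup.normalizer (P : Set G) ≤ Subgroup.centralizer ({z} : Set G))
    (h6 : Nat.card ↥(Subgroup.center ↥(Subgroup.centralizer ({z} : Set G) ⊓
      Subgroup.centralizer (P : Set G))) = 6)
    (hM22 : Spor.IsoM22 (↥(Subgroup.centralizer ({z} : Set G) ⊓ Subgroup.centralizer (P : Set G)) ⧸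
      Subgroup.center ↥(Subgroup.centralizer ({z} : Set G) ⊓ Subgroup.centralizer (P : Set G))))
    (L : Subgroup G) (hLc : Nat.card L = 2 ^ 15) (hZL : c.Z ≤ L)
    (hLC : L ≤ Subgroup.centralizer (c.Z : Set G))
    (hLN : Subgroup.normalizer (c.Z : Set G) ≤ Subgroup.normalizer (L : Set G))
    (hA : ∀ g ∈ Subgroup.centralizer (c.Z : Set G),
      (∀ a ∈ Subgroup.centralizer (c.Z : Set G), g * a * g⁻¹ * a⁻¹ ∈ L) → g ∈ L)
    (hB : ∀ n ∈ Subgroup.normalizer (c.Z : Set G), ∃ g ∈ Subgroup.normalizer (c.Z : Set G),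
      n⁻¹ * g ∈ Subgroup.centralizer (c.Z : Set G) ∧
        ∀ a ∈ Subgroup.centralizer (c.Z : Set G), g * a * g⁻¹ * a⁻¹ ∈ L)
    (hBcard : Nat.card (Subgroup.normalizer (c.Z : Set G)) =
      168 * Nat.card (Subgroup.centralizer (c.Z : Set G)))
    (s : G) (hs : s ∈ c.J) (hs7 : orderOf s = 7) (hLs : L ⊓ Subgroup.centralizer ({s} : Set G) = ⊥)
    (hsA : ∀ a ∈ Subgroup.centralizer (c.Z : Set G), s * a * s⁻¹ * a⁻¹ ∈ L)
    (x : G) (hx : x ∈ Subgroup.centralizer (c.Z : Set G)) (hx3 : orderOf x = 3)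
    (hsx : s * x = x * s) :
    ∃ K : Subgroup G, K ≤ Subgroup.normalizer (c.Z : Set G) ∧
      Nonempty (↥K ≃* Matrix.SpecialLinearGroup (Fin 3) (ZMod 2)) := by
  classical
  haveI : Fact (Nat.Prime 7) := ⟨by norm_num⟩
  set N := Subgroup.normalizer (c.Z : Set G) with hNdef
  set C := Subgroup.centralizer (c.Z : Set G) with hCdef
  have hCN : C ≤ N := fun a ha => Subgroup.mem_normalizer_iff.2 fun e => by
    constructor
    · intro he
      rwa [show a * e = e * a from (Subgroup.mem_centralizer_iff.1 ha e he).symm,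
        mul_inv_cancel_right]
    · intro he
      have h := Subgroup.mem_centralizer_iff.1 ha _ he
      rw [inv_mul_cancel_right] at h
      exact (congrArg (· ∈ c.Z) (mul_left_cancel h)).mpr he
  have hconjC : ∀ g ∈ N, ∀ a ∈ C, g * a * g⁻¹ ∈ C := fun g hg a ha =>
    Subgroup.mem_centralizer_iff.2 fun e he => by
      have h := Subgroup.mem_centralizer_iff.1 ha (g⁻¹ * e * g)
        ((Subgroup.mem_normalizer_iff''.1 hg e).1 he)
      calc e * (g * a * g⁻¹) = g * (g⁻¹ * e * g * a) * g⁻¹ := by group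
        _ = g * (a * (g⁻¹ * e * g)) * g⁻¹ := by rw [h]
        _ = g * a * g⁻¹ * e := by group
  have hconjL : ∀ g ∈ N, ∀ l ∈ L, g * l * g⁻¹ ∈ L := fun g hg l hl =>
    (Subgroup.mem_normalizer_iff.1 (hLN hg) l).1 hl
  have hLcomm : ∀ l ∈ L, ∀ a ∈ C, l * a * l⁻¹ * a⁻¹ ∈ L := fun l hl a ha => by
    rw [show l * a * l⁻¹ * a⁻¹ = l * (a * l⁻¹ * a⁻¹) by group]
    exact mul_mem hl (hconjL a (hCN ha) _ (inv_mem hl))
  have hmulA : ∀ g ∈ N, ∀ h : G, (∀ a ∈ C, g * a * g⁻¹ * a⁻¹ ∈ L) → (∀ a ∈ C, h * a * h⁻¹ * a⁻¹ ∈ L) →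
      ∀ a ∈ C, g * h * a * (g * h)⁻¹ * a⁻¹ ∈ L := fun g hg h h1 h2 a ha => by
    rw [show g * h * a * (g * h)⁻¹ * a⁻¹ = g * (h * a * h⁻¹ * a⁻¹) * g⁻¹ * (g * a * g⁻¹ * a⁻¹) by
      group]
    exact mul_mem (hconjL g hg _ (h2 a ha)) (h1 a ha)
  -- the subgroup of the normaliser centralising `x` and `C/L`
  let R : Subgroup G :=
    { carrier := {g | g ∈ N ∧ g * x = x * g ∧ ∀ a ∈ C, g * a * g⁻¹ * a⁻¹ ∈ L}
      one_mem' := ⟨one_mem _, by rw [one_mul, mul_one],
        fun a _ => by simp [one_mem]⟩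
      mul_mem' := by
        rintro g h ⟨hgN, hgx, hgA⟩ ⟨hhN, hhx, hhA⟩
        exact ⟨mul_mem hgN hhN, (show Commute g x from hgx).mul_left hhx, hmulA g hgN h hgA hhA⟩
      inv_mem' := by
        rintro g ⟨hgN, hgx, hgA⟩
        refine ⟨inv_mem hgN, (show Commute g x from hgx).inv_left, fun a ha => ?_⟩
        have h := hgA (g⁻¹ * a * g) (by simpa using hconjC g⁻¹ (inv_mem hgN) a ha)
        have h' := inv_mem h
        rwa [show (g * (g⁻¹ * a * g) * g⁻¹ * (g⁻¹ * a * g)⁻¹)⁻¹ = g⁻¹ * a * (g⁻¹)⁻¹ * a⁻¹ by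
          group] at h' }
  have memR : ∀ g, g ∈ R ↔ g ∈ N ∧ g * x = x * g ∧ ∀ a ∈ C, g * a * g⁻¹ * a⁻¹ ∈ L := fun g => Iff.rfl
  have hRN : R ≤ N := fun g hg => hg.1
  -- the action on `Z`
  obtain ⟨e⟩ := FiveRecog.exists_coord c.Z_elem c.card_Z
  obtain ⟨φ, hφ⟩ := LargeFischer.Eight.aut_to_SL e
  let ρN : ↥N →* Matrix.SpecialLinearGroup (Fin 3) (ZMod 2) :=
    φ.comp (c.Z).normalizerMonoidHom
  have hkN : ρN.ker = C.subgroupOf N := by
    ext l
    rw [MonoidHom.mem_ker, MonoidHom.comp_apply, map_eq_one_iff φ hφ, ← MonoidHom.mem_ker,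
      (c.Z).normalizerMonoidHom_ker]
  have hρN : Function.Surjective ρN := by
    rw [← MonoidHom.range_eq_top]
    refine Subgroup.eq_top_of_card_eq _ ?_
    rw [LargeFischer.Eight.sl_three_facts.1]
    have h := Subgroup.card_mul_index ρN.ker
    rw [Subgroup.index_ker, hkN, Nat.card_congr (Subgroup.subgroupOfEquivOfLe hCN).toEquiv, hBcard,
      mul_comm 168] at h
    exact Nat.eq_of_mul_eq_mul_left Nat.card_pos h
  let ρ : ↥R →* Matrix.SpecialLinearGroup (Fin 3) (ZMod 2) := ρN.comp (Subgroup.inclusion hRN)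
  have hkρ : ∀ r : R, ρ r = 1 ↔ (r : G) ∈ C := fun r => by
    rw [MonoidHom.comp_apply, ← MonoidHom.mem_ker, hkN, Subgroup.mem_subgroupOf]
    rfl
  -- `R` covers the automorphisms
  have hρ : Function.Surjective ρ := by
    intro w
    obtain ⟨⟨n, hn⟩, rfl⟩ := hρN w
    obtain ⟨g, hgN, hgC, hgA⟩ := hB n hn
    have hxN : x ∈ N := hCN hx
    set S : Subgroup G := L ⊔ Subgroup.zpowers x with hSdef
    have hxNL : Subgroup.zpowers x ≤ Subgroup.normalizer (L : Set G) :=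
      Subgroup.zpowers_le.2 (hLN hxN)
    have hSN : S ≤ Subgroup.normalizer (L : Set G) := sup_le Subgroup.le_normalizer hxNL
    haveI : (L.subgroupOf S).Normal := Subgroup.normal_subgroupOf_of_le_normalizer hSN
    have hxS : x ∈ S := Subgroup.mem_sup_right (Subgroup.mem_zpowers x)
    have hgxS : g * x * g⁻¹ ∈ S := by
      rw [show g * x * g⁻¹ = g * x * g⁻¹ * x⁻¹ * x by group]
      exact mul_mem (Subgroup.mem_sup_left (hgA x hx)) hxS
    have hx33 : x ^ 3 = 1 := by rw [← hx3, pow_orderOf_eq_one]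
    have hker : IsPGroup 2 ↥(QuotientGroup.mk' (L.subgroupOf S)).ker := by
      rw [QuotientGroup.ker_mk']
      refine IsPGroup.of_card (n := 15) ?_
      rw [Nat.card_congr (Subgroup.subgroupOfEquivOfLe le_sup_left).toEquiv, hLc]
    have hx33' : (⟨x, hxS⟩ : S) ^ 3 = 1 := Subtype.ext (by simpa using hx33)
    have hgx33 : (⟨g * x * g⁻¹, hgxS⟩ : S) ^ 3 = 1 := Subtype.ext (by
      show (g * x * g⁻¹) ^ 3 = 1
      rw [← MulAut.conj_apply, ← map_pow, hx33, map_one])
    have himg : QuotientGroup.mk' (L.subgroupOf S) ⟨x, hxS⟩ =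
        QuotientGroup.mk' (L.subgroupOf S) ⟨g * x * g⁻¹, hgxS⟩ := by
      rw [QuotientGroup.mk'_apply, QuotientGroup.mk'_apply, eq_comm,
        QuotientGroup.eq_iff_div_mem, Subgroup.mem_subgroupOf, Subgroup.coe_div, div_eq_mul_inv]
      exact hgA x hx
    obtain ⟨⟨v, hv⟩, hvc⟩ := isConj_iff.1 (ThreeClass.conj_of_map_eq _ hker hx33' hgx33 himg)
    have hvc' : v * x * v⁻¹ = g * x * g⁻¹ := congrArg Subtype.val hvc
    rw [hSdef, ← SetLike.mem_coe,
      Subgroup.coe_mul_of_right_le_normalizer_left L (Subgroup.zpowers x) hxNL] at hv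
    obtain ⟨l, hl, _, ⟨i, rfl⟩, rfl⟩ := hv
    have hli : l * x * l⁻¹ = g * x * g⁻¹ := by
      rw [← hvc']
      show l * x * l⁻¹ = l * x ^ i * x * (l * x ^ i)⁻¹
      group
    have hl' : l⁻¹ ∈ L := inv_mem hl
    have hr : l⁻¹ * g ∈ R := by
      refine (memR _).2 ⟨mul_mem (hCN (hLC hl')) hgN, ?_,
        hmulA _ (hCN (hLC hl')) g (hLcomm _ hl') hgA⟩
      calc l⁻¹ * g * x = l⁻¹ * (g * x * g⁻¹) * g := by group
        _ = l⁻¹ * (l * x * l⁻¹) * g := by rw [hli]
        _ = x * (l⁻¹ * g) := by group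
    refine ⟨⟨_, hr⟩, ?_⟩
    show ρN ⟨l⁻¹ * g, _⟩ = ρN ⟨n, hn⟩
    rw [← mul_inv_eq_one, ← map_inv, ← map_mul, ← MonoidHom.mem_ker, hkN, Subgroup.mem_subgroupOf]
    show l⁻¹ * g * n⁻¹ ∈ C
    rw [show l⁻¹ * g * n⁻¹ = l⁻¹ * (n * (n⁻¹ * g) * n⁻¹) by group]
    exact mul_mem (hLC hl') (hconjC n hn _ hgC)
  -- the kernel is `Z`
  have hW : ∀ g, g ∈ R ⊓ C ↔ g ∈ L ⊓ Subgroup.centralizer ({x} : Set G) := fun g =>
    ⟨fun ⟨⟨_, hgx, hgA⟩, hgC⟩ => ⟨hA g hgC hgA, Subgroup.mem_centralizer_singleton_iff.2 hgx⟩,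
      fun ⟨hgL, hgx⟩ => ⟨⟨hCN (hLC hgL), Subgroup.mem_centralizer_singleton_iff.1 hgx,
        hLcomm g hgL⟩, hLC hgL⟩⟩
  have hsR : s ∈ R := ⟨c.J_norm hs, hsx, hsA⟩
  have hRx : R ≤ Subgroup.centralizer ({x} : Set G) := fun g hg =>
    Subgroup.mem_centralizer_singleton_iff.2 hg.2.1
  have hZR : c.Z ≤ R ⊓ C := fun a ha => by
    refine (hW a).2 ⟨hZL ha, Subgroup.mem_centralizer_singleton_iff.2 ?_⟩
    exact Subgroup.mem_centralizer_iff.1 hx a ha
  -- the centraliser of `x` is that of `P`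
  have hP3 : Nat.card P = 3 := c.hJ.2.2.2.2.2.1
  obtain ⟨p, hpP, hp3⟩ : ∃ p ∈ P, orderOf p = 3 := by
    haveI : Fact (Nat.Prime 3) := ⟨Nat.prime_three⟩
    obtain ⟨⟨p, hp⟩, ho⟩ := exists_prime_orderOf_dvd_card' (G := P) 3 (by rw [hP3])
    exact ⟨p, hp, by rwa [Subgroup.orderOf_mk] at ho⟩
  have hPp : Subgroup.zpowers p = P :=
    Subgroup.eq_of_le_of_card_ge (Subgroup.zpowers_le.2 hpP) (by rw [Nat.card_zpowers, hp3, hP3])
  obtain ⟨t, ht⟩ := isConj_iff.1 (hone x p hx3 hp3)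
  set CP := Subgroup.centralizer ({z} : Set G) ⊓ Subgroup.centralizer (P : Set G) with hCPdef
  have htCP : ∀ g, g ∈ Subgroup.centralizer ({x} : Set G) → t * g * t⁻¹ ∈ CP := fun g hg => by
    have hgx := Subgroup.mem_centralizer_singleton_iff.1 hg
    have h1 : t * g * t⁻¹ ∈ Subgroup.centralizer (P : Set G) := by
      rw [← hPp, Subgroup.zpowers_eq_closure, Subgroup.centralizer_closure,
        Subgroup.mem_centralizer_singleton_iff, ← ht]
      calc t * g * t⁻¹ * (t * x * t⁻¹) = t * (g * x) * t⁻¹ := by group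
        _ = t * (x * g) * t⁻¹ := by rw [hgx]
        _ = t * x * t⁻¹ * (t * g * t⁻¹) := by group
    refine ⟨hNP (Subgroup.mem_normalizer_iff.2 fun q => ?_), h1⟩
    constructor
    · intro hq
      rwa [(Subgroup.mem_centralizer_iff.1 h1 q hq).symm, mul_inv_cancel_right]
    · intro hq
      have h := Subgroup.mem_centralizer_iff.1 h1 _ hq
      rw [inv_mul_cancel_right] at h
      exact (congrArg (· ∈ P) (mul_left_cancel h)).mpr hq
  have hCPc : Nat.card CP = 2661120 := by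
    have h := Subgroup.card_eq_card_quotient_mul_card_subgroup (Subgroup.center ↥CP)
    obtain ⟨m⟩ := hM22
    rw [h6, Nat.card_congr m.toEquiv, Golay.card_M22] at h
    rw [h]
  have hdvd : Nat.card R ∣ 2661120 := by
    rw [← hCPc]
    rw [← Subgroup.card_map_of_injective (K := R) (f := (MulAut.conj t).toMonoidHom)
      (MulAut.conj t).injective]
    refine Subgroup.card_dvd_of_le ?_
    rintro _ ⟨g, hg, rfl⟩
    exact htCP g (hRx hg)
  have hρk : ρ.ker = (R ⊓ C).subgroupOf R := by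
    ext r
    rw [MonoidHom.mem_ker, hkρ, Subgroup.mem_subgroupOf, Subgroup.mem_inf, and_iff_right r.2]
  have hRcard : Nat.card R = Nat.card ↥(R ⊓ C) * 168 := by
    have h := Subgroup.card_mul_index ρ.ker
    rw [Subgroup.index_ker, MonoidHom.range_eq_top.2 hρ, Subgroup.card_top,
      LargeFischer.Eight.sl_three_facts.1, hρk,
      Nat.card_congr (Subgroup.subgroupOfEquivOfLe inf_le_left).toEquiv] at h
    exact h.symm
  have hS7 : Nat.card (Subgroup.zpowers s) = 7 ^ 1 := by rw [Nat.card_zpowers, hs7, pow_one]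
  have hmod : Nat.card ↥(R ⊓ C) ≡ 1 [MOD 7] := by
    have h := modeq_fix (W := R ⊓ C) hS7 (Subgroup.zpowers_le.2 (Subgroup.mem_normalizer_iff.2 fun g => ?_))
    · have hbot : (R ⊓ C) ⊓ Subgroup.centralizer (Subgroup.zpowers s : Set G) = ⊥ := by
        rw [eq_bot_iff, Subgroup.zpowers_eq_closure, Subgroup.centralizer_closure, ← hLs]
        exact le_inf (fun g hg => ((hW g).1 hg.1).1) inf_le_right
      rwa [hbot, Subgroup.card_bot] at h
    · constructor
      · exact fun hg => ⟨R.mul_mem (R.mul_mem hsR hg.1) (R.inv_mem hsR), hconjC s hsR.1 g hg.2⟩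
      · intro hg
        rw [show g = s⁻¹ * (s * g * s⁻¹) * s⁻¹⁻¹ by group]
        exact ⟨R.mul_mem (R.mul_mem (R.inv_mem hsR) hg.1) (R.inv_mem (R.inv_mem hsR)),
          hconjC _ (inv_mem hsR.1) _ hg.2⟩
  have hW8 : Nat.card ↥(R ⊓ C) = 8 := by
    have hd : Nat.card ↥(R ⊓ C) ∣ 2 ^ 15 :=
      hLc ▸ Subgroup.card_dvd_of_le fun g hg => ((hW g).1 hg).1
    obtain ⟨k, hk, he⟩ := (Nat.dvd_prime_pow Nat.prime_two).1 hd
    have h8 : 8 ∣ Nat.card ↥(R ⊓ C) := c.card_Z ▸ Subgroup.card_dvd_of_le hZR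
    rw [hRcard, he] at hdvd
    rw [he] at h8 hmod ⊢
    interval_cases k <;> first | rfl | omega | (exfalso; revert h8; decide) |
      (exfalso; revert hdvd; decide) | (exfalso; revert hmod; decide)
  have hWZ : R ⊓ C = c.Z :=
    (Subgroup.eq_of_le_of_card_ge hZR (by rw [hW8, c.card_Z])).symm
  rw [hWZ] at hρk
  have hR1344 : Nat.card R = 1344 := by rw [hRcard, hW8]
  haveI hEn : (c.Z.subgroupOf R).Normal := Subgroup.normal_subgroupOf_of_le_normalizer hRN
  let q : ↥R ⧸ c.Z.subgroupOf R ≃* Matrix.SpecialLinearGroup (Fin 3) (ZMod 2) :=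
    (QuotientGroup.quotientMulEquivOfEq hρk.symm).trans
      (QuotientGroup.quotientKerEquivOfSurjective ρ hρ)
  haveI := LargeFischer.Eight.sl_three_facts.2
  have hsimple : IsSimpleGroup (↥R ⧸ c.Z.subgroupOf R) := q.isSimpleGroup
  have hZle : c.Z ≤ R := hZR.trans inf_le_left
  have hE8 : Nat.card (c.Z.subgroupOf R) = 8 := by
    rw [Nat.card_congr (Subgroup.subgroupOfEquivOfLe hZle).toEquiv, c.card_Z]
  have hfix : ∀ a ∈ c.Z.subgroupOf R, (⟨s, hsR⟩ : R) * a = a * ⟨s, hsR⟩ → a = 1 := fun a ha h =>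
    Subtype.ext (c.seven_fix hs hs7 ha (congrArg Subtype.val h))
  -- the map to `M22`
  let j : ↥R →* ↥CP := MonoidHom.codRestrict ((MulAut.conj t).toMonoidHom.comp R.subtype) CP
    (fun r => htCP r (hRx r.2))
  obtain ⟨m⟩ := hM22
  let f : ↥R →* Spor.M22 := m.toMonoidHom.comp ((QuotientGroup.mk' (Subgroup.center ↥CP)).comp j)
  have hf : Function.Injective f := by
    rw [← MonoidHom.ker_eq_bot_iff, eq_bot_iff]
    intro r hr
    have hcentral : ∀ u : R, u * r = r * u := by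
      have hjc : j r ∈ Subgroup.center ↥CP :=
        (QuotientGroup.eq_one_iff _).1 ((map_eq_one_iff m m.injective).1 hr)
      intro u
      have h := congrArg Subtype.val (Subgroup.mem_center_iff.1 hjc (j u))
      refine Subtype.ext ((MulAut.conj t).injective ?_)
      rw [Subgroup.coe_mul, Subgroup.coe_mul, map_mul, map_mul]
      exact h
    have hr1 : ρ r = 1 := by
      have hc : ρ r ∈ Subgroup.center (Matrix.SpecialLinearGroup (Fin 3) (ZMod 2)) :=
        Subgroup.mem_center_iff.2 fun w => by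
          obtain ⟨u, rfl⟩ := hρ w
          rw [← map_mul, ← map_mul, hcentral]
      rcases (inferInstance : (Subgroup.center
        (Matrix.SpecialLinearGroup (Fin 3) (ZMod 2))).Normal).eq_bot_or_eq_top with h | h
      · rwa [h, Subgroup.mem_bot] at hc
      · exfalso
        have hcomm : ∀ a b : Matrix.SpecialLinearGroup (Fin 3) (ZMod 2), a * b = b * a := fun a b =>
          Subgroup.mem_center_iff.1 (h ▸ Subgroup.mem_top b) a
        letI : CommGroup (Matrix.SpecialLinearGroup (Fin 3) (ZMod 2)) :=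
          { (inferInstance : Group (Matrix.SpecialLinearGroup (Fin 3) (ZMod 2))) with
            mul_comm := hcomm }
        have hp : (Nat.card (Matrix.SpecialLinearGroup (Fin 3) (ZMod 2))).Prime :=
          IsSimpleGroup.prime_card
        rw [LargeFischer.Eight.sl_three_facts.1] at hp
        norm_num at hp
    have hrZ : r ∈ c.Z.subgroupOf R := hρk ▸ (MonoidHom.mem_ker.2 hr1)
    exact hfix r hrZ (hcentral _)
  obtain ⟨X, hX, hXE⟩ := exists_complement_of_m22 (c.Z.subgroupOf R) hE8 hR1344 hsimple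
    ⟨s, hsR⟩ (by rw [Subgroup.orderOf_mk, hs7]) hfix f hf
  refine ⟨X.map R.subtype, (Subgroup.map_subtype_le X).trans hRN, ?_⟩
  have hinj : Function.Injective (ρ.comp X.subtype) := by
    rw [← MonoidHom.ker_eq_bot_iff, eq_bot_iff]
    intro u hu
    have : (u : R) ∈ X ⊓ c.Z.subgroupOf R := ⟨u.2, hρk ▸ (show (u : R) ∈ ρ.ker from hu)⟩
    rw [hXE, Subgroup.mem_bot] at this
    exact Subgroup.mem_bot.2 (Subtype.ext this)
  have hbij : Function.Bijective (ρ.comp X.subtype) := (Nat.bijective_iff_injective_and_card _).2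
    ⟨hinj, by rw [hX, LargeFischer.Eight.sl_three_facts.1]⟩
  exact ⟨((X.equivMapOfInjective R.subtype R.subtype_injective).symm.trans
    (MulEquiv.ofBijective _ hbij))⟩

end Cfsg.Agent.JFourType.Pentad
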