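import Cfsg.Agent.JFourType.PentadLocal
import Cfsg.Agent.JFourType.PentadLift

/-!
The 2-local subgroup at the elementary group of order eight: quotient, non-splitting and Sylow
normalisers.
-/

set_option autoImplicit false

namespace Cfsg.Agent.JFourType.Pentad

open Cfsg
open Cfsg.Agent.LargeFischer.Eight (sl_three_facts quotient_equiv_prod)

theorem perm_five_center : ∀ a : Equiv.Perm (Fin 5), (∀ b, a * b = b * a) → a = 1 := by
  decide +kernel

theorem sl_three_noncomm :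
    ¬ ∀ a b : Matrix.SpecialLinearGroup (Fin 3) (ZMod 2), a * b = b * a := by
  intro h
  haveI := sl_three_facts.2
  haveI : IsMulCommutative (Matrix.SpecialLinearGroup (Fin 3) (ZMod 2)) := ⟨⟨h⟩⟩
  letI : CommGroup (Matrix.SpecialLinearGroup (Fin 3) (ZMod 2)) :=
    { (inferInstance : Group (Matrix.SpecialLinearGroup (Fin 3) (ZMod 2))) with mul_comm := h }
  have hp := IsSimpleGroup.prime_card (α := Matrix.SpecialLinearGroup (Fin 3) (ZMod 2))
  rw [sl_three_facts.1] at hp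
  norm_num at hp

section Generic

variable {G : Type*} [Group G] [Finite G]

/-- A Sylow subgroup given by its order. -/
theorem exists_sylow_eq {p : ℕ} [Fact p.Prime] {S : Subgroup G} (hS : Nat.card S = p)
    (hp2 : ¬ p * p ∣ Nat.card G) : ∃ T : Sylow p G, (T : Subgroup G) = S := by
  have hp : IsPGroup p S := IsPGroup.of_card (n := 1) (by rw [hS, pow_one])
  obtain ⟨T, hT⟩ := hp.exists_le_sylow
  obtain ⟨k, hk⟩ := T.isPGroup'.exists_card_eq
  refine ⟨T, (Subgroup.eq_of_le_of_card_ge hT ?_).symm⟩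
  have hd : p ^ k ∣ Nat.card G := hk ▸ Subgroup.card_subgroup_dvd_card _
  have hk1 : k ≤ 1 := by
    by_contra h
    exact hp2 ((pow_two p ▸ pow_dvd_pow p (show 2 ≤ k by omega)).trans hd)
  rw [hk, hS]
  exact Nat.le_of_dvd (Fact.out : p.Prime).pos ((pow_dvd_pow p hk1).trans (pow_one p).dvd)

/-- Subgroups of order `p` are conjugate when `p ^ 2` does not divide the order. -/
theorem exists_conj_eq {p : ℕ} [Fact p.Prime] {S T : Subgroup G} (hS : Nat.card S = p)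
    (hT : Nat.card T = p) (hp2 : ¬ p * p ∣ Nat.card G) :
    ∃ g : G, S.map (MulAut.conj g).toMonoidHom = T := by
  obtain ⟨A, rfl⟩ := exists_sylow_eq hS hp2
  obtain ⟨B, rfl⟩ := exists_sylow_eq hT hp2
  obtain ⟨g, hg⟩ := MulAction.exists_smul_eq G A B
  refine ⟨g, ?_⟩
  rw [← hg, Sylow.coe_subgroup_smul]
  rfl

end Generic

namespace Ctx

variable {G : Type*} [Group G] [Finite G] {z : G} {P : Subgroup G} (c : Ctx z P)

/-- The elements of `M` centralising `C(Z)` modulo `L`. -/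
def CL : Subgroup G where
  carrier := {n | n ∈ c.M ∧ ∀ a ∈ c.CZ, n * a * n⁻¹ * a⁻¹ ∈ c.L}
  one_mem' := ⟨one_mem _, fun a _ => by simp⟩
  mul_mem' := fun {x y} hx hy => ⟨mul_mem hx.1 hy.1, fun a ha => by
    have h := mul_mem (c.L_conj hx.1 (hy.2 a ha)) (hx.2 a ha)
    simpa [mul_assoc] using h⟩
  inv_mem' := fun {x} hx => ⟨inv_mem hx.1, fun a ha => by
    have h := c.L_conj (c.M.inv_mem hx.1) (c.L.inv_mem (hx.2 a ha))
    simpa [mul_assoc] using h⟩

theorem CL_conj {n x : G} (hn : n ∈ c.M) (hx : x ∈ c.CL) : n * x * n⁻¹ ∈ c.CL := by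
  refine ⟨c.M.mul_mem (c.M.mul_mem hn hx.1) (c.M.inv_mem hn), fun a ha => ?_⟩
  have h := c.L_conj hn (hx.2 (n⁻¹ * a * n) (by simpa using c.CZ_conj (inv_mem hn) ha))
  simpa [mul_assoc] using h

theorem seven_not_CZ {s : G} (hs : s ∈ c.J) (hs7 : orderOf s = 7) : s ∉ c.CZ := fun h => by
  have := Subgroup.orderOf_dvd_natCard _ (c.J_inf_centralizer.le ⟨hs, h⟩)
  rw [hs7, c.card_Z] at this
  norm_num at this

theorem L_inf_F {s : G} (hs : s ∈ c.J) (hs7 : orderOf s = 7) :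
    c.L ⊓ (c.CZ ⊓ Subgroup.centralizer (Subgroup.zpowers s : Set G)) = ⊥ := by
  rw [← inf_assoc, inf_eq_left.2 c.L_le, c.L_inf_seven hs hs7]

/-- `C(Z)` is the product of `L` and the centraliser of an element of order seven. -/
theorem exists_mul {s a : G} (hs : s ∈ c.J) (hs7 : orderOf s = 7) (ha : a ∈ c.CZ) :
    ∃ l ∈ c.L, ∃ f ∈ c.CZ ⊓ Subgroup.centralizer (Subgroup.zpowers s : Set G), l * f = a := by
  set F := c.CZ ⊓ Subgroup.centralizer (Subgroup.zpowers s : Set G)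
  have hinj : Function.Injective
      (fun x : c.L × F => (⟨(x.1 : G) * x.2, mul_mem (c.L_le x.1.2) x.2.2.1⟩ : c.CZ)) := by
    rintro ⟨l, f⟩ ⟨l', f'⟩ e
    have e1 : (l : G) * f = l' * f' := congrArg Subtype.val e
    have h1 : (l' : G)⁻¹ * l ∈ c.L ⊓ F := by
      refine ⟨c.L.mul_mem (c.L.inv_mem l'.2) l.2, ?_⟩
      rw [show (l' : G)⁻¹ * l = f' * (f : G)⁻¹ by
        rw [eq_mul_inv_iff_mul_eq, mul_assoc, e1, inv_mul_cancel_left]]
      exact F.mul_mem f'.2 (F.inv_mem f.2)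
    rw [c.L_inf_F hs hs7, Subgroup.mem_bot, inv_mul_eq_one] at h1
    have hl : l = l' := Subtype.ext h1.symm
    subst hl
    exact Prod.ext rfl (Subtype.ext (mul_left_cancel e1))
  have hb := hinj.bijective_of_nat_card_le (by
    rw [Nat.card_prod, c.card_L, (c.seven_complement hs hs7).1, c.card_centralizer_Z]; norm_num)
  obtain ⟨⟨l, f⟩, e⟩ := hb.2 ⟨a, ha⟩
  exact ⟨l, l.2, f, f.2, congrArg Subtype.val e⟩

theorem seven_mem_CL {s : G} (hs : s ∈ c.J) (hs7 : orderOf s = 7) : s ∈ c.CL := by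
  refine ⟨c.J_le_M hs, fun a ha => ?_⟩
  obtain ⟨l, hl, f, hf, rfl⟩ := c.exists_mul hs hs7 ha
  have hsf : s * f = f * s := Subgroup.mem_centralizer_iff.1 hf.2 s (Subgroup.mem_zpowers s)
  have h : s * (l * f) * s⁻¹ * (l * f)⁻¹ = s * l * s⁻¹ * l⁻¹ := by
    calc s * (l * f) * s⁻¹ * (l * f)⁻¹ = s * l * s⁻¹ * (s * f) * s⁻¹ * f⁻¹ * l⁻¹ := by group
      _ = s * l * s⁻¹ * (f * s) * s⁻¹ * f⁻¹ * l⁻¹ := by rw [hsf]
      _ = s * l * s⁻¹ * l⁻¹ := by group
  rw [h]
  exact mul_mem (c.L_conj (c.J_le_M hs) hl) (inv_mem hl)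

theorem CL_inf_CZ {g : G} (hg : g ∈ c.CZ) (hgC : g ∈ c.CL) : g ∈ c.L := by
  obtain ⟨s, hs, hs7⟩ := c.exists_seven
  obtain ⟨-, ⟨φ⟩, -⟩ := c.seven_complement hs hs7
  obtain ⟨l, hl, f, hf, rfl⟩ := c.exists_mul hs hs7 hg
  have hfL : ∀ b ∈ c.CZ, f * b * f⁻¹ * b⁻¹ ∈ c.L := fun b hb => by
    have hlC : l⁻¹ ∈ c.CL := by
      refine ⟨inv_mem (c.CZ_le_M (c.L_le hl)), fun d hd => ?_⟩
      have h := c.L.mul_mem (c.L.inv_mem hl) (c.L_conj (c.CZ_le_M hd) hl)
      simpa [mul_assoc] using h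
    have h := (mul_mem hlC hgC).2 b hb
    rwa [inv_mul_cancel_left] at h
  have h1 : φ ⟨f, hf⟩ = 1 := perm_five_center _ fun b => by
    obtain ⟨b, rfl⟩ := φ.surjective b
    rw [← map_mul, ← map_mul]
    refine congrArg φ (Subtype.ext ?_)
    have hmem : f * b * f⁻¹ * (b : G)⁻¹ ∈ c.L ⊓
        (c.CZ ⊓ Subgroup.centralizer (Subgroup.zpowers s : Set G)) :=
      ⟨hfL b b.2.1, Subgroup.mul_mem _ (Subgroup.mul_mem _ (Subgroup.mul_mem _ hf b.2) (Subgroup.inv_mem _ hf)) (Subgroup.inv_mem _ b.2)⟩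
    rw [c.L_inf_F hs hs7, Subgroup.mem_bot, mul_inv_eq_one, mul_inv_eq_iff_eq_mul] at hmem
    exact hmem
  rw [map_eq_one_iff φ φ.injective] at h1
  rw [show f = 1 from congrArg Subtype.val h1, mul_one]
  exact hl

theorem exists_CL {n : G} (hn : n ∈ c.M) : ∃ g ∈ c.CL, n⁻¹ * g ∈ c.CZ := by
  obtain ⟨s, hs, hs7⟩ := c.exists_seven
  obtain ⟨χ, hχ, hk⟩ := c.exists_rep
  haveI := sl_three_facts.2
  haveI hnormal : (c.CL.subgroupOf c.M).Normal :=
    ⟨fun x hx g => c.CL_conj g.2 hx⟩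
  rcases (hnormal.map χ hχ).eq_bot_or_eq_top with hb | ht
  · exfalso
    have h : (⟨s, c.J_le_M hs⟩ : c.M) ∈ χ.ker :=
      (Subgroup.map_eq_bot_iff _).1 hb (c.seven_mem_CL hs hs7)
    rw [hk] at h
    exact c.seven_not_CZ hs hs7 h
  · obtain ⟨g, hg, he⟩ := (show χ ⟨n, hn⟩ ∈ (c.CL.subgroupOf c.M).map χ from ht ▸ Subgroup.mem_top _)
    refine ⟨g, hg, ?_⟩
    have : (⟨n, hn⟩ : c.M)⁻¹ * g ∈ χ.ker := by
      rw [MonoidHom.mem_ker, map_mul, map_inv, he, inv_mul_cancel]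
    rw [hk] at this
    exact this

theorem card_M_eq : Nat.card c.M = 660602880 := by rw [c.card_M, c.card_centralizer_Z]

/-- The quotient by the largest normal 2-subgroup. -/
theorem quotient_iso :
    Nonempty (↥(Subgroup.normalizer (c.L : Set G)) ⧸ c.L.subgroupOf (Subgroup.normalizer (c.L : Set G))
      ≃* Equiv.Perm (Fin 5) × Matrix.SpecialLinearGroup (Fin 3) (ZMod 2)) := by
  obtain ⟨s, hs, hs7⟩ := c.exists_seven
  obtain ⟨hF120, ⟨φ⟩, -⟩ := c.seven_complement hs hs7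
  obtain ⟨χ, hχ, hk⟩ := c.exists_rep
  set N := Subgroup.normalizer (c.L : Set G)
  have hNM : N = c.M := c.normalizer_L
  let ρ : N →* Matrix.SpecialLinearGroup (Fin 3) (ZMod 2) :=
    χ.comp (MulEquiv.subgroupCongr hNM).toMonoidHom
  have hρ : Function.Surjective ρ := hχ.comp (MulEquiv.subgroupCongr hNM).surjective
  let K : Subgroup N := c.CZ.subgroupOf N
  have hρk : ρ.ker = K := by
    ext a
    show MulEquiv.subgroupCongr hNM a ∈ χ.ker ↔ _
    rw [hk]
    rfl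
  haveI : K.Normal := hρk ▸ inferInstance
  let R : Subgroup N := c.L.subgroupOf N
  let C : Subgroup N := c.CL.subgroupOf N
  haveI : C.Normal := ⟨fun x hx g => c.CL_conj (hNM.le g.2) hx⟩
  set F := c.CZ ⊓ Subgroup.centralizer (Subgroup.zpowers s : Set G)
  have hFN : F ≤ N := inf_le_left.trans (c.CZ_le_M.trans hNM.ge)
  let T : Subgroup K := R.subgroupOf K
  let ι : F →* K := MonoidHom.mk' (fun x => ⟨⟨x, hFN x.2⟩, x.2.1⟩) fun _ _ => rfl
  let ψ : F →* K ⧸ T := (QuotientGroup.mk' T).comp ι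
  have hψ : Function.Bijective ψ := by
    refine Function.Injective.bijective_of_nat_card_le ?_ ?_
    · refine (injective_iff_map_eq_one ψ).2 fun x hx => Subtype.ext ?_
      have hxL : (x : G) ∈ c.L := (QuotientGroup.eq_one_iff (N := T) (ι x)).1 hx
      exact Subgroup.mem_bot.1 ((c.L_inf_F hs hs7).le ⟨hxL, x.2⟩)
    · have h := Subgroup.card_mul_index T
      rw [Subgroup.index_eq_card,
        Nat.card_congr (Subgroup.subgroupOfEquivOfLe
          (show R ≤ K from fun a ha => c.L_le ha)).toEquiv,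
        Nat.card_congr (Subgroup.subgroupOfEquivOfLe (c.M_le_NL.trans' (c.L_le.trans c.CZ_le_M))).toEquiv,
        c.card_L, Nat.card_congr (Subgroup.subgroupOfEquivOfLe (c.CZ_le_M.trans hNM.ge)).toEquiv,
        c.card_centralizer_Z] at h
      rw [hF120]
      omega
  let ε : K ⧸ T ≃* Equiv.Perm (Fin 5) := (MulEquiv.ofBijective ψ hψ).symm.trans φ
  let f : K →* Equiv.Perm (Fin 5) := ε.toMonoidHom.comp (QuotientGroup.mk' T)
  have hf : Function.Surjective f := ε.surjective.comp (QuotientGroup.mk'_surjective T)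
  have hR : ∀ l, l ∈ R ↔ ∃ h : l ∈ K, f ⟨l, h⟩ = 1 := fun l => by
    constructor
    · intro hl
      have hlK : l ∈ K := c.L_le (show (l : G) ∈ c.L from hl)
      have h1 : QuotientGroup.mk' T (⟨l, hlK⟩ : K) = 1 :=
        (QuotientGroup.eq_one_iff (N := T) (⟨l, hlK⟩ : K)).2 hl
      exact ⟨hlK, (congrArg ε h1).trans (map_one ε)⟩
    · rintro ⟨h, e⟩
      have e' : ε (QuotientGroup.mk' T ⟨l, h⟩) = 1 := e
      rw [map_eq_one_iff ε ε.injective] at e'
      exact (QuotientGroup.eq_one_iff (N := T) (⟨l, h⟩ : K)).1 e'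
  obtain ⟨e⟩ := quotient_equiv_prod K C R ρ hρ hρk f hf hR (fun x hx => c.CL_inf_CZ hx.2 hx.1) (by
    refine eq_top_iff.2 fun n _ => ?_
    obtain ⟨g, hg, hgn⟩ := c.exists_CL (hNM.le n.2)
    have hgN : g ∈ N := hNM.ge hg.1
    have he : n = (⟨g, hgN⟩ : N) * (⟨g, hgN⟩⁻¹ * n) := (mul_inv_cancel_left _ _).symm
    rw [he]
    refine Subgroup.mul_mem_sup hg ?_
    show (g : G)⁻¹ * (n : G) ∈ c.CZ
    simpa using inv_mem hgn)
  exact ⟨e.trans MulEquiv.prodComm⟩

/-- No complement to `L`. -/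
theorem no_complement (N : Subgroup G) (hNM : N = c.M) (K : Subgroup N) :
    ¬ (c.L.subgroupOf N).IsComplement' K := by
  intro hK
  have hLN : c.L ≤ N := (c.L_le.trans c.CZ_le_M).trans hNM.ge
  haveI : Fact (Nat.Prime 5) := ⟨by norm_num⟩
  let K0 : Subgroup G := K.map N.subtype
  have hK0N : K0 ≤ N := Subgroup.map_subtype_le _
  have hK0c : Nat.card K0 = 20160 := by
    have h := hK.card_mul
    rw [Nat.card_congr (Subgroup.subgroupOfEquivOfLe hLN).toEquiv, c.card_L,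
      Nat.card_congr (MulEquiv.subgroupCongr hNM).toEquiv, c.card_M_eq] at h
    rw [Subgroup.card_map_of_injective N.subtype_injective]
    norm_num at h
    omega
  have hK0L : ∀ x ∈ K0, x ∈ c.L → x = 1 := by
    rintro _ ⟨y, hy, rfl⟩ hL
    have := hK.disjoint.le_bot (show y ∈ c.L.subgroupOf N ⊓ K from ⟨hL, hy⟩)
    rw [Subgroup.mem_bot.1 this]
    rfl
  -- move the five-element into `Q`
  obtain ⟨⟨q, hq⟩, hqo⟩ := exists_prime_orderOf_dvd_card' (G := K0) 5 (by rw [hK0c]; norm_num)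
  rw [Subgroup.orderOf_mk] at hqo
  obtain ⟨m, hm⟩ := exists_conj_eq (G := N) (p := 5) (S := Subgroup.zpowers ⟨q, hK0N hq⟩)
    (T := c.Q.subgroupOf N) (by rw [Nat.card_zpowers, Subgroup.orderOf_mk, hqo])
    (by rw [Nat.card_congr (Subgroup.subgroupOfEquivOfLe ((c.Q_le_CZ.trans c.CZ_le_M).trans hNM.ge)).toEquiv,
      c.card_Q])
    (fun h => c.h25 (h.trans (Subgroup.card_subgroup_dvd_card N)))
  let K' : Subgroup G := K0.map (MulAut.conj (m : G)).toMonoidHom
  have hK'c : Nat.card K' = 20160 := by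
    rw [Subgroup.card_map_of_injective (MulAut.conj (m : G)).injective, hK0c]
  have hmM : (m : G) ∈ c.M := hNM.le m.2
  have hK'M : K' ≤ c.M := by
    rintro _ ⟨x, hx, rfl⟩
    exact mul_mem (mul_mem hmM (hNM.le (hK0N hx))) (inv_mem hmM)
  have hK'L : ∀ x ∈ K', x ∈ c.L → x = 1 := by
    rintro _ ⟨x, hx, rfl⟩ hL
    have : x ∈ c.L := by
      have h := c.L_conj (inv_mem hmM) hL
      simpa [mul_assoc] using h
    rw [hK0L x hx this]
    exact map_one _
  have hQK : c.Q ≤ K' := by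
    intro a ha
    have haN : a ∈ N := hNM.ge (c.CZ_le_M (c.Q_le_CZ ha))
    obtain ⟨b, hb, e⟩ := hm.ge (show (⟨a, haN⟩ : N) ∈ c.Q.subgroupOf N from ha)
    obtain ⟨k, rfl⟩ := hb
    exact ⟨q ^ k, zpow_mem hq k, congrArg Subtype.val e⟩
  -- `K'` covers `SL(3, 2)`
  obtain ⟨χ, hχ, hk⟩ := c.exists_rep
  let χ' : K' →* Matrix.SpecialLinearGroup (Fin 3) (ZMod 2) := χ.comp (Subgroup.inclusion hK'M)
  have hker : ∀ x : K', χ' x = 1 ↔ (x : G) ∈ c.CZ := fun x => by
    show Subgroup.inclusion hK'M x ∈ χ.ker ↔ _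
    rw [hk]
    rfl
  have hsurj : Function.Surjective χ' := by
    have h1 := Subgroup.card_mul_index χ'.ker
    rw [Subgroup.index_ker, hK'c] at h1
    have hd : Nat.card χ'.ker ∣ 3932160 := by
      have h := Subgroup.card_dvd_of_le (show χ'.ker.map K'.subtype ≤ c.CZ by
        rintro _ ⟨x, hx, rfl⟩
        exact (hker x).1 hx)
      rwa [Subgroup.card_map_of_injective K'.subtype_injective, c.card_centralizer_Z] at h
    have hle : Nat.card χ'.ker ≤ 120 := by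
      have hinj : Function.Injective (fun x : χ'.ker × c.L =>
          (⟨((x.1 : K') : G) * x.2, mul_mem ((hker _).1 x.1.2) (c.L_le x.2.2)⟩ : c.CZ)) := by
        rintro ⟨a, b⟩ ⟨a', b'⟩ e
        have e1 : ((a : K') : G) * b = ((a' : K') : G) * b' := congrArg Subtype.val e
        have h2 : ((a' : K') : G)⁻¹ * (a : K') = (b' : G) * (b : G)⁻¹ := by
          rw [eq_mul_inv_iff_mul_eq, mul_assoc, e1, inv_mul_cancel_left]
        have h3 := hK'L _ (mul_mem (inv_mem (a' : K').2) (a : K').2)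
          (h2 ▸ mul_mem b'.2 (inv_mem b.2))
        rw [inv_mul_eq_one] at h3
        have ha : a = a' := Subtype.ext (Subtype.ext h3.symm)
        subst ha
        exact Prod.ext rfl (Subtype.ext (mul_left_cancel e1))
      have h := Nat.card_le_card_of_injective _ hinj
      rw [Nat.card_prod, c.card_L, c.card_centralizer_Z] at h
      omega
    refine MonoidHom.range_eq_top.1 (Subgroup.eq_top_of_card_eq _ ?_)
    rw [sl_three_facts.1]
    have h168 : Nat.card χ'.range ≤ 168 := sl_three_facts.1 ▸ Subgroup.card_le_card_group _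
    nlinarith
  -- the centraliser of `Q` in `K'` still covers it
  let Q' : Subgroup K' := c.Q.subgroupOf K'
  let NK : Subgroup K' := (Subgroup.normalizer (c.Q : Set G)).subgroupOf K'
  let DK : Subgroup K' := (Subgroup.centralizer (c.Q : Set G)).subgroupOf K'
  have hNKsurj : ∀ y, ∃ x ∈ NK, χ' x = y := by
    intro y
    obtain ⟨x, rfl⟩ := hsurj y
    let X : Subgroup G := K' ⊓ c.CZ
    have hxQ : c.Q.map (MulAut.conj (x : G)).toMonoidHom ≤ X := by
      rintro _ ⟨a, ha, rfl⟩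
      exact ⟨K'.mul_mem (K'.mul_mem x.2 (hQK ha)) (K'.inv_mem x.2), c.CZ_conj (hK'M x.2) (c.Q_le_CZ ha)⟩
    have hQX : c.Q ≤ X := le_inf hQK c.Q_le_CZ
    obtain ⟨g, hg⟩ := exists_conj_eq (G := X) (p := 5)
      (S := (c.Q.map (MulAut.conj (x : G)).toMonoidHom).subgroupOf X) (T := c.Q.subgroupOf X)
      (by rw [Nat.card_congr (Subgroup.subgroupOfEquivOfLe hxQ).toEquiv,
        Subgroup.card_map_of_injective (MulAut.conj (x : G)).injective, c.card_Q])
      (by rw [Nat.card_congr (Subgroup.subgroupOfEquivOfLe hQX).toEquiv, c.card_Q])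
      (fun h => c.h25 (h.trans (Subgroup.card_subgroup_dvd_card X)))
    have hmap : ∀ a ∈ c.Q, (g : G) * (x : G) * a * ((g : G) * (x : G))⁻¹ ∈ c.Q := by
      intro a ha
      have hb := hg.le ⟨⟨_, hxQ ⟨a, ha, rfl⟩⟩, ⟨a, ha, rfl⟩, rfl⟩
      simpa [mul_assoc, mul_inv_rev] using (Subgroup.mem_subgroupOf.1 hb)
    refine ⟨⟨g, g.2.1⟩ * x, ?_, ?_⟩
    · show (g : G) * x ∈ Subgroup.normalizer (c.Q : Set G)
      refine Subgroup.mem_normalizer_iff_map_conj_eq.2 ?_
      refine Subgroup.eq_of_le_of_card_ge ?_ (Subgroup.card_map_of_injective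
        (MulAut.conj ((g : G) * x)).injective).ge
      rintro _ ⟨a, ha, rfl⟩
      exact hmap a ha
    · rw [map_mul, (hker ⟨g, g.2.1⟩).2 g.2.2, one_mul]
  have hDK : ∀ a ∈ NK, ∀ b ∈ NK, a * b * a⁻¹ * b⁻¹ ∈ DK := by
    intro a ha b hb
    refine Subgroup.mem_centralizer_iff.2 fun e he => ?_
    have hcyc : IsCyclic c.Q := isCyclic_of_prime_card c.card_Q
    obtain ⟨u, hu⟩ := hcyc.exists_generator
    have key : ∀ w ∈ Subgroup.normalizer (c.Q : Set G), ∃ i : ℤ, w * u * w⁻¹ = (u : G) ^ i := by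
      intro w hw
      obtain ⟨i, hi⟩ := hu ⟨_, (Subgroup.mem_normalizer_iff.1 hw _).1 u.2⟩
      exact ⟨i, (congrArg Subtype.val hi).symm.trans rfl⟩
    obtain ⟨i, hi⟩ := key _ ha
    obtain ⟨j, hj⟩ := key _ hb
    set α := MulAut.conj ((a : K') : G) with hα
    set β := MulAut.conj ((b : K') : G) with hβ
    have hαu : α (u : G) = (u : G) ^ i := hi
    have hβu : β (u : G) = (u : G) ^ j := hj
    have hab : α (β (u : G)) = β (α (u : G)) := by
      rw [hβu, map_zpow, hαu, map_zpow, hβu, ← zpow_mul, ← zpow_mul, mul_comm]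
    have hfix : ((a * b * a⁻¹ * b⁻¹ : K') : G) * u = (u : G) * ((a * b * a⁻¹ * b⁻¹ : K') : G) := by
      have h : MulAut.conj (((b * a : K') : G)⁻¹ * ((a * b : K') : G)) (u : G) = u := by
        rw [map_mul, map_inv, MulAut.mul_apply, MulAut.inv_def, MulEquiv.symm_apply_eq]
        show MulAut.conj (((a : K') : G) * ((b : K') : G)) (u : G) =
          MulAut.conj (((b : K') : G) * ((a : K') : G)) (u : G)
        rw [map_mul, map_mul, MulAut.mul_apply, MulAut.mul_apply]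
        exact hab
      have hba : MulAut.conj ((b * a : K') : G) (u : G) = MulAut.conj ((a * b : K') : G) (u : G) := by
        rw [Subgroup.coe_mul, Subgroup.coe_mul, map_mul, map_mul, MulAut.mul_apply, MulAut.mul_apply]
        exact hab.symm
      rw [MulAut.conj_apply, MulAut.conj_apply, Subgroup.coe_mul, Subgroup.coe_mul] at hba
      refine mul_inv_eq_iff_eq_mul.1 ?_
      obtain ⟨w, hw⟩ : ∃ w, ((b : K') : G) * (a : K') * w * (((b : K') : G) * (a : K'))⁻¹ = u :=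
        ⟨(((b : K') : G) * (a : K'))⁻¹ * u * (((b : K') : G) * (a : K')), by group⟩
      have hw' : ∃ k : ℤ, w = (u : G) ^ k := by
        have hwQ : w ∈ c.Q := (Subgroup.mem_normalizer_iff.1 (mul_mem hb ha) w).2 (hw.symm ▸ u.2)
        obtain ⟨k, hk'⟩ := hu ⟨w, hwQ⟩
        exact ⟨k, (congrArg Subtype.val hk').symm.trans rfl⟩
      obtain ⟨k, rfl⟩ := hw'
      have hpow : ((a : K') : G) * (b : K') * (u : G) ^ k * (((a : K') : G) * (b : K'))⁻¹ = u := by
        rw [← MulAut.conj_apply, map_zpow, MulAut.conj_apply, ← hba, ← MulAut.conj_apply, ← map_zpow,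
          MulAut.conj_apply, hw]
      simp only [Subgroup.coe_mul, Subgroup.coe_inv]
      conv_lhs => rw [← hw]
      conv_rhs => rw [← hpow]
      group
    obtain ⟨k, hk'⟩ := hu ⟨e, he⟩
    have hek : e = (u : G) ^ k := (congrArg Subtype.val hk').symm.trans rfl
    rw [hek]
    exact ((show Commute _ _ from hfix).zpow_right k).eq.symm
  have hD : ∀ y, ∃ x ∈ DK, χ' x = y := by
    haveI := sl_three_facts.2
    haveI hn : ((DK ⊓ NK).subgroupOf NK).Normal := ⟨fun d hd g => by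
      refine ⟨?_, (g * d * g⁻¹).2⟩
      refine Subgroup.mem_centralizer_iff.2 fun e he => ?_
      have he' : ((g : K') : G)⁻¹ * e * (g : K') ∈ c.Q :=
        (Subgroup.mem_normalizer_iff''.1 g.2 e).1 he
      have h : ((g : K') : G)⁻¹ * e * (g : K') * (d : K') =
          (d : K') * (((g : K') : G)⁻¹ * e * (g : K')) := Subgroup.mem_centralizer_iff.1 hd.1 _ he'
      show e * (((g : K') : G) * (d : K') * ((g : K') : G)⁻¹) = ((g : K') : G) * (d : K') * ((g : K') : G)⁻¹ * e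
      calc e * (((g : K') : G) * (d : K') * ((g : K') : G)⁻¹)
          = (g : K') * (((g : K') : G)⁻¹ * e * (g : K') * (d : K')) * ((g : K') : G)⁻¹ := by group
        _ = (g : K') * (d : K') * ((g : K') : G)⁻¹ * e := by rw [h]; group⟩
    have hs : Function.Surjective (χ'.comp NK.subtype) := fun y => by
      obtain ⟨x, hx, e⟩ := hNKsurj y
      exact ⟨⟨x, hx⟩, e⟩
    rcases (hn.map (χ'.comp NK.subtype) hs).eq_bot_or_eq_top with hb | ht
    · exfalso
      refine sl_three_noncomm fun a b => ?_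
      obtain ⟨x, hx, rfl⟩ := hNKsurj a
      obtain ⟨y, hy, rfl⟩ := hNKsurj b
      have hm' : x * y * x⁻¹ * y⁻¹ ∈ NK :=
        NK.mul_mem (NK.mul_mem (NK.mul_mem hx hy) (NK.inv_mem hx)) (NK.inv_mem hy)
      have h : χ' (x * y * x⁻¹ * y⁻¹) = 1 := (Subgroup.map_eq_bot_iff _).1 hb
        (show (⟨x * y * x⁻¹ * y⁻¹, hm'⟩ : NK) ∈ (DK ⊓ NK).subgroupOf NK from ⟨hDK x hx y hy, hm'⟩)
      rw [map_mul, map_mul, map_mul, map_inv, map_inv, mul_inv_eq_one, mul_inv_eq_iff_eq_mul] at h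
      exact h
    · intro y
      obtain ⟨x, hx, e⟩ := (show y ∈ ((DK ⊓ NK).subgroupOf NK).map (χ'.comp NK.subtype) from
        ht ▸ Subgroup.mem_top y)
      exact ⟨x, hx.1, e⟩
  -- inside `J`
  let D : Subgroup G := K' ⊓ c.J
  have hDZ : D ⊓ c.Z = ⊥ := (Subgroup.eq_bot_iff_forall _).2 fun x hx =>
    hK'L x hx.1.1 (c.Z_le_L hx.2)
  refine c.nonsplit D inf_le_right hDZ ?_
  let χD : D →* Matrix.SpecialLinearGroup (Fin 3) (ZMod 2) :=
    χ'.comp (Subgroup.inclusion inf_le_left)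
  have hi : Function.Injective χD := (injective_iff_map_eq_one χD).2 fun x hx => Subtype.ext
    (Subgroup.mem_bot.1 (hDZ.le ⟨x.2, c.J_inf_centralizer.le ⟨x.2.2, (hker _).1 hx⟩⟩))
  have hs : Function.Surjective χD := by
    intro y
    obtain ⟨x, hx, rfl⟩ := hD y
    obtain ⟨a, ha, b, hb, e'⟩ := IDP.exists_eq c.prod hx
    have e : a * b = (x : G) := e'
    have hbK : b ∈ K' := by
      rw [show b = a⁻¹ * (x : G) by rw [← e, inv_mul_cancel_left]]
      exact mul_mem (inv_mem (hQK ha)) x.2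
    refine ⟨⟨b, hbK, hb⟩, ?_⟩
    have hxe : x = (⟨a, hQK ha⟩ : K') * ⟨b, hbK⟩ := Subtype.ext e.symm
    rw [hxe, map_mul, (hker _).2 (c.Q_le_CZ ha), one_mul]
    rfl
  rw [Nat.card_congr (Equiv.ofBijective χD ⟨hi, hs⟩), sl_three_facts.1]

/-- The two Sylow normalisers. -/
theorem sylow_normalizers :
    (∃ Q : Sylow 5 G, Subgroup.normalizer ((Q : Subgroup G) : Set G) ≤
      Subgroup.normalizer (c.L : Set G)) ∧
    (∃ S : Sylow 7 G, Subgroup.normalizer ((S : Subgroup G) : Set G) ≤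
      Subgroup.normalizer (c.L : Set G)) := by
  haveI : Fact (Nat.Prime 5) := ⟨by norm_num⟩
  haveI : Fact (Nat.Prime 7) := ⟨by norm_num⟩
  obtain ⟨s, hs, hs7⟩ := c.exists_seven
  obtain ⟨Q, hQ⟩ := exists_sylow_eq c.card_Q c.h25
  obtain ⟨S, hS⟩ := exists_sylow_eq (sevenS hs7) c.h49
  rw [c.normalizer_L]
  exact ⟨⟨Q, hQ ▸ c.NQ_le⟩, ⟨S, hS ▸ c.normalizer_seven hs hs7⟩⟩

include c in
/-- All properties of the 2-local subgroup. -/
theorem two_local (hone : ∀ x y : G, orderOf x = 3 → orderOf y = 3 → IsConj x y)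
    (hNP : Subgroup.normalizer (P : Set G) ≤ Subgroup.centralizer ({z} : Set G))
    (h6 : Nat.card ↥(Subgroup.center ↥(Subgroup.centralizer ({z} : Set G) ⊓
      Subgroup.centralizer (P : Set G))) = 6)
    (hM22 : Spor.IsoM22 (↥(Subgroup.centralizer ({z} : Set G) ⊓ Subgroup.centralizer (P : Set G)) ⧸
      Subgroup.center ↥(Subgroup.centralizer ({z} : Set G) ⊓ Subgroup.centralizer (P : Set G)))) :
    ∃ L : Subgroup G, IsSpecial 2 ↥L ∧ Nat.card ↥L = 2 ^ 15 ∧ Nat.card ↥(Subgroup.center ↥L) = 8 ∧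
    Nonempty (↥(Subgroup.normalizer (L : Set G)) ⧸ L.subgroupOf (Subgroup.normalizer (L : Set G)) ≃*
      Equiv.Perm (Fin 5) × Matrix.SpecialLinearGroup (Fin 3) (ZMod 2)) ∧
    (∀ K : Subgroup ↥(Subgroup.normalizer (L : Set G)),
      ¬ (L.subgroupOf (Subgroup.normalizer (L : Set G))).IsComplement' K) ∧
    (∃ K₁ : Subgroup G, K₁ ≤ Subgroup.normalizer (L : Set G) ∧ Nonempty (↥K₁ ≃* Equiv.Perm (Fin 5))) ∧
    (∃ K₂ : Subgroup G, K₂ ≤ Subgroup.normalizer (L : Set G) ∧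
      Nonempty (↥K₂ ≃* Matrix.SpecialLinearGroup (Fin 3) (ZMod 2))) ∧
    (∃ Q : Sylow 5 G, Subgroup.normalizer ((Q : Subgroup G) : Set G) ≤
      Subgroup.normalizer (L : Set G)) ∧
    (∃ S : Sylow 7 G, Subgroup.normalizer ((S : Subgroup G) : Set G) ≤
      Subgroup.normalizer (L : Set G)) := by
  haveI : Fact (Nat.Prime 3) := ⟨by norm_num⟩
  obtain ⟨s, hs, hs7⟩ := c.exists_seven
  obtain ⟨hF120, hφ, -⟩ := c.seven_complement hs hs7
  obtain ⟨⟨x, hx⟩, hxo⟩ := exists_prime_orderOf_dvd_card'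
    (G := ↥(c.CZ ⊓ Subgroup.centralizer (Subgroup.zpowers s : Set G))) 3 (by rw [hF120]; norm_num)
  rw [Subgroup.orderOf_mk] at hxo
  have hLs : c.L ⊓ Subgroup.centralizer ({s} : Set G) = ⊥ := le_bot_iff.1 fun a ha =>
    (c.L_inf_seven hs hs7).le ⟨ha.1, mem_CS (Subgroup.mem_centralizer_singleton_iff.1 ha.2).symm⟩
  obtain ⟨K₂, hK₂, hK₂i⟩ := exists_sl_three c hone hNP h6 hM22 c.L c.card_L c.Z_le_L c.L_le
    c.M_le_NL (fun g hg h => c.CL_inf_CZ hg ⟨c.CZ_le_M hg, h⟩)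
    (fun n hn => by
      obtain ⟨g, hg, h⟩ := c.exists_CL hn
      exact ⟨g, hg.1, h, hg.2⟩)
    c.card_M s hs hs7 hLs (c.seven_mem_CL hs hs7).2 x hx.1 hxo
    (Subgroup.mem_centralizer_iff.1 hx.2 s (Subgroup.mem_zpowers s))
  obtain ⟨h5, h7⟩ := c.sylow_normalizers
  exact ⟨c.L, c.special.1, c.card_L, c.special.2, c.quotient_iso, c.no_complement _ c.normalizer_L,
    ⟨_, inf_le_left.trans (c.CZ_le_M.trans c.normalizer_L.ge), hφ⟩,
    ⟨K₂, hK₂.trans c.normalizer_L.ge, hK₂i⟩, h5, h7⟩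

end Ctx

/-- The context exists, given the local structures at five and seven. -/
theorem exists_ctx {G : Type*} [Group G] [Finite G] {z : G} {P : Subgroup G}
    (hJ : IsOfJankoFourTypeWith z P)
    (h5 : ∀ Q : Subgroup G, Nat.card ↥Q = 5 → Q ≤ Subgroup.centralizer ({z} : Set G) →
      ¬ (25 ∣ Nat.card G) ∧
      (∃ J : Subgroup G, IsInternalDirectProduct Q J (Subgroup.centralizer (Q : Set G)) ∧
        ∃ (E : Subgroup ↥J) (_ : E.Normal), IsElementaryAbelian 2 E ∧ Nat.card ↥E = 8 ∧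
          Nonempty (↥J ⧸ E ≃* Matrix.SpecialLinearGroup (Fin 3) (ZMod 2)) ∧
            ∀ K : Subgroup ↥J, ¬ E.IsComplement' K) ∧
      Nat.card ↥(Subgroup.normalizer (Q : Set G)) = 2 ^ 8 * 3 * 5 * 7)
    (h7 : ∀ S : Subgroup G, Nat.card ↥S = 7 → S ≤ Subgroup.centralizer ({z} : Set G) →
      ¬ (49 ∣ Nat.card G) ∧
      (∃ I : Subgroup G, IsInternalDirectProduct S I (Subgroup.centralizer (S : Set G)) ∧
        Nonempty (↥I ≃* Equiv.Perm (Fin 5))) ∧
      Nat.card ↥(Subgroup.normalizer (S : Set G)) = 2 ^ 3 * 3 ^ 2 * 5 * 7) :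
    Nonempty (Ctx z P) := by
  haveI : Fact (Nat.Prime 5) := ⟨by norm_num⟩
  haveI : Fact (Nat.Prime 7) := ⟨by norm_num⟩
  set H := Subgroup.centralizer ({z} : Set G)
  have hH : Nat.card H = 27 * (8192 * 98560) := SylThree.card_centralizer hJ
  obtain ⟨⟨q, hq⟩, hqo⟩ := exists_prime_orderOf_dvd_card' (G := H) 5 (by rw [hH]; norm_num)
  obtain ⟨⟨t, ht⟩, hto⟩ := exists_prime_orderOf_dvd_card' (G := H) 7 (by rw [hH]; norm_num)
  rw [Subgroup.orderOf_mk] at hqo hto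
  obtain ⟨h25, ⟨J, hprod, E, hEn, hEel, hE8, ⟨e⟩, hns⟩, hNQ⟩ := h5 (Subgroup.zpowers q)
    (by rw [Nat.card_zpowers, hqo]) (Subgroup.zpowers_le.2 hq)
  obtain ⟨h49, ⟨I, hI, hφ⟩, hNS⟩ := h7 (Subgroup.zpowers t)
    (by rw [Nat.card_zpowers, hto]) (Subgroup.zpowers_le.2 ht)
  refine ⟨{
    hJ := hJ
    Q := Subgroup.zpowers q
    J := J
    Z := E.map J.subtype
    card_Q := by rw [Nat.card_zpowers, hqo]
    Q_le := Subgroup.zpowers_le.2 hq
    h25 := h25
    prod := hprod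
    Z_le := Subgroup.map_subtype_le _
    Z_elem := ?_
    card_Z := by rw [Subgroup.card_map_of_injective J.subtype_injective, hE8]
    J_norm := ?_
    quot := ?_
    nonsplit := ?_
    card_NQ := by rw [hNQ]; norm_num
    seven := ?_
    h49 := h49 }⟩
  · refine ⟨⟨⟨?_⟩⟩, ?_⟩
    · rintro ⟨_, a, ha, rfl⟩ ⟨_, b, hb, rfl⟩
      exact Subtype.ext (congrArg (fun x : E => ((x : J) : G)) (hEel.1.is_comm.comm ⟨a, ha⟩ ⟨b, hb⟩))
    · rintro _ ⟨a, ha, rfl⟩
      rw [← map_pow, hEel.2 a ha, map_one]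
  · intro n hn
    refine Subgroup.mem_normalizer_iff.2 fun x => ⟨?_, fun hx => ?_⟩
    · rintro ⟨a, ha, rfl⟩
      exact ⟨⟨n, hn⟩ * a * ⟨n, hn⟩⁻¹, hEn.conj_mem a ha _, rfl⟩
    · obtain ⟨a, ha, e'⟩ := hx
      refine ⟨⟨n, hn⟩⁻¹ * a * ⟨n, hn⟩⁻¹⁻¹, hEn.conj_mem a ha _, ?_⟩
      show n⁻¹ * (a : G) * n⁻¹⁻¹ = x
      rw [show (a : G) = n * x * n⁻¹ from e']
      group
  · refine ⟨e.toMonoidHom.comp (QuotientGroup.mk' E),
      e.surjective.comp (QuotientGroup.mk'_surjective E), ?_⟩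
    ext a
    rw [MonoidHom.mem_ker, MonoidHom.comp_apply, MulEquiv.coe_toMonoidHom,
      map_eq_one_iff e e.injective, QuotientGroup.mk'_apply, QuotientGroup.eq_one_iff,
      Subgroup.mem_subgroupOf]
    exact ⟨fun h => ⟨a, h, rfl⟩, fun ⟨b, hb, e'⟩ => Subtype.ext (a1 := b) e' ▸ hb⟩
  · intro K hKJ hKE hK
    have hdisj : Disjoint E (K.subgroupOf J) := disjoint_iff.2 ((Subgroup.eq_bot_iff_forall _).2
      fun x hx => Subtype.ext (Subgroup.mem_bot.1 (hKE.le ⟨hx.2, ⟨x, hx.1, rfl⟩⟩)))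
    refine hns (K.subgroupOf J) (Subgroup.isComplement'_of_card_mul_and_disjoint ?_ hdisj)
    have hJc : Nat.card J = 1344 := by
      have h := Subgroup.card_eq_card_quotient_mul_card_subgroup E
      rw [Nat.card_congr e.toEquiv, sl_three_facts.1, hE8] at h
      omega
    rw [hE8, Nat.card_congr (Subgroup.subgroupOfEquivOfLe hKJ).toEquiv, hK, hJc]
  · intro S hS
    obtain ⟨g, rfl⟩ := exists_conj_eq (S := Subgroup.zpowers t) (T := S)
      (by rw [Nat.card_zpowers, hto]) hS h49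
    set γ : G ≃* G := MulAut.conj g
    have hcen : Subgroup.centralizer ((Subgroup.zpowers t).map γ.toMonoidHom : Set G) =
        (Subgroup.centralizer (Subgroup.zpowers t : Set G)).map γ.toMonoidHom := by
      refine le_antisymm (fun x hx => ⟨γ.symm x, Subgroup.mem_centralizer_iff.2 fun a ha => ?_,
        γ.apply_symm_apply x⟩) ?_
      · rw [Subgroup.coe_map]
        exact Subgroup.map_centralizer_le_centralizer_image _ _
      · apply γ.injective
        rw [map_mul, map_mul, γ.apply_symm_apply]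
        exact Subgroup.mem_centralizer_iff.1 hx _ ⟨a, ha, rfl⟩
    refine ⟨⟨I.map γ.toMonoidHom, ?_, ?_⟩, ?_⟩
    · rw [hcen]
      obtain ⟨h1, h2, hc, hd, hs⟩ := hI
      refine ⟨Subgroup.map_mono h1, Subgroup.map_mono h2, ?_, ?_, ?_⟩
      · rintro _ ⟨a, ha, rfl⟩ _ ⟨b, hb, rfl⟩
        rw [← map_mul, ← map_mul, hc a ha b hb]
      · rw [← Subgroup.map_inf _ _ _ γ.injective, hd, Subgroup.map_bot]
      · rw [← Subgroup.map_sup, hs]
    · obtain ⟨φ⟩ := hφ
      exact ⟨(I.equivMapOfInjective _ γ.injective).symm.trans φ⟩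
    · rw [← Subgroup.map_equiv_normalizer_eq, Subgroup.card_map_of_injective γ.injective, hNS]
      norm_num

end Cfsg.Agent.JFourType.Pentad
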