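import Cfsg.Agent.S5563
import Cfsg.Agent.S5564
import Cfsg.Agent.JFourType.PentadMain

/-!
The 2-local subgroup at the elementary group of order eight, from the local structures at five and
seven.
-/

set_option autoImplicit false

namespace Cfsg.Agent.JFourType.Pentad

open Cfsg

theorem pentad_of_local {G : Type*} [Group G] [Finite G] [IsSimpleGroup G]
    (hG : ¬ IsMulCommutative G) (hJ : IsOfJankoFourType G)
    (h5 : ∀ z : G, IsOfJankoFourTypeAt z → ∀ Q : Subgroup G, Nat.card ↥Q = 5 →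
      Q ≤ Subgroup.centralizer ({z} : Set G) →
      ¬ (25 ∣ Nat.card G) ∧
      (∃ J : Subgroup G, IsInternalDirectProduct Q J (Subgroup.centralizer (Q : Set G)) ∧
        ∃ (E : Subgroup ↥J) (_ : E.Normal), IsElementaryAbelian 2 E ∧ Nat.card ↥E = 8 ∧
          Nonempty (↥J ⧸ E ≃* Matrix.SpecialLinearGroup (Fin 3) (ZMod 2)) ∧
            ∀ K : Subgroup ↥J, ¬ E.IsComplement' K) ∧
      Nat.card ↥(Subgroup.normalizer (Q : Set G)) = 2 ^ 8 * 3 * 5 * 7)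
    (h7 : ∀ z : G, IsOfJankoFourTypeAt z → ∀ S : Subgroup G, Nat.card ↥S = 7 →
      S ≤ Subgroup.centralizer ({z} : Set G) →
      ¬ (49 ∣ Nat.card G) ∧
      (∃ I : Subgroup G, IsInternalDirectProduct S I (Subgroup.centralizer (S : Set G)) ∧
        Nonempty (↥I ≃* Equiv.Perm (Fin 5))) ∧
      Nat.card ↥(Subgroup.normalizer (S : Set G)) = 2 ^ 3 * 3 ^ 2 * 5 * 7) :
    ∃ L : Subgroup G, IsSpecial 2 ↥L ∧ Nat.card ↥L = 2 ^ 15 ∧ Nat.card ↥(Subgroup.center ↥L) = 8 ∧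
    Nonempty (↥(Subgroup.normalizer (L : Set G)) ⧸ L.subgroupOf (Subgroup.normalizer (L : Set G)) ≃*
      Equiv.Perm (Fin 5) × Matrix.SpecialLinearGroup (Fin 3) (ZMod 2)) ∧
    (∀ K : Subgroup ↥(Subgroup.normalizer (L : Set G)),
      ¬ (L.subgroupOf (Subgroup.normalizer (L : Set G))).IsComplement' K) ∧
    (∃ K₁ : Subgroup G, K₁ ≤ Subgroup.normalizer (L : Set G) ∧ Nonempty (↥K₁ ≃* Equiv.Perm (Fin 5))) ∧
    (∃ K₂ : Subgroup G, K₂ ≤ Subgroup.normalizer (L : Set G) ∧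
      Nonempty (↥K₂ ≃* Matrix.SpecialLinearGroup (Fin 3) (ZMod 2))) ∧
    (∃ Q : Sylow 5 G, Subgroup.normalizer ((Q : Subgroup G) : Set G) ≤
      Subgroup.normalizer (L : Set G)) ∧
    (∃ S : Sylow 7 G, Subgroup.normalizer ((S : Subgroup G) : Set G) ≤
      Subgroup.normalizer (L : Set G)) := by
  have hone := Cfsg.Agent.S5564.result hG hJ
  obtain ⟨z, P, hzP⟩ := hJ
  obtain ⟨-, -, h6, hM22, hNP⟩ := Cfsg.Agent.S5563.result hG z P hzP
  obtain ⟨c⟩ := exists_ctx hzP (h5 z ⟨P, hzP⟩) (h7 z ⟨P, hzP⟩)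
  exact c.two_local hone hNP h6 hM22

end Cfsg.Agent.JFourType.Pentad
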