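import Cfsg.Agent.JFourType.PentadCount
import Cfsg.Agent.Cores.Basic
import Cfsg.Agent.PGroup.Frattini

/-!
The 2-local subgroup at the elementary group of order eight.
-/

set_option autoImplicit false

namespace Cfsg.Agent.JFourType.Pentad.Ctx

open Cfsg
open Cfsg.Agent.LargeFischer.Eight (sl_three_facts quotient_equiv_prod)

variable {G : Type*} [Group G] [Finite G] {z : G} {P : Subgroup G} (c : Ctx z P)

/-- The centraliser of the elementary group. -/
abbrev CZ : Subgroup G := Subgroup.centralizer (c.Z : Set G)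

/-- Its normaliser. -/
abbrev M : Subgroup G := Subgroup.normalizer (c.Z : Set G)

/-- The largest normal 2-subgroup. -/
def L : Subgroup G := (pCore 2 c.CZ).map c.CZ.subtype

theorem CZ_le_M : c.CZ ≤ c.M := Subgroup.centralizer_le_normalizer _

theorem J_le_M : c.J ≤ c.M := c.J_norm

theorem Q_le_CZ : c.Q ≤ c.CZ := c.card_normalizer_inf.2.1

theorem NQ_le : Subgroup.normalizer (c.Q : Set G) ≤ c.M := c.card_normalizer_inf.2.2

theorem exists_rep : ∃ χ : c.M →* Matrix.SpecialLinearGroup (Fin 3) (ZMod 2),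
    Function.Surjective χ ∧ χ.ker = c.CZ.subgroupOf c.M := by
  obtain ⟨e⟩ := FiveRecog.exists_coord c.Z_elem c.card_Z
  obtain ⟨F, hF⟩ := LargeFischer.Eight.aut_to_SL e
  let χ : c.M →* Matrix.SpecialLinearGroup (Fin 3) (ZMod 2) := F.comp c.Z.normalizerMonoidHom
  have hk : χ.ker = c.CZ.subgroupOf c.M := by
    ext a
    rw [MonoidHom.mem_ker, MonoidHom.comp_apply, map_eq_one_iff F hF, ← MonoidHom.mem_ker,
      c.Z.normalizerMonoidHom_ker]
  refine ⟨χ, MonoidHom.range_eq_top.1 ?_, hk⟩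
  let χJ : c.J →* Matrix.SpecialLinearGroup (Fin 3) (ZMod 2) := χ.comp (Subgroup.inclusion c.J_le_M)
  have hkJ : χJ.ker = c.Z.subgroupOf c.J := by
    ext a
    have e : a ∈ χJ.ker ↔ Subgroup.inclusion c.J_le_M a ∈ χ.ker := Iff.rfl
    rw [e, hk, Subgroup.mem_subgroupOf, Subgroup.mem_subgroupOf]
    constructor
    · intro h
      exact c.J_inf_centralizer.le ⟨a.2, h⟩
    · intro h
      exact (c.J_inf_centralizer.ge h).2
  have hc := Subgroup.card_mul_index χJ.ker
  rw [Subgroup.index_ker, hkJ, Nat.card_congr (Subgroup.subgroupOfEquivOfLe c.Z_le).toEquiv, c.card_Z,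
    c.card_J] at hc
  have htop : χJ.range = ⊤ := Subgroup.eq_top_of_card_eq _ (by rw [sl_three_facts.1]; omega)
  refine top_le_iff.1 ?_
  rw [← htop]
  rintro _ ⟨a, rfl⟩
  exact ⟨_, rfl⟩

theorem card_M : Nat.card c.M = 168 * Nat.card c.CZ := by
  obtain ⟨χ, hχ, hk⟩ := c.exists_rep
  have h := Subgroup.card_mul_index χ.ker
  rw [Subgroup.index_ker, MonoidHom.range_eq_top.2 hχ, Subgroup.card_top, sl_three_facts.1, hk,
    Nat.card_congr (Subgroup.subgroupOfEquivOfLe c.CZ_le_M).toEquiv] at h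
  omega

theorem L_le : c.L ≤ c.CZ := Subgroup.map_subtype_le _

theorem L_two : IsPGroup 2 c.L := (Cores.pCore_isPGroup).map _

theorem le_L {N : Subgroup G} (hN : N ≤ c.CZ) (hp : IsPGroup 2 N)
    (hn : c.CZ ≤ Subgroup.normalizer (N : Set G)) : N ≤ c.L := by
  intro x hx
  refine ⟨⟨x, hN hx⟩, Cores.le_pCore (N := N.subgroupOf c.CZ) ⟨fun a ha g => ?_⟩
    (hp.of_equiv (Subgroup.subgroupOfEquivOfLe hN).symm) (Subgroup.mem_subgroupOf.2 hx), rfl⟩
  exact Subgroup.mem_subgroupOf.2 ((Subgroup.mem_normalizer_iff.1 (hn g.2) _).1 (Subgroup.mem_subgroupOf.1 ha))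

theorem CZ_conj {n a : G} (hn : n ∈ c.M) (ha : a ∈ c.CZ) : n * a * n⁻¹ ∈ c.CZ := by
  refine Subgroup.mem_centralizer_iff.2 fun e he => ?_
  have he' : n⁻¹ * e * n ∈ c.Z := (Subgroup.mem_normalizer_iff''.1 hn e).1 he
  have h := Subgroup.mem_centralizer_iff.1 ha _ he'
  calc e * (n * a * n⁻¹) = n * (n⁻¹ * e * n * a) * n⁻¹ := by group
    _ = n * a * n⁻¹ * e := by rw [h]; group

theorem L_conj {n a : G} (hn : n ∈ c.M) (ha : a ∈ c.L) : n * a * n⁻¹ ∈ c.L := by
  have hle : c.L.map (MulAut.conj n).toMonoidHom ≤ c.CZ := by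
    rintro _ ⟨b, hb, rfl⟩
    exact c.CZ_conj hn (c.L_le hb)
  refine c.le_L hle (c.L_two.map _) (fun g hg => ?_) ⟨a, ha, rfl⟩
  have hnorm : ∀ g ∈ c.CZ, ∀ b ∈ c.L, g * b * g⁻¹ ∈ c.L := by
    rintro g hg _ ⟨b, hb, rfl⟩
    exact ⟨⟨g, hg⟩ * b * ⟨g, hg⟩⁻¹, (inferInstance : (pCore 2 c.CZ).Normal).conj_mem b hb _, rfl⟩
  have key : ∀ g ∈ c.CZ, ∀ b ∈ c.L.map (MulAut.conj n).toMonoidHom,
      g * b * g⁻¹ ∈ c.L.map (MulAut.conj n).toMonoidHom := by
    rintro g hg _ ⟨b, hb, rfl⟩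
    have hg' : n⁻¹ * g * (n⁻¹)⁻¹ ∈ c.CZ := c.CZ_conj (inv_mem hn) hg
    refine ⟨_, hnorm _ hg' b hb, ?_⟩
    simp [mul_assoc]
  refine Subgroup.mem_normalizer_iff.2 fun b => ⟨key g hg b, fun hb => ?_⟩
  have := key g⁻¹ (inv_mem hg) _ hb
  simpa [mul_assoc] using this

theorem M_le_NL : c.M ≤ Subgroup.normalizer (c.L : Set G) := fun n hn =>
  Subgroup.mem_normalizer_iff.2 fun a => ⟨c.L_conj hn, fun h => by
    have := c.L_conj (inv_mem hn) h
    simpa [mul_assoc] using this⟩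

theorem core_inf_le : twoCoreOfCentralizer z ⊓ c.CZ ≤ c.L := by
  refine c.le_L inf_le_right ?_ fun g hg => ?_
  · exact IsPGroup.of_card (n := 11) c.card_centralizer_cases.2.2
  · have hgC := c.centralizer_Z_le hg
    have key : ∀ g : G, g ∈ c.CZ → ∀ a ∈ twoCoreOfCentralizer z ⊓ c.CZ,
        g * a * g⁻¹ ∈ twoCoreOfCentralizer z ⊓ c.CZ := by
      rintro g hg a ⟨⟨b, hb, rfl⟩, ha⟩
      exact ⟨⟨⟨g, c.centralizer_Z_le hg⟩ * b * ⟨g, c.centralizer_Z_le hg⟩⁻¹,
        (inferInstance : (pCore 2 _).Normal).conj_mem b hb _, rfl⟩,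
        c.CZ.mul_mem (c.CZ.mul_mem hg ha) (c.CZ.inv_mem hg)⟩
    exact Subgroup.mem_normalizer_iff.2 fun a => ⟨key g hg a, fun h => by
      have := key g⁻¹ (inv_mem hg) _ h
      simpa [mul_assoc] using this⟩

theorem Z_le_L : c.Z ≤ c.L := fun _ he => c.core_inf_le
  ⟨c.card_centralizer_cases.2.1 he, Subgroup.mem_centralizer_iff.2 fun _ hu => c.Z_comm hu he⟩

theorem sevenS {s : G} (hs7 : orderOf s = 7) : Nat.card (Subgroup.zpowers s) = 7 := by
  rw [Nat.card_zpowers, hs7]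

theorem s_mem_CQ {s : G} (hs : s ∈ c.J) : ∀ q ∈ c.Q, q * s = s * q := fun q hq =>
  c.prod.2.2.1 q hq s hs

theorem mem_CS {s x : G} (hx : s * x = x * s) :
    x ∈ Subgroup.centralizer (Subgroup.zpowers s : Set G) := by
  refine Subgroup.mem_centralizer_iff.2 ?_
  rintro _ ⟨n, rfl⟩
  exact (show Commute s x from hx).zpow_left n

theorem zpowers_le_normalizer {s : G} {W : Subgroup G} (h : s ∈ Subgroup.normalizer (W : Set G)) :
    Subgroup.zpowers s ≤ Subgroup.normalizer (W : Set G) := Subgroup.zpowers_le.2 h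

/-- No element of `L` commutes with an element of order seven of `J`. -/
theorem L_inf_seven {s : G} (hs : s ∈ c.J) (hs7 : orderOf s = 7) :
    c.L ⊓ Subgroup.centralizer (Subgroup.zpowers s : Set G) = ⊥ := by
  haveI : Fact (Nat.Prime 5) := ⟨by norm_num⟩
  set CS := Subgroup.centralizer (Subgroup.zpowers s : Set G)
  set W := c.L ⊓ CS
  obtain ⟨I, hI, ⟨φ⟩⟩ := (c.seven _ (sevenS hs7)).1
  obtain ⟨j, hj⟩ := (c.L_two.to_le (inf_le_left : W ≤ c.L)).exists_card_eq
  have hWI : W ≤ I := fun x hx => by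
    obtain ⟨k, hk⟩ := (c.L_two.to_le (inf_le_left : W ≤ c.L)) ⟨x, hx⟩
    exact IDP.mem_right hI hx.2 (m := 2 ^ k) (congrArg Subtype.val hk)
      (by rw [sevenS hs7]; exact Nat.Coprime.pow_right _ (by norm_num))
  have hd := Subgroup.card_dvd_of_le hWI
  rw [hj, Nat.card_congr φ.toEquiv, Nat.card_perm, Nat.card_fin] at hd
  have hj3 : j ≤ 3 := by
    by_contra hh
    have h16 : 2 ^ 4 ∣ Nat.factorial 5 := (pow_dvd_pow 2 (by omega : 4 ≤ j)).trans hd
    rw [show Nat.factorial 5 = 120 from rfl] at h16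
    norm_num at h16
  have hQW : c.Q ≤ Subgroup.normalizer (W : Set G) := by
    intro q hq
    have key : ∀ q ∈ c.Q, ∀ x ∈ W, q * x * q⁻¹ ∈ W := fun q hq x hx => by
      refine ⟨c.L_conj (c.CZ_le_M (c.Q_le_CZ hq)) hx.1, mem_CS ?_⟩
      have h1 : Commute s q := (c.s_mem_CQ hs q hq).symm
      have h2 : Commute s x := Subgroup.mem_centralizer_iff.1 hx.2 s (Subgroup.mem_zpowers s)
      exact ((h1.mul_right h2).mul_right h1.inv_right).eq
    refine Subgroup.mem_normalizer_iff.2 fun x => ⟨key q hq x, fun h => ?_⟩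
    have := key q⁻¹ (inv_mem hq) _ h
    simpa [mul_assoc] using this
  have h := modeq_fix (p := 5) (n := 1) (by rw [c.card_Q]; norm_num) hQW
  have h1 : W ⊓ Subgroup.centralizer (c.Q : Set G) = ⊥ := by
    refine (Subgroup.eq_bot_iff_forall _).2 fun x hx => ?_
    obtain ⟨⟨hxL, hxS⟩, hxQ⟩ := hx
    obtain ⟨k, hk⟩ := c.L_two ⟨x, hxL⟩
    have hxJ : x ∈ c.J := IDP.mem_right c.prod hxQ (m := 2 ^ k) (congrArg Subtype.val hk)
      (by rw [c.card_Q]; exact Nat.Coprime.pow_right _ (by norm_num))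
    exact c.seven_fix hs hs7 (c.J_inf_centralizer.le ⟨hxJ, c.L_le hxL⟩)
      (Subgroup.mem_centralizer_iff.1 hxS s (Subgroup.mem_zpowers s))
  rw [h1, Subgroup.card_bot, hj] at h
  have h' : 2 ^ j % 5 = 1 % 5 := h
  have : j = 0 := by interval_cases j <;> simp at h' ⊢
  exact Subgroup.card_eq_one.1 (by rw [hj, this, pow_zero])

theorem L_inf_five : c.L ⊓ Subgroup.centralizer (c.Q : Set G) = c.Z := by
  refine le_antisymm (fun x hx => ?_) (le_inf c.Z_le_L (c.Z_le.trans c.J_le))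
  obtain ⟨k, hk⟩ := c.L_two ⟨x, hx.1⟩
  exact c.J_inf_centralizer.le ⟨IDP.mem_right c.prod hx.2 (m := 2 ^ k) (congrArg Subtype.val hk)
    (by rw [c.card_Q]; exact Nat.Coprime.pow_right _ (by norm_num)), c.L_le hx.1⟩

/-- A subgroup between `Z` and `L` invariant under the two coprime elements. -/
theorem card_invariant {W : Subgroup G} (hZW : c.Z ≤ W) (hWL : W ≤ c.L)
    (hQ : c.Q ≤ Subgroup.normalizer (W : Set G)) {s : G} (hs : s ∈ c.J) (hs7 : orderOf s = 7)
    (hsW : s ∈ Subgroup.normalizer (W : Set G)) :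
    Nat.card W = 2 ^ 3 ∨ Nat.card W = 2 ^ 15 := by
  haveI : Fact (Nat.Prime 5) := ⟨by norm_num⟩
  haveI : Fact (Nat.Prime 7) := ⟨by norm_num⟩
  obtain ⟨k, hk⟩ := (c.L_two.to_le hWL).exists_card_eq
  have h5 := modeq_fix (p := 5) (n := 1) (by rw [c.card_Q]; norm_num) hQ
  have h7 := modeq_fix (p := 7) (n := 1) (by rw [sevenS hs7]; norm_num) (zpowers_le_normalizer hsW)
  have e5 : W ⊓ Subgroup.centralizer (c.Q : Set G) = c.Z :=
    le_antisymm ((inf_le_inf_right _ hWL).trans c.L_inf_five.le) (le_inf hZW (c.Z_le.trans c.J_le))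
  have e7 : W ⊓ Subgroup.centralizer (Subgroup.zpowers s : Set G) = ⊥ :=
    le_bot_iff.1 ((inf_le_inf_right _ hWL).trans (c.L_inf_seven hs hs7).le)
  rw [e5, c.card_Z, hk] at h5
  rw [e7, Subgroup.card_bot, hk] at h7
  have h18 : k ≤ 18 := by
    by_contra hh
    have hd := Subgroup.card_dvd_of_le (hWL.trans c.L_le)
    rw [hk, c.card_centralizer_Z] at hd
    have h19 : 2 ^ 19 ∣ 3932160 := (pow_dvd_pow 2 (by omega : 19 ≤ k)).trans hd
    norm_num at h19
  have h3 : 3 ≤ k := by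
    have := Subgroup.card_le_of_le hZW
    rw [hk, c.card_Z] at this
    exact (Nat.pow_le_pow_iff_right (by norm_num : 1 < 2)).1 (by simpa using this)
  have h5' : 2 ^ k % 5 = 8 % 5 := h5
  have h7' : 2 ^ k % 7 = 1 % 7 := h7
  rw [hk]
  interval_cases k <;> simp at h5' h7' ⊢

theorem card_L : Nat.card c.L = 2 ^ 15 := by
  obtain ⟨s, hs, hs7⟩ := c.exists_seven
  refine (c.card_invariant c.Z_le_L le_rfl (fun q hq => c.M_le_NL (c.CZ_le_M (c.Q_le_CZ hq))) hs hs7
    (c.M_le_NL (c.J_le_M hs))).resolve_left fun h => ?_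
  have h2 := Subgroup.card_le_of_le c.core_inf_le
  rw [h, c.card_centralizer_cases.2.2] at h2
  norm_num at h2

theorem eq_or_eq {W : Subgroup G} (hZW : c.Z ≤ W) (hWL : W ≤ c.L)
    (hW : c.M ≤ Subgroup.normalizer (W : Set G)) : W = c.Z ∨ W = c.L := by
  obtain ⟨s, hs, hs7⟩ := c.exists_seven
  rcases c.card_invariant hZW hWL (fun q hq => hW (c.CZ_le_M (c.Q_le_CZ hq))) hs hs7
    (hW (c.J_le_M hs)) with h | h
  · exact Or.inl (Subgroup.eq_of_le_of_card_ge hZW (by rw [h, c.card_Z]; norm_num)).symm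
  · exact Or.inr (Subgroup.eq_of_le_of_card_ge hWL (by rw [h, c.card_L]))

theorem L_not_comm : ¬ IsMulCommutative c.L := by
  intro hab
  obtain ⟨S⟩ := Invol.exists_setup c.hJ
  set H := Subgroup.centralizer ({z} : Set G)
  let A : Subgroup H := (c.L.subgroupOf H) ⊓ pCore 2 H
  let R : Subgroup (pCore 2 H) := (c.L.subgroupOf H).subgroupOf (pCore 2 H)
  have hR : IsMulCommutative R := ⟨⟨fun a b => by
    have h := congrArg Subtype.val (hab.is_comm.comm
      (⟨(((a : pCore 2 H) : H) : G), a.2⟩ : c.L) (⟨(((b : pCore 2 H) : H) : G), b.2⟩ : c.L))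
    exact Subtype.ext (Subtype.ext (Subtype.ext h))⟩⟩
  have h1 := S.D.abelian_le R hR
  have h2 : Nat.card ↥(twoCoreOfCentralizer z ⊓ c.CZ) ≤ Nat.card R := by
    let f : ↥(twoCoreOfCentralizer z ⊓ c.CZ) → R := fun x =>
      ⟨⟨⟨x, c.centralizer_Z_le x.2.2⟩, by
        obtain ⟨b, hb, e⟩ := x.2.1
        have : b = ⟨(x : G), c.centralizer_Z_le x.2.2⟩ := Subtype.ext e
        exact this ▸ hb⟩, c.core_inf_le x.2⟩
    exact Nat.card_le_card_of_injective f fun a b e =>
      Subtype.ext (congrArg (fun r : R => ((((r : pCore 2 H)) : H) : G)) e)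
  rw [c.card_centralizer_cases.2.2] at h2
  exact absurd (h2.trans h1) (by norm_num)

theorem center_L : (Subgroup.center c.L).map c.L.subtype = c.Z := by
  have hc : ∀ x, x ∈ (Subgroup.center c.L).map c.L.subtype ↔ x ∈ c.L ∧ ∀ a ∈ c.L, a * x = x * a := by
    intro x
    constructor
    · rintro ⟨y, hy, rfl⟩
      exact ⟨y.2, fun a ha => congrArg Subtype.val (Subgroup.mem_center_iff.1 hy ⟨a, ha⟩)⟩
    · rintro ⟨hx, h⟩
      exact ⟨⟨x, hx⟩, Subgroup.mem_center_iff.2 fun a => Subtype.ext (h a a.2), rfl⟩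
  have hinv : ∀ n ∈ c.M, ∀ x ∈ (Subgroup.center c.L).map c.L.subtype,
      n * x * n⁻¹ ∈ (Subgroup.center c.L).map c.L.subtype := by
    intro n hn x hx
    rw [hc] at hx ⊢
    refine ⟨c.L_conj hn hx.1, fun a ha => ?_⟩
    have ha' : n⁻¹ * a * n ∈ c.L := by simpa using c.L_conj (inv_mem hn) ha
    calc a * (n * x * n⁻¹) = n * (n⁻¹ * a * n * x) * n⁻¹ := by group
      _ = n * x * n⁻¹ * a := by rw [hx.2 _ ha']; group
  rcases c.eq_or_eq (W := (Subgroup.center c.L).map c.L.subtype)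
    (fun e he => (hc e).2 ⟨c.Z_le_L he, fun a ha => (Subgroup.mem_centralizer_iff.1 (c.L_le ha) e he).symm⟩)
    (Subgroup.map_subtype_le _) (fun n hn => Subgroup.mem_normalizer_iff.2 fun x => ⟨hinv n hn x, fun h => by
      have := hinv n⁻¹ (inv_mem hn) _ h
      simpa [mul_assoc] using this⟩) with h | h
  · exact h
  · refine absurd ⟨⟨fun a b => Subtype.ext ?_⟩⟩ c.L_not_comm
    exact ((hc a).1 (h.ge a.2)).2 b b.2 |>.symm

theorem special : IsSpecial 2 c.L ∧ Nat.card (Subgroup.center c.L) = 8 := by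
  haveI : Fact (Nat.Prime 2) := ⟨Nat.prime_two⟩
  obtain ⟨s, hs, hs7⟩ := c.exists_seven
  haveI : Fact (Nat.Prime 7) := ⟨by norm_num⟩
  have hcard : Nat.card (Subgroup.center c.L) = 8 := by
    rw [← Subgroup.card_map_of_injective c.L.subtype_injective, c.center_L, c.card_Z]
  have hmapc : ∀ (W : Subgroup c.L) [W.Characteristic], c.M ≤ Subgroup.normalizer ((W.map c.L.subtype : Subgroup G) : Set G) := by
    intro W _ n hn
    have key : ∀ n ∈ c.M, ∀ x ∈ W.map c.L.subtype, n * x * n⁻¹ ∈ W.map c.L.subtype := by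
      rintro n hn _ ⟨y, hy, rfl⟩
      let φ : c.L ≃* c.L :=
        { toFun := fun a => ⟨n * a * n⁻¹, c.L_conj hn a.2⟩
          invFun := fun a => ⟨n⁻¹ * a * n, by simpa using c.L_conj (inv_mem hn) a.2⟩
          left_inv := fun a => Subtype.ext (by simp [mul_assoc])
          right_inv := fun a => Subtype.ext (by simp [mul_assoc])
          map_mul' := fun a b => Subtype.ext (by simp [mul_assoc]) }
      refine ⟨φ y, ?_, rfl⟩
      have h := Subgroup.characteristic_iff_map_eq.1 (inferInstance : W.Characteristic) φ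
      exact h.le ⟨y, hy, rfl⟩
    exact Subgroup.mem_normalizer_iff.2 fun x => ⟨key n hn x, fun h => by
      have := key n⁻¹ (inv_mem hn) _ h
      simpa [mul_assoc] using this⟩
  let Zs : Subgroup c.L := Subgroup.center c.L
  have hfr : frattini c.L ≤ Subgroup.center c.L := by
    haveI : (frattini c.L ⊔ Subgroup.center c.L).Characteristic := inferInstance
    rcases c.eq_or_eq (W := (frattini c.L ⊔ Subgroup.center c.L).map c.L.subtype)
      (c.center_L.ge.trans (Subgroup.map_mono le_sup_right)) (Subgroup.map_subtype_le _) (hmapc _) with h | h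
    · refine le_sup_left.trans (Subgroup.map_le_map_iff_of_injective c.L.subtype_injective |>.1
        (h.le.trans c.center_L.ge))
    · exfalso
      have htop : Subgroup.center c.L ⊔ frattini c.L = ⊤ := by
        rw [sup_comm]
        refine Subgroup.map_injective c.L.subtype_injective ?_
        rw [h, ← MonoidHom.range_eq_map, Subgroup.range_subtype]
      have := frattini_nongenerating htop
      have h2 := hcard
      rw [this, Subgroup.card_top, c.card_L] at h2
      norm_num at h2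
  have hcom : commutator c.L = Subgroup.center c.L := by
    have hle : commutator c.L ≤ Subgroup.center c.L :=
      (PGroup.commutator_le_frattini c.L_two).trans hfr
    refine Subgroup.eq_of_le_of_card_ge hle (hcard.le.trans ?_)
    set W := (commutator c.L).map c.L.subtype
    have hsW : s ∈ Subgroup.normalizer (W : Set G) := hmapc _ (c.J_le_M hs)
    have h7 := modeq_fix (p := 7) (n := 1) (by rw [sevenS hs7]; norm_num) (zpowers_le_normalizer hsW)
    have e7 : W ⊓ Subgroup.centralizer (Subgroup.zpowers s : Set G) = ⊥ :=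
      le_bot_iff.1 ((inf_le_inf_right _ (Subgroup.map_subtype_le _)).trans (c.L_inf_seven hs hs7).le)
    rw [e7, Subgroup.card_bot, Subgroup.card_map_of_injective c.L.subtype_injective] at h7
    have hd := Subgroup.card_dvd_of_le hle
    rw [hcard] at hd
    have hne : Nat.card (commutator c.L) ≠ 1 := fun h => c.L_not_comm ⟨⟨fun a b => by
      have hb : commutator c.L = ⊥ := Subgroup.card_eq_one.1 h
      have hab : a * b * a⁻¹ * b⁻¹ ∈ commutator c.L := by
        rw [commutator_def]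
        exact Subgroup.commutator_mem_commutator (Subgroup.mem_top a) (Subgroup.mem_top b)
      rw [hb, Subgroup.mem_bot, mul_inv_eq_one, mul_inv_eq_iff_eq_mul] at hab
      exact hab⟩⟩
    have h7' : Nat.card (commutator c.L) % 7 = 1 % 7 := h7
    have hle8 := Nat.le_of_dvd (by norm_num) hd
    have hpos : 0 < Nat.card (commutator c.L) := Nat.card_pos
    omega
  exact ⟨⟨c.L_two, le_antisymm hfr (hcom ▸ PGroup.commutator_le_frattini c.L_two), hcom⟩, hcard⟩

theorem normalizer_L : Subgroup.normalizer (c.L : Set G) = c.M := by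
  refine le_antisymm (fun n hn => ?_) c.M_le_NL
  have key : ∀ n ∈ Subgroup.normalizer (c.L : Set G), ∀ e ∈ c.Z, n * e * n⁻¹ ∈ c.Z := by
    intro n hn e he
    rw [← c.center_L] at he ⊢
    obtain ⟨y, hy, rfl⟩ := he
    refine ⟨⟨n * y * n⁻¹, (Subgroup.mem_normalizer_iff.1 hn _).1 y.2⟩, Subgroup.mem_center_iff.2 fun a => ?_, rfl⟩
    apply Subtype.ext
    have ha' : n⁻¹ * a * n ∈ c.L := (Subgroup.mem_normalizer_iff''.1 hn _).1 a.2
    have h : n⁻¹ * (a : G) * n * y = y * (n⁻¹ * (a : G) * n) :=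
      congrArg Subtype.val (Subgroup.mem_center_iff.1 hy ⟨_, ha'⟩)
    calc (a : G) * (n * y * n⁻¹) = n * (n⁻¹ * a * n * y) * n⁻¹ := by group
      _ = n * y * n⁻¹ * a := by rw [h]; group
  exact Subgroup.mem_normalizer_iff.2 fun e => ⟨key n hn e, fun h => by
    have := key n⁻¹ (inv_mem hn) _ h
    simpa [mul_assoc] using this⟩

/-- The centraliser of an element of order seven inside the centraliser of `Z`. -/
theorem seven_complement {s : G} (hs : s ∈ c.J) (hs7 : orderOf s = 7) :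
    Nat.card ↥(c.CZ ⊓ Subgroup.centralizer (Subgroup.zpowers s : Set G)) = 120 ∧
    Nonempty (↥(c.CZ ⊓ Subgroup.centralizer (Subgroup.zpowers s : Set G)) ≃* Equiv.Perm (Fin 5)) ∧
    Subgroup.centralizer (Subgroup.zpowers s : Set G) ≤ c.M := by
  haveI : Fact (Nat.Prime 7) := ⟨by norm_num⟩
  set CS := Subgroup.centralizer (Subgroup.zpowers s : Set G) with hCS
  set F := c.CZ ⊓ CS
  obtain ⟨I, hI, ⟨φ⟩⟩ := (c.seven _ (sevenS hs7)).1
  have hI120 : Nat.card I = 120 := by
    rw [Nat.card_congr φ.toEquiv, Nat.card_perm, Nat.card_fin]; rfl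
  have hCSc : Nat.card CS = 840 := by rw [IDP.card_eq hI, sevenS hs7, hI120]
  have hsN : s ∈ Subgroup.normalizer (c.CZ : Set G) := Subgroup.mem_normalizer_iff.2 fun a =>
    ⟨c.CZ_conj (c.J_le_M hs), fun h => by
      have := c.CZ_conj (inv_mem (c.J_le_M hs)) h
      simpa [mul_assoc] using this⟩
  have h7 := modeq_fix (p := 7) (n := 1) (by rw [sevenS hs7]; norm_num) (zpowers_le_normalizer hsN)
  rw [c.card_centralizer_Z] at h7
  have h7' : 3932160 % 7 = Nat.card F % 7 := h7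
  -- divisibility
  have hcop : ∀ x ∈ F, x ^ 120 = 1 := by
    intro x hx
    have h1 : x ^ Nat.card c.CZ = 1 := congrArg Subtype.val (pow_card_eq_one' (G := c.CZ) (x := ⟨x, hx.1⟩))
    have h2 : x ^ Nat.card CS = 1 := congrArg Subtype.val (pow_card_eq_one' (G := CS) (x := ⟨x, hx.2⟩))
    have h3 := pow_gcd_eq_one.2 ⟨h1, h2⟩
    rwa [c.card_centralizer_Z, hCSc, show Nat.gcd 3932160 840 = 120 by norm_num] at h3
  have hFI : F ≤ I := fun x hx => IDP.mem_right hI hx.2 (hcop x hx) (by rw [sevenS hs7]; norm_num)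
  have hd : Nat.card F ∣ 120 := hI120 ▸ Subgroup.card_dvd_of_le hFI
  -- twenty
  set A := Subgroup.normalizer (c.Q : Set G) ⊓ c.CZ
  have hsQ : s ∈ Subgroup.normalizer (c.Q : Set G) :=
    Subgroup.centralizer_le_normalizer _ (Subgroup.mem_centralizer_iff.2 (c.s_mem_CQ hs))
  have hsA : s ∈ Subgroup.normalizer (A : Set G) :=
    Subgroup.mem_normalizer_iff.2 fun a => by
      have e1 := Subgroup.mem_normalizer_iff.1 hsN a
      have e2 : a ∈ Subgroup.normalizer (c.Q : Set G) ↔ s * a * s⁻¹ ∈ Subgroup.normalizer (c.Q : Set G) := by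
        rw [Subgroup.mul_mem_cancel_right _ (inv_mem hsQ), Subgroup.mul_mem_cancel_left _ hsQ]
      exact and_congr e2 e1
  have hA7 := modeq_fix (p := 7) (n := 1) (by rw [sevenS hs7]; norm_num) (zpowers_le_normalizer hsA)
  rw [c.card_normalizer_inf.1] at hA7
  have hA7' : 160 % 7 = Nat.card ↥(A ⊓ CS) % 7 := hA7
  have hQA : c.Q ≤ A ⊓ CS := fun q hq => ⟨⟨Subgroup.le_normalizer hq, c.Q_le_CZ hq⟩,
    mem_CS (c.s_mem_CQ hs q hq).symm⟩
  have h5 : 5 ∣ Nat.card ↥(A ⊓ CS) := c.card_Q ▸ Subgroup.card_dvd_of_le hQA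
  have hAd : Nat.card ↥(A ⊓ CS) ∣ 160 := c.card_normalizer_inf.1 ▸ Subgroup.card_dvd_of_le inf_le_left
  have hAF : A ⊓ CS ≤ F := inf_le_inf_right _ inf_le_right
  have hAF' := (Subgroup.card_dvd_of_le hAF).trans hd
  have hA20 : Nat.card ↥(A ⊓ CS) = 20 := by
    have h40 : Nat.card ↥(A ⊓ CS) ∣ 40 := (Nat.dvd_gcd hAd hAF').trans (by norm_num)
    obtain ⟨m, hm⟩ := h5
    have hle := Nat.le_of_dvd (by norm_num) h40
    have : m ≤ 8 := by omega
    rw [hm] at hA7' h40 ⊢
    interval_cases m <;> revert hA7' h40 <;> norm_num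
  have h20 : 20 ∣ Nat.card F := hA20 ▸ Subgroup.card_dvd_of_le hAF
  have hFc : Nat.card F = 120 := by
    obtain ⟨m, hm⟩ := h20
    have hle := Nat.le_of_dvd (by norm_num) hd
    have : m ≤ 6 := by omega
    rw [hm] at h7' hd ⊢
    interval_cases m <;> revert h7' hd <;> norm_num
  have hFeq : F = I := Subgroup.eq_of_le_of_card_ge hFI (by rw [hFc, hI120])
  refine ⟨hFc, ⟨(MulEquiv.subgroupCongr hFeq).trans φ⟩, ?_⟩
  exact hI.2.2.2.2.ge.trans
    (sup_le (Subgroup.zpowers_le.2 (c.J_le_M hs)) (hFeq ▸ inf_le_left.trans c.CZ_le_M))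

theorem normalizer_seven {s : G} (hs : s ∈ c.J) (hs7 : orderOf s = 7) :
    Subgroup.normalizer (Subgroup.zpowers s : Set G) ≤ c.M := by
  haveI : Fact (Nat.Prime 7) := ⟨by norm_num⟩
  obtain ⟨-, -, hCM⟩ := c.seven_complement hs hs7
  obtain ⟨⟨I, hI, ⟨φ⟩⟩, hN⟩ := c.seven _ (sevenS hs7)
  have hCSc : Nat.card (Subgroup.centralizer (Subgroup.zpowers s : Set G)) = 840 := by
    rw [IDP.card_eq hI, sevenS hs7, Nat.card_congr φ.toEquiv, Nat.card_perm, Nat.card_fin]; rfl
  set N := Subgroup.normalizer (Subgroup.zpowers s : Set G)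
  have hd1 : Nat.card ↥(N ⊓ c.M) ∣ 2520 := hN ▸ Subgroup.card_dvd_of_le inf_le_left
  have hd2 : 840 ∣ Nat.card ↥(N ⊓ c.M) := hCSc ▸ Subgroup.card_dvd_of_le
    (le_inf (Subgroup.centralizer_le_normalizer _) hCM)
  have hM : Nat.card c.M = 660602880 := by rw [c.card_M, c.card_centralizer_Z]
  have hsM : Subgroup.zpowers s ≤ c.M := Subgroup.zpowers_le.2 (c.J_le_M hs)
  let T : Sylow 7 c.M := Sylow.ofCard ((Subgroup.zpowers s).subgroupOf c.M) (by
    rw [Nat.card_congr (Subgroup.subgroupOfEquivOfLe hsM).toEquiv, sevenS hs7, hM,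
      show (660602880 : ℕ) = 7 ^ 1 * 94371840 by norm_num,
      Nat.factorization_mul (by norm_num) (by norm_num), Finsupp.add_apply, Nat.factorization_pow,
      Finsupp.smul_apply, Nat.Prime.factorization_self (by norm_num : (7 : ℕ).Prime),
      Nat.factorization_eq_zero_of_not_dvd (show ¬ 7 ∣ 94371840 by norm_num)]
    norm_num)
  have hTn : Subgroup.normalizer (T : Set c.M) = (N ⊓ c.M).subgroupOf c.M := by
    ext g
    show g ∈ Subgroup.normalizer (((Subgroup.zpowers s).subgroupOf c.M : Subgroup c.M) : Set c.M) ↔ _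
    rw [Subgroup.mem_subgroupOf, Subgroup.mem_inf, and_iff_left g.2, Subgroup.mem_normalizer_iff,
      Subgroup.mem_normalizer_iff]
    constructor
    · intro hg x
      constructor
      · exact fun hx => (hg ⟨x, hsM hx⟩).1 hx
      · intro hx
        have hx' : x ∈ c.M := by
          have := c.M.mul_mem (c.M.mul_mem (c.M.inv_mem g.2) (hsM hx)) g.2
          simpa [mul_assoc] using this
        exact (hg ⟨x, hx'⟩).2 hx
    · exact fun hg x => hg x
  have hc := Subgroup.card_mul_index (Subgroup.normalizer (T : Set c.M))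
  rw [← T.card_eq_index_normalizer, hTn, Nat.card_congr (Subgroup.subgroupOfEquivOfLe inf_le_right).toEquiv, hM] at hc
  have hmod : Nat.card (Sylow 7 c.M) % 7 = 1 % 7 := card_sylow_modEq_one 7 c.M
  obtain ⟨m, hm⟩ := hd2
  have hm3 : Nat.card ↥(N ⊓ c.M) = 2520 := by
    have hle := Nat.le_of_dvd (by norm_num) hd1
    have : m ≤ 3 := by omega
    rcases (show m = 0 ∨ m = 1 ∨ m = 2 ∨ m = 3 by omega) with rfl | rfl | rfl | rfl
    · rw [hm] at hc
      simp at hc
    · exfalso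
      rw [hm] at hc
      have : Nat.card (Sylow 7 c.M) = 786432 := by omega
      rw [this] at hmod
      norm_num at hmod
    · rw [hm] at hd1
      norm_num at hd1
    · rw [hm]
  have he : N ⊓ c.M = N := Subgroup.eq_of_le_of_card_ge inf_le_left (by rw [hm3, hN])
  exact inf_eq_left.1 he

end Cfsg.Agent.JFourType.Pentad.Ctx
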