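import Cfsg.Agent.JFourType.InvolClasses
import Cfsg.Agent.JFourType.DuadAut

/-!
The centralizer of an involution that is not conjugate to the central one, from the structure and
the two orbits of the normalizer of an elementary abelian subgroup of order `2^11`.
-/

set_option autoImplicit false

namespace Cfsg.Agent.JFourType

open Cfsg
open scoped Pointwise

variable {G : Type*} [Group G] [Finite G] {z : G} {P : Subgroup G}

theorem second_centralizer [IsSimpleGroup G] (hG : ¬ IsMulCommutative G)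
    (hJ : IsOfJankoFourTypeWith z P)
    (h3 : ∀ a b : G, orderOf a = 3 → orderOf b = 3 → IsConj a b)
    (hN : Subgroup.normalizer (P : Set G) ≤ Subgroup.centralizer ({z} : Set G))
    (hsplit : ∀ V : Subgroup G, IsElementaryAbelian 2 V → Nat.card ↥V = 2 ^ 11 →
      ∃ K : Subgroup G, K ≤ Subgroup.normalizer (V : Set G) ∧ K ⊓ V = ⊥ ∧
        K ⊔ V = Subgroup.normalizer (V : Set G) ∧ Spor.IsoM24 ↥K)
    (horb : ∀ V : Subgroup G, IsElementaryAbelian 2 V → Nat.card ↥V = 2 ^ 11 →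
      ∃ z' t : G, z' ∈ V ∧ t ∈ V ∧ t ≠ 1 ∧ IsConj z z' ∧ ¬ IsConj z t ∧
        Set.ncard {v : G | ∃ n ∈ Subgroup.normalizer (V : Set G), n * z' * n⁻¹ = v} = 1771 ∧
        Set.ncard {v : G | ∃ n ∈ Subgroup.normalizer (V : Set G), n * t * n⁻¹ = v} = 276 ∧
        Subgroup.centralizer ({t} : Set G) ≤ Subgroup.normalizer (V : Set G))
    (t : G) (ht : orderOf t = 2) (hnc : ¬ IsConj z t) :
    ∃ V K : Subgroup G, V ≤ Subgroup.centralizer ({t} : Set G) ∧ K ≤ Subgroup.centralizer ({t} : Set G) ∧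
    Subgroup.centralizer ({t} : Set G) ≤ Subgroup.normalizer (V : Set G) ∧ Cfsg.IsElementaryAbelian 2 V ∧
    Nat.card ↥V = 2 ^ 11 ∧
    K ⊓ V = ⊥ ∧ K ⊔ V = Subgroup.centralizer ({t} : Set G) ∧ Nonempty (↥K ≃* MulAut ↥Cfsg.Spor.M22) := by
  classical
  obtain ⟨V, hVH, hV, hVc⟩ := exists_elementary hJ
  obtain ⟨g, hg⟩ := Invol.exists_conj_mem_two_eleven hG hJ h3 hN hV hVc hVH ht
  obtain ⟨z', t', hz'V, ht'V, ht'1, hzc, hnc', hO1, hO2, hCt⟩ := horb V hV hVc
  obtain ⟨K, hKN, hKV, hsup, ⟨e⟩⟩ := hsplit V hV hVc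
  set O1 := {v : G | ∃ n ∈ Subgroup.normalizer (V : Set G), n * z' * n⁻¹ = v}
  set O2 := {v : G | ∃ n ∈ Subgroup.normalizer (V : Set G), n * t' * n⁻¹ = v}
  have hz'1 : z' ≠ 1 := fun h => by
    rw [h] at hzc
    have h1 := hJ.1
    rw [isConj_one_left.1 hzc, orderOf_one] at h1
    omega
  have hsub : ∀ a ∈ V, a ≠ 1 → ∀ v, (∃ n ∈ Subgroup.normalizer (V : Set G), n * a * n⁻¹ = v) →
      v ∈ (V : Set G) \ {1} := by
    rintro a ha ha1 v ⟨n, hn, rfl⟩
    refine ⟨(Subgroup.mem_normalizer_iff.1 hn a).1 ha, fun h => ha1 ?_⟩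
    rw [Set.mem_singleton_iff, mul_inv_eq_one] at h
    exact mul_eq_left.1 h
  have hdisj : Disjoint O1 O2 := by
    rw [Set.disjoint_left]
    rintro v ⟨n, -, rfl⟩ ⟨m, -, hm⟩
    refine hnc' (hzc.trans ((isConj_iff.2 ⟨n, rfl⟩ : IsConj z' (n * z' * n⁻¹)).trans ?_))
    exact (isConj_iff.2 ⟨m, hm⟩ : IsConj t' (n * z' * n⁻¹)).symm
  have hall : O1 ∪ O2 = (V : Set G) \ {1} := by
    refine Set.eq_of_subset_of_ncard_le (Set.union_subset (fun v hv => hsub z' hz'V hz'1 v hv)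
      (fun v hv => hsub t' ht'V ht'1 v hv)) ?_ (Set.toFinite _)
    rw [Set.ncard_union_eq hdisj, hO1, hO2, Set.ncard_diff_singleton_of_mem V.one_mem,
      ← Nat.card_coe_set_eq]
    show Nat.card ↥V - 1 ≤ _
    rw [hVc]
    norm_num
  obtain ⟨n, -, hn⟩ : g * t * g⁻¹ ∈ O2 := by
    have hmem : g * t * g⁻¹ ∈ O1 ∪ O2 := by
      rw [hall]
      refine ⟨hg, fun h => ?_⟩
      rw [Set.mem_singleton_iff, mul_inv_eq_one] at h
      rw [mul_eq_left.1 h, orderOf_one] at ht
      omega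
    refine hmem.resolve_left ?_
    rintro ⟨n, -, hn⟩
    exact hnc (hzc.trans ((isConj_iff.2 ⟨n, hn⟩ : IsConj z' (g * t * g⁻¹)).trans
      (isConj_iff.2 ⟨g, rfl⟩ : IsConj t (g * t * g⁻¹)).symm))
  set c := g⁻¹ * n with hc
  have htc : t = c * t' * c⁻¹ := by
    calc t = g⁻¹ * (g * t * g⁻¹) * g := by group
      _ = c * t' * c⁻¹ := by rw [← hn, hc]; group
  set f : G →* G := (MulAut.conj c).toMonoidHom with hf
  have hfi : Function.Injective f := (MulAut.conj c).injective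
  have hmem : ∀ (L : Subgroup G) (y : G), y ∈ L.map f ↔ c⁻¹ * y * c ∈ L := by
    intro L y
    constructor
    · rintro ⟨x, hx, rfl⟩
      simpa [hf, mul_assoc] using hx
    · intro h
      exact ⟨_, h, by simp [hf, mul_assoc]⟩
  have hCmap : (Subgroup.centralizer ({t'} : Set G)).map f = Subgroup.centralizer ({t} : Set G) := by
    ext y
    rw [hmem, Subgroup.mem_centralizer_singleton_iff, Subgroup.mem_centralizer_singleton_iff, htc]
    constructor
    · intro h
      calc y * (c * t' * c⁻¹) = c * (c⁻¹ * y * c * t') * c⁻¹ := by group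
        _ = c * t' * c⁻¹ * y := by rw [h]; group
    · intro h
      calc c⁻¹ * y * c * t' = c⁻¹ * (y * (c * t' * c⁻¹)) * c := by group
        _ = t' * (c⁻¹ * y * c) := by rw [h]; group
  have hVC : V ≤ Subgroup.centralizer ({t'} : Set G) := fun v hv =>
    Subgroup.mem_centralizer_singleton_iff.2
      (congrArg Subtype.val (hV.1.is_comm.comm ⟨v, hv⟩ ⟨t', ht'V⟩))
  set L := K ⊓ Subgroup.centralizer ({t'} : Set G) with hL
  have hdec : ∀ x ∈ Subgroup.normalizer (V : Set G), ∃ k ∈ K, ∃ v ∈ V, x = k * v := by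
    intro x hx
    rw [← hsup] at hx
    have h : x ∈ (K : Set G) * (V : Set G) := by
      rw [← Subgroup.coe_mul_of_left_le_normalizer_right K V hKN]
      exact hx
    obtain ⟨k, hk, v, hv, rfl⟩ := h
    exact ⟨k, hk, v, hv, rfl⟩
  refine ⟨V.map f, L.map f, hCmap ▸ Subgroup.map_mono hVC, hCmap ▸ Subgroup.map_mono inf_le_right,
    fun y hy => ?_, elem_map f hV, by rw [Subgroup.card_map_of_injective hfi, hVc], ?_, ?_, ?_⟩
  · rw [← hCmap, hmem] at hy
    refine Subgroup.mem_normalizer_iff.2 fun w => ?_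
    rw [hmem, hmem]
    refine (Subgroup.mem_normalizer_iff.1 (hCt hy) (c⁻¹ * w * c)).trans ?_
    rw [show c⁻¹ * y * c * (c⁻¹ * w * c) * (c⁻¹ * y * c)⁻¹ = c⁻¹ * (y * w * y⁻¹) * c by group]
  · rw [← Subgroup.map_inf _ _ _ hfi,
      show L ⊓ V = ⊥ from le_bot_iff.1 (hKV ▸ inf_le_inf_right _ inf_le_left), Subgroup.map_bot]
  · rw [← Subgroup.map_sup, ← hCmap]
    congr 1
    refine le_antisymm (sup_le inf_le_right hVC) fun x hx => ?_
    obtain ⟨k, hk, v, hv, rfl⟩ := hdec x (hCt hx)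
    refine Subgroup.mul_mem_sup ⟨hk, ?_⟩ hv
    simpa [mul_assoc] using mul_mem hx (inv_mem (hVC hv))
  · letI : MulAction ↥K G := MulAction.compHom G (MulAut.conj.comp K.subtype)
    have hact : ∀ (k : ↥K) (x : G), k • x = (k : G) * x * (k : G)⁻¹ := fun _ _ => rfl
    have hstab : MulAction.stabilizer ↥K t' = L.subgroupOf K := by
      ext k
      rw [MulAction.mem_stabilizer_iff, hact, Subgroup.mem_subgroupOf, hL, Subgroup.mem_inf,
        Subgroup.mem_centralizer_singleton_iff, mul_inv_eq_iff_eq_mul]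
      exact ⟨fun h => ⟨k.2, h⟩, fun h => h.2⟩
    have horbit : MulAction.orbit ↥K t' = O2 := by
      ext v
      constructor
      · rintro ⟨k, rfl⟩
        exact ⟨k, hKN k.2, rfl⟩
      · rintro ⟨m, hm, rfl⟩
        obtain ⟨k, hk, w, hw, rfl⟩ := hdec m hm
        refine ⟨⟨k, hk⟩, ?_⟩
        show k * t' * k⁻¹ = _
        have hwt : w * t' = t' * w := Subgroup.mem_centralizer_singleton_iff.1 (hVC hw)
        calc k * t' * k⁻¹ = k * (t' * w) * w⁻¹ * k⁻¹ := by group
          _ = k * w * t' * (k * w)⁻¹ := by rw [← hwt]; group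
    have hidx : ((L.subgroupOf K).map (e : ↥K →* ↥Cfsg.M24)).index = 276 := by
      rw [Subgroup.index_map_equiv, ← hstab, MulAction.index_stabilizer, horbit, hO2]
    obtain ⟨e'⟩ := Duad.nonempty_equiv_of_index _ hidx
    exact ⟨(((L.equivMapOfInjective f hfi).symm.trans
      (Subgroup.subgroupOfEquivOfLe (inf_le_left : L ≤ K)).symm).trans
        ((L.subgroupOf K).equivMapOfInjective _ e.injective)).trans e'⟩

end Cfsg.Agent.JFourType
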