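import Cfsg.Agent.JFourType.Frame

/-!
General facts about the centralizer of an element of order seven modulo that element, and about
subgroups of order seven in a group isomorphic to `M24`.
-/

set_option autoImplicit false

namespace Cfsg.Agent.JFourType.Seven

open Subgroup

variable {G : Type*} [Group G]

theorem centralizer_zpowers_eq (s : G) :
    centralizer (zpowers s : Set G) = centralizer ({s} : Set G) := by
  rw [Subgroup.zpowers_eq_closure, Subgroup.centralizer_closure]

theorem eq_zpowers [Finite G] {S : Subgroup G} {p : ℕ} (hS : Nat.card S = p) {s : G} (hs : s ∈ S)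
    (ho : orderOf s = p) : S = zpowers s :=
  (Subgroup.eq_of_le_of_card_ge (by simpa using hs) (by rw [Nat.card_zpowers, ho, hS])).symm

theorem exists_gen [Finite G] {S : Subgroup G} {p : ℕ} (hp : p.Prime) (hS : Nat.card S = p) :
    ∃ s ∈ S, orderOf s = p := by
  haveI : Fact p.Prime := ⟨hp⟩
  obtain ⟨x, hx⟩ := exists_prime_orderOf_dvd_card' (G := S) p (hS ▸ dvd_refl _)
  exact ⟨x, x.2, by rw [Subgroup.orderOf_coe, hx]⟩

theorem zsub_normal (s : G) :
    ((zpowers s).subgroupOf (centralizer ({s} : Set G))).Normal := by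
  refine ⟨fun x hx g => ?_⟩
  rw [Subgroup.mem_subgroupOf] at hx ⊢
  obtain ⟨i, hi⟩ := Subgroup.mem_zpowers_iff.1 hx
  refine Subgroup.mem_zpowers_iff.2 ⟨i, ?_⟩
  have hg : Commute (g : G) s := mem_centralizer_singleton_iff.1 g.2
  rw [Subgroup.coe_mul, Subgroup.coe_mul, Subgroup.coe_inv, ← hi, (hg.zpow_right i).eq,
    mul_inv_cancel_right]

/-- The quotient map by an element generating a normal subgroup. -/
abbrev qmk (s : G) [((zpowers s).subgroupOf (centralizer ({s} : Set G))).Normal] :
    ↥(centralizer ({s} : Set G)) →* ↥(centralizer ({s} : Set G)) ⧸ (zpowers s).subgroupOf (centralizer ({s} : Set G)) :=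
  QuotientGroup.mk' ((zpowers s).subgroupOf (centralizer ({s} : Set G)))

section Quot

variable {s : G} (hs : orderOf s = 7) [hn : ((zpowers s).subgroupOf (centralizer ({s} : Set G))).Normal]
include hs

theorem eq_of_mk {x y : ↥(centralizer ({s} : Set G))} {n : ℕ} (hn7 : Nat.Coprime n 7)
    (hx : (x : G) ^ n = 1) (hy : (y : G) ^ n = 1) (h : (qmk s) x = (qmk s) y) : x = y := by
  rw [QuotientGroup.mk'_eq_mk'] at h
  obtain ⟨σ, hσ, rfl⟩ := h
  rw [Subgroup.mem_subgroupOf] at hσ
  obtain ⟨i, hi⟩ := Subgroup.mem_zpowers_iff.1 hσ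
  have hc : Commute (x : G) (σ : G) := by
    rw [← hi]
    exact (show Commute (x : G) s from mem_centralizer_singleton_iff.1 x.2).zpow_right i
  rw [Subgroup.coe_mul, hc.mul_pow, hx, one_mul] at hy
  have h7 : (σ : G) ^ 7 = 1 := by
    rw [← hi, ← zpow_natCast, ← zpow_mul, mul_comm, zpow_mul, zpow_natCast, ← hs, pow_orderOf_eq_one,
      one_zpow]
  have h1 : (σ : G) = 1 := by
    have := pow_gcd_eq_one.2 ⟨hy, h7⟩
    rwa [hn7.gcd_eq_one, pow_one] at this
  rw [show σ = 1 from Subtype.ext h1, mul_one]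

theorem mk_prime {x : ↥(centralizer ({s} : Set G))} {n : ℕ} (hn : n.Prime) (h7 : Nat.Coprime n 7)
    (hx : orderOf (x : G) = n) : orderOf ((qmk s) x) = n := by
  haveI : Fact n.Prime := ⟨hn⟩
  have hxn : (x : G) ^ n = 1 := hx ▸ pow_orderOf_eq_one _
  have hx' : x ^ n = 1 := Subtype.ext (by rw [Subgroup.coe_pow, hxn, Subgroup.coe_one])
  refine orderOf_eq_prime (by rw [← map_pow, hx', map_one]) fun h => ?_
  have := eq_of_mk hs h7 hxn (one_pow n) (h.trans (map_one (qmk s)).symm)
  rw [this, Subgroup.coe_one, orderOf_one] at hx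
  exact hn.one_lt.ne hx

theorem isConj_of_mk {x y : ↥(centralizer ({s} : Set G))} {n : ℕ} (h7 : Nat.Coprime n 7)
    (hx : (x : G) ^ n = 1) (hy : (y : G) ^ n = 1) (h : IsConj ((qmk s) x) ((qmk s) y)) :
    ∃ c : G, c * s = s * c ∧ c * x * c⁻¹ = (y : G) := by
  obtain ⟨q, hq⟩ := isConj_iff.1 h
  obtain ⟨c, rfl⟩ := QuotientGroup.mk'_surjective _ q
  rw [← map_inv, ← map_mul, ← map_mul] at hq
  have := eq_of_mk hs h7 (by
    rw [Subgroup.coe_mul, Subgroup.coe_mul, Subgroup.coe_inv, conj_pow, hx]; group) hy hq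
  exact ⟨c, mem_centralizer_singleton_iff.1 c.2, congrArg Subtype.val this⟩

theorem card_quot [Finite G] :
    Nat.card (↥(centralizer ({s} : Set G)) ⧸ (zpowers s).subgroupOf (centralizer ({s} : Set G))) * 7 =
      Nat.card ↥(centralizer ({s} : Set G)) := by
  have h := Subgroup.card_eq_card_quotient_mul_card_subgroup
    ((zpowers s).subgroupOf (centralizer ({s} : Set G)))
  rw [Nat.card_congr (Subgroup.subgroupOfEquivOfLe (show zpowers s ≤ centralizer ({s} : Set G) by
    rw [Subgroup.zpowers_le, mem_centralizer_singleton_iff])).toEquiv, Nat.card_zpowers, hs] at h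
  exact h.symm

theorem card_centralizer_mk [Finite G] (w : ↥(centralizer ({s} : Set G))) {n : ℕ} (h7 : Nat.Coprime n 7)
    (hw : (w : G) ^ n = 1) :
    Nat.card ↥(centralizer ({(qmk s) w} : Set _)) * 7 =
      Nat.card ↥(centralizer ({s} : Set G) ⊓ centralizer ({(w : G)} : Set G)) := by
  have hcomap : (centralizer ({(qmk s) w} : Set _)).comap (qmk s) =
      (centralizer ({s} : Set G) ⊓ centralizer ({(w : G)} : Set G)).subgroupOf
        (centralizer ({s} : Set G)) := by
    ext x
    rw [Subgroup.mem_comap, mem_centralizer_singleton_iff, Subgroup.mem_subgroupOf, Subgroup.mem_inf,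
      and_iff_right x.2, mem_centralizer_singleton_iff, ← map_mul, ← map_mul]
    constructor
    · intro h
      have h' : (qmk s) (x * w * x⁻¹) = (qmk s) w := by rw [map_mul, h, ← map_mul, mul_inv_cancel_right]
      have := congrArg Subtype.val (eq_of_mk hs h7 (by
        rw [Subgroup.coe_mul, Subgroup.coe_mul, Subgroup.coe_inv, conj_pow, hw]; group) hw h')
      exact mul_inv_eq_iff_eq_mul.1 this
    · intro h
      rw [show x * w = w * x from Subtype.ext h]
  have hcard := Nat.card_congr (Subgroup.subgroupOfEquivOfLe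
    (inf_le_left : centralizer ({s} : Set G) ⊓ centralizer ({(w : G)} : Set G) ≤ centralizer ({s} : Set G))).toEquiv
  rw [← hcomap] at hcard
  have h1 := Subgroup.index_comap_of_surjective (centralizer ({(qmk s) w} : Set _))
    (QuotientGroup.mk'_surjective ((zpowers s).subgroupOf (centralizer ({s} : Set G))))
  have h2 := ((centralizer ({(qmk s) w} : Set _)).comap (qmk s)).card_mul_index
  have h3 := (centralizer ({(qmk s) w} : Set _)).card_mul_index
  have h4 := card_quot hs
  rw [h1, hcard, ← h4, ← h3, mul_right_comm] at h2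
  exact (Nat.eq_of_mul_eq_mul_right (Nat.pos_of_ne_zero Subgroup.index_ne_zero_of_finite) h2).symm

end Quot

/-- Subgroups of order seven of a group isomorphic to `M24`. -/
theorem seven_card {K : Type*} [Group K] (e : K ≃* Cfsg.M24)
    (h24 : ∀ X : Subgroup Cfsg.M24, Nat.card X = 7 →
      Nat.card (normalizer (X : Set Cfsg.M24)) = 126 ∧ Nat.card (centralizer (X : Set Cfsg.M24)) = 42)
    (X : Subgroup K) (hX : Nat.card X = 7) :
    Nat.card (normalizer (X : Set K)) = 126 ∧ Nat.card (centralizer (X : Set K)) = 42 := by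
  have hY : Nat.card (X.map e.toMonoidHom) = 7 := by
    rw [Subgroup.card_map_of_injective e.injective, hX]
  obtain ⟨h1, h2⟩ := h24 _ hY
  constructor
  · rw [← Subgroup.map_equiv_normalizer_eq, Subgroup.card_map_of_injective e.injective] at h1
    exact h1
  · rw [← h2]
    refine Nat.card_congr (Equiv.subtypeEquiv e.toEquiv fun g => ?_)
    simp only [SetLike.mem_coe, Subgroup.mem_centralizer_iff, Subgroup.mem_map]
    constructor
    · rintro h _ ⟨x, hx, rfl⟩
      exact (map_mul e x g).symm.trans ((congrArg e (h x hx)).trans (map_mul e g x))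
    · intro h x hx
      apply e.injective
      rw [map_mul, map_mul]
      exact h _ ⟨x, hx, rfl⟩

end Cfsg.Agent.JFourType.Seven
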