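import Cfsg.Agent.JFourType.Fusion
import Cfsg.Agent.BlockOne.Reps
import Cfsg.Agent.BlockOne.NormScan

/-!
The elements of order 7 in the centraliser of the involution, in `M24` and in `M22`.
-/

set_option autoImplicit false
set_option maxRecDepth 100000
set_option linter.style.haveILetI false
set_option linter.unusedVariables false

namespace Cfsg.Agent.JFourType

open Cfsg
open Cfsg.Agent.GFour25 Cfsg.Agent.CosetCert
open Cfsg.Agent.SporB.FischerU (Vec vecN enc vecN_enc enc_lt)
open Cfsg.Agent.LargeFischer.Thompson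
open Cfsg.Agent.TTClass
open Data

namespace SevenData

/-- Subgroups of order `p` are conjugate when `p^2` does not divide the order. -/
theorem exists_conj {G : Type*} [Group G] [Finite G] {p : ℕ} [Fact p.Prime]
    (hf : (Nat.card G).factorization p = 1) {X Y : Subgroup G} (hX : Nat.card X = p)
    (hY : Nat.card Y = p) : ∃ g : G, X.map (MulAut.conj g).toMonoidHom = Y := by
  have e : ∀ {Z : Subgroup G}, Nat.card Z = p → Nat.card Z = p ^ (Nat.card G).factorization p :=
    fun h => by rw [hf, pow_one]; exact h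
  obtain ⟨g, hg⟩ := MulAction.exists_smul_eq G (Sylow.ofCard X (e hX)) (Sylow.ofCard Y (e hY))
  exact ⟨g, congrArg Sylow.toSubgroup hg⟩

theorem card_normalizer_conj {G : Type*} [Group G] (g : G) (X : Subgroup G) :
    Nat.card (Subgroup.normalizer ((X.map (MulAut.conj g).toMonoidHom : Subgroup G) : Set G)) =
      Nat.card (Subgroup.normalizer (X : Set G)) := by
  rw [← Subgroup.map_equiv_normalizer_eq,
    Subgroup.card_map_of_injective (MulAut.conj g).injective]

theorem map_centralizer_conj {G : Type*} [Group G] (g : G) (X : Subgroup G) :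
    (Subgroup.centralizer (X : Set G)).map (MulAut.conj g).toMonoidHom =
      Subgroup.centralizer ((X.map (MulAut.conj g).toMonoidHom : Subgroup G) : Set G) := by
  ext a
  simp only [Subgroup.mem_map_equiv, Subgroup.mem_centralizer_iff, SetLike.mem_coe,
    MulAut.conj_symm_apply]
  refine ⟨fun h b hb => ?_, fun h b hb => ?_⟩
  · have h1 := h _ hb
    calc b * a = g * (g⁻¹ * b * g * (g⁻¹ * a * g)) * g⁻¹ := by group
      _ = g * (g⁻¹ * a * g * (g⁻¹ * b * g)) * g⁻¹ := by rw [h1]
      _ = a * b := by group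
  · have h1 := h (g * b * g⁻¹) (by rwa [show g⁻¹ * (g * b * g⁻¹) * g = b by group])
    calc b * (g⁻¹ * a * g) = g⁻¹ * (g * b * g⁻¹ * a) * g := by group
      _ = g⁻¹ * (a * (g * b * g⁻¹)) * g := by rw [h1]
      _ = g⁻¹ * a * g * b := by group

theorem card_centralizer_conj {G : Type*} [Group G] (g : G) (X : Subgroup G) :
    Nat.card (Subgroup.centralizer ((X.map (MulAut.conj g).toMonoidHom : Subgroup G) : Set G)) =
      Nat.card (Subgroup.centralizer (X : Set G)) := by
  rw [← map_centralizer_conj, Subgroup.card_map_of_injective (MulAut.conj g).injective]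

theorem centralizer_zpowers {G : Type*} [Group G] (x : G) :
    Subgroup.centralizer (Subgroup.zpowers x : Set G) = Subgroup.centralizer {x} := by
  rw [Subgroup.zpowers_eq_closure, Subgroup.centralizer_closure]

/-- The counted element of order 7 of the fixed space check. -/
theorem seven_cert : allB (fun v => !(Nat.beq (apL sevenL v) v) || Nat.beq v 0) 12 0 = true := by
  decide +kernel

theorem sevenWord_fix {v : Vec} (h : wPerm sevenWord v = v) : v = 0 := by
  have hw : wImg sevenWord = sevenL := by decide +kernel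
  have hr := rep_word sevenWord v
  rw [hw, h] at hr
  have hc := allB_spec_zero seven_cert (by norm_num : 4096 ≤ 2 ^ 12) (enc_lt v)
  rw [← hr, Nat.beq_refl, Bool.not_true, Bool.false_or] at hc
  have h0 : enc (0 : Vec) = 0 := by decide +kernel
  rw [← vecN_enc v, Nat.eq_of_beq_eq_true hc, ← h0, vecN_enc]

theorem orderOf_sevenWord : orderOf (wPerm sevenWord) = 7 := by
  haveI : Fact (Nat.Prime 7) := ⟨by norm_num⟩
  have h7f : pwL sevenL 7 = idL ∧ ¬ sevenL = idL ∧ comp sevenL idL = sevenL ∧ comp idL idL = idL ∧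
      wImg sevenWord = sevenL := by decide +kernel
  refine orderOf_eq_prime ((rep_pow (h7f.2.2.2.2 ▸ rep_word sevenWord) 7).eq (h7f.1 ▸ Rep.one)) fun e => ?_
  exact h7f.2.1 (((h7f.2.2.2.2 ▸ (e ▸ rep_word sevenWord)) : Rep sevenL 1).list_eq Rep.one
    h7f.2.2.1 h7f.2.2.2.1)

end SevenData

open SevenData

/-- **An element of order 7 of the centraliser centralises only the centre of the extraspecial
group.** -/
theorem seven_fix {G : Type*} [Group G] [Finite G] {z : G} {P : Subgroup G}
    (hJ : IsOfJankoFourTypeWith z P) {s e : G} (hs : orderOf s = 7) (hsz : s * z = z * s)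
    (he : e ∈ twoCoreOfCentralizer z) (hc : s * e = e * s) : e = 1 ∨ e = z := by
  haveI : Fact (Nat.Prime 7) := ⟨by norm_num⟩
  obtain ⟨rho, psi, D, -, hKR, -, -, hcard, -⟩ := exists_ext_full hJ
  obtain ⟨ê, hêQ, rfl⟩ := he
  set ŝ : Subgroup.centralizer ({z} : Set G) := ⟨s, Subgroup.mem_centralizer_singleton_iff.2 hsz⟩
  have hŝ : orderOf ŝ = 7 := by rw [← Subgroup.orderOf_coe]; exact hs
  have hne : rho ŝ ≠ 1 := by
    intro h
    obtain ⟨i, hi⟩ := (IsPGroup.iff_orderOf.1 (IsPGroup.of_card (p := 2) (n := 13)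
      (show Nat.card (pCore 2 (Subgroup.centralizer ({z} : Set G))) = 2 ^ 13 by
        rw [← hJ.2.2.1, twoCoreOfCentralizer,
          Subgroup.card_map_of_injective (Subgroup.subtype_injective _)]))) ⟨ŝ, D.mem_q h⟩
    rw [Subgroup.orderOf_mk, hŝ] at hi
    rcases i with - | i
    · norm_num at hi
    · rw [pow_succ] at hi
      omega
  have hy : orderOf (rho.rangeRestrict ŝ) = 7 := by
    refine orderOf_eq_prime ?_ fun h => hne (by simpa using congrArg Subtype.val h)
    rw [← map_pow, ← hŝ, pow_orderOf_eq_one, map_one]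
  set x : rho.range := ⟨wPerm sevenWord, hKR (word_mem sevenWord)⟩
  have hx : orderOf x = 7 := by rw [Subgroup.orderOf_mk, orderOf_sevenWord]
  have hf : (Nat.card rho.range).factorization 7 = 1 := by
    rw [hcard, show (2661120 : ℕ) = 7 * 380160 by norm_num,
      Nat.factorization_mul (by norm_num) (by norm_num), Finsupp.add_apply,
      Nat.Prime.factorization_self (by norm_num),
      Nat.factorization_eq_zero_of_not_dvd (by norm_num : ¬ (7 : ℕ) ∣ 380160)]
  obtain ⟨⟨γ, h, rfl⟩, hγ⟩ := exists_conj hf (by rw [Nat.card_zpowers, hx] : Nat.card (Subgroup.zpowers x) = 7)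
    (by rw [Nat.card_zpowers, hy] : Nat.card (Subgroup.zpowers (rho.rangeRestrict ŝ)) = 7)
  have hmem : MulAut.conj (⟨rho h, h, rfl⟩ : rho.range) x ∈ Subgroup.zpowers (rho.rangeRestrict ŝ) :=
    hγ ▸ Subgroup.mem_map_of_mem _ (Subgroup.mem_zpowers x)
  obtain ⟨k, hk⟩ := Subgroup.mem_zpowers_iff.1 hmem
  have hk' : rho ŝ ^ k = rho h * wPerm sevenWord * (rho h)⁻¹ := by
    simpa using congrArg Subtype.val hk
  have hv : rho ŝ (psi ⟨ê, hêQ⟩) = psi ⟨ê, hêQ⟩ := by
    rw [← D.psi_conj]
    refine congrArg psi (Subtype.ext (Subtype.ext ?_))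
    show s * (ê : G) * s⁻¹ = ê
    rw [show s * (ê : G) = ê * s from hc, mul_inv_cancel_right]
  have hv' := Equiv.Perm.ext_iff.1 hk' (psi ⟨ê, hêQ⟩)
  rw [Equiv.Perm.zpow_apply_eq_self_of_apply_eq_self hv, Equiv.Perm.mul_apply,
    Equiv.Perm.mul_apply] at hv'
  have h0 : (rho h)⁻¹ (psi ⟨ê, hêQ⟩) = 0 := by
    refine sevenWord_fix ((rho h).injective ?_)
    rw [← hv', ← Equiv.Perm.mul_apply, mul_inv_cancel, Equiv.Perm.one_apply]
  have hz0 : rho h 0 = 0 := by
    have := D.rho_add h 0 0
    rw [add_zero, vec_self] at this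
    exact this
  have hp : psi ⟨ê, hêQ⟩ = 0 := by
    rw [← hz0, ← h0, ← Equiv.Perm.mul_apply, mul_inv_cancel, Equiv.Perm.one_apply]
  rcases (D.psi_ker _).1 hp with h1 | h1
  · exact Or.inl (congrArg Subtype.val h1)
  · exact Or.inr (congrArg Subtype.val h1)

namespace SevenData

open Cfsg.Agent.Golay Cfsg.Agent.M24 in
theorem m24_seven_rep : ∃ x : Cfsg.M24, orderOf x = 7 ∧
    Nat.card (Subgroup.normalizer (Subgroup.zpowers x : Set Cfsg.M24)) = 126 := by
  have h : (GoodTab 17495608181065864749045225959361601 &&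
      Cfsg.Agent.BlockOne.powTest' 17495608181065864749045225959361601 7 &&
      !Cfsg.Agent.BlockOne.powTest' 17495608181065864749045225959361601 1) = true := by decide +kernel
  have hlen : (scan (BlockOne.okN 0 [1, 2, 3, 4, 5, 6] 17495608181065864749045225959361601)
      (BlockOne.fullN 0 [1, 2, 3, 4, 5, 6] 17495608181065864749045225959361601)).length = 126 := by
    decide +kernel
  simp only [Bool.and_eq_true, Bool.not_eq_true'] at h
  obtain ⟨⟨hgood, hpow⟩, hne⟩ := h
  obtain ⟨hm, hr⟩ := elemOf_spec hgood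
  haveI : Fact (Nat.Prime 7) := ⟨by norm_num⟩
  have hx : orderOf (⟨_, hm⟩ : Cfsg.M24) = 7 := by
    rw [Subgroup.orderOf_mk]
    refine orderOf_eq_prime ((BlockOne.powTest'_iff hr hm 7).1 hpow) fun h1 => ?_
    rw [(BlockOne.powTest'_iff hr hm 1).2 (by rw [pow_one]; exact h1)] at hne
    exact Bool.noConfusion hne
  set x : Cfsg.M24 := ⟨_, hm⟩
  refine ⟨x, hx, ?_⟩
  rw [← hlen, ← BlockOne.card_norm hgood (Nat.zero_le 7)]
  have hmem : ∀ g : Cfsg.M24, g ∈ Subgroup.normalizer (Subgroup.zpowers x : Set Cfsg.M24) ↔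
      ∃ k ∈ [1, 2, 3, 4, 5, 6], g * x = x ^ k * g := by
    intro g
    constructor
    · intro hg
      have h1 := (Subgroup.mem_normalizer_iff.1 hg x).1 (Subgroup.mem_zpowers x)
      obtain ⟨k, hk, hk'⟩ : ∃ k < 7, x ^ k = g * x * g⁻¹ := by
        obtain ⟨k, hk, hk'⟩ := Finset.mem_image.1
          ((IsOfFinOrder.mem_zpowers_iff_mem_range_orderOf (isOfFinOrder_of_finite x)).1 h1)
        exact ⟨k, hx ▸ Finset.mem_range.1 hk, hk'⟩
      have hk0 : k ≠ 0 := by
        rintro rfl
        rw [pow_zero, eq_comm, mul_inv_eq_one] at hk'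
        have : x = 1 := mul_left_cancel (hk'.trans (mul_one g).symm)
        rw [this, orderOf_one] at hx
        norm_num at hx
      refine ⟨k, by simp; omega, ?_⟩
      rw [hk', inv_mul_cancel_right]
    · rintro ⟨k, -, hk⟩
      refine Subgroup.mem_normalizer_fintype fun n hn => ?_
      obtain ⟨m, rfl⟩ := Subgroup.mem_zpowers_iff.1 hn
      rw [← conj_zpow, hk, mul_inv_cancel_right]
      exact zpow_mem (pow_mem (Subgroup.mem_zpowers x) k) m
  refine Nat.card_congr
    { toFun := fun g => ⟨g.1.1, g.1.2, fun j hj => absurd hj (Nat.not_lt_zero j), by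
        obtain ⟨k, hk, e⟩ := (hmem g.1).1 g.2
        exact ⟨k, hk, by simpa [x] using congrArg Subtype.val e⟩⟩
      invFun := fun g => ⟨⟨g.1, g.2.1⟩, (hmem _).2 (by
        obtain ⟨k, hk, e⟩ := g.2.2.2
        exact ⟨k, hk, Subtype.ext (by simpa [x] using e)⟩)⟩
      left_inv := fun _ => rfl
      right_inv := fun _ => rfl }

end SevenData

/-- **The subgroups of order 7 of `M24`.** -/
theorem m24_seven : ∀ X : Subgroup Cfsg.M24, Nat.card X = 7 →
    Nat.card (Subgroup.normalizer (X : Set Cfsg.M24)) = 126 ∧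
      Nat.card (Subgroup.centralizer (X : Set Cfsg.M24)) = 42 := by
  intro X hX
  haveI : Fact (Nat.Prime 7) := ⟨by norm_num⟩
  have hf : (Nat.card Cfsg.M24).factorization 7 = 1 := by
    rw [Golay.card_M24, show (244823040 : ℕ) = 7 * 34974720 by norm_num,
      Nat.factorization_mul (by norm_num) (by norm_num), Finsupp.add_apply,
      Nat.Prime.factorization_self (by norm_num),
      Nat.factorization_eq_zero_of_not_dvd (by norm_num : ¬ (7 : ℕ) ∣ 34974720)]
  obtain ⟨x, hx, hN⟩ := m24_seven_rep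
  obtain ⟨y, hy, hC⟩ := BlockOne.m24_seven
  obtain ⟨g, hg⟩ := exists_conj hf ((Nat.card_zpowers x).trans hx) hX
  obtain ⟨g', hg'⟩ := exists_conj hf ((Nat.card_zpowers y).trans hy) hX
  refine ⟨?_, ?_⟩
  · rw [← hg, card_normalizer_conj, hN]
  · rw [← hg', card_centralizer_conj, centralizer_zpowers, hC]

/-- **The subgroups of order 7 of `M22`.** -/
theorem m22_seven : ∀ X : Subgroup Spor.M22, Nat.card X = 7 →
    Nat.card (Subgroup.centralizer (X : Set Spor.M22)) = 7 := by
  intro X hX
  haveI : Fact (Nat.Prime 7) := ⟨by norm_num⟩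
  have hf : (Nat.card Spor.M22).factorization 7 = 1 := by
    rw [Golay.card_M22, show (443520 : ℕ) = 7 * 63360 by norm_num,
      Nat.factorization_mul (by norm_num) (by norm_num), Finsupp.add_apply,
      Nat.Prime.factorization_self (by norm_num),
      Nat.factorization_eq_zero_of_not_dvd (by norm_num : ¬ (7 : ℕ) ∣ 63360)]
  obtain ⟨y, hy, hC⟩ := BlockOne.m22_seven
  obtain ⟨g', hg'⟩ := exists_conj hf ((Nat.card_zpowers y).trans hy) hX
  rw [← hg', card_centralizer_conj, centralizer_zpowers, hC]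

end Cfsg.Agent.JFourType
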