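import Cfsg.Agent.JFourType.SevenBase

/-!
The centralizer in the involution centralizer of an element of order seven commuting with the
distinguished element of order three.
-/

set_option autoImplicit false

namespace Cfsg.Agent.JFourType.Seven

open Subgroup

variable {G : Type*} [Group G] [Finite G] {z : G} {P : Subgroup G}

theorem mem_twoCore_self (hJ : IsOfJankoFourTypeWith z P) : z ∈ twoCoreOfCentralizer z := by
  obtain ⟨-, -, -, -, -, -, hfix, -, -⟩ := hJ
  exact (Subgroup.mem_inf.1 (hfix.ge (Subgroup.mem_zpowers z))).1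

/-- The centralizer of an element of order seven in the centralizer of the element of order three. -/
theorem seven_three (hJ : IsOfJankoFourTypeWith z P)
    (hN : normalizer (P : Set G) ≤ centralizer ({z} : Set G))
    (hD6 : Nat.card ↥(Subgroup.center ↥(centralizer ({z} : Set G) ⊓ centralizer (P : Set G))) = 6)
    (hM : Spor.IsoM22 (↥(centralizer ({z} : Set G) ⊓ centralizer (P : Set G)) ⧸
      Subgroup.center ↥(centralizer ({z} : Set G) ⊓ centralizer (P : Set G))))
    (h22 : ∀ X : Subgroup Spor.M22, Nat.card X = 7 →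
      Nat.card (centralizer (X : Set Spor.M22)) = 7)
    {s p : G} (hs : orderOf s = 7) (hp : p ∈ P) (hp3 : orderOf p = 3) (hsp : Commute s p) :
    Commute s z ∧ Commute p z ∧
      Nat.card ↥(centralizer ({s} : Set G) ⊓ centralizer ({p} : Set G)) = 42 ∧
      ∀ x ∈ centralizer ({s} : Set G) ⊓ centralizer ({p} : Set G), orderOf x = 2 → x = z := by
  classical
  have hz := hJ.1
  have hPp : P = zpowers p := eq_zpowers (by obtain ⟨-, -, -, -, -, h, -⟩ := hJ; exact h) hp hp3
  have hCP : centralizer (P : Set G) = centralizer ({p} : Set G) := by rw [hPp, centralizer_zpowers_eq]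
  have hCpC : centralizer ({p} : Set G) ≤ centralizer ({z} : Set G) := by
    rw [← hCP]
    exact (Subgroup.centralizer_le_normalizer (P : Set G)).trans hN
  set D := centralizer ({z} : Set G) ⊓ centralizer (P : Set G) with hD
  have hDeq : D = centralizer ({p} : Set G) := by rw [hD, hCP, inf_eq_right.2 hCpC]
  have hsC : s ∈ centralizer ({z} : Set G) := hCpC (mem_centralizer_singleton_iff.2 hsp.eq)
  have hpC : p ∈ centralizer ({z} : Set G) := hCpC (mem_centralizer_singleton_iff.2 rfl)
  have hsz : Commute s z := mem_centralizer_singleton_iff.1 hsC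
  have hpz : Commute p z := mem_centralizer_singleton_iff.1 hpC
  obtain ⟨e⟩ := hM
  set L := centralizer ({s} : Set G) ⊓ centralizer ({p} : Set G) with hL
  have hLD : L ≤ D := hDeq ▸ inf_le_right
  have hsL : s ∈ L := ⟨mem_centralizer_singleton_iff.2 rfl, mem_centralizer_singleton_iff.2 hsp.eq⟩
  have hpL : p ∈ L := ⟨mem_centralizer_singleton_iff.2 hsp.symm.eq, mem_centralizer_singleton_iff.2 rfl⟩
  have hzL : z ∈ L := ⟨mem_centralizer_singleton_iff.2 hsz.symm.eq, mem_centralizer_singleton_iff.2 hpz.symm.eq⟩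
  have hdvd : Nat.card L ∣ 42 := by
    let g : ↥L →* Spor.M22 := (e.toMonoidHom.comp (QuotientGroup.mk' (Subgroup.center ↥D))).comp
      (Subgroup.inclusion hLD)
    have hk : Nat.card g.ker ∣ 6 := by
      rw [← hD6]
      refine Subgroup.card_dvd_of_injective
        ((Subgroup.inclusion hLD).comp g.ker.subtype |>.codRestrict _ fun x => ?_) ?_
      · have := x.2
        rw [MonoidHom.mem_ker] at this
        exact (QuotientGroup.eq_one_iff _).1 (e.map_eq_one_iff.1 this)
      · intro a b h
        have := congrArg (fun w : ↥(Subgroup.center ↥D) => ((w : ↥D) : G)) h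
        exact Subtype.ext (Subtype.ext this)
    haveI : Fact (Nat.Prime 7) := ⟨by norm_num⟩
    set gs := g ⟨s, hsL⟩ with hgs
    have h7 : orderOf gs = 7 := by
      refine orderOf_eq_prime (by rw [hgs, ← map_pow, show (⟨s, hsL⟩ : ↥L) ^ 7 = 1 from
        Subtype.ext (by rw [Subgroup.coe_pow, ← hs, pow_orderOf_eq_one, Subgroup.coe_one]), map_one])
        fun h => ?_
      have hk7 := (Subgroup.orderOf_dvd_natCard g.ker (MonoidHom.mem_ker.2 h)).trans hk
      rw [← Subgroup.orderOf_coe, hs] at hk7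
      norm_num at hk7
    have hX : Nat.card (zpowers gs) = 7 := by rw [Nat.card_zpowers, h7]
    have hr : Nat.card g.range ∣ 7 := by
      rw [← h22 _ hX]
      refine Subgroup.card_dvd_of_le ?_
      rintro _ ⟨x, rfl⟩
      rw [centralizer_zpowers_eq, mem_centralizer_singleton_iff, hgs, ← map_mul, ← map_mul]
      exact congrArg g (Subtype.ext (mem_centralizer_singleton_iff.1 x.2.1))
    rw [← g.ker.card_mul_index, Subgroup.index_ker]
    exact mul_dvd_mul hk hr
  have hcard : Nat.card L = 42 := by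
    refine Nat.dvd_antisymm hdvd ?_
    have h2 : 2 ∣ Nat.card L := hz ▸ Subgroup.orderOf_dvd_natCard L hzL
    have h3 : 3 ∣ Nat.card L := hp3 ▸ Subgroup.orderOf_dvd_natCard L hpL
    have h7 : 7 ∣ Nat.card L := hs ▸ Subgroup.orderOf_dvd_natCard L hsL
    exact Nat.Coprime.mul_dvd_of_dvd_of_dvd (by norm_num : Nat.Coprime 6 7)
      (Nat.Coprime.mul_dvd_of_dvd_of_dvd (by norm_num : Nat.Coprime 2 3) h2 h3) h7
  refine ⟨hsz, hpz, hcard, fun x hx hx2 => ?_⟩
  have hn : ((zpowers z).subgroupOf L).Normal := by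
    refine ⟨fun y hy g => ?_⟩
    rw [Subgroup.mem_subgroupOf] at hy ⊢
    obtain ⟨i, hi⟩ := Subgroup.mem_zpowers_iff.1 hy
    have hg : Commute (g : G) z := mem_centralizer_singleton_iff.1 (hCpC g.2.2)
    refine Subgroup.mem_zpowers_iff.2 ⟨i, ?_⟩
    rw [Subgroup.coe_mul, Subgroup.coe_mul, Subgroup.coe_inv, ← hi, (hg.zpow_right i).eq,
      mul_inv_cancel_right]
  have hidx : ((zpowers z).subgroupOf L).index = 21 := by
    have h := ((zpowers z).subgroupOf L).card_mul_index
    rw [Nat.card_congr (Subgroup.subgroupOfEquivOfLe (Subgroup.zpowers_le.2 hzL)).toEquiv,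
      Nat.card_zpowers, hz, hcard] at h
    omega
  have hm := Subgroup.pow_index_mem ((zpowers z).subgroupOf L) (⟨x, hx⟩ : ↥L)
  rw [hidx, Subgroup.mem_subgroupOf, Subgroup.coe_pow] at hm
  have hxx : x ^ 21 = x := by rw [← pow_mod_orderOf, hx2]; simp
  obtain ⟨i, hi⟩ := Subgroup.mem_zpowers_iff.1 (hxx ▸ hm)
  rw [← zpow_mod_orderOf, hz] at hi
  rcases Int.emod_two_eq i with h | h <;> simp only [Nat.cast_ofNat] at hi <;> rw [h] at hi
  · rw [zpow_zero] at hi
    rw [← hi, orderOf_one] at hx2
    omega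
  · rwa [zpow_one, eq_comm] at hi

/-- The centralizer of the element of order seven in the centralizer of the involution. -/
theorem seven_invol (hJ : IsOfJankoFourTypeWith z P) {s p : G} (hs : orderOf s = 7)
    (hfix : ∀ e ∈ twoCoreOfCentralizer z, s * e = e * s → e = 1 ∨ e = z) (hp : p ∈ P)
    (hp3 : orderOf p = 3) (hsz : Commute s z) (hpz : Commute p z) (hsp : Commute s p)
    (hL : Nat.card ↥(centralizer ({s} : Set G) ⊓ centralizer ({p} : Set G)) = 42)
    (hLz : ∀ x ∈ centralizer ({s} : Set G) ⊓ centralizer ({p} : Set G), x * z = z * x) :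
    Nat.card ↥(centralizer ({s} : Set G) ⊓ centralizer ({z} : Set G)) ∣ 84 := by
  classical
  obtain ⟨hz, -, hcardE, -, ⟨N, hEN, hNC, hCN, hNcard, -, hPN⟩, hP3, -, -, -⟩ := hJ
  have hPp : P = zpowers p := eq_zpowers hP3 hp hp3
  set E := twoCoreOfCentralizer z with hE
  have hPE : P ≤ normalizer (E : Set G) := by
    intro y hy
    have hyC := hNC (hPN hy)
    refine Subgroup.mem_normalizer_iff.2 fun w => ?_
    have key : ∀ c ∈ centralizer ({z} : Set G), ∀ u ∈ E, c * u * c⁻¹ ∈ E := by
      rintro c hc _ ⟨u, hu, rfl⟩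
      exact ⟨(⟨c, hc⟩ : ↥(centralizer ({z} : Set G))) * u * ⟨c, hc⟩⁻¹,
        (inferInstance : (pCore 2 ↥(centralizer ({z} : Set G))).Normal).conj_mem u hu _, rfl⟩
    refine ⟨key y hyC w, fun h => ?_⟩
    have := key y⁻¹ (inv_mem hyC) _ h
    simpa [mul_assoc] using this
  have hNsup : P ⊔ E = N := by
    refine Subgroup.eq_of_le_of_card_ge (sup_le hPN hEN) ?_
    rw [hNcard]
    refine Nat.le_of_dvd Nat.card_pos (Nat.Coprime.mul_dvd_of_dvd_of_dvd ?_ ?_
      (Subgroup.card_dvd_of_le le_sup_right))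
    · rw [hcardE]; norm_num
    · exact hP3 ▸ Subgroup.card_dvd_of_le le_sup_left
  set B := centralizer ({s} : Set G) ⊓ centralizer ({z} : Set G) with hB
  have hzpow : ∀ y ∈ P, y * s = s * y := by
    intro y hy
    rw [hPp] at hy
    obtain ⟨i, rfl⟩ := Subgroup.mem_zpowers_iff.1 hy
    exact (hsp.zpow_right i).symm.eq
  have hconj : ∀ b ∈ B, b * p * b⁻¹ = p ∨ b * p * b⁻¹ = p⁻¹ := by
    intro b hb
    have hbs : Commute b s := mem_centralizer_singleton_iff.1 hb.1
    have hq : b * p * b⁻¹ ∈ N := (Subgroup.mem_normalizer_iff.1 (hCN hb.2) p).1 (hPN hp)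
    rw [← hNsup, ← SetLike.mem_coe, Subgroup.coe_mul_of_left_le_normalizer_right _ _ hPE] at hq
    obtain ⟨y, hy, w, hw, hyw⟩ := hq
    simp only at hyw
    have hws : s * w = w * s := by
      have h1 : Commute s (b * p * b⁻¹) := (hbs.symm.mul_right hsp).mul_right hbs.inv_left.symm
      have h2 : Commute s y := (hzpow y hy).symm
      rw [← hyw] at h1
      have := h2.inv_right.mul_right h1
      rwa [inv_mul_cancel_left] at this
    have h3 : (b * p * b⁻¹) ^ 3 = 1 := by
      rw [conj_pow, ← hp3, pow_orderOf_eq_one]; group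
    have hyC : Commute y z := mem_centralizer_singleton_iff.1 (hNC (hPN hy))
    have hy3 : y ^ 3 = 1 := by
      have := Subgroup.orderOf_dvd_natCard P hy
      rw [hP3] at this
      exact orderOf_dvd_iff_pow_eq_one.1 this
    rcases hfix w hw hws with rfl | rfl
    · rw [mul_one] at hyw
      rw [← hyw]
      have hy' := hy
      rw [hPp, SetLike.mem_coe, mem_zpowers_iff_mem_range_orderOf, hp3, Finset.mem_image] at hy'
      obtain ⟨i, hi, rfl⟩ := hy'
      rw [Finset.mem_range] at hi
      interval_cases i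
      · exfalso
        rw [pow_zero] at hyw
        have : orderOf p = 1 := by
          rw [orderOf_eq_one_iff]
          exact conj_eq_one_iff.1 hyw.symm
        omega
      · exact Or.inl (pow_one p)
      · exact Or.inr (eq_inv_of_mul_eq_one_left (by rw [← pow_succ]; show p ^ 3 = 1; rw [← hp3, pow_orderOf_eq_one]))
    · exfalso
      rw [← hyw, hyC.mul_pow, hy3, one_mul, ← pow_mod_orderOf, hz, show 3 % 2 = 1 from rfl, pow_one] at h3
      rw [h3, orderOf_one] at hz
      omega
  set L := centralizer ({s} : Set G) ⊓ centralizer ({p} : Set G) with hLdef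
  have hLB : L ≤ B := fun x hx => ⟨hx.1, mem_centralizer_singleton_iff.2 (hLz x hx)⟩
  have hmemL : ∀ b ∈ B, b * p * b⁻¹ = p → b ∈ L := fun b hb h =>
    ⟨hb.1, mem_centralizer_singleton_iff.2 (mul_inv_eq_iff_eq_mul.1 h)⟩
  have hcard := (L.subgroupOf B).card_mul_index
  rw [Nat.card_congr (Subgroup.subgroupOfEquivOfLe hLB).toEquiv, hL] at hcard
  by_cases hall : ∀ b : ↥B, (b : G) * p * (b : G)⁻¹ = p
  · have : (L.subgroupOf B) = ⊤ := eq_top_iff.2 fun b _ => Subgroup.mem_subgroupOf.2 (hmemL b b.2 (hall b))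
    rw [this, Subgroup.index_top, mul_one] at hcard
    rw [← hcard]
    norm_num
  · obtain ⟨a, ha⟩ := not_forall.1 hall
    have hidx : (L.subgroupOf B).index = 2 := by
      rw [Subgroup.index_eq_two_iff]
      refine ⟨a, fun b => ?_⟩
      have hai : (a : G) * p * (a : G)⁻¹ = p⁻¹ := (hconj a a.2).resolve_left ha
      have hmem : ∀ c : ↥B, c ∈ L.subgroupOf B ↔ (c : G) * p * (c : G)⁻¹ = p := fun c =>
        ⟨fun h => mul_inv_eq_iff_eq_mul.2 (mem_centralizer_singleton_iff.1 (Subgroup.mem_subgroupOf.1 h).2),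
          fun h => Subgroup.mem_subgroupOf.2 (hmemL c c.2 h)⟩
      have hne : p⁻¹ ≠ p := fun h => by
        have : p ^ 2 = 1 := by rw [pow_two]; nth_rewrite 1 [← h]; exact inv_mul_cancel p
        have := orderOf_dvd_of_pow_eq_one this
        rw [hp3] at this
        norm_num at this
      have hprod : ((b * a : ↥B) : G) * p * ((b * a : ↥B) : G)⁻¹ = ((b : G) * p * (b : G)⁻¹)⁻¹ := by
        rw [Subgroup.coe_mul]
        rw [show (b : G) * a * p * ((b : G) * a)⁻¹ = b * ((a : G) * p * (a : G)⁻¹) * (b : G)⁻¹ by group, hai]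
        group
      rcases hconj b b.2 with hb | hb
      · refine Or.inr ⟨(hmem b).2 hb, fun h => hne ?_⟩
        have e1 := (hmem _).1 h
        rw [hprod, hb] at e1
        exact e1
      · refine Or.inl ⟨(hmem _).2 (by rw [hprod, hb, inv_inv]), fun h => hne ?_⟩
        rw [← hb, (hmem b).1 h]
    rw [hidx] at hcard
    rw [← hcard]

end Cfsg.Agent.JFourType.Seven
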