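import Cfsg.Agent.JFourType.SevenLocal
import Cfsg.Agent.S0364

/-!
An element of order seven inside a complement to an elementary abelian subgroup of order `2^11` in
its normalizer, and the involutions of that subgroup centralized by it.
-/

set_option autoImplicit false

namespace Cfsg.Agent.JFourType.Seven

open Subgroup

variable {G : Type*} [Group G] [Finite G] {z : G} {P : Subgroup G}

/-- A conjugation orbit under a subgroup. -/
def orb (H : Subgroup G) (x : G) : Set G := {v : G | ∃ h ∈ H, h * x * h⁻¹ = v}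

theorem orb_card (H : Subgroup G) (x : G) :
    (orb H x).ncard * Nat.card ↥(H ⊓ centralizer ({x} : Set G)) = Nat.card H := by
  classical
  let M := (centralizer ({x} : Set G)).subgroupOf H
  have hM : ∀ a b : ↥H, a⁻¹ * b ∈ M ↔ (a : G) * x * (a : G)⁻¹ = b * x * (b : G)⁻¹ := by
    intro a b
    rw [Subgroup.mem_subgroupOf, mem_centralizer_singleton_iff, Subgroup.coe_mul, Subgroup.coe_inv]
    constructor
    · intro h
      calc (a : G) * x * (a : G)⁻¹ = a * (x * ((a : G)⁻¹ * b)) * (b : G)⁻¹ := by group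
        _ = a * ((a : G)⁻¹ * b * x) * (b : G)⁻¹ := by rw [h]
        _ = _ := by group
    · intro h
      calc (a : G)⁻¹ * b * x = (a : G)⁻¹ * ((b : G) * x * (b : G)⁻¹) * b := by group
        _ = (a : G)⁻¹ * ((a : G) * x * (a : G)⁻¹) * b := by rw [h]
        _ = _ := by group
  let f : ↥H ⧸ M → ↥(orb H x) := Quotient.lift
    (fun a : ↥H => (⟨(a : G) * x * (a : G)⁻¹, a, a.2, rfl⟩ : ↥(orb H x)))
    fun a b hab => Subtype.ext ((hM a b).1 (QuotientGroup.leftRel_apply.1 hab))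
  have hf : Function.Bijective f := by
    constructor
    · rintro ⟨a⟩ ⟨b⟩ hab
      exact Quotient.sound (QuotientGroup.leftRel_apply.2 ((hM a b).2 (congrArg Subtype.val hab)))
    · rintro ⟨_, h, hh, rfl⟩
      exact ⟨Quotient.mk'' ⟨h, hh⟩, rfl⟩
  have h := M.card_mul_index
  rw [Subgroup.index_eq_card, Nat.card_congr (Equiv.ofBijective f hf), Nat.card_coe_set_eq] at h
  have hM' : Nat.card M = Nat.card ↥(H ⊓ centralizer ({x} : Set G)) := by
    rw [inf_comm]
    exact Nat.card_congr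
      { toFun := fun a => ⟨((a : ↥H) : G), Subgroup.mem_subgroupOf.1 a.2, (a : ↥H).2⟩
        invFun := fun a => ⟨⟨a.1, a.2.2⟩, Subgroup.mem_subgroupOf.2 a.2.1⟩
        left_inv := fun a => rfl
        right_inv := fun a => rfl }
  rw [← hM', mul_comm, h]

/-- Fixed points of an element of order seven on a stable set. -/
theorem fix_modEq {s : G} (hs : orderOf s = 7) (S : Set G) (hS : ∀ x ∈ S, s * x * s⁻¹ ∈ S) :
    S.ncard ≡ {x | x ∈ S ∧ s * x = x * s}.ncard [MOD 7] := by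
  classical
  haveI : Fact (Nat.Prime 7) := ⟨by norm_num⟩
  have hpow : ∀ n : ℕ, ∀ x ∈ S, s ^ n * x * (s ^ n)⁻¹ ∈ S := by
    intro n
    induction n with
    | zero => intro x hx; simpa using hx
    | succ n ih =>
      intro x hx
      rw [pow_succ', show s * s ^ n * x * (s * s ^ n)⁻¹ = s * (s ^ n * x * (s ^ n)⁻¹) * s⁻¹ by group]
      exact hS _ (ih x hx)
  have hmem : ∀ a : ↥(zpowers s), ∀ x ∈ S, (a : G) * x * (a : G)⁻¹ ∈ S := by
    rintro ⟨a, ha⟩ x hx
    rw [← mem_powers_iff_mem_zpowers] at ha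
    obtain ⟨n, rfl⟩ := ha
    exact hpow n x hx
  letI : MulAction ↥(zpowers s) ↥S :=
    { smul := fun a x => ⟨(a : G) * x * (a : G)⁻¹, hmem a x x.2⟩
      one_smul := fun x => Subtype.ext (by show (1 : G) * (x : G) * (1 : G)⁻¹ = x; group)
      mul_smul := fun a b x => Subtype.ext (by
        show ((a : G) * b) * (x : G) * ((a : G) * b)⁻¹ = a * ((b : G) * x * (b : G)⁻¹) * (a : G)⁻¹
        group) }
  have h := (IsPGroup.of_card (p := 7) (n := 1) (G := ↥(zpowers s))
    (by rw [Nat.card_zpowers, hs, pow_one])).card_modEq_card_fixedPoints ↥S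
  rw [Nat.card_coe_set_eq] at h
  have hfix : Nat.card (MulAction.fixedPoints ↥(zpowers s) ↥S) = {x | x ∈ S ∧ s * x = x * s}.ncard := by
    rw [← Nat.card_coe_set_eq {x | x ∈ S ∧ s * x = x * s}]
    refine Nat.card_congr
      { toFun := fun x => ⟨(x : ↥S).1, (x : ↥S).2, mul_inv_eq_iff_eq_mul.1
          (congrArg Subtype.val (x.2 ⟨s, Subgroup.mem_zpowers s⟩))⟩
        invFun := fun x => ⟨⟨x.1, x.2.1⟩, fun a => Subtype.ext ?_⟩
        left_inv := fun x => rfl
        right_inv := fun x => rfl }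
    obtain ⟨a, ha⟩ := a
    obtain ⟨i, rfl⟩ := Subgroup.mem_zpowers_iff.1 ha
    show s ^ i * (x : G) * (s ^ i)⁻¹ = x
    rw [((show Commute s (x : G) from x.2.2).zpow_left i).eq, mul_inv_cancel_right]
  rwa [hfix] at h

theorem conj_zpowers_of_not_dvd {C : Subgroup G} (hC : ¬ 49 ∣ Nat.card C) {a b : G}
    (ha : a ∈ C) (hb : b ∈ C) (ha7 : orderOf a = 7) (hb7 : orderOf b = 7) :
    ∃ c ∈ C, c * a * c⁻¹ ∈ zpowers b ∧ (zpowers a).map (MulAut.conj c).toMonoidHom = zpowers b := by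
  classical
  haveI : Fact (Nat.Prime 7) := ⟨by norm_num⟩
  have hfac : (Nat.card C).factorization 7 = 1 := by
    have h7 : 7 ∣ Nat.card C := ha7 ▸ Subgroup.orderOf_dvd_natCard C ha
    have h1 := (Nat.Prime.pow_dvd_iff_le_factorization (by norm_num) Nat.card_pos.ne').1
      (show 7 ^ 1 ∣ Nat.card C by simpa using h7)
    have h2 : ¬ 2 ≤ (Nat.card C).factorization 7 := fun h =>
      hC (by simpa using (Nat.Prime.pow_dvd_iff_le_factorization (by norm_num) Nat.card_pos.ne').2 h)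
    omega
  let A : Sylow 7 ↥C := Sylow.ofCard (zpowers (⟨a, ha⟩ : ↥C))
    (by rw [Nat.card_zpowers, ← Subgroup.orderOf_coe, ha7, hfac, pow_one])
  let B : Sylow 7 ↥C := Sylow.ofCard (zpowers (⟨b, hb⟩ : ↥C))
    (by rw [Nat.card_zpowers, ← Subgroup.orderOf_coe, hb7, hfac, pow_one])
  obtain ⟨c, hc⟩ := MulAction.exists_smul_eq ↥C A B
  have hab : c * (⟨a, ha⟩ : ↥C) * c⁻¹ ∈ zpowers (⟨b, hb⟩ : ↥C) := by
    have h1 : MulAut.conj c • (⟨a, ha⟩ : ↥C) ∈ ((c • A : Sylow 7 ↥C) : Subgroup ↥C) := by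
      rw [Sylow.coe_subgroup_smul]
      exact Subgroup.smul_mem_pointwise_smul _ _ _ (Subgroup.mem_zpowers _)
    rw [hc] at h1
    exact h1
  obtain ⟨i, hi⟩ := Subgroup.mem_zpowers_iff.1 hab
  have hmem : (c : G) * a * (c : G)⁻¹ ∈ zpowers b :=
    Subgroup.mem_zpowers_iff.2 ⟨i, congrArg Subtype.val hi⟩
  refine ⟨c, c.2, hmem, Subgroup.eq_of_le_of_card_ge ?_ ?_⟩
  · rw [Subgroup.map_le_iff_le_comap, Subgroup.zpowers_le]
    exact hmem
  · rw [Subgroup.card_map_of_injective (MulAut.conj (c : G)).injective, Nat.card_zpowers,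
      Nat.card_zpowers, ha7, hb7]

/-- An element of order 21 in a complement, with its cube root part in the given subgroup. -/
theorem exists_data (hP : Nat.card P = 3)
    (h64 : ∀ x y : G, orderOf x = 3 → orderOf y = 3 → IsConj x y)
    (h24 : ∀ X : Subgroup Cfsg.M24, Nat.card X = 7 →
      Nat.card (normalizer (X : Set Cfsg.M24)) = 126 ∧ Nat.card (centralizer (X : Set Cfsg.M24)) = 42)
    (V₀ K₀ : Subgroup G) (hV : IsElementaryAbelian 2 V₀) (hVc : Nat.card V₀ = 2 ^ 11)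
    (hKN : K₀ ≤ normalizer (V₀ : Set G)) (hKV : K₀ ⊓ V₀ = ⊥) (hsup : K₀ ⊔ V₀ = normalizer (V₀ : Set G))
    (hK : Spor.IsoM24 ↥K₀) :
    ∃ (V K : Subgroup G) (s p : G), IsElementaryAbelian 2 V ∧ Nat.card V = 2 ^ 11 ∧
      K ≤ normalizer (V : Set G) ∧ K ⊓ V = ⊥ ∧ K ⊔ V = normalizer (V : Set G) ∧ Spor.IsoM24 ↥K ∧
      s ∈ K ∧ p ∈ K ∧ orderOf s = 7 ∧ orderOf p = 3 ∧ Commute s p ∧ p ∈ P := by
  classical
  obtain ⟨e⟩ := hK
  haveI : Fact (Nat.Prime 7) := ⟨by norm_num⟩
  haveI : Fact (Nat.Prime 3) := ⟨by norm_num⟩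
  obtain ⟨x, hx⟩ := exists_prime_orderOf_dvd_card' (G := ↥K₀) 7
    (by rw [Nat.card_congr e.toEquiv, Cfsg.Agent.S0364.result]; norm_num)
  obtain ⟨-, hC⟩ := seven_card e h24 (zpowers x) (by rw [Nat.card_zpowers, hx])
  obtain ⟨y, hy⟩ := exists_prime_orderOf_dvd_card' (G := ↥(centralizer (zpowers x : Set ↥K₀))) 3
    (by rw [hC]; norm_num)
  have hxy : Commute ((x : ↥K₀) : G) ((y : ↥K₀) : G) := by
    have := Subgroup.mem_centralizer_iff.1 y.2 x (Subgroup.mem_zpowers x)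
    exact congrArg Subtype.val this
  obtain ⟨p₀, hp₀, hp₀3⟩ := exists_gen (Nat.prime_three) hP
  obtain ⟨g, hg⟩ := isConj_iff.1 (h64 ((y : ↥K₀) : G) p₀
    (by rw [Subgroup.orderOf_coe, Subgroup.orderOf_coe]; exact hy) hp₀3)
  set c := (MulAut.conj g).toMonoidHom with hc
  have hcinj : Function.Injective c := (MulAut.conj g).injective
  have hnorm : normalizer ((V₀.map c : Subgroup G) : Set G) = (normalizer (V₀ : Set G)).map c :=
    (Subgroup.map_equiv_normalizer_eq V₀ (MulAut.conj g)).symm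
  refine ⟨V₀.map c, K₀.map c, c x, c (y : ↥K₀), ⟨⟨⟨fun u v => Subtype.ext ?_⟩⟩, ?_⟩,
    by rw [Subgroup.card_map_of_injective hcinj, hVc], ?_, ?_, ?_,
    ⟨(Subgroup.equivMapOfInjective K₀ c hcinj).symm.trans e⟩, Subgroup.mem_map_of_mem c x.2,
    Subgroup.mem_map_of_mem c (y : ↥K₀).2, ?_, ?_, hxy.map c, ?_⟩
  · obtain ⟨a, ha, hua⟩ := u.2
    obtain ⟨b, hb, hvb⟩ := v.2
    show (u : G) * v = v * u
    rw [← hua, ← hvb, ← map_mul, ← map_mul]
    exact congrArg c (congrArg Subtype.val (hV.1.is_comm.comm ⟨a, ha⟩ ⟨b, hb⟩))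
  · rintro _ ⟨a, ha, rfl⟩
    rw [← map_pow, hV.2 a ha, map_one]
  · rw [hnorm]; exact Subgroup.map_mono hKN
  · rw [← Subgroup.map_inf _ _ _ hcinj, hKV, Subgroup.map_bot]
  · rw [← Subgroup.map_sup, hsup, hnorm]
  · rw [orderOf_injective c hcinj, Subgroup.orderOf_coe, hx]
  · rw [orderOf_injective c hcinj, Subgroup.orderOf_coe, Subgroup.orderOf_coe, hy]
  · show g * ((y : ↥K₀) : G) * g⁻¹ ∈ P
    rw [hg]; exact hp₀

/-- Uniqueness in a split extension. -/
theorem decomp {V K : Subgroup G} (hKN : K ≤ normalizer (V : Set G))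
    (hsup : K ⊔ V = normalizer (V : Set G)) {n : G} (hn : n ∈ normalizer (V : Set G)) :
    ∃ k ∈ K, ∃ v ∈ V, k * v = n := by
  rw [← hsup, ← SetLike.mem_coe, Subgroup.coe_mul_of_left_le_normalizer_right _ _ hKN] at hn
  obtain ⟨k, hk, v, hv, h⟩ := hn
  exact ⟨k, hk, v, hv, h⟩

theorem card_pairs {M A B : Subgroup G} (hA : A ≤ M) (hB : B ≤ M) (hAB : A ⊓ B = ⊥)
    (h : ∀ m ∈ M, ∃ a ∈ A, ∃ b ∈ B, a * b = m) : Nat.card M = Nat.card A * Nat.card B := by
  rw [← Nat.card_prod]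
  refine (Nat.card_congr (Equiv.ofBijective (fun x : ↥A × ↥B => (⟨(x.1 : G) * x.2,
    mul_mem (hA x.1.2) (hB x.2.2)⟩ : ↥M)) ⟨?_, ?_⟩)).symm
  · rintro ⟨a, b⟩ ⟨a', b'⟩ he
    have he' : (a : G) * b = a' * b' := congrArg Subtype.val he
    have h1 : (a' : G)⁻¹ * a = b' * (b : G)⁻¹ := by
      rw [eq_mul_inv_iff_mul_eq, mul_assoc, he', inv_mul_cancel_left]
    have hmem : (a' : G)⁻¹ * a ∈ A ⊓ B :=
      Subgroup.mem_inf.2 ⟨mul_mem (inv_mem a'.2) a.2, h1 ▸ mul_mem b'.2 (inv_mem b.2)⟩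
    rw [hAB, Subgroup.mem_bot, inv_mul_eq_one] at hmem
    have ha : a' = a := Subtype.ext hmem
    subst ha
    exact Prod.ext rfl (Subtype.ext (mul_left_cancel he'))
  · rintro ⟨m, hm⟩
    obtain ⟨a, ha, b, hb, rfl⟩ := h m hm
    exact ⟨(⟨a, ha⟩, ⟨b, hb⟩), rfl⟩

/-- The involutions of the elementary abelian subgroup centralized by the element of order seven. -/
theorem seven_side (hz : orderOf z = 2) (hC49 : ¬ 49 ∣ Nat.card (centralizer ({z} : Set G)))
    {V K : Subgroup G} {s p : G} (hV : IsElementaryAbelian 2 V) (hVc : Nat.card V = 2 ^ 11)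
    (hKN : K ≤ normalizer (V : Set G)) (hKV : K ⊓ V = ⊥) (hsup : K ⊔ V = normalizer (V : Set G))
    (hK : Spor.IsoM24 ↥K) (hsK : s ∈ K) (hpK : p ∈ K) (hs : orderOf s = 7) (hp : orderOf p = 3)
    (hsp : Commute s p) (hsz : Commute s z)
    (hLu : ∀ x ∈ centralizer ({s} : Set G) ⊓ centralizer ({p} : Set G), orderOf x = 2 → x = z)
    (hB : Nat.card ↥(centralizer ({s} : Set G) ⊓ centralizer ({z} : Set G)) ∣ 84)
    (h24 : ∀ X : Subgroup Cfsg.M24, Nat.card X = 7 →
      Nat.card (normalizer (X : Set Cfsg.M24)) = 126 ∧ Nat.card (centralizer (X : Set Cfsg.M24)) = 42)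
    (h68 : ∃ z' t : G, z' ∈ V ∧ t ∈ V ∧ t ≠ 1 ∧ IsConj z z' ∧ ¬ IsConj z t ∧
      Set.ncard {v : G | ∃ n ∈ normalizer (V : Set G), n * z' * n⁻¹ = v} = 1771 ∧
      Set.ncard {v : G | ∃ n ∈ normalizer (V : Set G), n * t * n⁻¹ = v} = 276 ∧
      centralizer ({t} : Set G) ≤ normalizer (V : Set G)) :
    Nat.card ↥(normalizer (zpowers s : Set G) ⊓ K) = 126 ∧
    Nat.card ↥(centralizer ({s} : Set G) ⊓ K) = 42 ∧
    Nat.card ↥(V ⊓ centralizer ({s} : Set G)) = 4 ∧
    ∃ t : G, t ∈ V ∧ orderOf t = 2 ∧ Commute s t ∧ ¬ IsConj z t ∧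
      Nat.card ↥(centralizer ({s} : Set G) ⊓ centralizer ({t} : Set G)) = 56 ∧
      (∀ w ∈ V ⊓ centralizer ({s} : Set G), w ≠ 1 → ∃ c, Commute c s ∧ c * t * c⁻¹ = w) ∧
      (∃ u, Commute u s ∧ Commute u t ∧ orderOf u = 2 ∧
        ∃ w ∈ V ⊓ centralizer ({s} : Set G), u * w ≠ w * u) ∧
      ∀ n ∈ normalizer (zpowers s : Set G), Commute n t →
        ∃ k ∈ normalizer (zpowers s : Set G) ⊓ K, ∃ c, Commute c s ∧ k * c = n := by
  classical
  obtain ⟨e⟩ := hK
  obtain ⟨z', t₀, hz'V, ht₀V, ht₀1, hz'c, ht₀nc, hZc, hTc, hCt₀⟩ := h68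
  haveI : Fact (Nat.Prime 2) := ⟨Nat.prime_two⟩
  set N := normalizer (V : Set G) with hNdef
  set T := {v : G | ∃ n ∈ N, n * t₀ * n⁻¹ = v} with hT
  set Z := {v : G | ∃ n ∈ N, n * z' * n⁻¹ = v} with hZ
  set F := V ⊓ centralizer ({s} : Set G) with hF
  set NK := normalizer (zpowers s : Set G) ⊓ K with hNK
  set CK := centralizer ({s} : Set G) ⊓ K with hCK
  have hsK' : zpowers s ≤ K := Subgroup.zpowers_le.2 hsK
  have hsX : Nat.card ((zpowers s).subgroupOf K) = 7 := by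
    rw [Nat.card_congr (Subgroup.subgroupOfEquivOfLe hsK').toEquiv, Nat.card_zpowers, hs]
  obtain ⟨hX126, hX42⟩ := seven_card e h24 _ hsX
  have hNKc : Nat.card NK = 126 := by
    rw [← Subgroup.subgroupOf_normalizer_eq hsK'] at hX126
    rw [← hX126]
    exact Nat.card_congr
      { toFun := fun a => ⟨⟨a.1, a.2.2⟩, Subgroup.mem_subgroupOf.2 a.2.1⟩
        invFun := fun a => ⟨((a : ↥K) : G), Subgroup.mem_subgroupOf.1 a.2, (a : ↥K).2⟩
        left_inv := fun a => rfl
        right_inv := fun a => rfl }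
  have hCKc : Nat.card CK = 42 := by
    rw [← hX42]
    exact Nat.card_congr
      { toFun := fun a => ⟨⟨a.1, a.2.2⟩, by
          rw [Subgroup.mem_centralizer_iff]
          intro x hx
          obtain ⟨i, hi⟩ := Subgroup.mem_zpowers_iff.1 (Subgroup.mem_subgroupOf.1 hx)
          apply Subtype.ext
          show (x : G) * a.1 = a.1 * x
          rw [← hi]
          exact ((show Commute s a.1 from (mem_centralizer_singleton_iff.1 a.2.1).symm).zpow_left i).eq⟩
        invFun := fun a => ⟨((a : ↥K) : G), mem_centralizer_singleton_iff.2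
          (congrArg Subtype.val (Subgroup.mem_centralizer_iff.1 a.2 ⟨s, hsK⟩
            (Subgroup.mem_subgroupOf.2 (Subgroup.mem_zpowers s)))).symm, (a : ↥K).2⟩
        left_inv := fun a => rfl
        right_inv := fun a => rfl }
  have hNmem : ∀ n ∈ N, ∀ v ∈ V, n * v * n⁻¹ ∈ V := fun n hn v hv =>
    (Subgroup.mem_normalizer_iff.1 hn v).1 hv
  have hVN : V ≤ N := Subgroup.le_normalizer
  have hTV : T ⊆ (V : Set G) \ {1} := by
    rintro _ ⟨n, hn, rfl⟩
    exact ⟨hNmem n hn _ ht₀V, fun h => ht₀1 (conj_eq_one_iff.1 h)⟩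
  have hTnc : ∀ x ∈ T, ¬ IsConj z x := by
    rintro _ ⟨n, -, rfl⟩ h
    exact ht₀nc (h.trans (isConj_iff.2 ⟨n, rfl⟩).symm)
  have hZz : ∀ x ∈ Z, IsConj z x := by
    rintro _ ⟨n, -, rfl⟩
    exact hz'c.trans (isConj_iff.2 ⟨n, rfl⟩)
  have hZV : Z ⊆ (V : Set G) \ {1} := by
    rintro _ ⟨n, hn, rfl⟩
    refine ⟨hNmem n hn _ hz'V, fun h => ?_⟩
    rw [conj_eq_one_iff.1 h] at hz'c
    obtain ⟨g, hg⟩ := isConj_iff.1 hz'c
    rw [conj_eq_one_iff.1 hg, orderOf_one] at hz
    omega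
  have hunion : Z ∪ T = (V : Set G) \ {1} := by
    refine Set.eq_of_subset_of_ncard_le (Set.union_subset hZV hTV) ?_ (Set.toFinite _)
    rw [Set.ncard_union_eq (Set.disjoint_left.2 fun x hx hx' => hTnc x hx' (hZz x hx)), hZc, hTc,
      Set.ncard_diff_singleton_of_mem (one_mem V), ← Nat.card_coe_set_eq, SetLike.coe_sort_coe, hVc]
    norm_num
  have hsN : s ∈ N := hKN hsK
  have hsT : ∀ x ∈ T, s * x * s⁻¹ ∈ T := by
    rintro _ ⟨n, hn, rfl⟩
    exact ⟨s * n, mul_mem hsN hn, by group⟩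
  have hsZ : ∀ x ∈ Z, s * x * s⁻¹ ∈ Z := by
    rintro _ ⟨n, hn, rfl⟩
    exact ⟨s * n, mul_mem hsN hn, by group⟩
  obtain ⟨a, hFa⟩ := (IsPGroup.iff_card).1
    ((IsPGroup.of_card (p := 2) hVc).to_le (inf_le_left : F ≤ V))
  have hFcomm : ∀ x ∈ F, ∀ y ∈ F, x * y = y * x := fun x hx y hy =>
    congrArg Subtype.val (hV.1.is_comm.comm ⟨x, hx.1⟩ ⟨y, hy.1⟩)
  -- no conjugate of `z` is fixed
  have hFz : ∀ x ∈ F, ¬ IsConj z x := by
    intro x hx hcz
    obtain ⟨g, hg⟩ := isConj_iff.1 hcz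
    have hsx : Commute s x := (mem_centralizer_singleton_iff.1 hx.2).symm
    have hs'z : g⁻¹ * s * g ∈ centralizer ({z} : Set G) := by
      rw [mem_centralizer_singleton_iff, ← mul_right_inj g, ← mul_left_inj g⁻¹]
      calc g * (g⁻¹ * s * g * z) * g⁻¹ = s * (g * z * g⁻¹) := by group
        _ = g * z * g⁻¹ * s := by rw [hg, hsx.eq]
        _ = _ := by group
    have hs'7 : orderOf (g⁻¹ * s * g) = 7 := by
      rw [show g⁻¹ * s * g = (MulAut.conj g⁻¹).toMonoidHom s by simp [mul_assoc],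
        orderOf_injective (MulAut.conj g⁻¹).toMonoidHom (MulAut.conj g⁻¹).injective, hs]
    obtain ⟨c, hc, -, hmap⟩ := conj_zpowers_of_not_dvd hC49 hs'z
      (mem_centralizer_singleton_iff.2 hsz.eq) hs'7 hs
    set h := c * g⁻¹ with hh
    have hhs : (zpowers s).map (MulAut.conj h).toMonoidHom = zpowers s := by
      conv_rhs => rw [← hmap]
      rw [MonoidHom.map_zpowers, MonoidHom.map_zpowers]
      congr 1
      simp [hh, mul_assoc]
    have hhx : h * x * h⁻¹ = z := by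
      have hcz' : c * z * c⁻¹ = z := mul_inv_eq_iff_eq_mul.2 (mem_centralizer_singleton_iff.1 hc)
      rw [hh, ← hg]
      calc c * g⁻¹ * (g * z * g⁻¹) * (c * g⁻¹)⁻¹ = c * z * c⁻¹ := by group
        _ = z := hcz'
    have hle : F.map (MulAut.conj h).toMonoidHom ≤
        centralizer ({s} : Set G) ⊓ centralizer ({z} : Set G) := by
      rintro _ ⟨y, hy, rfl⟩
      refine ⟨?_, ?_⟩
      · rw [← centralizer_zpowers_eq, ← hhs]
        refine Subgroup.mem_centralizer_iff.2 ?_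
        rintro _ ⟨w, hw, rfl⟩
        have hwy : w * y = y * w := Subgroup.mem_centralizer_iff.1
          ((centralizer_zpowers_eq s).symm ▸ hy.2) w hw
        simp only [MonoidHom.coe_coe, MulEquiv.coe_toMonoidHom]
        rw [← map_mul, ← map_mul, hwy]
      · refine mem_centralizer_singleton_iff.2 ?_
        show h * y * h⁻¹ * z = z * (h * y * h⁻¹)
        rw [← hhx]
        calc h * y * h⁻¹ * (h * x * h⁻¹) = h * (y * x) * h⁻¹ := by group
          _ = h * (x * y) * h⁻¹ := by rw [hFcomm y hy x hx]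
          _ = _ := by group
    have h4 : 2 ^ a ∣ 84 := by
      rw [← hFa, ← Subgroup.card_map_of_injective (f := (MulAut.conj h).toMonoidHom) (MulAut.conj h).injective]
      exact (Subgroup.card_dvd_of_le hle).trans hB
    have ha2 : a ≤ 2 := by
      by_contra ha
      exact absurd ((pow_dvd_pow 2 (show 3 ≤ a by omega)).trans h4) (by norm_num)
    have hmod := fix_modEq hs Z hsZ
    rw [hZc] at hmod
    set Zs := {x | x ∈ Z ∧ s * x = x * s} with hZs
    have hsub : Zs ⊆ (F : Set G) \ {1} := fun y hy =>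
      ⟨⟨(hZV hy.1).1, mem_centralizer_singleton_iff.2 hy.2.symm⟩, (hZV hy.1).2⟩
    have hle4 : Zs.ncard ≤ 3 := by
      refine (Set.ncard_le_ncard hsub (Set.toFinite _)).trans ?_
      rw [Set.ncard_diff_singleton_of_mem (one_mem F), ← Nat.card_coe_set_eq, SetLike.coe_sort_coe, hFa]
      have := Nat.pow_le_pow_right (show 1 ≤ 2 by norm_num) ha2
      omega
    have hx1 : x ≠ 1 := by
      rintro rfl
      rw [conj_eq_one_iff.1 hg, orderOf_one] at hz
      omega
    have hxZ : x ∈ Zs := by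
      refine ⟨?_, hsx.eq⟩
      rcases hunion.ge ⟨hx.1, hx1⟩ with h | h
      · exact h
      · exact absurd hcz (hTnc x h)
    have hpos : 0 < Zs.ncard := (Set.ncard_pos (Set.toFinite _)).2 ⟨x, hxZ⟩
    unfold Nat.ModEq at hmod
    omega
  have hFT : (F : Set G) \ {1} = {x | x ∈ T ∧ s * x = x * s} := by
    ext x
    constructor
    · rintro ⟨hx, hx1⟩
      refine ⟨?_, (mem_centralizer_singleton_iff.1 hx.2).symm⟩
      rcases hunion.ge ⟨hx.1, hx1⟩ with h | h
      · exact absurd (hZz x h) (hFz x hx)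
      · exact h
    · rintro ⟨hx, hc⟩
      exact ⟨⟨(hTV hx).1, mem_centralizer_singleton_iff.2 hc.symm⟩, (hTV hx).2⟩
  have hFcard1 : ((F : Set G) \ {1}).ncard = 2 ^ a - 1 := by
    rw [Set.ncard_diff_singleton_of_mem (one_mem F), ← Nat.card_coe_set_eq, SetLike.coe_sort_coe, hFa]
  have hmod := fix_modEq hs T hsT
  rw [hTc, ← hFT, hFcard1] at hmod
  -- a fixed involution
  have hne : ((F : Set G) \ {1}).Nonempty := by
    refine Set.nonempty_of_ncard_ne_zero fun h0 => ?_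
    rw [hFcard1] at h0
    rw [h0] at hmod
    exact absurd hmod (by decide)
  obtain ⟨t, htF'⟩ := hne
  have htF : t ∈ F := htF'.1
  have htT : t ∈ T := (hFT ▸ htF').1
  have hst : Commute s t := (mem_centralizer_singleton_iff.1 htF.2).symm
  have ht2 : orderOf t = 2 := orderOf_eq_prime (hV.2 t htF.1) htF'.2
  have hNcard : Nat.card N = 244823040 * 2 ^ 11 := by
    rw [card_pairs hKN hVN hKV fun m hm => decomp hKN hsup hm, hVc, Nat.card_congr e.toEquiv,
      Cfsg.Agent.S0364.result]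
  have hCtN : ∀ x ∈ T, centralizer ({x} : Set G) ≤ N := by
    rintro _ ⟨n, hn, rfl⟩ g hg
    have h1 : n⁻¹ * g * n ∈ centralizer ({t₀} : Set G) := by
      rw [mem_centralizer_singleton_iff, ← mul_right_inj n, ← mul_left_inj n⁻¹]
      have := mem_centralizer_singleton_iff.1 hg
      calc n * (n⁻¹ * g * n * t₀) * n⁻¹ = g * (n * t₀ * n⁻¹) := by group
        _ = n * t₀ * n⁻¹ * g := this
        _ = _ := by group
    have := mul_mem (mul_mem hn (hCt₀ h1)) (inv_mem hn)
    rwa [show n * (n⁻¹ * g * n) * n⁻¹ = g by group] at this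
  have hC7 : ∀ x ∈ T, ¬ 49 ∣ Nat.card (centralizer ({x} : Set G)) := by
    intro x hx h
    have h1 := (h.trans (Subgroup.card_dvd_of_le (hCtN x hx)))
    rw [hNcard] at h1
    norm_num at h1
  have hdec : ∀ n ∈ N, n * s * n⁻¹ ∈ K → ∃ k ∈ K, ∃ v ∈ F, k * v = n ∧ k * s * k⁻¹ = n * s * n⁻¹ := by
    intro n hn hns
    obtain ⟨k, hk, v, hv, rfl⟩ := decomp hKN hsup hn
    have h1 : v * s * v⁻¹ ∈ K := by
      have := mul_mem (mul_mem (inv_mem hk) hns) hk
      rwa [show k⁻¹ * (k * v * s * (k * v)⁻¹) * k = v * s * v⁻¹ by group] at this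
    have h2 : v * s * v⁻¹ * s⁻¹ ∈ K ⊓ V := by
      refine Subgroup.mem_inf.2 ⟨mul_mem h1 (inv_mem hsK), ?_⟩
      rw [show v * s * v⁻¹ * s⁻¹ = v * (s * v⁻¹ * s⁻¹) by group]
      exact mul_mem hv (hNmem s hsN _ (inv_mem hv))
    rw [hKV, Subgroup.mem_bot] at h2
    have hc : v * s = s * v := by
      have := mul_inv_eq_one.1 h2
      exact mul_inv_eq_iff_eq_mul.1 this
    refine ⟨k, hk, v, ⟨hv, mem_centralizer_singleton_iff.2 hc⟩, rfl, ?_⟩
    rw [show k * v * s * (k * v)⁻¹ = k * (v * s * v⁻¹) * k⁻¹ by group, mul_inv_eq_iff_eq_mul.2 hc]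
  have hnormK : ∀ {n k : G}, n ∈ normalizer (zpowers s : Set G) → k ∈ K → k * s * k⁻¹ = n * s * n⁻¹ →
      k ∈ NK := by
    intro n k hn hk he
    refine ⟨Subgroup.mem_normalizer_iff_map_conj_eq.2 ?_, hk⟩
    conv_rhs => rw [← Subgroup.mem_normalizer_iff_map_conj_eq.1 hn]
    rw [MonoidHom.map_zpowers, MonoidHom.map_zpowers]
    exact congrArg zpowers he
  -- transitivity of the normalizer
  have htrans : (F : Set G) \ {1} = orb NK t := by
    refine Set.Subset.antisymm ?_ ?_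
    · intro w hw
      have hwT : w ∈ T := (hFT ▸ hw).1
      obtain ⟨n1, hn1, he1⟩ := htT
      obtain ⟨n2, hn2, he2⟩ := hwT
      set n := n2 * n1⁻¹ with hn
      have hnN : n ∈ N := mul_mem hn2 (inv_mem hn1)
      have hnt : n * t * n⁻¹ = w := by rw [hn, ← he1, ← he2]; group
      have hsw : Commute s w := (mem_centralizer_singleton_iff.1 hw.1.2).symm
      have hns : n * s * n⁻¹ ∈ centralizer ({w} : Set G) := by
        rw [mem_centralizer_singleton_iff, ← hnt]
        calc n * s * n⁻¹ * (n * t * n⁻¹) = n * (s * t) * n⁻¹ := by group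
          _ = n * (t * s) * n⁻¹ := by rw [hst.eq]
          _ = _ := by group
      have hns7 : orderOf (n * s * n⁻¹) = 7 := by
        rw [show n * s * n⁻¹ = (MulAut.conj n).toMonoidHom s from rfl,
          orderOf_injective (MulAut.conj n).toMonoidHom (MulAut.conj n).injective, hs]
      have hwmem : w ∈ T := ⟨n2, hn2, he2⟩
      obtain ⟨c, hc, hcs, hcmap⟩ := conj_zpowers_of_not_dvd (hC7 w hwmem) hns
        (mem_centralizer_singleton_iff.2 hsw.eq) hns7 hs
      have hcn : c * n ∈ N := mul_mem (hCtN w hwmem hc) hnN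
      have hcnorm : c * n ∈ normalizer (zpowers s : Set G) := by
        rw [Subgroup.mem_normalizer_iff_map_conj_eq, MonoidHom.map_zpowers]
        rw [MonoidHom.map_zpowers] at hcmap
        conv_rhs => rw [← hcmap]
        congr 1
        simp [mul_assoc]
      have hcnK : c * n * s * (c * n)⁻¹ ∈ K := by
        refine hsK' ?_
        rw [show c * n * s * (c * n)⁻¹ = c * (n * s * n⁻¹) * c⁻¹ by group]
        exact hcs
      obtain ⟨k, hk, v, hv, hkv, hks⟩ := hdec _ hcn hcnK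
      refine ⟨k, hnormK hcnorm hk hks, ?_⟩
      have hvt : v * t * v⁻¹ = t := mul_inv_eq_iff_eq_mul.2 (hFcomm v hv t htF)
      have hcw : c * w * c⁻¹ = w := mul_inv_eq_iff_eq_mul.2 (mem_centralizer_singleton_iff.1 hc)
      calc k * t * k⁻¹ = k * (v * t * v⁻¹) * k⁻¹ := by rw [hvt]
        _ = (k * v) * t * (k * v)⁻¹ := by group
        _ = c * (n * t * n⁻¹) * c⁻¹ := by rw [hkv]; group
        _ = w := by rw [hnt, hcw]
    · rintro _ ⟨k, hk, rfl⟩
      refine ⟨⟨hNmem k (hKN hk.2) t htF.1, ?_⟩, fun h => htF'.2 (conj_eq_one_iff.1 h)⟩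
      refine (centralizer_zpowers_eq s).le (Subgroup.mem_centralizer_iff.2 ?_)
      intro y hy
      have hy' := (Subgroup.mem_normalizer_iff''.1 hk.1 y).1 hy
      have hc : Commute (k⁻¹ * y * k) t := by
        obtain ⟨i, hi⟩ := Subgroup.mem_zpowers_iff.1 hy'
        rw [← hi]
        exact hst.zpow_left i
      calc y * (k * t * k⁻¹) = k * ((k⁻¹ * y * k) * t) * k⁻¹ := by group
        _ = k * (t * (k⁻¹ * y * k)) * k⁻¹ := by rw [hc.eq]
        _ = _ := by group
  have ha2 : a = 2 := by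
    have hd : 2 ^ a - 1 ∣ 126 := ⟨Nat.card ↥(NK ⊓ centralizer ({t} : Set G)), by
      rw [← hFcard1, htrans, orb_card, hNKc]⟩
    have ha : a < 8 := by
      by_contra ha
      have h1 := Nat.le_of_dvd (by norm_num) hd
      have h2 := Nat.pow_le_pow_right (show 1 ≤ 2 by norm_num) (show 8 ≤ a by omega)
      omega
    interval_cases a <;> first | rfl | exact absurd hmod (by decide) | exact absurd hd (by decide)
  have hF4 : Nat.card F = 4 := by rw [hFa, ha2]; norm_num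
  have hF3 : ((F : Set G) \ {1}).ncard = 3 := by rw [hFcard1, ha2]; norm_num
  -- the element of order three permutes the three involutions
  have hps : p ∈ CK := ⟨mem_centralizer_singleton_iff.2 hsp.symm.eq, hpK⟩
  have hCKsub : orb CK t ⊆ (F : Set G) \ {1} := by
    rw [htrans]
    rintro _ ⟨k, hk, rfl⟩
    exact ⟨k, ⟨(centralizer_zpowers_eq s ▸ Subgroup.centralizer_le_normalizer (zpowers s : Set G)) hk.1,
      hk.2⟩, rfl⟩
  have hpt : ¬ Commute p t := fun h => hTnc t htT (by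
    rw [hLu t ⟨mem_centralizer_singleton_iff.2 hst.symm.eq, mem_centralizer_singleton_iff.2 h.symm.eq⟩ ht2])
  have hCKorb : orb CK t = (F : Set G) \ {1} := by
    refine Set.eq_of_subset_of_ncard_le hCKsub ?_ (Set.toFinite _)
    rw [hF3]
    have h3 : p ^ 3 = 1 := hp ▸ pow_orderOf_eq_one p
    set t1 := p * t * p⁻¹ with ht1
    set t2 := p * t1 * p⁻¹ with ht2'
    have h01 : t ≠ t1 := fun h => hpt (mul_inv_eq_iff_eq_mul.1 h.symm)
    have h12 : t1 ≠ t2 := fun h => h01 (by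
      apply (MulAut.conj p).injective
      exact h)
    have h20 : t2 ≠ t := fun h => h01 (by
      have : p * t2 * p⁻¹ = t := by
        rw [ht2', ht1, show p * (p * (p * t * p⁻¹) * p⁻¹) * p⁻¹ = p ^ 3 * t * (p ^ 3)⁻¹ by
          simp [pow_succ, mul_assoc], h3]
        group
      rw [h] at this
      exact this.symm)
    have hsub : ({t, t1, t2} : Set G) ⊆ orb CK t := by
      rintro y (rfl | rfl | rfl)
      · exact ⟨1, one_mem _, by group⟩
      · exact ⟨p, hps, rfl⟩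
      · exact ⟨p * p, mul_mem hps hps, by rw [ht2', ht1]; group⟩
    refine le_trans (le_of_eq ?_) (Set.ncard_le_ncard hsub (Set.toFinite _))
    rw [Set.ncard_insert_of_notMem (by simp [h01, h20.symm]), Set.ncard_pair h12]
  have hCKt : Nat.card ↥(CK ⊓ centralizer ({t} : Set G)) = 14 := by
    have h := orb_card CK t
    rw [hCKorb, hF3, hCKc] at h
    omega
  have hsplit : Nat.card ↥(centralizer ({s} : Set G) ⊓ centralizer ({t} : Set G)) = 14 * 4 := by
    rw [card_pairs (A := CK ⊓ centralizer ({t} : Set G)) (B := F), hCKt, hF4]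
    · exact le_inf (inf_le_left.trans inf_le_left) inf_le_right
    · exact le_inf inf_le_right fun v hv => mem_centralizer_singleton_iff.2 (hFcomm v hv t htF)
    · rw [eq_bot_iff]
      rintro x ⟨hx1, hx2⟩
      have : x ∈ K ⊓ V := ⟨hx1.1.2, hx2.1⟩
      rwa [hKV] at this
    · rintro m ⟨hms, hmt⟩
      have hmN : m ∈ N := hCtN t htT hmt
      have hm : m * s * m⁻¹ = s := mul_inv_eq_iff_eq_mul.2 (mem_centralizer_singleton_iff.1 hms)
      obtain ⟨k, hk, v, hv, hkv, hks⟩ := hdec m hmN (hm.symm ▸ hsK)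
      rw [hm] at hks
      refine ⟨k, Subgroup.mem_inf.2 ⟨Subgroup.mem_inf.2 ⟨mem_centralizer_singleton_iff.2 (mul_inv_eq_iff_eq_mul.1 hks), hk⟩, ?_⟩, v, hv, hkv⟩
      have hvt : v ∈ centralizer ({t} : Set G) := mem_centralizer_singleton_iff.2 (hFcomm v hv t htF)
      have := (centralizer ({t} : Set G)).mul_mem hmt (inv_mem hvt)
      rwa [← hkv, mul_inv_cancel_right] at this
  refine ⟨hNKc, hCKc, hF4, t, htF.1, ht2, hst, hTnc t htT, hsplit, fun w hw hw1 => ?_, ?_, ?_⟩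
  · obtain ⟨k, hk, he⟩ := (hCKorb.ge ⟨hw, hw1⟩ : w ∈ orb CK t)
    exact ⟨k, mem_centralizer_singleton_iff.1 hk.1, he⟩
  · obtain ⟨u', hu'⟩ := exists_prime_orderOf_dvd_card' (G := ↥(CK ⊓ centralizer ({t} : Set G))) 2
      (by rw [hCKt]; norm_num)
    obtain ⟨u, ⟨⟨hus', huK⟩, hut'⟩⟩ := u'
    rw [← Subgroup.orderOf_coe] at hu'
    simp only at hu'
    have hus : Commute u s := mem_centralizer_singleton_iff.1 hus'
    refine ⟨u, hus, mem_centralizer_singleton_iff.1 hut', hu', ?_⟩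
    by_contra hall
    push Not at hall
    have hsu : orderOf (s * u) = 14 := by
      rw [hus.symm.orderOf_mul_eq_mul_orderOf_of_coprime (by rw [hs, hu']; norm_num), hs, hu']
    have hA : CK ⊓ centralizer ({t} : Set G) = zpowers (s * u) :=
      eq_zpowers hCKt (mul_mem ⟨⟨mem_centralizer_singleton_iff.2 rfl, hsK⟩,
        mem_centralizer_singleton_iff.2 hst.eq⟩ ⟨⟨hus', huK⟩, hut'⟩) hsu
    set q := p * u * p⁻¹ with hq
    have hqt : Commute q t := by
      have hw : p⁻¹ * t * p ∈ F := by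
        have := hCKsub (⟨p⁻¹, inv_mem hps, by rw [inv_inv]⟩ : p⁻¹ * t * p ∈ orb CK t)
        exact this.1
      have := hall _ hw
      calc q * t = p * (u * (p⁻¹ * t * p)) * p⁻¹ := by rw [hq]; group
        _ = p * ((p⁻¹ * t * p) * u) * p⁻¹ := by rw [this]
        _ = t * q := by rw [hq]; group
    have hqA : q ∈ zpowers (s * u) :=
      hA ▸ Subgroup.mem_inf.2 ⟨mul_mem (mul_mem hps (Subgroup.mem_inf.2 ⟨hus', huK⟩)) (inv_mem hps), mem_centralizer_singleton_iff.2 hqt.eq⟩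
    have hq7 : q ^ 7 = q := by
      rw [hq, conj_pow, show (7 : ℕ) = 2 * 3 + 1 from rfl, pow_succ, pow_mul, ← hu', pow_orderOf_eq_one,
        one_pow, one_mul]
    have hqu : q = u := by
      obtain ⟨i, hi⟩ := Subgroup.mem_zpowers_iff.1 hqA
      have h1 : q = u ^ (i * 7) := by
        rw [← hq7, ← hi, ← zpow_natCast, ← zpow_mul, hus.symm.mul_zpow,
          show s ^ (i * ((7 : ℕ) : ℤ)) = 1 by
            rw [mul_comm, zpow_mul, zpow_natCast, ← hs, pow_orderOf_eq_one, one_zpow], one_mul]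
        norm_num
      rw [← zpow_mod_orderOf, hu'] at h1
      rcases Int.emod_two_eq (i * 7) with h | h <;> simp only [Nat.cast_ofNat] at h1 <;> rw [h] at h1
      · rw [zpow_zero] at h1
        have hu1 : u = 1 := conj_eq_one_iff.1 (hq ▸ h1)
        rw [hu1, orderOf_one] at hu'
        omega
      · rwa [zpow_one] at h1
    have hup : u = z := hLu u ⟨hus', mem_centralizer_singleton_iff.2
      (mul_inv_eq_iff_eq_mul.1 hqu).symm⟩ hu'
    rw [hup] at hall huK
    let f : ↥F × ↥(zpowers z) →* G := MonoidHom.noncommCoprod F.subtype (zpowers z).subtype fun x y => by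
      obtain ⟨y, hy⟩ := y
      obtain ⟨i, rfl⟩ := Subgroup.mem_zpowers_iff.1 hy
      exact ((show Commute z (x : G) from hall x x.2).zpow_left i).symm
    have hinj : Function.Injective f := by
      rw [injective_iff_map_eq_one]
      rintro ⟨x, y⟩ he
      have he' : (x : G) * y = 1 := he
      have hxK : (x : G) ∈ K ⊓ V := Subgroup.mem_inf.2 ⟨by
        rw [eq_inv_of_mul_eq_one_left he']
        exact inv_mem (Subgroup.zpowers_le.2 huK y.2), x.2.1⟩
      rw [hKV, Subgroup.mem_bot] at hxK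
      refine Prod.ext (Subtype.ext hxK) (Subtype.ext ?_)
      rw [hxK, one_mul] at he'
      exact he'
    have h8 : Nat.card f.range = 8 := by
      rw [← Nat.card_congr (MonoidHom.ofInjective hinj).toEquiv, Nat.card_prod, hF4, Nat.card_zpowers, hz]
    have hle : f.range ≤ centralizer ({s} : Set G) ⊓ centralizer ({z} : Set G) := by
      rintro _ ⟨⟨x, y⟩, rfl⟩
      show (x : G) * y ∈ _
      refine mul_mem ⟨x.2.2, mem_centralizer_singleton_iff.2 (hall x x.2).symm⟩ ⟨?_, ?_⟩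
      · exact Subgroup.zpowers_le.2 (mem_centralizer_singleton_iff.2 hsz.symm.eq) y.2
      · exact Subgroup.zpowers_le.2 (mem_centralizer_singleton_iff.2 rfl) y.2
    have := (h8 ▸ Subgroup.card_dvd_of_le hle).trans hB
    norm_num at this
  · intro n hn hnt
    have hnN : n ∈ N := hCtN t htT (mem_centralizer_singleton_iff.2 hnt.eq)
    have hnK : n * s * n⁻¹ ∈ K := hsK' ((Subgroup.mem_normalizer_iff.1 hn s).1 (Subgroup.mem_zpowers s))
    obtain ⟨k, hk, v, hv, hkv, hks⟩ := hdec n hnN hnK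
    exact ⟨k, hnormK hn hk hks, v, mem_centralizer_singleton_iff.1 hv.2, hkv⟩

end Cfsg.Agent.JFourType.Seven
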