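import Cfsg.Agent.LargeFischer.MatCode
import Cfsg.Agent.M24.Classes

/-!
Elementary facts used for the centralizer of an involution in a group of Janko-four type: elementary
abelian subgroups of `M24` fixing a point, and products of two of 24 marked elements.
-/

set_option autoImplicit false

namespace Cfsg.Agent.JFourType.TCent

open Cfsg Finset symmDiff
open Cfsg.Agent.LargeFischer (MatCode.Config)
open Cfsg.Agent.Golay Cfsg.Agent.M24

/-- An involution of `M24` with a fixed point fixes eight points. -/
theorem card_fix_eight {g : Equiv.Perm GolayPt} (hg : g ∈ Cfsg.M24) (h2 : g * g = 1) (h1 : g ≠ 1)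
    {p : GolayPt} (hp : g p = p) : (Finset.univ.filter fun q => g q = q).card = 8 := by
  haveI : Fact (Nat.Prime 2) := ⟨Nat.prime_two⟩
  have ho : orderOf g = 2 := orderOf_eq_prime (by rw [pow_two, h2]) h1
  obtain ⟨h, -, e | e⟩ := order_two_cases hg ho
  · rw [e, fix_conj, fixCount_eq (reps_good _ (by simp)), rep_fix.2.2.1]
  · exfalso
    have h0 : (Finset.univ.filter fun q => g q = q).card = 0 := by
      rw [e, fix_conj, fixCount_eq (reps_good _ (by simp)), rep_fix.2.2.2]
    exact Finset.card_ne_zero_of_mem (a := p) (by simpa using hp) h0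

/-- An elementary abelian subgroup of `M24` fixing a point has order at most sixteen. -/
theorem card_le_sixteen {E : Subgroup (Equiv.Perm GolayPt)} (hE : E ≤ Cfsg.M24)
    (hsq : ∀ g ∈ E, g * g = 1) {p : GolayPt} (hp : ∀ g ∈ E, g p = p) : Nat.card E ≤ 16 := by
  classical
  haveI : Fintype E := Fintype.ofFinite _
  have h := MulAction.sum_card_fixedBy_eq_card_orbits_mul_card_group E GolayPt
  have hfix : ∀ g : E, Fintype.card (MulAction.fixedBy GolayPt g) = if g = 1 then 24 else 8 := by
    intro g
    rw [Fintype.card_subtype]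
    split_ifs with hg
    · subst hg
      simp [MulAction.mem_fixedBy]
    · exact card_fix_eight (hE g.2) (hsq g g.2) (fun e => hg (Subtype.ext e)) (hp g g.2)
  simp only [hfix] at h
  rw [Finset.sum_ite, Finset.sum_const, Finset.sum_const, smul_eq_mul, smul_eq_mul,
    Finset.filter_eq', if_pos (Finset.mem_univ _), Finset.card_singleton,
    Finset.filter_ne', Finset.card_erase_of_mem (Finset.mem_univ _), Finset.card_univ] at h
  rw [Nat.card_eq_fintype_card]
  have hd : Fintype.card E ∣ 16 := by
    have h1 : Fintype.card E ∣ 8 * Fintype.card E + 16 := by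
      refine ⟨Fintype.card (Quotient (MulAction.orbitRel E GolayPt)), ?_⟩
      rw [mul_comm (Fintype.card E), ← h]
      have := Fintype.card_pos (α := E)
      omega
    exact (Nat.dvd_add_right (dvd_mul_left _ 8)).1 h1
  exact Nat.le_of_dvd (by norm_num) hd

/-- An elementary abelian subgroup of `M24` stabilising a pair has order at most thirty-two. -/
theorem card_le_thirty_two {E : Subgroup (Equiv.Perm GolayPt)} (hE : E ≤ Cfsg.M24)
    (hsq : ∀ g ∈ E, g * g = 1) {p q : GolayPt} (hp : ∀ g ∈ E, g p = p ∨ g p = q) : Nat.card E ≤ 32 := by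
  classical
  by_cases hall : ∀ g ∈ E, g p = p
  · exact (card_le_sixteen hE hsq hall).trans (by norm_num)
  push Not at hall
  obtain ⟨s, hs, hsp⟩ := hall
  set E0 := E ⊓ MulAction.stabilizer (Equiv.Perm GolayPt) p with hE0
  have h0 : Nat.card E0 ≤ 16 := card_le_sixteen (inf_le_left.trans hE) (fun g hg => hsq g hg.1)
    (p := p) fun g hg => hg.2
  have hsub : (E : Set (Equiv.Perm GolayPt)) ⊆ (E0 : Set (Equiv.Perm GolayPt)) ∪
      (fun g => s * g) '' (E0 : Set (Equiv.Perm GolayPt)) := by
    intro g hg
    rcases hp g hg with e | e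
    · exact Or.inl ⟨hg, e⟩
    · refine Or.inr ⟨s⁻¹ * g, ⟨Subgroup.mul_mem _ (Subgroup.inv_mem _ hs) hg, ?_⟩, mul_inv_cancel_left _ _⟩
      show (s⁻¹ * g) p = p
      rw [Equiv.Perm.mul_apply, e, Equiv.Perm.inv_eq_iff_eq]
      exact ((hp s hs).resolve_left hsp).symm
  have h := (Set.ncard_le_ncard hsub (Set.toFinite _)).trans (Set.ncard_union_le _ _)
  rw [Set.ncard_image_of_injective _ (mul_right_injective s), ← Nat.card_coe_set_eq,
    ← Nat.card_coe_set_eq] at h
  change Nat.card E ≤ Nat.card E0 + Nat.card E0 at h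
  exact h.trans (by omega)

variable {V : Type*} [CommGroup V] (D : Cfsg.Agent.LargeFischer.MatCode.Config V)

/-- A pair, as a set. -/
theorem pair_set {v : V} (h : v ∈ D.pairs) :
    ∃ S : Finset (Fin 24), S.card = 2 ∧ D.prod S = v := by
  obtain ⟨a, b, hab, rfl⟩ := h
  exact ⟨{a, b}, Finset.card_pair hab, D.prod_pair hab⟩

theorem prod_injOn {S T : Finset (Fin 24)} (hS : Even S.card) (hT : Even T.card)
    (hle : (S ∆ T).card ≤ 6) (h : D.prod S = D.prod T) : S = T := by
  by_contra hne
  refine D.small (S ∆ T) ?_ ?_ hle ?_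
  · rw [Finset.nonempty_iff_ne_empty]
    exact fun e => hne (symmDiff_eq_bot.1 e)
  · have := card_symmDiff_add S T
    obtain ⟨a, ha⟩ := hS
    obtain ⟨b, hb⟩ := hT
    exact ⟨a + b - (S ∩ T).card, by omega⟩
  · show D.prod _ = 1
    rw [D.prod_symmDiff, h, D.sq]

theorem card_symmDiff_le (S T : Finset (Fin 24)) : (S ∆ T).card ≤ S.card + T.card := by
  have := card_symmDiff_add S T
  omega

/-- A subgroup whose non-trivial elements are pairs has order at most four. -/
theorem sub_pairs_le {C : Subgroup V} (hC : ∀ v ∈ C, v ≠ 1 → v ∈ D.pairs) : Nat.card C ≤ 4 := by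
  classical
  by_cases hall : ∀ v ∈ C, v = 1
  · have : C = ⊥ := (Subgroup.eq_bot_iff_forall _).2 hall
    rw [this, Subgroup.card_bot]
    norm_num
  push Not at hall
  obtain ⟨t, ht, ht1⟩ := hall
  by_cases hall2 : ∀ v ∈ C, v = 1 ∨ v = t
  · refine le_trans ?_ (show (2 : ℕ) ≤ 4 by norm_num)
    rw [show Nat.card C = (C : Set V).ncard from Nat.card_coe_set_eq _]
    refine (Set.ncard_le_ncard (t := {1, t}) ?_ (Set.toFinite _)).trans (Set.ncard_pair ht1.symm).le
    intro v hv
    simpa using hall2 v hv
  push Not at hall2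
  obtain ⟨d, hd, hd1, hdt⟩ := hall2
  have htd : t * d ≠ 1 := fun e => hdt (by
    calc d = t * t * d := by rw [D.sq, one_mul]
      _ = t := by rw [mul_assoc, e, mul_one])
  obtain ⟨A, hA, hAe⟩ := pair_set D (hC t ht ht1)
  obtain ⟨B, hB, hBe⟩ := pair_set D (hC d hd hd1)
  obtain ⟨U, hU, hUe⟩ := pair_set D (hC _ (mul_mem ht hd) htd)
  have hAB : A ∆ B = U := prod_injOn D (by
      have := card_symmDiff_add A B
      exact ⟨2 - (A ∩ B).card, by omega⟩) ⟨1, hU⟩
    ((card_symmDiff_le _ _).trans (by have := card_symmDiff_le A B; omega))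
    (by rw [D.prod_symmDiff, hAe, hBe, hUe])
  have hAB1 : (A ∩ B).card = 1 := by
    have := card_symmDiff_add A B
    rw [hAB, hU, hA, hB] at this
    omega
  rw [show Nat.card C = (C : Set V).ncard from Nat.card_coe_set_eq _]
  refine (Set.ncard_le_ncard (t := {1, t, d, t * d}) ?_ (Set.toFinite _)).trans ?_
  · intro v hv
    simp only [Set.mem_insert_iff, Set.mem_singleton_iff]
    by_contra hne
    push Not at hne
    obtain ⟨hv1, hvt, hvd, hvtd⟩ := hne
    obtain ⟨W, hW, hWe⟩ := pair_set D (hC v hv hv1)
    have key : ∀ {w : V} {E : Finset (Fin 24)}, w ∈ C → E.card = 2 → D.prod E = w → v ≠ w →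
        1 ≤ (W ∩ E).card ∧ W ≠ E := by
      intro w E hw hE hEe hne
      have h1 : v * w ≠ 1 := fun e => hne (by
        calc v = v * (w * w) := by rw [D.sq, mul_one]
          _ = w := by rw [← mul_assoc, e, one_mul])
      obtain ⟨R, hR, hRe⟩ := pair_set D (hC _ (mul_mem hv hw) h1)
      have hWE : W ∆ E = R := prod_injOn D (by
          have := card_symmDiff_add W E
          exact ⟨2 - (W ∩ E).card, by omega⟩) ⟨1, hR⟩
        ((card_symmDiff_le _ _).trans (by have := card_symmDiff_le W E; omega))
        (by rw [D.prod_symmDiff, hWe, hEe, hRe])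
      have := card_symmDiff_add W E
      rw [hWE, hR, hW, hE] at this
      exact ⟨by omega, fun e => hne (by rw [← hWe, ← hEe, e])⟩
    obtain ⟨k1, n1⟩ := key ht hA hAe hvt
    obtain ⟨k2, n2⟩ := key hd hB hBe hvd
    obtain ⟨k3, n3⟩ := key (mul_mem ht hd) hU hUe hvtd
    obtain ⟨a, ha⟩ := Finset.card_eq_one.1 hAB1
    obtain ⟨b, hb⟩ : ∃ b, A \ B = {b} := Finset.card_eq_one.1 (by
      have := Finset.card_sdiff_add_card_inter A B; omega)
    obtain ⟨c, hc⟩ : ∃ c, B \ A = {c} := Finset.card_eq_one.1 (by
      have := Finset.card_sdiff_add_card_inter B A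
      rw [Finset.inter_comm] at this; omega)
    have hab : a ≠ b := fun e => by
      have h1 : a ∈ A ∩ B := by rw [ha]; exact Finset.mem_singleton_self _
      have h2 : b ∈ A \ B := by rw [hb]; exact Finset.mem_singleton_self _
      rw [← e, Finset.mem_sdiff] at h2
      exact h2.2 (Finset.mem_inter.1 h1).2
    have hac : a ≠ c := fun e => by
      have h1 : a ∈ A ∩ B := by rw [ha]; exact Finset.mem_singleton_self _
      have h2 : c ∈ B \ A := by rw [hc]; exact Finset.mem_singleton_self _
      rw [← e, Finset.mem_sdiff] at h2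
      exact h2.2 (Finset.mem_inter.1 h1).1
    have hA' : A = {a, b} := by
      rw [← Finset.sdiff_union_inter A B, ha, hb, Finset.union_comm]; rfl
    have hB' : B = {a, c} := by
      rw [← Finset.sdiff_union_inter B A, Finset.inter_comm, ha, hc, Finset.union_comm]; rfl
    have hU' : U = {b, c} := by rw [← hAB, symmDiff_def, hb, hc]; rfl
    obtain ⟨w1, hw1⟩ := Finset.card_pos.1 (k1 : 0 < (W ∩ A).card)
    obtain ⟨w2, hw2⟩ := Finset.card_pos.1 (k2 : 0 < (W ∩ B).card)
    obtain ⟨w3, hw3⟩ := Finset.card_pos.1 (k3 : 0 < (W ∩ U).card)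
    simp only [hA', hB', hU', Finset.mem_inter, Finset.mem_insert, Finset.mem_singleton] at hw1 hw2 hw3
    have two : ∀ x y : Fin 24, x ≠ y → x ∈ W → y ∈ W → W = {x, y} := fun x y hxy hx hy =>
      (Finset.eq_of_subset_of_card_le (Finset.insert_subset hx (Finset.singleton_subset_iff.2 hy))
        (by rw [Finset.card_pair hxy, hW])).symm
    by_cases haW : a ∈ W
    · rcases hw3 with ⟨h3, rfl | rfl⟩
      · exact n1 (by rw [hA']; exact two _ _ hab haW h3)
      · exact n2 (by rw [hB']; exact two _ _ hac haW h3)
    · have hbW : b ∈ W := by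
        rcases hw1 with ⟨h1, rfl | rfl⟩
        · exact absurd h1 haW
        · exact h1
      have hcW : c ∈ W := by
        rcases hw2 with ⟨h2, rfl | rfl⟩
        · exact absurd h2 haW
        · exact h2
      have hbc : b ≠ c := fun e => by
        have h1 : b ∈ A \ B := by rw [hb]; exact Finset.mem_singleton_self _
        rw [Finset.mem_sdiff, hB'] at h1
        exact h1.2 (by rw [e]; simp)
      exact n3 (by rw [hU']; exact two _ _ hbc hbW hcW)
  · refine (Set.ncard_insert_le _ _).trans (Nat.succ_le_succ ?_)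
    refine (Set.ncard_insert_le _ _).trans (Nat.succ_le_succ ?_)
    exact (Set.ncard_insert_le _ _).trans (Nat.succ_le_succ (Set.ncard_singleton _).le)

/-- A subgroup containing every pair stabilised by an involution with eight fixed points has order
more than sixty-four. -/
theorem fixed_pairs_card [Finite V] {σ : Equiv.Perm (Fin 24)} (h2 : ∀ i, σ (σ i) = i)
    (h8 : (Finset.univ.filter fun i => σ i = i).card = 8) {C : Subgroup V}
    (hC : ∀ a b, a ≠ b → (σ a = a ∧ σ b = b ∨ σ a = b) → D.f a * D.f b ∈ C) :
    64 < Nat.card C := by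
  classical
  obtain ⟨i0, hi0⟩ := Finset.card_pos.1 (by omega : 0 < (Finset.univ.filter fun i => σ i = i).card)
  rw [Finset.mem_filter] at hi0
  set A := (Finset.univ.filter fun i => σ i = i ∧ i ≠ i0) with hA
  set B := (Finset.univ.filter fun i => i < σ i) with hB
  have hAc : A.card = 7 := by
    rw [hA, ← Finset.filter_filter, Finset.filter_ne', Finset.card_erase_of_mem (by simpa using hi0.2), h8]
  have hBc : B.card = 8 := by
    set B' := (Finset.univ.filter fun i => σ i < i) with hB'
    have e : B.card = B'.card := Finset.card_nbij' σ σ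
      (fun i hi => by simp only [hB, hB', Finset.coe_filter, Finset.mem_univ, true_and, Set.mem_ofPred_eq, h2] at hi ⊢; exact hi)
      (fun i hi => by simp only [hB, hB', Finset.coe_filter, Finset.mem_univ, true_and, Set.mem_ofPred_eq, h2] at hi ⊢; exact hi)
      (fun i _ => h2 i) (fun i _ => h2 i)
    have hdis : Disjoint B B' := by
      rw [hB, hB', Finset.disjoint_filter]
      exact fun i _ h h' => lt_asymm h h'
    have hu : B ∪ B' = Finset.univ.filter fun i => ¬ σ i = i := by
      ext i
      simp only [hB, hB', Finset.mem_union, Finset.mem_filter, Finset.mem_univ, true_and]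
      exact ⟨fun h e' => by rcases h with h | h <;> simp [e'] at h, fun h => (lt_or_gt_of_ne h).symm⟩
    have h16 := Finset.card_filter_add_card_filter_not (s := (Finset.univ : Finset (Fin 24))) (fun i => σ i = i)
    rw [h8, ← hu, Finset.card_union_of_disjoint hdis, Finset.card_univ, Fintype.card_fin] at h16
    omega
  let SA : Option A → Finset (Fin 24) := fun o => o.elim ∅ fun j => {i0, (j : Fin 24)}
  let SB : Option B → Finset (Fin 24) := fun o => o.elim ∅ fun k => {(k : Fin 24), σ k}
  let S : Option A × Option B → Finset (Fin 24) := fun x => SA x.1 ∪ SB x.2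
  have hSA : ∀ o i, i ∈ SA o → σ i = i := by
    rintro (_ | j) i hi
    · simp [SA] at hi
    · simp only [SA, Option.elim, Finset.mem_insert, Finset.mem_singleton] at hi
      rcases hi with rfl | rfl
      · exact hi0.2
      · exact (Finset.mem_filter.1 j.2).2.1
  have hSB : ∀ o i, i ∈ SB o → σ i ≠ i := by
    rintro (_ | k) i hi e
    · simp [SB] at hi
    · have hk : (k : Fin 24) < σ k := (Finset.mem_filter.1 k.2).2
      simp only [SB, Option.elim, Finset.mem_insert, Finset.mem_singleton] at hi
      rcases hi with rfl | rfl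
      · rw [e] at hk; exact lt_irrefl _ hk
      · rw [h2] at e; exact hk.ne e
  have hdisj : ∀ x : Option A × Option B, Disjoint (SA x.1) (SB x.2) := fun x =>
    Finset.disjoint_left.2 fun i hi hi' => hSB _ _ hi' (hSA _ _ hi)
  have cA : ∀ o, (SA o).card = if o = none then 0 else 2 := by
    rintro (_ | j)
    · simp [SA]
    · simp [SA, Finset.card_pair (Ne.symm (Finset.mem_filter.1 j.2).2.2)]
  have cB : ∀ o, (SB o).card = if o = none then 0 else 2 := by
    rintro (_ | k)
    · simp [SB]
    · simp [SB, Finset.card_pair (Finset.mem_filter.1 k.2).2.ne]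
  have hScard : ∀ x, (S x).card = (SA x.1).card + (SB x.2).card := fun x =>
    Finset.card_union_of_disjoint (hdisj x)
  have hSinj : Function.Injective S := by
    intro x y e
    have eA : SA x.1 = SA y.1 := by
      ext i
      have := congrArg (fun s : Finset (Fin 24) => i ∈ s) e
      simp only [S, Finset.mem_union, eq_iff_iff] at this
      exact ⟨fun h => (this.1 (Or.inl h)).resolve_right fun h' => hSB _ _ h' (hSA _ _ h),
        fun h => (this.2 (Or.inl h)).resolve_right fun h' => hSB _ _ h' (hSA _ _ h)⟩
    have eB : SB x.2 = SB y.2 := by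
      ext i
      have := congrArg (fun s : Finset (Fin 24) => i ∈ s) e
      simp only [S, Finset.mem_union, eq_iff_iff] at this
      exact ⟨fun h => (this.1 (Or.inr h)).resolve_left fun h' => hSB _ _ h (hSA _ _ h'),
        fun h => (this.2 (Or.inr h)).resolve_left fun h' => hSB _ _ h (hSA _ _ h')⟩
    obtain ⟨xa, xb⟩ := x
    obtain ⟨ya, yb⟩ := y
    refine Prod.ext ?_ ?_
    · rcases xa with _ | j <;> rcases ya with _ | j'
      · rfl
      · exact absurd (eA.symm : ({i0, (j' : Fin 24)} : Finset (Fin 24)) = ∅) (Finset.insert_ne_empty _ _)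
      · exact absurd (eA : ({i0, (j : Fin 24)} : Finset (Fin 24)) = ∅) (Finset.insert_ne_empty _ _)
      · have hj := (Finset.mem_filter.1 j.2).2.2
        have : (j : Fin 24) ∈ SA (some j') := eA ▸ (by simp [SA] : (j : Fin 24) ∈ SA (some j))
        simp only [SA, Option.elim, Finset.mem_insert, Finset.mem_singleton] at this
        exact congrArg some (Subtype.ext (this.resolve_left hj))
    · rcases xb with _ | k <;> rcases yb with _ | k'
      · rfl
      · exact absurd (eB.symm : ({(k' : Fin 24), σ k'} : Finset (Fin 24)) = ∅) (Finset.insert_ne_empty _ _)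
      · exact absurd (eB : ({(k : Fin 24), σ k} : Finset (Fin 24)) = ∅) (Finset.insert_ne_empty _ _)
      · have hk : (k : Fin 24) < σ k := (Finset.mem_filter.1 k.2).2
        have hk' : (k' : Fin 24) < σ k' := (Finset.mem_filter.1 k'.2).2
        have : (k : Fin 24) ∈ SB (some k') := eB ▸ (by simp [SB] : (k : Fin 24) ∈ SB (some k))
        simp only [SB, Option.elim, Finset.mem_insert, Finset.mem_singleton] at this
        refine congrArg some (Subtype.ext (this.resolve_right fun h' => ?_))
        rw [h', h2] at hk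
        exact lt_asymm hk hk'
  have hmem : ∀ x, D.prod (S x) ∈ C := by
    intro x
    have e : D.prod (S x) = D.prod (SA x.1) * D.prod (SB x.2) := Finset.prod_union (hdisj x)
    rw [e]
    refine mul_mem ?_ ?_
    · rcases x.1 with _ | j
      · simp [SA, Cfsg.Agent.LargeFischer.MatCode.Config.prod]
      · have hj := (Finset.mem_filter.1 j.2).2
        show D.prod {i0, (j : Fin 24)} ∈ C
        rw [D.prod_pair hj.2.symm]
        exact hC _ _ hj.2.symm (Or.inl ⟨hi0.2, hj.1⟩)
    · rcases x.2 with _ | k
      · simp [SB, Cfsg.Agent.LargeFischer.MatCode.Config.prod]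
      · have hk := (Finset.mem_filter.1 k.2).2.ne
        show D.prod {(k : Fin 24), σ k} ∈ C
        rw [D.prod_pair hk]
        exact hC _ _ hk (Or.inr rfl)
  have hi0A : ∀ o, o ≠ none → i0 ∈ SA o := by
    rintro (_ | j) h
    · exact absurd rfl h
    · simp [SA]
  have hinj : Function.Injective fun x => (⟨D.prod (S x), hmem x⟩ : C) := by
    intro x y e
    refine hSinj (prod_injOn D ?_ ?_ ?_ (congrArg Subtype.val e))
    · rw [hScard, cA, cB]; split_ifs <;> decide
    · rw [hScard, cA, cB]; split_ifs <;> decide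
    · have h := card_symmDiff_add (S x) (S y)
      have hx := hScard x
      have hy := hScard y
      rw [cA, cB] at hx hy
      by_cases h4 : x.1 ≠ none ∧ y.1 ≠ none
      · have h1 : 0 < (S x ∩ S y).card := Finset.card_pos.2 ⟨i0, Finset.mem_inter.2
          ⟨Finset.mem_union_left _ (hi0A _ h4.1), Finset.mem_union_left _ (hi0A _ h4.2)⟩⟩
        split_ifs at hx hy <;> omega
      · push Not at h4
        by_cases hxa : x.1 = none
        · rw [if_pos hxa] at hx
          split_ifs at hx hy <;> omega
        · rw [if_pos (h4 hxa)] at hy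
          split_ifs at hx hy <;> omega
  have h := Nat.card_le_card_of_injective _ hinj
  rw [Nat.card_eq_fintype_card (α := Option A × Option B), Fintype.card_prod, Fintype.card_option,
    Fintype.card_option, Fintype.card_coe, Fintype.card_coe, hAc, hBc] at h
  omega

end Cfsg.Agent.JFourType.TCent
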