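import Cfsg.Agent.JFourType.ThompsonModel
import Cfsg.Agent.JFourType.ThreeFacts
import Cfsg.Agent.JFourType.Mat.Orbits
import Cfsg.Agent.JFourType.TenData

/-!
The singular subspace of dimension six whose pointwise stabiliser has order 8: its orbit has 330 members,
its stabiliser has two orbits on its non-zero vectors and is transitive on the involutions fixing it.
-/

set_option autoImplicit false
set_option maxRecDepth 100000

namespace Cfsg.Agent.JFourType.Ten

open Cfsg.Agent.GFour25 Cfsg.Agent.CosetCert
open Cfsg.Agent.SporB.FischerU (Vec vecN enc vecN_enc enc_lt)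
open Cfsg.Agent.LargeFischer (IsSemi semiU)
open Cfsg.Agent.LargeFischer.Thompson
open Cfsg.Agent.TTClass
open Data TenData

/-- The bit of the quadratic form. -/
noncomputable def qb (v : ℕ) : Bool := Nat.beq (Nat.land (Nat.shiftRight qMask v) 1) 1

/-- Orthogonality to an isotropic code. -/
noncomputable def orth (v t : ℕ) : Bool := qb (Nat.xor v t) == qb v

/-- The form table. -/
noncomputable def qOK : Bool := allB (fun v => qb v == qN v) 12 0

/-- The subspace: basis, elements, orthogonality and self-orthogonality. -/
noncomputable def wOK : Bool :=
  Nat.beq wBas.length 6 && (wBas.all fun t => Nat.blt t 4096 && wCodes.contains t) &&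
  Nat.beq wCodes.length 64 && nodupB wCodes && wCodes.contains 0 &&
  (wCodes.all fun u => Nat.blt u 4096 && qb u && wBas.all fun t => wCodes.contains (Nat.xor u t)) &&
  (wCodes.all fun u => wCodes.all fun v => wCodes.contains (Nat.xor u v)) &&
  allB (fun v => !(wBas.all fun t => orth v t) || wCodes.contains v) 12 0

/-- The involutions fixing the subspace, in the Sylow subgroup, and their images. -/
noncomputable def sOK : Bool :=
  Nat.beq sList.length 7 && distinctB sList && Nat.beq sIdx.length 7 &&
  ((List.range 7).all fun i => Nat.blt (sIdx.getD i 256) 256 &&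
    (elemsP.getD (sIdx.getD i 256) [] == sList.getD i []) && !(sList.getD i [] == idL) &&
    (comp (sList.getD i []) (sList.getD i []) == idL) && (comp (sList.getD i []) omL == comp omL (sList.getD i []))) &&
  (sList.all fun a => sList.all fun b => (comp a b == idL) || sList.contains (comp a b)) &&
  (sList.all fun g => wBas.all fun t => Nat.beq (apL g t) t) &&
  (sList.all fun g => idL.all fun e => wCodes.contains (Nat.xor (apL g e) e)) &&
  ((List.range 7).all fun i => Nat.beq (imPre.getD i []).length 16 &&
    ((imPre.getD i []).all fun v => Nat.blt v 4096) &&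
    nodupB ((imPre.getD i []).map fun v => Nat.xor (apL (sList.getD i []) v) v))

/-- The elements of the Sylow subgroup fixing the subspace pointwise. -/
noncomputable def pointOK : Bool :=
  elemsP.all fun g => !(wBas.all fun t => Nat.beq (apL g t) t) || (g == idL) || sList.contains g

/-- The elements of the Sylow subgroup stabilising the subspace. -/
noncomputable def stabIdxOK : Bool :=
  Nat.beq stabIdx.length 128 && nodupB stabIdx &&
  stabIdx.all fun i => Nat.blt i 256 && wBas.all fun t => wCodes.contains (apL (elemsP.getD i []) t)

/-- The tree of the orbit. -/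
noncomputable def orbTreeOK : Bool :=
  Nat.beq orbT.length 330 && (orbT.getD 0 [] == wBas) &&
  (List.range 330).all fun i => (orbT.getD i []).all (fun t => Nat.blt t 4096) &&
    Nat.beq (orbT.getD i []).length 6 && (Nat.beq i 0 ||
      (Nat.blt (orbPar.getD i (0, 0)).1 i && Nat.blt (orbPar.getD i (0, 0)).2 7 &&
        ((orbT.getD i []) == (orbT.getD (orbPar.getD i (0, 0)).1 []).map
          (apL (Mat.moveL.getD (orbPar.getD i (0, 0)).2 idL)))))

/-- The orbit is closed. -/
noncomputable def orbClosedOK : Bool :=
  (List.range 330).all fun i => (List.range 7).all fun m =>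
    Nat.blt ((orbEdge.getD i []).getD m 330) 330 &&
    (List.range 6).all fun j =>
      Nat.beq (apL (Mat.moveL.getD m idL) ((orbT.getD i []).getD j 0))
        (comboL (orbT.getD ((orbEdge.getD i []).getD m 330) [])
          (Nat.land (Nat.shiftRight ((orbMask.getD i []).getD m 0) (6 * j)) 63))

/-- The members are different. -/
noncomputable def orbDistinctOK : Bool :=
  (List.range 330).all fun i => (List.range i).all fun l =>
    (orbT.getD i []).any fun t => (orbT.getD l []).any fun u => !(orth t u)

/-- The image of a word of the stabiliser. -/
noncomputable def sg (k : ℕ) : List ℕ := wImg (stabWords.getD k [])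

/-- A tree under the two elements of the stabiliser. -/
noncomputable def treeUnder (l : List ℕ) (par : List (ℕ × ℕ)) : Bool :=
  (List.range l.length).all fun i => Nat.beq i 0 ||
    (Nat.blt (par.getD i (0, 0)).1 i && Nat.blt (par.getD i (0, 0)).2 2 &&
      Nat.beq (apL (sg (par.getD i (0, 0)).2) (l.getD (par.getD i (0, 0)).1 0)) (l.getD i 0))

/-- The stabiliser and its orbits. -/
noncomputable def stabOK : Bool :=
  ((List.range 2).all fun k => wBas.all fun t => wCodes.contains (apL (sg k) t)) &&
  treeUnder sigL sigPar && treeUnder restL restPar &&
  ((List.range 7).all fun i => Nat.beq i 0 ||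
    (Nat.blt (sPar.getD i (0, 0)).1 i && Nat.blt (sPar.getD i (0, 0)).2 2 &&
      (comp (sg (sPar.getD i (0, 0)).2) (sList.getD (sPar.getD i (0, 0)).1 []) ==
        comp (sList.getD i []) (sg (sPar.getD i (0, 0)).2)))) &&
  Nat.beq sigL.length 21 && Nat.beq restL.length 42 && nodupB (sigL ++ restL) &&
  (sigL.all fun v => wCodes.contains v && !(Nat.beq v 0)) &&
  (restL.all fun v => wCodes.contains v && !(Nat.beq v 0)) &&
  (wCodes.all fun v => Nat.beq v 0 || sigL.contains v || restL.contains v)

/-- The three subspaces in the shorter orbit. -/
noncomputable def quadsOK : Bool :=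
  Nat.beq quadL.length 3 &&
  (quadL.all fun l => Nat.beq l.length 8 && nodupB l && l.contains 0 &&
    (l.all fun u => Nat.beq u 0 || sigL.contains u) &&
    l.all fun u => l.all fun v => l.contains (Nat.xor u v)) &&
  ((List.range 3).all fun i => (List.range i).all fun j =>
    (quadL.getD i []).all fun u => Nat.beq u 0 || !((quadL.getD j []).contains u)) &&
  (sigL.all fun u => quadL.any fun l => l.contains u) &&
  sigL.all fun a => sigL.all fun b => Nat.beq a b || !(sigL.contains (Nat.xor a b)) || sigL.all fun c =>
    Nat.beq c a || Nat.beq c b || Nat.beq c (Nat.xor a b) || !(sigL.contains (Nat.xor a c)) ||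
      !(sigL.contains (Nat.xor b c)) || !(sigL.contains (Nat.xor (Nat.xor a b) c)) ||
      quadL.any fun l => l.contains a && l.contains b && l.contains c

set_option maxHeartbeats 8000000

theorem qOK_true : qOK = true := by decide +kernel
theorem wOK_true : wOK = true := by decide +kernel
theorem sOK_true : sOK = true := by decide +kernel
theorem pointOK_true : pointOK = true := by decide +kernel
theorem stabIdxOK_true : stabIdxOK = true := by decide +kernel
theorem orbTreeOK_true : orbTreeOK = true := by decide +kernel
theorem orbClosedOK_true : orbClosedOK = true := by decide +kernel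
theorem orbDistinctOK_true : orbDistinctOK = true := by decide +kernel
theorem stabOK_true : stabOK = true := by decide +kernel
theorem quadsOK_true : quadsOK = true := by decide +kernel

end Cfsg.Agent.JFourType.Ten
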