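import Cfsg.Agent.JFourType.TenLocal
import Cfsg.Agent.JFourType.TenClassData

/-!
A self-centralising elementary abelian subgroup of order `2^10` containing the involution is conjugate to
the base subgroup: in the Sylow subgroup its image has order 8 and is one of two, and both fix members of
the orbit of the subspace.
-/

set_option autoImplicit false
set_option maxRecDepth 100000
set_option maxHeartbeats 1000000

namespace Cfsg.Agent.JFourType.Ten

open Cfsg
open scoped Pointwise
open Cfsg.Agent.GFour25 Cfsg.Agent.CosetCert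
open Cfsg.Agent.SporB.FischerU (Vec vecN enc vecN_enc enc_lt)
open Cfsg.Agent.LargeFischer (IsSemi semiU)
open Cfsg.Agent.LargeFischer.Thompson
open Cfsg.Agent.TTClass
open Data TenData

/-- The centralizer of an element. -/
local notation "Cz[" z "]" => Subgroup.centralizer (({z} : Set _))

/-- The lists of the three members of dimension six. -/
noncomputable def targets : List (List ℕ) :=
  [(List.range 64).map (apL (orbT.getD 0 [])), (List.range 64).map (apL (orbT.getD 5 [])), uList]

/-- A mask from a list of codes. -/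
noncomputable def maskL (l : List ℕ) : ℕ := l.foldr (fun u m => Nat.lor (Nat.shiftLeft 1 u) m) 0

/-- The tables of masks are those of the lists. -/
noncomputable def tablesOK : Bool :=
  ((List.range 3).all fun c => Nat.beq (tMasks.getD c 0) (maskL (targets.getD c []))) &&
  (List.range 2).all fun c => Nat.beq (yBases.getD c []).length 7 &&
    Nat.beq (yMasks.getD c 0) (maskL ((List.range 128).map (apL (yBases.getD c [])))) &&
    (List.range 128).all fun n => Nat.beq n 0 || !(Nat.beq (apL (yBases.getD c []) n) 0)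

/-- The common fixed vectors of three involutions. -/
noncomputable def triMask (i j k : ℕ) : ℕ :=
  Nat.land (Nat.land (masksP.getD i 0) (masksP.getD j 0)) (masksP.getD k 0)

/-- A set is inside one of the three or meets a subspace of dimension seven only at zero. -/
noncomputable def smallOrTarget (m : ℕ) : Bool :=
  Nat.beq (Nat.land m (yMasks.getD 0 0)) 1 || Nat.beq (Nat.land m (yMasks.getD 1 0)) 1 ||
    Nat.beq (Nat.land m (tMasks.getD 0 0)) m || Nat.beq (Nat.land m (tMasks.getD 1 0)) m ||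
    Nat.beq (Nat.land m (tMasks.getD 2 0)) m

/-- Three commuting independent involutions. -/
noncomputable def tripleOK : Bool :=
  (List.range 71).all fun i => (List.range 71).all fun j =>
    bif Nat.blt i j && Nat.blt (tget tabP 71 i j) 71 then
      (List.range 71).all fun k =>
        bif Nat.blt j k && !(Nat.beq k (tget tabP 71 i j)) && Nat.blt (tget tabP 71 i k) 71 &&
            Nat.blt (tget tabP 71 j k) 71 then
          smallOrTarget (triMask i j k)
        else true
    else true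

/-- At most one involution commutes with 62 others. -/
noncomputable def degreeOK : Bool :=
  Nat.ble ((List.range 71).filter fun i =>
    Nat.ble 62 ((List.range 71).filter fun j =>
      !(Nat.beq i j) && Nat.blt (tget tabP 71 i j) 71).length).length 2

set_option maxHeartbeats 8000000 in
theorem tripleOK_true : tripleOK = true := by decide +kernel

theorem tablesOK_true : tablesOK = true := by decide +kernel

theorem testBit_maskL {v : ℕ} : ∀ {l : List ℕ}, (maskL l).testBit v = true ↔ v ∈ l := by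
  intro l
  induction l with
  | nil => simp [maskL]
  | cons a l ih =>
    rw [List.mem_cons, ← ih]
    show ((1 <<< a) ||| maskL l).testBit v = true ↔ _
    rw [Nat.testBit_or, Nat.one_shiftLeft, Bool.or_eq_true, Nat.testBit_two_pow, decide_eq_true_iff,
      eq_comm]

/-- The members of a target. -/
theorem target_spec {c : ℕ} (hc : c < 3) {v : Vec} (h : (tMasks.getD c 0).testBit (enc v) = true) :
    enc v ∈ targets.getD c [] := by
  have ht := tablesOK_true
  simp only [tablesOK, Bool.and_eq_true, List.all_eq_true, List.mem_range] at ht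
  rw [Nat.eq_of_beq_eq_true (ht.1 c hc)] at h
  exact testBit_maskL.1 h

/-- A subgroup meeting one of the two subspaces of dimension seven only at zero has at most 32 members. -/
theorem small_spec {c : ℕ} (hc : c < 2) {m : ℕ} (hm : Nat.land m (yMasks.getD c 0) = 1) {D : Set Vec}
    (hadd : ∀ u ∈ D, ∀ v ∈ D, u + v ∈ D) (hD : ∀ v ∈ D, m.testBit (enc v) = true) : D.ncard ≤ 32 := by
  classical
  have ht := tablesOK_true
  simp only [tablesOK, Bool.and_eq_true, List.all_eq_true, List.mem_range, Bool.or_eq_true,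
    Bool.not_eq_true'] at ht
  obtain ⟨⟨-, hy⟩, hne⟩ := ht.2 c hc
  set b := yBases.getD c []
  have hlt : ∀ n < 128, apL b n < 4096 := by
    have hb : (List.range 2).all (fun c => (yBases.getD c []).all fun x => Nat.blt x 4096) = true := by
      decide +kernel
    exact fun n _ => apL_lt (List.all_eq_true.1 hb c (List.mem_range.2 hc)) n
  let f : D × Fin 128 → Vec := fun p => p.1.1 + vecN (apL b p.2)
  have hf : Function.Injective f := by
    rintro ⟨u, i⟩ ⟨v, j⟩ e
    have e' : u.1 + v.1 = vecN (apL b ((i : ℕ) ^^^ j)) := by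
      rw [apL_xor, vecN_xor]
      have e1 : u.1 + vecN (apL b i) = v.1 + vecN (apL b j) := e
      calc u.1 + v.1 = (u.1 + vecN (apL b i)) + vecN (apL b i) + v.1 := by
            rw [add_assoc u.1, LargeFischer.Thompson.vec_self, add_zero]
        _ = (v.1 + v.1) + (vecN (apL b j) + vecN (apL b i)) := by rw [e1]; abel
        _ = vecN (apL b i) + vecN (apL b j) := by rw [LargeFischer.Thompson.vec_self, zero_add, add_comm]
    have hij : (i : ℕ) ^^^ j < 128 := Nat.xor_lt_two_pow (n := 7) i.2 j.2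
    have hbit : (Nat.land m (yMasks.getD c 0)).testBit (apL b ((i : ℕ) ^^^ j)) = true := by
      show (m &&& yMasks.getD c 0).testBit _ = true
      rw [Nat.testBit_and, Bool.and_eq_true]
      refine ⟨?_, ?_⟩
      · have := hD _ (hadd _ u.2 _ v.2)
        rwa [e', enc_vecN (hlt _ hij)] at this
      · rw [Nat.eq_of_beq_eq_true hy]
        exact testBit_maskL.2 (List.mem_map.2 ⟨_, List.mem_range.2 hij, rfl⟩)
    rw [hm] at hbit
    have h0 : apL b ((i : ℕ) ^^^ j) = 0 := by
      by_contra h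
      rw [Nat.testBit_one_eq_true_iff_self_eq_zero] at hbit
      exact h hbit
    have hx : (i : ℕ) ^^^ j = 0 := by
      rcases hne _ hij with h | h
      · exact Nat.eq_of_beq_eq_true h
      · rw [h0] at h; exact absurd h (by decide)
    have hi : i = j := Fin.ext (by
      calc (i : ℕ) = (i : ℕ) ^^^ j ^^^ j := by rw [Nat.xor_assoc, Nat.xor_self, Nat.xor_zero]
        _ = j := by rw [hx, Nat.zero_xor])
    subst hi
    exact Prod.ext (Subtype.ext (add_right_cancel e)) rfl
  have h := Nat.card_le_card_of_injective f hf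
  rw [Nat.card_prod, Nat.card_fin, Nat.card_coe_set_eq, show Nat.card Vec = 4096 by
    rw [Nat.card_eq_fintype_card, Fintype.card_fun, GFour25.card_F4]; rfl] at h
  omega

theorem degreeOK_true : degreeOK = true := by decide +kernel

/-- The list of an involution. -/
noncomputable def invL (i : ℕ) : List ℕ := candJ.invs.getD i []

theorem tget_spec {i j : ℕ} (hi : i < 71) (hj : j < 71) (hij : i ≠ j) {x y : Equiv.Perm Vec}
    (hx : Rep (invL i) x) (hy : Rep (invL j) y) (hxy : x * y = y * x) :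
    tget tabP 71 i j < 71 ∧ Rep (invL (tget tabP 71 i j)) (x * y) := by
  have hn := normal_facts candJ_ok.normal_invs
  have hlen : candJ.invs.length = 71 := by
    have h := candJ_ok.invs
    rw [Cand.invsOK, Bool.and_eq_true] at h
    exact Nat.eq_of_beq_eq_true h.1
  have h := List.all_eq_true.1 (List.all_eq_true.1 candJ_ok.tab i (List.mem_range.2 hi)) j (List.mem_range.2 hj)
  rw [Bool.or_eq_true] at h
  rcases h with h | h
  · exact absurd (Nat.eq_of_beq_eq_true h) hij
  have hc : comp (invL i) (invL j) = comp (invL j) (invL i) :=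
    (hx.mul hy).list_eq (hxy ▸ hy.mul hx)
      (comp_normal _ (hn.2 _ (getD_mem [] (by rw [hlen]; exact hj))).1)
      (comp_normal _ (hn.2 _ (getD_mem [] (by rw [hlen]; exact hi))).1)
  revert h
  cases hb : Nat.beq (tget candJ.tab 71 i j) 71
  · simp only [cond_false, Bool.and_eq_true, beq_iff_eq, Nat.blt_eq]
    intro h
    refine ⟨h.1, ?_⟩
    show Rep (candJ.invs.getD (tget candJ.tab 71 i j) []) _
    rw [← h.2]
    exact hx.mul hy
  · simp only [cond_true, Bool.not_eq_true', beq_eq_false_iff_ne]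
    exact fun h => absurd hc h

/-- The common fixed vectors of three involutions are in the common mask. -/
theorem fix_mask {i : ℕ} (hi : i < 71) {x : Equiv.Perm Vec} (hx : Rep (invL i) x) {v : Vec} (hv : x v = v) :
    (masksP.getD i 0).testBit (enc v) = true := by
  have hn := normal_facts candJ_ok.normal_invs
  have hlen : candJ.invs.length = 71 := by
    have h := candJ_ok.invs
    rw [Cand.invsOK, Bool.and_eq_true] at h
    exact Nat.eq_of_beq_eq_true h.1
  exact maskOK_spec (List.all_eq_true.1 candJ_ok.masks i (List.mem_range.2 hi))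
    (hn.2 _ (getD_mem [] (by rw [hlen]; exact hi))).2 (enc_lt v)
    (by have e := hx v; rw [hv] at e; exact e.symm)

/-- An involution of the Sylow subgroup fixing the distinguished space is in the distinguished group. -/
noncomputable def uFixOK : Bool :=
  invsP.all fun g => !(uBasis.all fun t => Nat.beq (apL g t) t) || aList.contains g

theorem uFixOK_true : uFixOK = true := by decide +kernel

theorem uFix_mem {a : Equiv.Perm Vec} (ha : a ∈ candP gP) (h2 : a * a = 1)
    (hfix : ∀ u ∈ uSet, a u = u) : a ∈ aGrp := by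
  by_cases h1 : a = 1
  · rw [h1]; exact one_mem _
  obtain ⟨i, hi, hr⟩ := invol_rep candJ_ok rep_gP.1 ha h2 h1
  have hlen : candJ.invs.length = 71 := by
    have h := candJ_ok.invs
    rw [Cand.invsOK, Bool.and_eq_true] at h
    exact Nat.eq_of_beq_eq_true h.1
  have h := List.all_eq_true.1 uFixOK_true (invsP.getD i [])
    (getD_mem [] (show i < candJ.invs.length by rw [hlen]; exact hi))
  simp only [Bool.or_eq_true, Bool.not_eq_true', List.contains_iff_mem] at h
  rcases h with h | h
  · exfalso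
    have hall : (uBasis.all fun t => Nat.beq (apL (invsP.getD i []) t) t) = true := List.all_eq_true.2 fun t ht => by
      obtain ⟨j, hj, rfl⟩ := exists_getD 0 ht
      have hj6 : j < 6 := by
        have : uBasis.length = 6 := by decide +kernel
        omega
      have hmem := bVec_mem ⟨j, hj6⟩
      obtain ⟨-, hu, -⟩ := dual_facts ⟨j, hj6⟩
      have hlt := (uList_facts _ hu).1
      have e := rep_code hr hlt
      rw [show vecN (uBasis.getD j 0) = bVec ⟨j, hj6⟩ from rfl, hfix _ hmem] at e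
      rw [show bVec ⟨j, hj6⟩ = vecN (uBasis.getD j 0) from rfl, enc_vecN hlt] at e
      exact (congrArg (fun w => Nat.beq w _) e.symm).trans (Nat.beq_refl _)
    rw [hall] at h
    exact Bool.false_ne_true h.symm
  · exact Or.inr ⟨_, h, hr⟩

variable {G : Type*} [Group G] [Finite G] {z : G} {P : Subgroup G}
variable (hJ : IsOfJankoFourTypeWith z P) (S : Invol.Setup z P)

/-- The vectors of the part of a subgroup in the extraspecial group. -/
noncomputable def part (B : Subgroup Cz[z]) : Set Vec := S.psi '' {a : pCore 2 Cz[z] | (a : Cz[z]) ∈ B}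

theorem part_add {B : Subgroup Cz[z]} {u v : Vec} (hu : u ∈ part S B) (hv : v ∈ part S B) :
    u + v ∈ part S B := by
  obtain ⟨a, ha, rfl⟩ := hu
  obtain ⟨b, hb, rfl⟩ := hv
  exact ⟨a * b, mul_mem (show (a : Cz[z]) ∈ B from ha) hb, S.D.psi_mul a b⟩

theorem part_fixed {B : Subgroup Cz[z]} (hcomm : ∀ u ∈ B, ∀ v ∈ B, u * v = v * u) {b : Cz[z]} (hb : b ∈ B)
    {v : Vec} (hv : v ∈ part S B) : S.rho b v = v := by
  obtain ⟨a, ha, rfl⟩ := hv
  rw [← conj_psi S b a]
  exact congrArg S.psi (Subtype.ext (mul_inv_eq_iff_eq_mul.2 (hcomm b hb _ ha)))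

include hJ in
/-- In the centralizer of the involution, inside the Sylow subgroup. -/
theorem classify_local (B : Subgroup Cz[z]) (hBT : B ≤ S.T0) (hsq : ∀ b ∈ B, b * b = 1)
    (hcard : Nat.card B = 2 ^ 10) (hzB : (⟨z, Subgroup.mem_centralizer_singleton_iff.2 rfl⟩ : Cz[z]) ∈ B)
    (hself : Subgroup.centralizer (B : Set Cz[z]) ≤ B) :
    ∃ g : Cz[z], B = (baseH S).map (MulAut.conj g).toMonoidHom := by
  classical
  haveI : Fact (Nat.Prime 2) := ⟨Nat.prime_two⟩
  set zC : Cz[z] := ⟨z, Subgroup.mem_centralizer_singleton_iff.2 rfl⟩ with hzC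
  have hcomm : ∀ u ∈ B, ∀ v ∈ B, u * v = v * u := fun u hu v hv =>
    comm_of_sq (hsq u hu) (hsq v hv) (hsq _ (B.mul_mem hu hv))
  set Bb := B.map S.rho with hBb
  have hle : Bb ≤ candP gP := Subgroup.map_le_iff_le_comap.2 hBT
  have hsqb : ∀ a ∈ Bb, a * a = 1 := by
    rintro a ⟨h, hh, rfl⟩
    rw [← map_mul, hsq h hh, map_one]
  have hbcomm : ∀ a ∈ Bb, ∀ b ∈ Bb, a * b = b * a := fun a ha b hb =>
    comm_of_sq (hsqb a ha) (hsqb b hb) (hsqb _ (Bb.mul_mem ha hb))
  obtain ⟨r, hr⟩ := (IsPGroup.iff_card).1 (show IsPGroup 2 Bb from fun a => ⟨1, Subtype.ext (by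
    show (a : Equiv.Perm Vec) ^ (2 ^ 1) = 1
    rw [pow_one, pow_two]; exact hsqb a.1 a.2)⟩)
  -- the part in the extraspecial group
  have hdc : Nat.card (B ⊓ pCore 2 Cz[z] : Subgroup Cz[z]) = 2 * (part S B).ncard := by
    rw [(S.D.card_sub _ inf_le_right).2 ⟨hzB, S.D.z_mem⟩]
    congr 2
    ext v
    constructor
    · rintro ⟨a, ha, rfl⟩
      exact ⟨a, ha.1, rfl⟩
    · rintro ⟨a, ha, rfl⟩
      exact ⟨a, ⟨ha, a.2⟩, rfl⟩
  have hq7 : Nat.card (B ⊓ pCore 2 Cz[z] : Subgroup Cz[z]) ≤ 2 ^ 7 := by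
    have h1 := S.D.abelian_le ((B ⊓ pCore 2 Cz[z]).subgroupOf (pCore 2 Cz[z]))
      ⟨⟨fun u v => Subtype.ext (Subtype.ext (hcomm _ u.2.1 _ v.2.1))⟩⟩
    rwa [Nat.card_congr (Subgroup.subgroupOfEquivOfLe inf_le_right).toEquiv] at h1
  have hsplit := S.D.card_split B
  rw [hcard, show Nat.card (B.map S.rho) = 2 ^ r from hr, hdc] at hsplit
  have hd64 : (part S B).ncard ≤ 64 := by omega
  have hr3 : 3 ≤ r := by
    by_contra hc
    have : 2 ^ r ≤ 2 ^ 2 := Nat.pow_le_pow_right (by norm_num) (by omega)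
    nlinarith
  have hr72 : 2 ^ r ≤ 72 := by
    rw [← hr]
    refine (Nat.card_le_card_of_injective (fun a : Bb => (⟨a.1, hle a.2, hsqb a.1 a.2⟩ :
      {σ : Equiv.Perm Vec | σ ∈ candP gP ∧ σ * σ = 1})) fun a b h => Subtype.ext
        (congrArg (fun t : {σ : Equiv.Perm Vec | σ ∈ candP gP ∧ σ * σ = 1} => (t : Equiv.Perm Vec)) h)).trans ?_
    rw [Nat.card_coe_set_eq]
    exact inv_count candJ_ok rep_gP.1
  have hr6 : r ≤ 6 := by
    by_contra hc
    have : 2 ^ 7 ≤ 2 ^ r := Nat.pow_le_pow_right (by norm_num) (by omega)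
    omega
  choose ix hix hrix using fun x : {x : Bb // (x : Equiv.Perm Vec) ≠ 1} =>
    invol_rep candJ_ok rep_gP.1 (hle x.1.2) (hsqb _ x.1.2) x.2
  set I := Finset.univ.image ix with hI
  have hixinj : Function.Injective ix := fun x y e => Subtype.ext (Subtype.ext ((hrix x).eq (e ▸ hrix y)))
  have hIcard : I.card + 1 = 2 ^ r := by
    rw [hI, Finset.card_image_of_injective _ hixinj, Finset.card_univ, ← Nat.card_eq_fintype_card]
    have e : Nat.card {x : Bb // (x : Equiv.Perm Vec) ≠ 1} = ({(1 : Bb)}ᶜ : Set Bb).ncard := by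
      rw [← Nat.card_coe_set_eq]
      exact Nat.card_congr (Equiv.subtypeEquivRight fun x => by simp)
    rw [e, Set.ncard_compl, Set.ncard_singleton, hr]
    have : 1 ≤ 2 ^ r := Nat.one_le_two_pow
    omega
  have hImem : ∀ i ∈ I, i < 71 ∧ ∃ x ∈ Bb, Rep (invL i) x ∧ x ≠ 1 := by
    intro i hi
    obtain ⟨x, -, rfl⟩ := Finset.mem_image.1 hi
    exact ⟨hix x, x.1.1, x.1.2, hrix x, x.2⟩
  have hdfix : ∀ x ∈ Bb, ∀ v ∈ part S B, x v = v := by
    rintro x ⟨b, hb, rfl⟩ v hv
    exact part_fixed S hcomm hb hv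
  -- the image has order at most 16
  have hno6 : r ≠ 6 := by
    intro h6
    have hdeg := degreeOK_true
    simp only [degreeOK, Nat.ble_eq] at hdeg
    have hsub : I ⊆ ((List.range 71).filter fun i =>
        Nat.ble 62 ((List.range 71).filter fun j =>
          !(Nat.beq i j) && Nat.blt (tget tabP 71 i j) 71).length).toFinset := by
      intro i hi
      rw [List.mem_toFinset, List.mem_filter, List.mem_range]
      refine ⟨(hImem i hi).1, ?_⟩
      rw [Nat.ble_eq]
      have hle' : (I.erase i) ⊆ ((List.range 71).filter fun j =>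
          !(Nat.beq i j) && Nat.blt (tget tabP 71 i j) 71).toFinset := by
        intro j hj
        obtain ⟨hji, hjI⟩ := Finset.mem_erase.1 hj
        obtain ⟨hi', x, hx, hxr, -⟩ := hImem i hi
        obtain ⟨hj', y, hy, hyr, -⟩ := hImem j hjI
        simp only [List.mem_toFinset, List.mem_filter, List.mem_range, Bool.and_eq_true, Bool.not_eq_true',
          Nat.blt_eq]
        exact ⟨hj', Bool.eq_false_iff.2 fun e => hji (Nat.eq_of_beq_eq_true e).symm,
          (tget_spec hi' hj' (Ne.symm hji) hxr hyr (hbcomm x hx y hy)).1⟩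
      have h1 := (Finset.card_le_card hle').trans (List.toFinset_card_le _)
      rw [Finset.card_erase_of_mem hi] at h1
      rw [h6] at hIcard
      omega
    have h2 := ((Finset.card_le_card hsub).trans (List.toFinset_card_le _)).trans hdeg
    rw [h6] at hIcard
    omega
  have hA16 : r ≠ 3 → Bb = aGrp := by
    intro hne
    have h4 : 4 ≤ r := by omega
    by_contra hBA
    obtain ⟨B4, h4le, h4c, h4n⟩ : ∃ B4 : Subgroup (Equiv.Perm Vec), B4 ≤ Bb ∧ Nat.card B4 = 16 ∧ B4 ≠ aGrp := by
      by_contra hno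
      push Not at hno
      by_cases hr4 : r = 4
      · exact hBA (hno Bb le_rfl (by rw [hr, hr4]; norm_num))
      have hbig : ¬ Bb ≤ aGrp := fun h => by
        have h' := Subgroup.card_le_of_le h
        rw [card_aGrp candJ_ok rep_gP.1, hr] at h'
        have : 2 ^ 5 ≤ 2 ^ r := Nat.pow_le_pow_right (by norm_num) (by omega)
        omega
      obtain ⟨a, haB, haA⟩ := SetLike.not_le_iff_exists.1 hbig
      have hdvd : 2 ^ 4 ∣ Nat.card Bb := hr ▸ pow_dvd_pow 2 h4
      have hzc : Nat.card (Subgroup.zpowers (⟨a, haB⟩ : Bb)) = 2 ^ 1 := by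
        rw [Nat.card_zpowers, pow_one, orderOf_eq_prime (p := 2)]
        · exact Subtype.ext (show a ^ 2 = 1 by rw [pow_two]; exact hsqb a haB)
        · intro e
          exact haA (by rw [show a = 1 from congrArg Subtype.val e]; exact one_mem _)
      obtain ⟨L, hL, hLle⟩ := Sylow.exists_subgroup_card_pow_prime_le 2 hdvd _ hzc (by norm_num)
      have e := hno (L.map Bb.subtype) (Subgroup.map_subtype_le L)
        (by rw [Subgroup.card_map_of_injective Bb.subtype_injective, hL]; norm_num)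
      exact haA (e ▸ ⟨⟨a, haB⟩, hLle (Subgroup.mem_zpowers _), rfl⟩)
    have h8 := (cand_unique candJ_ok rep_gP.1 B4 (h4le.trans hle) h4c fun a ha => hsqb a (h4le ha)).resolve_left h4n
    have : (part S B).ncard ≤ 8 :=
      (Set.ncard_le_ncard (fun v hv a ha => hdfix a (h4le ha) v hv) (Set.toFinite _)).trans h8
    have h5 : 2 ^ r ≤ 2 ^ 5 := Nat.pow_le_pow_right (by norm_num) (by omega)
    nlinarith
  -- the common fixed space
  have hA : ∀ (hU : part S B ⊆ uSet) (hb : Bb ≤ aGrp), False := by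
    intro hU hb
    have hBP : ∀ a : pCore 2 Cz[z], (a : Cz[z]) ∈ B → (a : Cz[z]) ∈ S.D.P0 S.Mo := fun a ha =>
      ⟨a.2, by rw [S.Mo_U]; exact hU ⟨a, ha, rfl⟩⟩
    by_cases hall : ∀ b ∈ B, ∀ p ∈ S.D.P0 S.Mo, p * b = b * p
    · -- then the subgroup lies in the elementary abelian subgroup of order 2^11
      have hBK : B ≤ S.D.K S.Mo := fun b hb' => (S.D.mem_K S.Mo).2
        ⟨hall b hb', by rw [S.Mo_A]; exact hb ⟨b, hb', rfl⟩⟩
      have hKB : S.D.K S.Mo ≤ B := fun k hk => hself (Subgroup.mem_centralizer_iff.2 fun b hb' =>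
        comm_of_sq (S.D.K_sq S.Mo b (hBK hb')) (S.D.K_sq S.Mo k hk)
          (S.D.K_sq S.Mo _ (mul_mem (hBK hb') hk)))
      have := Subgroup.card_le_of_le hKB
      rw [hcard, S.D.K_card S.Mo] at this
      norm_num at this
    push Not at hall
    obtain ⟨b, hbB, p, hp, hpb⟩ := hall
    obtain ⟨k, hk, hkr⟩ := S.D.exists_fix S.Mo (a := S.rho b) (by rw [S.Mo_A]; exact hb ⟨b, hbB, rfl⟩)
    have hqQ : k⁻¹ * b ∈ pCore 2 Cz[z] := S.D.mem_q (by rw [map_mul, map_inv, hkr, inv_mul_cancel])
    set q : pCore 2 Cz[z] := ⟨k⁻¹ * b, hqQ⟩ with hq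
    have hb' : b = k * q := by rw [hq]; simp
    have hkP : ∀ p ∈ S.D.P0 S.Mo, p * k = k * p := ((S.D.mem_K S.Mo).1 hk).1
    have hqU : S.psi q ∉ uSet := fun h => hpb (by
      have hqP : (q : Cz[z]) ∈ S.D.P0 S.Mo := ⟨hqQ, by rw [S.Mo_U]; exact h⟩
      calc p * b = p * k * q := by rw [mul_assoc, ← hb']
        _ = k * (p * q) := by rw [hkP p hp, mul_assoc]
        _ = k * (q * p) := by rw [S.D.P0_comm S.Mo hp hqP]
        _ = b * p := by rw [← mul_assoc, ← hb'])
    -- the vector is fixed by the whole image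
    have hvb : S.rho b (S.psi q) = S.psi q := by
      have h1 : k * (q : Cz[z]) * k⁻¹ = (q : Cz[z])⁻¹ := by
        have h2 : k * (q : Cz[z]) * (k * q) = 1 := by rw [← hb']; exact hsq b hbB
        have hki : k⁻¹ = k := inv_eq_of_mul_eq_one_right (S.D.K_sq S.Mo k hk)
        rw [hki]
        refine eq_inv_of_mul_eq_one_left ?_
        rw [← h2]
        group
      rw [← hkr, ← conj_psi S k q,
        show (⟨k * (q : Cz[z]) * k⁻¹, (inferInstance : (pCore 2 Cz[z]).Normal).conj_mem _ q.2 k⟩ : pCore 2 Cz[z]) = q⁻¹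
          from Subtype.ext h1]
      have h := S.D.psi_mul q q⁻¹
      rw [mul_inv_cancel, S.D.psi_one] at h
      calc S.psi q⁻¹ = S.psi q + (S.psi q + S.psi q⁻¹) := by
            rw [← add_assoc, LargeFischer.Thompson.vec_self, zero_add]
        _ = S.psi q := by rw [← h, add_zero]
    have hfixK : ∀ c ∈ B, c ∈ S.D.K S.Mo → S.rho c (S.psi q) = S.psi q := by
      intro c hc hcK
      have h1 : c * k = k * c := comm_of_sq (S.D.K_sq S.Mo c hcK) (S.D.K_sq S.Mo k hk)
        (S.D.K_sq S.Mo _ (mul_mem hcK hk))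
      have h2 : c * (q : Cz[z]) = q * c := by
        refine mul_left_cancel (a := k) ?_
        calc k * (c * q) = c * k * q := by rw [h1, mul_assoc]
          _ = k * q * c := by rw [mul_assoc, ← hb']; exact hcomm c hc b hbB
          _ = k * (q * c) := mul_assoc _ _ _
      rw [← conj_psi S c q]
      exact congrArg S.psi (Subtype.ext (mul_inv_eq_iff_eq_mul.2 h2))
    -- index two
    have hdich : ∀ c ∈ B, ∀ p ∈ S.D.P0 S.Mo, c * p * c⁻¹ = p ∨ c * p * c⁻¹ = p * zC := fun c hc p hp =>
      S.D.conj_P0 S.Mo (fun u hu => by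
        rw [S.Mo_U, ← uSet_fix candJ_ok rep_gP.1] at hu
        exact hu _ (hb ⟨c, hc, rfl⟩)) hp
    have hP0B : Nat.card (S.D.P0 S.Mo ⊓ B : Subgroup Cz[z]) * 2 ≥ 128 := by
      have e : (S.D.P0 S.Mo ⊓ B : Subgroup Cz[z]) = B ⊓ pCore 2 Cz[z] := le_antisymm
        (fun x hx => ⟨hx.2, S.D.P0_le S.Mo hx.1⟩) (fun x hx => ⟨hBP ⟨x, hx.2⟩ hx.1, hx.1⟩)
      rw [e, hdc]
      have h16 : 2 ^ r ≤ 16 := by
        rw [← hr, ← card_aGrp candJ_ok rep_gP.1]
        exact Subgroup.card_le_of_le hb
      nlinarith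
    have hfix : ∀ c ∈ B, S.rho c (S.psi q) = S.psi q := by
      intro c hc
      by_cases hcK : c ∈ S.D.K S.Mo
      · exact hfixK c hc hcK
      -- `c * b` lies in the subgroup of order 2^11
      have hcbK : c * b ∈ S.D.K S.Mo := by
        refine (S.D.mem_K S.Mo).2 ⟨?_, by rw [S.Mo_A]; exact hb ⟨c * b, mul_mem hc hbB, rfl⟩⟩
        let Kc : Subgroup Cz[z] := S.D.P0 S.Mo ⊓ Subgroup.centralizer ({c} : Set Cz[z])
        let Kb : Subgroup Cz[z] := S.D.P0 S.Mo ⊓ Subgroup.centralizer ({b} : Set Cz[z])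
        have key : ∀ d ∈ B, (∃ p ∈ S.D.P0 S.Mo, p * d ≠ d * p) →
            S.D.P0 S.Mo ⊓ Subgroup.centralizer ({d} : Set Cz[z]) = S.D.P0 S.Mo ⊓ B := by
          rintro d hd ⟨p', hp', hne⟩
          have hle' : S.D.P0 S.Mo ⊓ B ≤ S.D.P0 S.Mo ⊓ Subgroup.centralizer ({d} : Set Cz[z]) :=
            fun x hx => ⟨hx.1, Subgroup.mem_centralizer_singleton_iff.2 (hcomm x hx.2 d hd)⟩
          have hlt : S.D.P0 S.Mo ⊓ Subgroup.centralizer ({d} : Set Cz[z]) < S.D.P0 S.Mo :=
            lt_of_le_of_ne inf_le_left fun e => hne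
              (Subgroup.mem_centralizer_singleton_iff.1 (e.ge hp').2)
          have hdv := Subgroup.card_dvd_of_le hlt.le
          have hne' : Nat.card (S.D.P0 S.Mo ⊓ Subgroup.centralizer ({d} : Set Cz[z]) : Subgroup Cz[z]) ≠ 128 :=
            fun e => hlt.ne (Subgroup.eq_of_le_of_card_ge hlt.le (by rw [S.D.P0_card S.Mo, e]; norm_num))
          rw [S.D.P0_card S.Mo] at hdv
          obtain ⟨n, hn, hn'⟩ := (Nat.dvd_prime_pow Nat.prime_two).1 hdv
          rw [hn'] at hne'
          have hn6 : n ≤ 6 := by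
            by_contra h
            exact hne' (by rw [show n = 7 by omega]; norm_num)
          refine (Subgroup.eq_of_le_of_card_ge hle' ?_).symm
          rw [hn']
          have : 2 ^ n ≤ 2 ^ 6 := Nat.pow_le_pow_right (by norm_num) hn6
          omega
        have hcne : ∃ p ∈ S.D.P0 S.Mo, p * c ≠ c * p := by
          by_contra h
          push Not at h
          exact hcK ((S.D.mem_K S.Mo).2 ⟨h, by rw [S.Mo_A]; exact hb ⟨c, hc, rfl⟩⟩)
        intro p' hp'
        have hiff : ∀ {x : Cz[z]}, x ∈ S.D.P0 S.Mo → (x * c = c * x ↔ x * b = b * x) := fun {x} hx => by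
          constructor
          · intro h
            have := ((key b hbB ⟨p, hp, hpb⟩).ge ((key c hc hcne).le
              ⟨hx, Subgroup.mem_centralizer_singleton_iff.2 h⟩)).2
            exact Subgroup.mem_centralizer_singleton_iff.1 this
          · intro h
            have := ((key c hc hcne).ge ((key b hbB ⟨p, hp, hpb⟩).le
              ⟨hx, Subgroup.mem_centralizer_singleton_iff.2 h⟩)).2
            exact Subgroup.mem_centralizer_singleton_iff.1 this
        by_cases hx : p' * c = c * p'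
        · rw [← mul_assoc, hx, mul_assoc, (hiff hp').1 hx, mul_assoc]
        · have e1 := (hdich c hc p' hp').resolve_left fun e => hx (mul_inv_eq_iff_eq_mul.1 e).symm
          have e2 := (hdich b hbB p' hp').resolve_left fun e =>
            hx ((hiff hp').2 (mul_inv_eq_iff_eq_mul.1 e).symm)
          refine (mul_inv_eq_iff_eq_mul.1 ?_).symm
          calc c * b * p' * (c * b)⁻¹ = c * (b * p' * b⁻¹) * c⁻¹ := by group
            _ = c * p' * c⁻¹ * zC := by
              rw [e2, ← mul_assoc, mul_assoc (c * p') zC, ← S.D.z_central, ← mul_assoc]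
            _ = p' := by rw [e1, mul_assoc, S.D.z_sq, mul_one]
      have h := hfixK _ (mul_mem hc hbB) hcbK
      rwa [map_mul, Equiv.Perm.mul_apply, hvb] at h
    -- the whole distinguished group fixes it
    have hBA : Bb = aGrp := by
      by_cases hr3' : r = 3
      · exfalso
        have h64 : (part S B).ncard = 64 := by
          rw [hr3'] at hsplit
          omega
        have hUe : part S B = uSet := Set.eq_of_subset_of_ncard_le hU (by rw [h64, uSet_card]) (Set.toFinite _)
        obtain ⟨a, ha, e⟩ := hUe.ge (show S.psi ⟨p, S.D.P0_le S.Mo hp⟩ ∈ uSet by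
          rw [← S.Mo_U]; exact hp.2)
        rcases S.D.eq_of_psi e.symm with e' | e'
        · exact hpb ((show p = a from e') ▸ (hcomm _ ha _ hbB))
        · refine hpb ?_
          rw [show p = (a : Cz[z]) * zC from e']
          exact hcomm _ (mul_mem ha hzB) _ hbB
      · exact hA16 hr3'
    refine hqU ((uSet_fix candJ_ok rep_gP.1 _).1 fun a ha => ?_)
    obtain ⟨c, hc, rfl⟩ := hBA.ge ha
    exact hfix c hc
  -- the image has order 8
  have hr3' : r = 3 := by
    by_contra hne
    have hBA := hA16 hne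
    refine hA (fun v hv => (uSet_fix candJ_ok rep_gP.1 v).1 fun a ha => hdfix a (hBA.ge ha) v hv) hBA.le
  have h64 : (part S B).ncard = 64 := by
    rw [hr3'] at hsplit
    omega
  rw [hr3'] at hIcard
  have hI7 : I.card = 7 := by omega
  obtain ⟨i, hi⟩ : I.Nonempty := Finset.card_pos.1 (by omega)
  -- three independent members, increasing
  set i0 := I.min' ⟨i, hi⟩
  have hi0 : i0 ∈ I := I.min'_mem _
  have hne1 : (I.erase i0).Nonempty := Finset.card_pos.1 (by rw [Finset.card_erase_of_mem hi0]; omega)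
  set j0 := (I.erase i0).min' hne1
  obtain ⟨hji, hj0⟩ := Finset.mem_erase.1 ((I.erase i0).min'_mem hne1)
  obtain ⟨hi71, x, hx, hxr, hx1⟩ := hImem i0 hi0
  obtain ⟨hj71, y, hy, hyr, hy1⟩ := hImem j0 hj0
  obtain ⟨ht71, htr⟩ := tget_spec hi71 hj71 (Ne.symm hji) hxr hyr (hbcomm x hx y hy)
  set t0 := tget tabP 71 i0 j0
  have hne2 : (((I.erase i0).erase j0).erase t0).Nonempty := Finset.card_pos.1 (by
    have h1 := Finset.pred_card_le_card_erase (a := t0) (s := (I.erase i0).erase j0)
    rw [Finset.card_erase_of_mem ((I.erase i0).min'_mem hne1), Finset.card_erase_of_mem hi0, hI7] at h1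
    omega)
  obtain ⟨k0, hk0⟩ := hne2
  obtain ⟨hkt, hk'⟩ := Finset.mem_erase.1 hk0
  obtain ⟨hkj, hk''⟩ := Finset.mem_erase.1 hk'
  obtain ⟨hki, hkI⟩ := Finset.mem_erase.1 hk''
  obtain ⟨hk71, w, hw, hwr, hw1⟩ := hImem k0 hkI
  have hlt1 : i0 < j0 := lt_of_le_of_ne (I.min'_le _ hj0) (Ne.symm hji)
  have hlt2 : j0 < k0 := lt_of_le_of_ne ((I.erase i0).min'_le _ hk'') (Ne.symm hkj)
  have hT := tripleOK_true
  simp only [tripleOK, List.all_eq_true, List.mem_range] at hT
  have hT1 := hT i0 hi71 j0 hj71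
  rw [show (Nat.blt i0 j0 && Nat.blt (tget tabP 71 i0 j0) 71) = true by
    simp only [Bool.and_eq_true, Nat.blt_eq]; exact ⟨hlt1, ht71⟩, cond_true, List.all_eq_true] at hT1
  have hT2 := hT1 k0 (List.mem_range.2 hk71)
  rw [show (Nat.blt j0 k0 && !(Nat.beq k0 (tget tabP 71 i0 j0)) && Nat.blt (tget tabP 71 i0 k0) 71 &&
      Nat.blt (tget tabP 71 j0 k0) 71) = true by
    simp only [Bool.and_eq_true, Bool.not_eq_true', Nat.blt_eq]
    exact ⟨⟨⟨hlt2, Bool.eq_false_iff.2 fun e => hkt (Nat.eq_of_beq_eq_true e)⟩,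
      (tget_spec hi71 hk71 (by omega) hxr hwr (hbcomm x hx w hw)).1⟩,
      (tget_spec hj71 hk71 (by omega) hyr hwr (hbcomm y hy w hw)).1⟩, cond_true] at hT2
  simp only [smallOrTarget, Bool.or_eq_true] at hT2
  set m := triMask i0 j0 k0 with hm
  have hDm : ∀ v ∈ part S B, m.testBit (enc v) = true := by
    intro v hv
    show ((masksP.getD i0 0 &&& masksP.getD j0 0) &&& masksP.getD k0 0).testBit (enc v) = true
    rw [Nat.testBit_and, Nat.testBit_and, fix_mask hi71 hxr (hdfix x hx v hv),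
      fix_mask hj71 hyr (hdfix y hy v hv), fix_mask hk71 hwr (hdfix w hw v hv)]
    rfl
  have hDt : ∀ c, Nat.beq (Nat.land m (tMasks.getD c 0)) m = true → ∀ v ∈ part S B,
      (tMasks.getD c 0).testBit (enc v) = true := by
    intro c h v hv
    have h' := hDm v hv
    rw [← Nat.eq_of_beq_eq_true h, show Nat.land m (tMasks.getD c 0) = m &&& tMasks.getD c 0 from rfl,
      Nat.testBit_and, Bool.and_eq_true] at h'
    exact h'.2
  have hadd : ∀ u ∈ part S B, ∀ v ∈ part S B, u + v ∈ part S B := fun u hu v hv => part_add S hu hv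
  have hsp : ∀ c c', c' < 3 → c < 330 → targets.getD c' [] = (List.range 64).map (apL (orbT.getD c [])) →
      Nat.beq (Nat.land m (tMasks.getD c' 0)) m = true → part S B = span c := by
    intro c c' hc' hc he h
    refine Set.eq_of_subset_of_ncard_le (fun v hv => ?_) (by rw [span_ncard hc, h64]) (Set.toFinite _)
    have h' := target_spec hc' (hDt c' h v hv)
    rw [he] at h'
    obtain ⟨n, -, hn⟩ := List.mem_map.1 h'
    exact ⟨n, hn.symm⟩
  obtain ⟨c, hc, hDc⟩ : ∃ c < 330, part S B = span c := by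
    rcases hT2 with (((h | h) | h) | h) | h
    · exfalso
      have := small_spec (c := 0) (by norm_num) (Nat.eq_of_beq_eq_true h) hadd hDm
      omega
    · exfalso
      have := small_spec (c := 1) (by norm_num) (Nat.eq_of_beq_eq_true h) hadd hDm
      omega
    · exact ⟨0, by norm_num, hsp 0 0 (by norm_num) (by norm_num) rfl h⟩
    · exact ⟨5, by norm_num, hsp 5 1 (by norm_num) (by norm_num) rfl h⟩
    · exfalso
      have hU : part S B ⊆ uSet := fun v hv => target_spec (c := 2) (by norm_num) (hDt 2 h v hv)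
      have hUe : part S B = uSet := Set.eq_of_subset_of_ncard_le hU (by rw [uSet_card, h64]) (Set.toFinite _)
      refine hA hU ?_
      intro a ha
      exact uFix_mem (hle ha) (hsqb a ha) fun u hu => hdfix a ha u (hUe.ge hu)
  obtain ⟨σ, hσ, hσc⟩ := exists_smul_span c hc
  obtain ⟨g, hg⟩ := (range_eq hJ S).ge hσ
  refine ⟨g, ?_⟩
  have hqle : ∀ p ∈ pre S, g * p * g⁻¹ ∈ B := by
    rintro p ⟨hp, hpw⟩
    have hm' : S.rho g (S.psi ⟨p, hp⟩) ∈ part S B := by
      rw [hDc, ← hσc, hg]
      exact Set.smul_mem_smul_set hpw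
    rw [← conj_psi S g ⟨p, hp⟩] at hm'
    obtain ⟨a, ha, e⟩ := hm'
    rcases S.D.eq_of_psi e.symm with e' | e'
    · exact (show g * p * g⁻¹ = a from e') ▸ ha
    · exact (show g * p * g⁻¹ = (a : Cz[z]) * zC from e') ▸ mul_mem ha hzB
  refine Subgroup.eq_of_le_of_card_ge (fun b hb => ⟨g⁻¹ * b * g, Subgroup.mem_centralizer_iff.2 fun p hp => ?_,
    by simp [MulAut.conj_apply, mul_assoc]⟩) ?_
  · have h := hcomm _ (hqle p hp) b hb
    calc p * (g⁻¹ * b * g) = g⁻¹ * (g * p * g⁻¹ * b) * g := by group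
      _ = g⁻¹ * b * g * p := by rw [h]; group
  · rw [Subgroup.card_map_of_injective (MulAut.conj g).injective, card_baseH hJ S, hcard]

include hJ in
/-- **Classification**, by an element centralising the involution. -/
theorem classify_z (A : Subgroup G) (he : IsElementaryAbelian 2 A) (hc : Nat.card A = 2 ^ 10)
    (hs : Subgroup.centralizer (A : Set G) = A) (hzA : z ∈ A) :
    ∃ g ∈ Subgroup.centralizer ({z} : Set G), A = (base S).map (MulAut.conj g).toMonoidHom := by
  classical
  haveI : Fact (Nat.Prime 2) := ⟨Nat.prime_two⟩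
  have hcomm : ∀ u ∈ A, ∀ v ∈ A, u * v = v * u := fun u hu v hv =>
    congrArg Subtype.val (he.1.is_comm.comm ⟨u, hu⟩ ⟨v, hv⟩)
  have hAC : A ≤ Subgroup.centralizer ({z} : Set G) := fun a ha =>
    Subgroup.mem_centralizer_singleton_iff.2 (hcomm a ha z hzA)
  set A' : Subgroup Cz[z] := A.subgroupOf (Subgroup.centralizer ({z} : Set G)) with hA'
  have hA'c : Nat.card A' = 2 ^ 10 := by
    rw [hA', Nat.card_congr (Subgroup.subgroupOfEquivOfLe hAC).toEquiv, hc]
  obtain ⟨T, hT⟩ := (IsPGroup.of_card hA'c).exists_le_sylow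
  let T' : Sylow 2 Cz[z] := Sylow.ofCard S.T0 (by rw [S.card_T0, S.fac_centralizer])
  obtain ⟨u, hu⟩ := MulAction.exists_smul_eq Cz[z] T T'
  set B := A'.map (MulAut.conj u).toMonoidHom with hB
  have hBT : B ≤ S.T0 := by
    rintro _ ⟨a, ha, rfl⟩
    have h : (MulAut.conj u).toMonoidHom a ∈ ((u • T : Sylow 2 Cz[z]) : Subgroup Cz[z]) := by
      rw [Sylow.smul_def, Sylow.pointwise_smul_def]
      exact Subgroup.smul_mem_pointwise_smul a (MulAut.conj u) _ (hT ha)
    rw [hu] at h
    exact h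
  obtain ⟨g, hg⟩ := classify_local hJ S B hBT
    (by
      rintro _ ⟨a, ha, rfl⟩
      have h := he.2 _ (Subgroup.mem_subgroupOf.1 ha)
      rw [← map_mul, show a * a = 1 from Subtype.ext (by rw [← pow_two]; exact h), map_one])
    (by rw [hB, Subgroup.card_map_of_injective (MulAut.conj u).injective, hA'c])
    ⟨⟨z, hAC hzA⟩, Subgroup.mem_subgroupOf.2 hzA, by
      show u * (⟨z, hAC hzA⟩ : Cz[z]) * u⁻¹ = _
      rw [show (⟨z, hAC hzA⟩ : Cz[z]) = ⟨z, Subgroup.mem_centralizer_singleton_iff.2 rfl⟩ from rfl,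
        S.D.z_central, mul_inv_cancel_right]⟩
    (by
      intro x hx
      refine ⟨u⁻¹ * x * u, Subgroup.mem_subgroupOf.2 ?_, by simp [MulAut.conj_apply, mul_assoc]⟩
      rw [← hs]
      refine Subgroup.mem_centralizer_iff.2 fun a ha => ?_
      have h : u * (⟨a, hAC ha⟩ : Cz[z]) * u⁻¹ * x = x * (u * ⟨a, hAC ha⟩ * u⁻¹) :=
        Subgroup.mem_centralizer_iff.1 hx _ ⟨⟨a, hAC ha⟩, Subgroup.mem_subgroupOf.2 ha, rfl⟩
      refine congrArg Subtype.val (show (⟨a, hAC ha⟩ : Cz[z]) * (u⁻¹ * x * u) = u⁻¹ * x * u * ⟨a, hAC ha⟩ from ?_)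
      calc (⟨a, hAC ha⟩ : Cz[z]) * (u⁻¹ * x * u) = u⁻¹ * (u * ⟨a, hAC ha⟩ * u⁻¹ * x) * u := by group
        _ = u⁻¹ * x * u * ⟨a, hAC ha⟩ := by rw [h]; group)
  refine ⟨((u⁻¹ * g : Cz[z]) : G), (u⁻¹ * g : Cz[z]).2, ?_⟩
  ext a
  constructor
  · intro ha
    obtain ⟨b, hb, he'⟩ := hg.le (show (MulAut.conj u).toMonoidHom ⟨a, hAC ha⟩ ∈ B from
      ⟨_, Subgroup.mem_subgroupOf.2 ha, rfl⟩)
    refine ⟨b, (mem_base S).2 hb, ?_⟩
    have e : (u⁻¹ * g) * b * (u⁻¹ * g)⁻¹ = (⟨a, hAC ha⟩ : Cz[z]) := by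
      calc (u⁻¹ * g) * b * (u⁻¹ * g)⁻¹ = u⁻¹ * (g * b * g⁻¹) * u := by group
        _ = _ := by rw [show g * b * g⁻¹ = u * ⟨a, hAC ha⟩ * u⁻¹ from he']; group
    exact congrArg Subtype.val e
  · rintro ⟨_, ⟨b, hb, rfl⟩, rfl⟩
    obtain ⟨y, hy, hye⟩ := hg.ge ⟨b, hb, rfl⟩
    have e : (u⁻¹ * g) * b * (u⁻¹ * g)⁻¹ = y := by
      calc (u⁻¹ * g) * b * (u⁻¹ * g)⁻¹ = u⁻¹ * (g * b * g⁻¹) * u := by group
        _ = y := by rw [← show u * y * u⁻¹ = g * b * g⁻¹ from hye]; group
    show ((u⁻¹ * g : Cz[z]) : G) * (b : G) * ((u⁻¹ * g : Cz[z]) : G)⁻¹ ∈ A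
    rw [show ((u⁻¹ * g : Cz[z]) : G) * (b : G) * ((u⁻¹ * g : Cz[z]) : G)⁻¹ = (y : G) from
      congrArg Subtype.val e]
    exact Subgroup.mem_subgroupOf.1 hy


include hJ in
/-- **Classification**: a self-centralising elementary abelian subgroup of order `2^10` containing the
involution is conjugate to the base subgroup. -/
theorem classify (A : Subgroup G) (he : IsElementaryAbelian 2 A) (hc : Nat.card A = 2 ^ 10)
    (hs : Subgroup.centralizer (A : Set G) = A) (hzA : z ∈ A) :
    ∃ g : G, A = (base S).map (MulAut.conj g).toMonoidHom :=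
  let ⟨g, _, h⟩ := classify_z hJ S A he hc hs hzA
  ⟨g, h⟩

end Cfsg.Agent.JFourType.Ten
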