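import Cfsg.Agent.JFourType.TenModel
import Cfsg.Agent.JFourType.SylThree

/-!
A self-centralising elementary abelian subgroup of order `2^10` in a group of Janko-four type: the
centralizer in `C(z)` of the preimage of the singular subspace of dimension six, its normalizer in `C(z)`,
and the traces on it of the orbit of `z` under its normalizer.
-/

set_option autoImplicit false
set_option maxRecDepth 100000
set_option maxHeartbeats 1000000

namespace Cfsg.Agent.JFourType.Ten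

open Cfsg
open scoped Pointwise
open Cfsg.Agent.GFour25 Cfsg.Agent.CosetCert
open Cfsg.Agent.SporB.FischerU (Vec vecN enc vecN_enc enc_lt)
open Cfsg.Agent.LargeFischer (IsSemi semiU)
open Cfsg.Agent.LargeFischer.Thompson
open Cfsg.Agent.TTClass
open TenData
open Data (omL)

/-- The centralizer of an element. -/
local notation "Cz[" z "]" => Subgroup.centralizer (({z} : Set _))

/-- Every non-zero vector of the subspace is moved by the form. -/
noncomputable def perpOK : Bool :=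
  wCodes.all fun u => Nat.beq u 0 || idL.any fun e => !(orth e u)

theorem perpOK_true : perpOK = true := by decide +kernel

/-- The orbit of the involution under a normalizer. -/
def zOrbit {G : Type*} [Group G] (z : G) (B : Subgroup G) : Set G :=
  {v | ∃ n ∈ Subgroup.normalizer (B : Set G), n * z * n⁻¹ = v}

variable {G : Type*} [Group G] [Finite G] {z : G} {P : Subgroup G}
variable (hJ : IsOfJankoFourTypeWith z P) (S : Invol.Setup z P)

/-- The preimage of the subspace. -/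
noncomputable def pre : Subgroup Cz[z] where
  carrier := {h | ∃ hq : h ∈ pCore 2 Cz[z], S.psi ⟨h, hq⟩ ∈ wSet}
  one_mem' := ⟨one_mem _, by rw [show (⟨1, one_mem _⟩ : pCore 2 Cz[z]) = 1 from rfl, S.D.psi_one]; exact w_zero⟩
  mul_mem' := by
    rintro a b ⟨ha, ha'⟩ ⟨hb, hb'⟩
    refine ⟨mul_mem ha hb, ?_⟩
    rw [show (⟨a * b, mul_mem ha hb⟩ : pCore 2 Cz[z]) = ⟨a, ha⟩ * ⟨b, hb⟩ from rfl, S.D.psi_mul]
    exact w_add ha' hb'
  inv_mem' := by
    rintro a ⟨ha, ha'⟩
    refine ⟨inv_mem ha, ?_⟩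
    have h := S.D.psi_mul ⟨a, ha⟩ ⟨a⁻¹, inv_mem ha⟩
    rw [show (⟨a, ha⟩ : pCore 2 Cz[z]) * ⟨a⁻¹, inv_mem ha⟩ = 1 from Subtype.ext (mul_inv_cancel a),
      S.D.psi_one] at h
    rw [show S.psi ⟨a⁻¹, inv_mem ha⟩ = S.psi ⟨a, ha⟩ + (S.psi ⟨a, ha⟩ + S.psi ⟨a⁻¹, inv_mem ha⟩) by
      rw [← add_assoc, LargeFischer.Thompson.vec_self, zero_add], ← h, add_zero]
    exact ha'

/-- The centralizer of the preimage. -/
noncomputable def baseH : Subgroup Cz[z] := Subgroup.centralizer (pre S : Set Cz[z])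

/-- The elementary abelian subgroup of order `2^10`. -/
noncomputable def base : Subgroup G := (baseH S).map (Subgroup.centralizer ({z} : Set G)).subtype

/-- The elements of the centralizer of the involution stabilising the subspace. -/
noncomputable def stabH : Subgroup Cz[z] := wStab.comap S.rho

theorem pre_le : pre S ≤ pCore 2 Cz[z] := fun _ h => h.1

theorem mem_pre {a : pCore 2 Cz[z]} : (a : Cz[z]) ∈ pre S ↔ S.psi a ∈ wSet :=
  ⟨fun ⟨_, h⟩ => h, fun h => ⟨a.2, h⟩⟩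

theorem z_mem_pre : (⟨z, Subgroup.mem_centralizer_singleton_iff.2 rfl⟩ : Cz[z]) ∈ pre S :=
  ⟨S.D.z_mem, by rw [(S.D.psi_ker _).2 (Or.inr rfl)]; exact w_zero⟩

theorem pre_sq {h : Cz[z]} (hh : h ∈ pre S) : h * h = 1 := by
  obtain ⟨hq, hw⟩ := hh
  exact congrArg Subtype.val ((S.D.psi_norm ⟨h, hq⟩).1 (w_iso hw))

theorem pre_comm {a b : Cz[z]} (ha : a ∈ pre S) (hb : b ∈ pre S) : a * b = b * a :=
  comm_of_sq (pre_sq S ha) (pre_sq S hb) (pre_sq S (mul_mem ha hb))

theorem card_pre : Nat.card (pre S) = 128 := by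
  rw [(S.D.card_sub (pre S) (pre_le S)).2 (z_mem_pre S),
    show S.psi '' {a : pCore 2 Cz[z] | (a : Cz[z]) ∈ pre S} = wSet from by
      ext v
      constructor
      · rintro ⟨a, ha, rfl⟩
        exact (mem_pre S).1 ha
      · intro hv
        obtain ⟨a, rfl⟩ := S.D.psi_surj v
        exact ⟨a, (mem_pre S).2 hv, rfl⟩,
    wSet_ncard]

theorem centralizing_q {a : pCore 2 Cz[z]} (ha : (a : Cz[z]) ∈ baseH S) : (a : Cz[z]) ∈ pre S := by
  refine (mem_pre S).2 (w_perp fun w hw => ?_)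
  obtain ⟨p, rfl⟩ := S.D.psi_surj w
  exact (S.D.comm_iff a p (Subtype.ext (pre_sq S ((mem_pre S).2 hw)))).1
    (Subgroup.mem_centralizer_iff.1 ha _ ((mem_pre S).2 hw)).symm

theorem baseH_inf_q : baseH S ⊓ pCore 2 Cz[z] = pre S := by
  refine le_antisymm (fun h hh => centralizing_q S (a := ⟨h, hh.2⟩) hh.1) fun h hh => ⟨?_, pre_le S hh⟩
  exact Subgroup.mem_centralizer_iff.2 fun g hg => pre_comm S hg hh

theorem conj_psi (h : Cz[z]) (a : pCore 2 Cz[z]) :
    S.psi ⟨h * a * h⁻¹, (inferInstance : (pCore 2 Cz[z]).Normal).conj_mem _ a.2 h⟩ = S.rho h (S.psi a) :=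
  S.D.psi_conj h a

theorem fix_of_baseH {h : Cz[z]} (hh : h ∈ baseH S) : ∀ w ∈ wSet, S.rho h w = w := by
  intro w hw
  obtain ⟨p, rfl⟩ := S.D.psi_surj w
  rw [← conj_psi S h p]
  exact congrArg S.psi (Subtype.ext (mul_inv_eq_iff_eq_mul.2
    (Subgroup.mem_centralizer_iff.1 hh _ ((mem_pre S).2 hw)).symm))

include hJ in
theorem card_range : Nat.card S.rho.range = 2661120 := by
  have h := S.D.card_split (⊤ : Subgroup Cz[z])
  rw [Subgroup.card_top, top_inf_eq, S.D.card_q, ← MonoidHom.range_eq_map,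
    SylThree.card_centralizer hJ] at h
  omega

include hJ in
theorem range_eq : S.rho.range = Mat.R22 := by
  have hle : Mat.R22 ≤ S.rho.range := Mat.R22_le S.K22_le S.gP_mem
  refine (Subgroup.eq_of_le_of_card_ge hle ?_).symm
  rw [card_range hJ S]
  have hlt : K22 < Mat.R22 := lt_of_le_of_ne Mat.K22_le_R22 fun e => Mat.gP_not_mem (e.ge Mat.gP_mem_R22)
  have hd := Subgroup.card_dvd_of_le Mat.K22_le_R22
  have hne : Nat.card K22 ≠ Nat.card Mat.R22 := fun e =>
    hlt.ne (Subgroup.eq_of_le_of_card_ge Mat.K22_le_R22 e.ge)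
  obtain ⟨c, hc⟩ := hd
  have hc2 : 2 ≤ c := by
    rcases c with - | - | c
    · rw [mul_zero] at hc; exact absurd hc Nat.card_pos.ne'
    · rw [zero_add, mul_one] at hc; exact absurd hc.symm hne
    · omega
  have hge := card_K22_ge
  rw [hc]
  nlinarith

include hJ S in
theorem card_R22 : Nat.card Mat.R22 = 2661120 := by rw [← range_eq hJ S, card_range hJ S]

include hJ in
theorem rho_mem (h : Cz[z]) : S.rho h ∈ Mat.R22 := range_eq hJ S ▸ ⟨h, rfl⟩

include hJ S in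
/-- The pointwise stabiliser of the subspace. -/
theorem point_mem {σ : Equiv.Perm Vec} (hσ : σ ∈ Mat.R22) (hfix : ∀ w ∈ wSet, σ w = w) : σ ∈ sSet := by
  refine point_candP ?_ hfix
  let St : Subgroup Mat.R22 := wStab.subgroupOf Mat.R22
  let Tc : Subgroup St := ((candP gP).subgroupOf Mat.R22).subgroupOf St
  let Ps : Subgroup St :=
    { carrier := {s | ∀ w ∈ wSet, ((s : Mat.R22) : Equiv.Perm Vec) w = w}
      one_mem' := fun _ _ => rfl
      mul_mem' := fun {a b} ha hb w hw => by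
        show ((a : Mat.R22) : Equiv.Perm Vec) (((b : Mat.R22) : Equiv.Perm Vec) w) = w
        rw [hb w hw, ha w hw]
      inv_mem' := fun {a} ha w hw => by
        show ((a : Mat.R22) : Equiv.Perm Vec)⁻¹ w = w
        conv_lhs => rw [← ha w hw]
        exact Equiv.symm_apply_apply _ w }
  haveI : Ps.Normal := ⟨fun s hs g w hw => by
    show ((g : Mat.R22) : Equiv.Perm Vec) (((s : Mat.R22) : Equiv.Perm Vec)
      (((g : Mat.R22) : Equiv.Perm Vec)⁻¹ w)) = w
    have hg : ((g : Mat.R22) : Equiv.Perm Vec)⁻¹ w ∈ wSet :=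
      mem_wStab.1 (inv_mem (Subgroup.mem_subgroupOf.1 g.2)) w hw
    rw [hs _ hg]
    exact Equiv.apply_symm_apply _ w⟩
  haveI : Fact (Nat.Prime 2) := ⟨Nat.prime_two⟩
  have hPs : IsPGroup 2 Ps := fun s => ⟨1, Subtype.ext (Subtype.ext (Subtype.ext (by
    show ((((s : St) : Mat.R22) : Equiv.Perm Vec)) ^ 2 ^ 1 = 1
    rw [pow_one, pow_two]
    exact sq_of_fix (semi_R22 ((s : St) : Mat.R22).2) s.2)))⟩
  have hcP : candP gP ≤ Mat.R22 := candP_le ⟨Mat.K22_le_R22⟩ Mat.gP_mem_R22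
  have hTp : IsPGroup 2 Tc := by
    refine (IsPGroup.of_card (n := 8) ?_).comap_subtype (K := St) |>.to_le le_rfl
    rw [Nat.card_congr (Subgroup.subgroupOfEquivOfLe hcP).toEquiv, card_candP candJ_ok rep_gP.1]
    norm_num
  have hsup : IsPGroup 2 ↥(Ps ⊔ Tc) := hPs.to_sup_of_normal_left hTp
  have hTge : 128 ≤ Nat.card Tc := by
    refine le_trans (card_ge_stab (T := candP gP ⊓ wStab) fun s h1 h2 => ⟨h1, h2⟩) ?_
    refine Nat.card_le_card_of_injective
      (fun s => (⟨⟨⟨s.1, hcP s.2.1⟩, Subgroup.mem_subgroupOf.2 s.2.2⟩, Subgroup.mem_subgroupOf.2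
        (Subgroup.mem_subgroupOf.2 s.2.1)⟩ : Tc)) ?_
    intro a b e
    exact Subtype.ext (congrArg (fun t : Tc => (((t : St) : Mat.R22) : Equiv.Perm Vec)) e)
  obtain ⟨n, hn⟩ := IsPGroup.iff_card.1 hsup
  have hd : 2 ^ n ∣ 2 ^ 7 * 63 := by
    rw [← hn, show (2 : ℕ) ^ 7 * 63 = 8064 by norm_num, ← card_stab (card_R22 hJ S)]
    exact Subgroup.card_subgroup_dvd_card _
  have hn7 : n ≤ 7 := (Nat.pow_dvd_pow_iff_le_right (le_refl 2)).1
    ((Nat.Coprime.pow_left n (by norm_num : Nat.Coprime 2 63)).dvd_of_dvd_mul_right hd)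
  have heq : Tc = Ps ⊔ Tc := Subgroup.eq_of_le_of_card_ge le_sup_right (by
    rw [hn]
    exact (Nat.pow_le_pow_right (by norm_num) hn7).trans hTge)
  have hσw : σ ∈ wStab := mem_wStab.2 fun w hw => by rw [hfix w hw]; exact hw
  have hmem : (⟨⟨σ, hσ⟩, Subgroup.mem_subgroupOf.2 hσw⟩ : St) ∈ Tc :=
    heq.ge (Subgroup.mem_sup_left hfix)
  exact hmem

theorem exists_lift_s {σ : Equiv.Perm Vec} (hσ : σ ∈ sSet) :
    ∃ v ∈ baseH S, S.rho v = σ ∧ v * v = 1 := by
  obtain ⟨hsq, hom, hcand, hfix, -⟩ := sSet_spec hσ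
  by_cases h1 : σ = 1
  · exact ⟨1, one_mem _, by rw [map_one, h1], one_mul 1⟩
  obtain ⟨a0, hA, -, ha⟩ := Invol.exists_a0
  obtain ⟨k, hk, hka⟩ := (Invol.invol_cases hcand hsq h1 ha).resolve_left fun h => by
    rw [hom] at h
    exact Invol.omP_ne_inv (mul_right_cancel h)
  obtain ⟨v0, -, hv0, hv02, hv0f⟩ := S.exists_lift hA ha
  obtain ⟨K, hK⟩ := S.K22_le hk
  refine ⟨K⁻¹ * v0 * K, Subgroup.mem_centralizer_iff.2 fun f hf => ?_, ?_, ?_⟩
  · obtain ⟨hfq, hfw⟩ := hf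
    have hfK : a0 (S.psi ⟨K * f * K⁻¹, (inferInstance : (pCore 2 Cz[z]).Normal).conj_mem _ hfq K⟩) =
        S.psi ⟨K * f * K⁻¹, (inferInstance : (pCore 2 Cz[z]).Normal).conj_mem _ hfq K⟩ := by
      rw [conj_psi S K ⟨f, hfq⟩, hK]
      have e := Equiv.Perm.ext_iff.1 hka (S.psi ⟨f, hfq⟩)
      rw [Equiv.Perm.mul_apply, Equiv.Perm.mul_apply, hfix _ hfw] at e
      exact e.symm
    have h : K * f * K⁻¹ * v0 = v0 * (K * f * K⁻¹) := hv0f _ hfK
    calc f * (K⁻¹ * v0 * K) = K⁻¹ * (K * f * K⁻¹ * v0) * K := by group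
      _ = K⁻¹ * v0 * K * f := by rw [h]; group
  · rw [map_mul, map_mul, map_inv, hK, hv0, mul_assoc, ← hka, inv_mul_cancel_left]
  · calc K⁻¹ * v0 * K * (K⁻¹ * v0 * K) = K⁻¹ * (v0 * v0) * K := by group
      _ = 1 := by rw [hv02, mul_one, inv_mul_cancel]

include hJ in
theorem rho_baseH : ((baseH S).map S.rho : Set (Equiv.Perm Vec)) = sSet := by
  ext σ
  constructor
  · rintro ⟨h, hh, rfl⟩
    exact point_mem hJ S (rho_mem hJ S h) (fix_of_baseH S hh)
  · intro hσ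
    obtain ⟨v, hv, hr, -⟩ := exists_lift_s S hσ
    exact ⟨v, hv, hr⟩

theorem sSet_ncard : sSet.ncard = 8 := by
  classical
  choose f _ hf _ _ hf1 using fun g : {g // g ∈ sList} => s_rep g.2
  have e : sSet = insert 1 (Set.range f) := by
    ext σ
    simp only [Set.mem_insert_iff, Set.mem_range]
    refine or_congr Iff.rfl ⟨?_, ?_⟩
    · rintro ⟨g, hg, hr⟩
      exact ⟨⟨g, hg⟩, (hf ⟨g, hg⟩).eq hr⟩
    · rintro ⟨g, rfl⟩
      exact ⟨g.1, g.2, hf g⟩
  have hinj : Function.Injective f := fun a b hab => by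
    have hn : ∀ g : {g // g ∈ sList}, comp g.1 idL = g.1 := fun g => by
      obtain ⟨i, hi, he⟩ := exists_getD [] g.2
      rw [s_facts.1] at hi
      rw [← he, ← (s_facts.2.2.1 i hi).2.1]
      exact ((normal_facts candJ_ok.normal_elems).2 _ (getD_mem [] (by
        rw [(par_facts candJ_ok).1]; exact (s_facts.2.2.1 i hi).1))).1
    exact Subtype.ext ((hf a).list_eq (hab ▸ hf b) (hn a) (hn b))
  rw [e, Set.ncard_insert_of_notMem (by rintro ⟨g, hg⟩; exact hf1 g hg),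
    Set.ncard_range_of_injective hinj, Nat.card_congr (Equiv.subtypeEquivRight (fun i => List.mem_toFinset.symm)),
    Nat.card_eq_fintype_card, Fintype.card_coe, List.toFinset_card_of_nodup s_facts.2.1, s_facts.1]

include hJ in
theorem card_baseH : Nat.card (baseH S) = 2 ^ 10 := by
  rw [S.D.card_split (baseH S), baseH_inf_q, card_pre,
    show Nat.card ((baseH S).map S.rho) = ((baseH S).map S.rho : Set (Equiv.Perm Vec)).ncard from
      (Nat.card_coe_set_eq _), rho_baseH hJ S, sSet_ncard]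
  norm_num

include hJ in
theorem baseH_sq {h : Cz[z]} (hh : h ∈ baseH S) : h * h = 1 := by
  have hσ : S.rho h ∈ sSet := (rho_baseH hJ S).le ⟨h, hh, rfl⟩
  obtain ⟨v, hv, hr, hv2⟩ := exists_lift_s S hσ
  have hw : v⁻¹ * h ∈ pre S := (baseH_inf_q S).le
    (Subgroup.mem_inf.2 ⟨mul_mem (inv_mem hv) hh, S.D.mem_q (by rw [map_mul, map_inv, hr, inv_mul_cancel])⟩)
  set w := v⁻¹ * h
  have hc : w * v = v * w := Subgroup.mem_centralizer_iff.1 hv w hw
  calc h * h = (v * w) * (v * w) := by rw [mul_inv_cancel_left]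
    _ = v * (w * v) * w := by group
    _ = (v * v) * (w * w) := by rw [hc]; group
    _ = 1 := by rw [hv2, pre_sq S hw, one_mul]

include hJ in
theorem baseH_comm {a b : Cz[z]} (ha : a ∈ baseH S) (hb : b ∈ baseH S) : a * b = b * a :=
  comm_of_sq (baseH_sq hJ S ha) (baseH_sq hJ S hb) (baseH_sq hJ S (mul_mem ha hb))

theorem pre_le_baseH : pre S ≤ baseH S := fun h hh => ((baseH_inf_q S).ge hh).1

theorem z_mem_base : z ∈ base S :=
  ⟨⟨z, Subgroup.mem_centralizer_singleton_iff.2 rfl⟩, pre_le_baseH S (z_mem_pre S), rfl⟩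

theorem base_le : base S ≤ Subgroup.centralizer ({z} : Set G) := Subgroup.map_subtype_le _

theorem mem_base {h : Cz[z]} : (h : G) ∈ base S ↔ h ∈ baseH S :=
  Subgroup.mem_map_iff_mem (Subgroup.subtype_injective _)

include hJ in
/-- It is elementary abelian of order `2^10` and contains the involution. -/
theorem base_elem : IsElementaryAbelian 2 (base S) ∧ Nat.card (base S) = 2 ^ 10 ∧ z ∈ base S := by
  refine ⟨⟨⟨⟨?_⟩⟩, ?_⟩, ?_, z_mem_base S⟩
  · rintro ⟨_, a, ha, rfl⟩ ⟨_, b, hb, rfl⟩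
    exact Subtype.ext (show (a : G) * b = b * a from congrArg Subtype.val (baseH_comm hJ S ha hb))
  · rintro _ ⟨a, ha, rfl⟩
    rw [pow_two]
    exact congrArg Subtype.val (baseH_sq hJ S ha)
  · rw [base, Subgroup.card_map_of_injective (Subgroup.subtype_injective _), card_baseH hJ S]

include hJ in
/-- It is its own centralizer. -/
theorem base_self : Subgroup.centralizer (base S : Set G) = base S := by
  refine le_antisymm (fun g hg => ?_) fun g hg => Subgroup.mem_centralizer_iff.2 fun b hb => ?_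
  · have hgz : g ∈ Subgroup.centralizer ({z} : Set G) :=
      Subgroup.mem_centralizer_singleton_iff.2 (Subgroup.mem_centralizer_iff.1 hg z (z_mem_base S)).symm
    refine (mem_base S (h := ⟨g, hgz⟩)).2 (Subgroup.mem_centralizer_iff.2 fun p hp => Subtype.ext ?_)
    exact Subgroup.mem_centralizer_iff.1 hg _ ⟨p, pre_le_baseH S hp, rfl⟩
  · obtain ⟨a, ha, rfl⟩ := hg
    obtain ⟨c, hc, rfl⟩ := hb
    exact congrArg Subtype.val (baseH_comm hJ S hc ha)

theorem conj_pre {h : Cz[z]} (hh : h ∈ stabH S) {p : Cz[z]} (hp : p ∈ pre S) : h * p * h⁻¹ ∈ pre S := by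
  obtain ⟨hq, hw⟩ := hp
  refine ⟨(inferInstance : (pCore 2 Cz[z]).Normal).conj_mem _ hq h, ?_⟩
  rw [conj_psi S h ⟨p, hq⟩]
  exact mem_wStab.1 hh _ hw

theorem conj_baseH {h : Cz[z]} (hh : h ∈ stabH S) {b : Cz[z]} (hb : b ∈ baseH S) :
    h * b * h⁻¹ ∈ baseH S := by
  refine Subgroup.mem_centralizer_iff.2 fun p hp => ?_
  have h1 : h⁻¹ * p * h⁻¹⁻¹ ∈ pre S := conj_pre S (inv_mem hh) hp
  rw [inv_inv] at h1
  have h2 := Subgroup.mem_centralizer_iff.1 hb _ h1
  calc p * (h * b * h⁻¹) = h * (h⁻¹ * p * h * b) * h⁻¹ := by group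
    _ = h * b * h⁻¹ * p := by rw [h2]; group

theorem q_le_stabH : pCore 2 Cz[z] ≤ stabH S := fun q hq => by
  rw [stabH, Subgroup.mem_comap, S.D.rho_q hq]
  exact one_mem _

/-- The stabiliser of the subspace is the normalizer inside the centralizer of the involution. -/
theorem normalizer_inf : Subgroup.normalizer (base S : Set G) ⊓ Subgroup.centralizer ({z} : Set G) =
    (stabH S).map (Subgroup.centralizer ({z} : Set G)).subtype := by
  refine le_antisymm ?_ ?_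
  · rintro g ⟨hg, hgz⟩
    refine ⟨⟨g, hgz⟩, mem_wStab.2 fun w hw => ?_, rfl⟩
    obtain ⟨p, rfl⟩ := S.D.psi_surj w
    rw [← conj_psi S]
    refine (mem_pre S).1 (centralizing_q S ?_)
    exact (mem_base S).1 ((Subgroup.mem_normalizer_iff.1 hg _).1
      ((mem_base S).2 (pre_le_baseH S ((mem_pre S).2 hw))))
  · rintro _ ⟨h, hh, rfl⟩
    refine ⟨?_, h.2⟩
    show (h : G) ∈ Subgroup.normalizer (base S : Set G)
    rw [Subgroup.mem_normalizer_iff_map_conj_eq]
    refine Subgroup.eq_of_le_of_card_ge ?_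
      (Nat.card_congr (Subgroup.equivMapOfInjective _ _ (MulAut.conj _).injective).toEquiv).le
    rintro _ ⟨_, ⟨b, hb, rfl⟩, rfl⟩
    exact ⟨h * b * h⁻¹, conj_baseH S hh hb, rfl⟩

include hJ in
/-- The order of the normalizer inside the centralizer of the involution. -/
theorem card_stabilizer :
    Nat.card ↥(Subgroup.normalizer (base S : Set G) ⊓ Subgroup.centralizer ({z} : Set G)) = 2 ^ 20 * 63 := by
  rw [normalizer_inf, Subgroup.card_map_of_injective (Subgroup.subtype_injective _), S.D.card_split,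
    inf_eq_right.2 (q_le_stabH S), S.D.card_q, stabH, Subgroup.map_comap_eq, range_eq hJ S]
  have h := card_stab (card_R22 hJ S)
  rw [← Nat.card_congr (Subgroup.subgroupOfEquivOfLe (inf_le_left : Mat.R22 ⊓ wStab ≤ Mat.R22)).toEquiv,
    show (Mat.R22 ⊓ wStab).subgroupOf Mat.R22 = wStab.subgroupOf Mat.R22 from by
      ext x
      simp [Subgroup.mem_subgroupOf], h]
  norm_num

/-! ### The orbit of the involution -/

theorem zOrbit_sub {v : G} (hv : v ∈ zOrbit z (base S)) : v ∈ base S := by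
  obtain ⟨n, hn, rfl⟩ := hv
  exact (Subgroup.mem_normalizer_iff.1 hn z).1 (z_mem_base S)

theorem z_mem_orbit : z ∈ zOrbit z (base S) := ⟨1, one_mem _, by simp⟩

theorem orbit_ne_one {v : G} (hv : v ∈ zOrbit z (base S)) : v ≠ 1 := by
  obtain ⟨n, -, rfl⟩ := hv
  exact fun e => S.D.z_ne (Subtype.ext (mul_eq_left.1 (mul_inv_eq_one.1 e)))

/-- The orbit inside the centralizer of the involution. -/
noncomputable def orbH : Set Cz[z] := {h | (h : G) ∈ zOrbit z (base S)}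

theorem orbH_sub {h : Cz[z]} (hh : h ∈ orbH S) : h ∈ baseH S := (mem_base S).1 (zOrbit_sub S hh)

theorem orbH_ncard : (orbH S).ncard = (zOrbit z (base S)).ncard := by
  rw [← Set.ncard_image_of_injective (orbH S) Subtype.val_injective]
  congr 1
  ext v
  refine ⟨?_, fun hv => ⟨⟨v, base_le S (zOrbit_sub S hv)⟩, hv, rfl⟩⟩
  rintro ⟨h, hh, rfl⟩
  exact hh

theorem conj_orbH {h : Cz[z]} (hh : h ∈ stabH S) {x : Cz[z]} (hx : x ∈ orbH S) :
    h * x * h⁻¹ ∈ orbH S := by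
  obtain ⟨n, hn, he⟩ := hx
  have hN : (h : G) ∈ Subgroup.normalizer (base S : Set G) :=
    ((normalizer_inf S).ge ⟨h, hh, rfl⟩).1
  exact ⟨(h : G) * n, mul_mem hN hn, by
    show (h : G) * n * z * ((h : G) * n)⁻¹ = (h : G) * (x : G) * (h : G)⁻¹
    rw [← he]
    group⟩

/-- The action of the extraspecial group on a set stable under conjugation. -/
@[reducible] noncomputable def qAct (X : Set Cz[z])
    (hX : ∀ f : pCore 2 Cz[z], ∀ x ∈ X, (f : Cz[z]) * x * (f : Cz[z])⁻¹ ∈ X) :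
    MulAction (pCore 2 Cz[z]) X where
  smul f x := ⟨(f : Cz[z]) * x * (f : Cz[z])⁻¹, hX f x x.2⟩
  one_smul x := Subtype.ext (show ((1 : pCore 2 Cz[z]) : Cz[z]) * x * ((1 : pCore 2 Cz[z]) : Cz[z])⁻¹ = x by simp)
  mul_smul f g x := Subtype.ext (show ((f * g : pCore 2 Cz[z]) : Cz[z]) * x * ((f * g : pCore 2 Cz[z]) : Cz[z])⁻¹ =
    (f : Cz[z]) * ((g : Cz[z]) * x * (g : Cz[z])⁻¹) * (f : Cz[z])⁻¹ by rw [Subgroup.coe_mul]; group)

/-- Inside the preimage, the extraspecial group moves everything but the centre. -/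
theorem exists_move {y : pCore 2 Cz[z]} (hy : (y : Cz[z]) ∈ pre S) (h0 : S.psi y ≠ 0) :
    ∃ f : pCore 2 Cz[z],
      (f : Cz[z]) * y * (f : Cz[z])⁻¹ = y * ⟨z, Subgroup.mem_centralizer_singleton_iff.2 rfl⟩ := by
  obtain ⟨hlt, hqu⟩ : enc (S.psi y) < 4096 ∧ qN (enc (S.psi y)) = true :=
    ⟨enc_lt _, (qN_enc _).2 (w_iso ((mem_pre S).1 hy))⟩
  have h := List.all_eq_true.1 perpOK_true _ ((mem_pre S).1 hy)
  simp only [Bool.or_eq_true, List.any_eq_true, Bool.not_eq_true'] at h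
  rcases h with h | ⟨e, he, h⟩
  · exact absurd (enc_injective ((Nat.eq_of_beq_eq_true h).trans enc_zero'.symm)) h0
  have he' : e < 4096 := by
    have : ∀ e ∈ idL, e < 4096 := by decide
    exact this e he
  obtain ⟨f, hf⟩ := S.D.psi_surj (vecN e)
  refine ⟨f, (S.D.eq_of_psi (a := ⟨(f : Cz[z]) * y * (f : Cz[z])⁻¹,
    (inferInstance : (pCore 2 Cz[z]).Normal).conj_mem _ y.2 f⟩) (b := y) ?_).resolve_left fun hc => ?_⟩
  · rw [conj_psi S f y, S.D.rho_q f.2]
    rfl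
  have hcomm := (S.D.comm_iff f y (Subtype.ext (pre_sq S hy))).1 (mul_inv_eq_iff_eq_mul.1 hc)
  have e' : enc (S.psi f + S.psi y) = Nat.xor e (enc (S.psi y)) := by
    rw [enc_add, hf, enc_vecN he']
    rfl
  rw [orth, ← e', qb_eq (enc_lt _), qb_eq he', show e = enc (S.psi f) by rw [hf, enc_vecN he'],
    beq_eq_false_iff_ne] at h
  refine h ?_
  cases h1 : qN (enc (S.psi f + S.psi y)) <;> cases h2 : qN (enc (S.psi f)) <;> first | rfl | exfalso
  · rw [Bool.eq_false_iff] at h1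
    exact h1 ((qN_enc _).2 (hcomm.trans ((qN_enc _).1 h2)))
  · rw [Bool.eq_false_iff] at h2
    exact h2 ((qN_enc _).2 (hcomm.symm.trans ((qN_enc _).1 h1)))

include hJ in
/-- **The orbit has odd length.** -/
theorem zOrbit_odd : Odd (zOrbit z (base S)).ncard := by
  classical
  rw [← orbH_ncard]
  haveI : Fact (Nat.Prime 2) := ⟨Nat.prime_two⟩
  letI := qAct (orbH S) (fun f x hx => conj_orbH S (q_le_stabH S f.2) hx)
  have hQ : IsPGroup 2 (pCore 2 Cz[z]) := IsPGroup.of_card (n := 13) (by rw [S.D.card_q]; norm_num)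
  have hmod := hQ.card_modEq_card_fixedPoints (orbH S)
  set zC : Cz[z] := ⟨z, Subgroup.mem_centralizer_singleton_iff.2 rfl⟩
  have hz : zC ∈ orbH S := z_mem_orbit S
  have hfix : MulAction.fixedPoints (pCore 2 Cz[z]) (orbH S) = {⟨zC, hz⟩} := by
    ext x
    simp only [MulAction.mem_fixedPoints, Set.mem_singleton_iff]
    constructor
    · intro hx
      have hall : ∀ f : pCore 2 Cz[z], (f : Cz[z]) * x.1 = x.1 * f := fun f =>
        mul_inv_eq_iff_eq_mul.1 (congrArg Subtype.val (hx f))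
      have hxQ : x.1 ∈ pCore 2 Cz[z] := by
        obtain ⟨-, -, -, hself, -⟩ := hJ
        obtain ⟨y, hy, hye⟩ := hself ⟨x.1.2, Subgroup.mem_centralizer_iff.2 fun e he => by
          obtain ⟨f, hf, rfl⟩ := he
          exact congrArg Subtype.val (hall ⟨f, hf⟩)⟩
        exact (Subtype.ext hye : y = x.1) ▸ hy
      have hxp : x.1 ∈ pre S := centralizing_q S (a := ⟨x.1, hxQ⟩) (orbH_sub S x.2)
      by_cases h0 : S.psi ⟨x.1, hxQ⟩ = 0
      · rcases (S.D.psi_ker _).1 h0 with h | h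
        · exact absurd (congrArg Subtype.val h) (orbit_ne_one S x.2)
        · exact Subtype.ext h
      · exfalso
        obtain ⟨f, hf⟩ := exists_move S (y := ⟨x.1, hxQ⟩) hxp h0
        rw [mul_inv_eq_iff_eq_mul.2 (hall f)] at hf
        exact S.D.z_ne (mul_eq_left.1 hf.symm)
    · rintro rfl f
      exact Subtype.ext (mul_inv_eq_iff_eq_mul.2 (S.D.z_central f))
  rw [hfix, Nat.card_coe_set_eq, Nat.card_coe_set_eq, Set.ncard_singleton] at hmod
  rw [Nat.odd_iff]
  exact hmod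

/-! ### The trace of the orbit on the preimage and outside it -/

theorem exists_sg (k : ℕ) (hk : k < 2) : ∃ g ∈ stabH S, Rep (sg k) (S.rho g) := by
  obtain ⟨g, hg⟩ := S.K22_le (word_mem (stabWords.getD k []))
  have hr : Rep (sg k) (S.rho g) := by rw [hg]; exact rep_word _
  refine ⟨g, mem_wStab.2 fun w hw => maps_w (fun t ht => ?_) hr hw, hr⟩
  have h := stabOK_true
  simp only [stabOK, Bool.and_eq_true, List.all_eq_true, List.mem_range, List.contains_iff_mem] at h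
  exact h.1.1.1.1.1.1.1.1.1 k hk t ht

/-- Elements of the orbit above one member of a tree give elements above the others, and back. -/
theorem tree_iff {l : List ℕ} {par : List (ℕ × ℕ)} (ht : treeUnder l par = true)
    (hl : ∀ u ∈ l, u ∈ wCodes ∧ u ≠ 0) {i : ℕ} (hi : i < l.length) :
    (∀ p ∈ pCore 2 Cz[z], ∀ hp : p ∈ pCore 2 Cz[z], enc (S.psi ⟨p, hp⟩) = l.getD i 0 → p ∈ orbH S) ↔
    (∀ p ∈ pCore 2 Cz[z], ∀ hp : p ∈ pCore 2 Cz[z], enc (S.psi ⟨p, hp⟩) = l.getD 0 0 → p ∈ orbH S) := by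
  induction i using Nat.strongRecOn with
  | ind i ih =>
    have h := List.all_eq_true.1 ht i (List.mem_range.2 hi)
    simp only [Bool.or_eq_true, Bool.and_eq_true, Nat.blt_eq] at h
    rcases h with h | ⟨⟨hp, hk⟩, he⟩
    · rw [Nat.eq_of_beq_eq_true h]
    · have he' := Nat.eq_of_beq_eq_true he
      obtain ⟨g, hg, hgr⟩ := exists_sg S _ hk
      rw [← ih _ hp (hp.trans hi)]
      have hcode : ∀ (p : Cz[z]) (hq : p ∈ pCore 2 Cz[z]),
          enc (S.psi ⟨g * p * g⁻¹, (inferInstance : (pCore 2 Cz[z]).Normal).conj_mem _ hq g⟩) =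
            apL (sg (par.getD i (0, 0)).2) (enc (S.psi ⟨p, hq⟩)) := fun p hq => by
        rw [conj_psi S g ⟨p, hq⟩]
        exact hgr _
      constructor
      · intro hall p _ hq hpe
        have h1 := hall (g * p * g⁻¹) ((inferInstance : (pCore 2 Cz[z]).Normal).conj_mem _ hq g)
          ((inferInstance : (pCore 2 Cz[z]).Normal).conj_mem _ hq g) (by rw [hcode p hq, hpe, he'])
        have h2 := conj_orbH S (inv_mem hg) h1
        rwa [show g⁻¹ * (g * p * g⁻¹) * g⁻¹⁻¹ = p by group] at h2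
      · intro hall p _ hq hpe
        have hq' : g⁻¹ * p * g⁻¹⁻¹ ∈ pCore 2 Cz[z] := (inferInstance : (pCore 2 Cz[z]).Normal).conj_mem _ hq _
        have hlc := hl _ (getD_mem 0 (show (par.getD i (0, 0)).1 < l.length by omega))
        have h1 : enc (S.psi ⟨g⁻¹ * p * g⁻¹⁻¹, hq'⟩) = l.getD (par.getD i (0, 0)).1 0 := by
          have e : S.psi ⟨g⁻¹ * p * g⁻¹⁻¹, hq'⟩ = (S.rho g)⁻¹ (S.psi ⟨p, hq⟩) := by
            rw [conj_psi S g⁻¹ ⟨p, hq⟩, map_inv]
          have e2 : S.psi ⟨p, hq⟩ = S.rho g (vecN (l.getD (par.getD i (0, 0)).1 0)) :=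
            enc_injective (by rw [rep_code hgr (w_facts.1 _ hlc.1).1, he', hpe])
          rw [e, e2, show (S.rho g)⁻¹ (S.rho g _) = _ from (S.rho g).symm_apply_apply _,
            enc_vecN (w_facts.1 _ hlc.1).1]
        have h2 := conj_orbH S hg (hall _ hq' hq' h1)
        rwa [show g * (g⁻¹ * p * g⁻¹⁻¹) * g⁻¹ = p by group] at h2

/-- The part of the preimage above a list of vectors. -/
noncomputable def above (l : List ℕ) : Set Cz[z] :=
  {p | ∃ hp : p ∈ pCore 2 Cz[z], enc (S.psi ⟨p, hp⟩) ∈ l}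

theorem mem_above {l : List ℕ} {a : pCore 2 Cz[z]} : (a : Cz[z]) ∈ above S l ↔ enc (S.psi a) ∈ l :=
  ⟨fun ⟨_, h⟩ => h, fun h => ⟨a.2, h⟩⟩

theorem above_ncard {l : List ℕ} (hn : l.Nodup) (hl : ∀ u ∈ l, u < 4096) :
    (above S l).ncard = 2 * l.length := by
  classical
  set zC : Cz[z] := ⟨z, Subgroup.mem_centralizer_singleton_iff.2 rfl⟩
  choose f hf using fun u : {u // u ∈ l} => S.D.psi_surj (vecN u.1)
  have e : above S l = Set.range fun ub : {u // u ∈ l} × Bool =>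
      (bif ub.2 then (f ub.1 : Cz[z]) * zC else (f ub.1 : Cz[z])) := by
    ext p
    constructor
    · rintro ⟨hp, hpl⟩
      rcases S.D.eq_of_psi (a := ⟨p, hp⟩) (b := f ⟨_, hpl⟩) (by rw [hf, vecN_enc]) with h | h
      · exact ⟨(⟨_, hpl⟩, false), h.symm⟩
      · exact ⟨(⟨_, hpl⟩, true), h.symm⟩
    · rintro ⟨⟨u, b⟩, rfl⟩
      cases b
      · exact ⟨(f u).2, show enc (S.psi (f u)) ∈ l by rw [hf, enc_vecN (hl _ u.2)]; exact u.2⟩
      · show (f u : Cz[z]) * zC ∈ above S l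
        rw [show (f u : Cz[z]) * zC = ((f u * ⟨zC, S.D.z_mem⟩ : pCore 2 Cz[z]) : Cz[z]) from rfl,
          mem_above, S.D.psi_mul, (S.D.psi_ker ⟨zC, S.D.z_mem⟩).2 (Or.inr rfl), add_zero, hf, enc_vecN (hl _ u.2)]
        exact u.2
  have hinj : Function.Injective fun ub : {u // u ∈ l} × Bool =>
      (bif ub.2 then (f ub.1 : Cz[z]) * zC else (f ub.1 : Cz[z])) := by
    rintro ⟨u, b⟩ ⟨u', b'⟩ h
    have hzq : ∀ u : {u // u ∈ l}, S.psi (f u * ⟨zC, S.D.z_mem⟩) = vecN u.1 := fun u => by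
      rw [S.D.psi_mul, (S.D.psi_ker ⟨zC, S.D.z_mem⟩).2 (Or.inr rfl), add_zero, hf]
    have key : vecN u.1 = vecN u'.1 := by
      cases b <;> cases b' <;> simp only [cond_true, cond_false] at h
      · rw [← hf u, ← hf u', show f u = f u' from Subtype.ext h]
      · rw [← hf u, ← hzq u', show f u = f u' * ⟨zC, S.D.z_mem⟩ from Subtype.ext h]
      · rw [← hzq u, ← hf u', show f u * ⟨zC, S.D.z_mem⟩ = f u' from Subtype.ext h]
      · rw [← hf u, ← hf u', show f u = f u' from Subtype.ext (mul_right_cancel h)]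
    have hu : u = u' := Subtype.ext (by
      rw [← enc_vecN (hl _ u.2), key, enc_vecN (hl _ u'.2)])
    subst hu
    cases b <;> cases b' <;> simp only [cond_true, cond_false] at h
    · rfl
    · exact absurd (mul_eq_left.1 h.symm) S.D.z_ne
    · exact absurd (mul_eq_left.1 h) S.D.z_ne
    · rfl
  rw [e, Set.ncard_range_of_injective hinj, Nat.card_prod,
    Nat.card_congr (Equiv.subtypeEquivRight (fun i => List.mem_toFinset.symm)),
    Nat.card_eq_fintype_card, Nat.card_eq_fintype_card, Fintype.card_coe, Fintype.card_bool,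
    List.toFinset_card_of_nodup hn, mul_comm]

theorem orb_facts : sigL.length = 21 ∧ restL.length = 42 ∧ (sigL ++ restL).Nodup ∧
    (∀ u ∈ sigL, u ∈ wCodes ∧ u ≠ 0) ∧ (∀ u ∈ restL, u ∈ wCodes ∧ u ≠ 0) ∧
    (∀ u ∈ wCodes, u = 0 ∨ u ∈ sigL ∨ u ∈ restL) ∧ treeUnder sigL sigPar = true ∧
    treeUnder restL restPar = true ∧
    ∀ i < 7, i = 0 ∨ ((sPar.getD i (0, 0)).1 < i ∧ (sPar.getD i (0, 0)).2 < 2 ∧
      comp (sg (sPar.getD i (0, 0)).2) (sList.getD (sPar.getD i (0, 0)).1 []) =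
        comp (sList.getD i []) (sg (sPar.getD i (0, 0)).2)) := by
  have h := stabOK_true
  simp only [stabOK, Bool.and_eq_true, List.all_eq_true, List.mem_range, List.contains_iff_mem,
    Bool.or_eq_true, Nat.blt_eq, beq_iff_eq, Bool.not_eq_true'] at h
  obtain ⟨⟨⟨⟨⟨⟨⟨⟨⟨-, h1⟩, h2⟩, h3⟩, h4⟩, h5⟩, h6⟩, h7⟩, h8⟩, h9⟩ := h
  refine ⟨Nat.eq_of_beq_eq_true h4, Nat.eq_of_beq_eq_true h5, nodupB_spec h6,
    fun u hu => ⟨(h7 u hu).1, fun e => ?_⟩, fun u hu => ⟨(h8 u hu).1, fun e => ?_⟩,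
    fun u hu => ?_, h1, h2, fun i hi => ?_⟩
  · have := (h7 u hu).2
    rw [e] at this
    exact absurd this (by decide)
  · have := (h8 u hu).2
    rw [e] at this
    exact absurd this (by decide)
  · rcases h9 u hu with (h | h) | h
    · exact Or.inl (Nat.eq_of_beq_eq_true h)
    · exact Or.inr (Or.inl h)
    · exact Or.inr (Or.inr h)
  · rcases h3 i hi with h | h
    · exact Or.inl (Nat.eq_of_beq_eq_true h)
    · exact Or.inr ⟨h.1.1, h.1.2, h.2⟩

/-- A list is wholly in the orbit or avoids it. -/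
theorem above_cases {l : List ℕ} {par : List (ℕ × ℕ)} (ht : treeUnder l par = true)
    (hl : ∀ u ∈ l, u ∈ wCodes ∧ u ≠ 0) : above S l ⊆ orbH S ∨ Disjoint (above S l) (orbH S) := by
  by_cases h0 : ∀ p ∈ pCore 2 Cz[z], ∀ hp : p ∈ pCore 2 Cz[z], enc (S.psi ⟨p, hp⟩) = l.getD 0 0 → p ∈ orbH S
  · left
    rintro p ⟨hp, hpl⟩
    obtain ⟨i, hi, he⟩ := exists_getD 0 hpl
    exact (tree_iff S ht hl hi).2 h0 p hp hp he.symm
  · right
    rw [Set.disjoint_left]
    rintro p ⟨hp, hpl⟩ hpO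
    obtain ⟨i, hi, he⟩ := exists_getD 0 hpl
    refine h0 ((tree_iff S ht hl hi).1 fun q _ hq hqe => ?_)
    rcases S.D.eq_of_psi (a := ⟨q, hq⟩) (b := ⟨p, hp⟩) (enc_injective (by rw [hqe, he])) with h | h
    · exact (show q = p from h) ▸ hpO
    · have hpw : p ∈ pre S := ⟨hp, (hl _ hpl).1⟩
      obtain ⟨f, hf⟩ := exists_move S (y := ⟨p, hp⟩) hpw fun e => (hl _ hpl).2 (by rw [e, enc_zero'])
      have := conj_orbH S (q_le_stabH S f.2) hpO
      rw [hf] at this
      exact (show q = p * _ from h) ▸ this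

/-- The members of the orbit above one involution. -/
noncomputable def fiber (σ : Equiv.Perm Vec) : Set Cz[z] := {x | x ∈ orbH S ∧ S.rho x = σ}

theorem fiber_conj {σ : Equiv.Perm Vec} {g : Cz[z]} (hg : g ∈ stabH S) :
    (fiber S σ).ncard = (fiber S (S.rho g * σ * (S.rho g)⁻¹)).ncard := by
  rw [← Set.ncard_image_of_injective (fiber S σ) (MulAut.conj g).injective]
  congr 1
  ext y
  constructor
  · rintro ⟨x, ⟨hx, hr⟩, rfl⟩
    exact ⟨conj_orbH S hg hx, by simp [MulAut.conj_apply, hr]⟩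
  · rintro ⟨hy, hr⟩
    refine ⟨g⁻¹ * y * g⁻¹⁻¹, ⟨conj_orbH S (inv_mem hg) hy, ?_⟩, ?_⟩
    · rw [map_mul, map_mul, map_inv, hr, map_inv, map_inv]
      group
    · rw [MulAut.conj_apply]
      group

theorem fiber_index {i : ℕ} (hi : i < 7) {σ τ : Equiv.Perm Vec} (hσ : Rep (sList.getD i []) σ)
    (hτ : Rep (sList.getD 0 []) τ) : (fiber S σ).ncard = (fiber S τ).ncard := by
  induction i using Nat.strongRecOn generalizing σ with
  | ind i ih =>
    rcases orb_facts.2.2.2.2.2.2.2.2 i hi with h | ⟨hp, hk, he⟩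
    · subst h
      rw [hσ.eq hτ]
    · obtain ⟨g, hg, hgr⟩ := exists_sg S _ hk
      obtain ⟨υ, -, hυ, -⟩ := s_rep (getD_mem [] (show (sPar.getD i (0, 0)).1 < sList.length by
        rw [s_facts.1]; omega))
      have e : S.rho g * υ = σ * S.rho g := (hgr.mul hυ).eq (he ▸ hσ.mul hgr)
      rw [← ih _ hp (by omega) hυ, fiber_conj S hg (σ := υ), e, mul_inv_cancel_right]

/-- The commutators of a member outside the extraspecial group. -/
theorem fiber_spec {i : ℕ} (hi : i < 7) {σ : Equiv.Perm Vec} (hσ : Rep (sList.getD i []) σ) :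
    16 ∣ (fiber S σ).ncard ∧ ((fiber S σ).ncard = 16 → ∀ x ∈ fiber S σ,
      x * ⟨z, Subgroup.mem_centralizer_singleton_iff.2 rfl⟩ ∉ fiber S σ) := by
  classical
  have hq : ∀ f : pCore 2 Cz[z], ∀ x ∈ fiber S σ, (f : Cz[z]) * x * (f : Cz[z])⁻¹ ∈ fiber S σ :=
    fun f x hx => ⟨conj_orbH S (q_le_stabH S f.2) hx.1, by
      rw [map_mul, map_mul, map_inv, S.D.rho_q f.2, hx.2, inv_one, one_mul, mul_one]⟩
  letI := qAct (fiber S σ) hq
  obtain ⟨himl, him4, hnd⟩ := s_facts.2.2.2.2.2 i hi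
  choose f hf using fun v : {v // v ∈ imPre.getD i []} => S.D.psi_surj (vecN v.1)
  have hdiff : ∀ x ∈ fiber S σ, ∀ v : {v // v ∈ imPre.getD i []},
      ∀ hm : x⁻¹ * ((f v : Cz[z]) * x * (f v : Cz[z])⁻¹) ∈ pCore 2 Cz[z],
      enc (S.psi ⟨_, hm⟩) = apL (sList.getD i []) v.1 ^^^ v.1 := by
    intro x hx v hm
    have hc : x⁻¹ * (f v : Cz[z]) * x⁻¹⁻¹ ∈ pCore 2 Cz[z] :=
      (inferInstance : (pCore 2 Cz[z]).Normal).conj_mem _ (f v).2 _
    have e : (⟨_, hm⟩ : pCore 2 Cz[z]) = ⟨_, hc⟩ * (f v)⁻¹ := Subtype.ext (by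
      show x⁻¹ * ((f v : Cz[z]) * x * (f v : Cz[z])⁻¹) = x⁻¹ * (f v : Cz[z]) * x⁻¹⁻¹ * (f v : Cz[z])⁻¹
      group)
    have hinv : S.psi (f v)⁻¹ = S.psi (f v) := by
      have h := S.D.psi_mul (f v) (f v)⁻¹
      rw [mul_inv_cancel, S.D.psi_one] at h
      calc S.psi (f v)⁻¹ = S.psi (f v) + (S.psi (f v) + S.psi (f v)⁻¹) := by
            rw [← add_assoc, LargeFischer.Thompson.vec_self, zero_add]
        _ = S.psi (f v) := by rw [← h, add_zero]
    obtain ⟨τ, -, hτ, hsq, -⟩ := s_rep (getD_mem [] (show i < sList.length by rw [s_facts.1]; exact hi))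
    have hσi : σ⁻¹ = σ := inv_eq_of_mul_eq_one_right (by rw [hσ.eq hτ, hsq])
    rw [e, S.D.psi_mul, conj_psi S x⁻¹ (f v), map_inv, hx.2, hσi, hinv, enc_add, hσ (S.psi (f v)), hf,
      enc_vecN (him4 _ v.2)]
  have hinj : ∀ x ∈ fiber S σ, Function.Injective fun v : {v // v ∈ imPre.getD i []} =>
      (f v : Cz[z]) * x * (f v : Cz[z])⁻¹ := by
    intro x hx v w h
    simp only at h
    have hm : ∀ u : {v // v ∈ imPre.getD i []}, x⁻¹ * ((f u : Cz[z]) * x * (f u : Cz[z])⁻¹) ∈ pCore 2 Cz[z] :=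
      fun u => by
        rw [show x⁻¹ * ((f u : Cz[z]) * x * (f u : Cz[z])⁻¹) =
          x⁻¹ * (f u : Cz[z]) * x⁻¹⁻¹ * (f u : Cz[z])⁻¹ by group]
        exact mul_mem ((inferInstance : (pCore 2 Cz[z]).Normal).conj_mem _ (f u).2 _) (inv_mem (f u).2)
    have he : apL (sList.getD i []) v.1 ^^^ v.1 = apL (sList.getD i []) w.1 ^^^ w.1 := by
      rw [← hdiff x hx v (hm v), ← hdiff x hx w (hm w)]
      congr 2
      exact Subtype.ext (congrArg (x⁻¹ * ·) h)
    exact Subtype.ext (List.inj_on_of_nodup_map hnd v.2 w.2 he)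
  have hv16 : Nat.card {v // v ∈ imPre.getD i []} = 16 := by
    have hn : (imPre.getD i []).Nodup := List.Nodup.of_map _ hnd
    rw [Nat.card_congr (Equiv.subtypeEquivRight (fun i => List.mem_toFinset.symm)),
      Nat.card_eq_fintype_card, Fintype.card_coe, List.toFinset_card_of_nodup hn, himl]
  have horb : ∀ x : fiber S σ, 16 ∣ Nat.card (MulAction.orbit (pCore 2 Cz[z]) x) := by
    intro x
    have hge : 16 ≤ Nat.card (MulAction.orbit (pCore 2 Cz[z]) x) := by
      refine hv16.symm.le.trans (Nat.card_le_card_of_injective (fun v => ⟨f v • x, MulAction.mem_orbit _ _⟩) ?_)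
      intro v w h
      exact hinj x.1 x.2 (congrArg (fun y : MulAction.orbit (pCore 2 Cz[z]) x => ((y.1 : fiber S σ) : Cz[z])) h)
    have hd : Nat.card (MulAction.orbit (pCore 2 Cz[z]) x) ∣ 2 ^ 13 := by
      rw [Nat.card_coe_set_eq, ← MulAction.index_stabilizer, show (2 : ℕ) ^ 13 = 8192 by norm_num, ← S.D.card_q]
      exact Subgroup.index_dvd_card _
    obtain ⟨k, -, hk⟩ := (Nat.dvd_prime_pow Nat.prime_two).1 hd
    rw [hk] at hge ⊢
    have : 4 ≤ k := by
      by_contra hc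
      have : 2 ^ k ≤ 2 ^ 3 := Nat.pow_le_pow_right (by norm_num) (by omega)
      omega
    exact Nat.pow_dvd_pow 2 this
  refine ⟨?_, fun h16 x hx hxz => ?_⟩
  · rw [← Nat.card_coe_set_eq, Nat.card_congr (MulAction.selfEquivSigmaOrbits (pCore 2 Cz[z]) (fiber S σ))]
    haveI := Fintype.ofFinite (MulAction.orbitRel.Quotient (pCore 2 Cz[z]) (fiber S σ))
    rw [Nat.card_sigma]
    exact Finset.dvd_sum fun o _ => horb _
  · set zC : Cz[z] := ⟨z, Subgroup.mem_centralizer_singleton_iff.2 rfl⟩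
    let F : {v // v ∈ imPre.getD i []} → Cz[z] := fun v => (f v : Cz[z]) * x * (f v : Cz[z])⁻¹
    have himg : fiber S σ = Set.range F := by
      refine (Set.eq_of_subset_of_ncard_le ?_ ?_ (Set.toFinite _)).symm
      · rintro _ ⟨v, rfl⟩
        exact hq (f v) x hx
      · rw [h16, Set.ncard_range_of_injective (hinj x hx), hv16]
    obtain ⟨v, hv⟩ := himg.le hxz
    obtain ⟨w, hw⟩ := himg.le hx
    have hmv : x⁻¹ * F v ∈ pCore 2 Cz[z] := by rw [hv, inv_mul_cancel_left]; exact S.D.z_mem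
    have hmw : x⁻¹ * F w ∈ pCore 2 Cz[z] := by rw [hw, inv_mul_cancel]; exact one_mem _
    have h1 : enc (S.psi ⟨_, hmv⟩) = 0 := by
      rw [(S.D.psi_ker _).2 (Or.inr (show x⁻¹ * F v = zC by rw [hv, inv_mul_cancel_left])), enc_zero']
    have h2 : enc (S.psi ⟨_, hmw⟩) = 0 := by
      rw [(S.D.psi_ker _).2 (Or.inl (show x⁻¹ * F w = 1 by rw [hw, inv_mul_cancel])), enc_zero']
    rw [hdiff x hx v hmv] at h1
    rw [hdiff x hx w hmw] at h2
    have hvw : v = w := Subtype.ext (List.inj_on_of_nodup_map hnd v.2 w.2 (h1.trans h2.symm))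
    rw [hvw, hw] at hv
    exact S.D.z_ne (mul_eq_left.1 hv.symm)

include hJ in
/-- The orbit of length 155: the 42 members above the shorter list, and the separation outside. -/
theorem orbit_struct (h155 : (zOrbit z (base S)).ncard = 155) :
    (∀ x, x ∈ orbH S → x ∈ pCore 2 Cz[z] →
      x = ⟨z, Subgroup.mem_centralizer_singleton_iff.2 rfl⟩ ∨ x ∈ above S sigL) ∧
    above S sigL ⊆ orbH S ∧
    ∀ x, x ∈ orbH S → x ∉ pCore 2 Cz[z] →
      x * ⟨z, Subgroup.mem_centralizer_singleton_iff.2 rfl⟩ ∉ orbH S := by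
  classical
  set zC : Cz[z] := ⟨z, Subgroup.mem_centralizer_singleton_iff.2 rfl⟩ with hzC
  obtain ⟨hs21, hr42, hnd, hsl, hrl, hcov, hts, htr, -⟩ := orb_facts
  obtain ⟨hnds, hndr, hdisj⟩ := List.nodup_append.1 hnd
  choose τ _ hτ _ hτom hτ1 using fun i : Fin 7 => s_rep (getD_mem [] (show (i : ℕ) < sList.length by
    rw [s_facts.1]; exact i.2))
  let c := (fiber S (τ 0)).ncard
  have hc : ∀ i : Fin 7, (fiber S (τ i)).ncard = c := fun i => fiber_index S i.2 (hτ i) (hτ 0)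
  -- the members outside the extraspecial group
  have hout : {x | x ∈ orbH S ∧ x ∉ pCore 2 Cz[z]} = ⋃ i, fiber S (τ i) := by
    ext x
    simp only [Set.mem_ofPred_eq, Set.mem_iUnion]
    constructor
    · rintro ⟨hx, hxq⟩
      rcases (rho_baseH hJ S).le ⟨x, orbH_sub S hx, rfl⟩ with h | ⟨g, hg, hr⟩
      · exact absurd (S.D.mem_q h) hxq
      · obtain ⟨i, hi, rfl⟩ := exists_getD [] hg
        rw [s_facts.1] at hi
        exact ⟨⟨i, hi⟩, hx, hr.eq (hτ ⟨i, hi⟩)⟩
    · rintro ⟨i, hx, hr⟩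
      exact ⟨hx, fun hq => hτ1 i (hr ▸ S.D.rho_q hq)⟩
  have hτinj : Function.Injective τ := fun i j hij => by
    have hn : ∀ i : Fin 7, comp (sList.getD i []) idL = sList.getD i [] := fun i => by
      rw [← (s_facts.2.2.1 i i.2).2.1]
      exact ((normal_facts candJ_ok.normal_elems).2 _ (getD_mem [] (by
        rw [(par_facts candJ_ok).1]; exact (s_facts.2.2.1 i i.2).1))).1
    have h := (hτ i).list_eq (hij ▸ hτ j) (hn i) (hn j)
    rw [List.getD_eq_getElem _ [] (by rw [s_facts.1]; exact i.2),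
      List.getD_eq_getElem _ [] (by rw [s_facts.1]; exact j.2)] at h
    exact Fin.ext ((List.Nodup.getElem_inj_iff s_facts.2.1).1 h)
  have houtc : {x | x ∈ orbH S ∧ x ∉ pCore 2 Cz[z]}.ncard = 7 * c := by
    rw [hout, Set.ncard_iUnion_of_finite (fun i => Set.toFinite _), finsum_eq_sum_of_fintype]
    · rw [Finset.sum_congr rfl (fun i _ => hc i), Finset.sum_const, Finset.card_univ, Fintype.card_fin,
        smul_eq_mul]
    · intro i j hij
      rw [Function.onFun, Set.disjoint_left]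
      rintro x ⟨-, h1⟩ ⟨-, h2⟩
      exact hij (hτinj (h1.symm.trans h2))
  -- the members inside
  have hin : ∀ x, x ∈ orbH S → x ∈ pCore 2 Cz[z] → x = zC ∨ x ∈ above S sigL ∨ x ∈ above S restL := by
    intro x hx hq
    have hxp : x ∈ pre S := centralizing_q S (a := ⟨x, hq⟩) (orbH_sub S hx)
    rcases hcov _ ((mem_pre S (a := ⟨x, hq⟩)).1 hxp) with h | h | h
    · rcases (S.D.psi_ker ⟨x, hq⟩).1 (enc_injective (h.trans enc_zero'.symm)) with e | e
      · exact absurd (congrArg Subtype.val e) (orbit_ne_one S hx)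
      · exact Or.inl e
    · exact Or.inr (Or.inl ⟨hq, h⟩)
    · exact Or.inr (Or.inr ⟨hq, h⟩)
  have hzO : zC ∈ orbH S := z_mem_orbit S
  set U := above S sigL ∩ orbH S with hU
  set V := above S restL ∩ orbH S with hV
  have hz0 : ∀ l : List ℕ, (∀ u ∈ l, u ∈ wCodes ∧ u ≠ 0) → zC ∉ above S l := by
    rintro l hl ⟨hp, hpl⟩
    exact (hl _ hpl).2 (by rw [(S.D.psi_ker _).2 (Or.inr rfl), enc_zero'])
  have hsplit : (orbH S).ncard = 1 + U.ncard + V.ncard + 7 * c := by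
    have e : orbH S = (({zC} ∪ U) ∪ V) ∪ {x | x ∈ orbH S ∧ x ∉ pCore 2 Cz[z]} := by
      ext x
      constructor
      · intro hx
        by_cases hq : x ∈ pCore 2 Cz[z]
        · rcases hin x hx hq with h | h | h
          · exact Or.inl (Or.inl (Or.inl h))
          · exact Or.inl (Or.inl (Or.inr ⟨h, hx⟩))
          · exact Or.inl (Or.inr ⟨h, hx⟩)
        · exact Or.inr ⟨hx, hq⟩
      · rintro (((h | h) | h) | h)
        · rw [Set.mem_singleton_iff.1 h]; exact hzO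
        · exact h.2
        · exact h.2
        · exact h.1
    conv_lhs => rw [e]
    rw [Set.ncard_union_eq, Set.ncard_union_eq, Set.ncard_union_eq, Set.ncard_singleton, houtc]
    · rw [Set.disjoint_singleton_left]
      exact fun h => hz0 _ hsl h.1
    · rw [Set.disjoint_left]
      rintro x (rfl | ⟨⟨hq, h1⟩, -⟩) ⟨⟨hq', h2⟩, -⟩
      · exact hz0 _ hrl ⟨hq', h2⟩
      · exact hdisj _ h1 _ h2 rfl
    · rw [Set.disjoint_left]
      rintro x ((rfl | ⟨⟨hq, -⟩, -⟩) | ⟨⟨hq, -⟩, -⟩) ⟨-, hn⟩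
      · exact hn S.D.z_mem
      · exact hn hq
      · exact hn hq
  rw [orbH_ncard, h155] at hsplit
  obtain ⟨h16, hsep⟩ := fiber_spec S (i := 0) (by norm_num) (hτ 0)
  have h16' : 16 ∣ c := h16
  have hUc : U.ncard = 42 ∨ U.ncard = 0 := by
    rcases above_cases S hts hsl with h | h
    · left
      rw [hU, Set.inter_eq_left.2 h, above_ncard S hnds (fun u hu => (w_facts.1 u (hsl u hu).1).1), hs21]
    · right
      rw [hU, Set.disjoint_iff_inter_eq_empty.1 h, Set.ncard_empty]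
  have hVc : V.ncard = 84 ∨ V.ncard = 0 := by
    rcases above_cases S htr hrl with h | h
    · left
      rw [hV, Set.inter_eq_left.2 h, above_ncard S hndr (fun u hu => (w_facts.1 u (hrl u hu).1).1), hr42]
    · right
      rw [hV, Set.disjoint_iff_inter_eq_empty.1 h, Set.ncard_empty]
  obtain ⟨hc16, hU42, hV0⟩ : c = 16 ∧ U.ncard = 42 ∧ V.ncard = 0 := by
    obtain ⟨d, hd⟩ := h16'
    rcases hUc with h | h <;> rcases hVc with h' | h' <;> rw [h, h'] at hsplit <;> omega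
  refine ⟨fun x hx hq => ?_, fun x hx => ?_, fun x hx hq hxz => ?_⟩
  · rcases hin x hx hq with h | h | h
    · exact Or.inl h
    · exact Or.inr h
    · exfalso
      rw [Set.ncard_eq_zero (Set.toFinite _)] at hV0
      exact hV0.le (show x ∈ V from ⟨h, hx⟩)
  · rcases above_cases S hts hsl with h | h
    · exact h hx
    · exfalso
      rw [hU, Set.disjoint_iff_inter_eq_empty.1 h, Set.ncard_empty] at hU42
      omega
  · obtain ⟨i, hi⟩ := Set.mem_iUnion.1 (hout.le (show x ∈ {x | x ∈ orbH S ∧ x ∉ pCore 2 Cz[z]} from ⟨hx, hq⟩))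
    refine (fiber_spec S i.2 (hτ i)).2 ((hc i).trans hc16) x hi ⟨hxz, ?_⟩
    rw [map_mul, hi.2, S.D.rho_q S.D.z_mem, mul_one]

theorem quad_facts : quadL.length = 3 ∧
    (∀ l ∈ quadL, l.length = 8 ∧ l.Nodup ∧ 0 ∈ l ∧ (∀ u ∈ l, u = 0 ∨ u ∈ sigL) ∧
      ∀ u ∈ l, ∀ v ∈ l, u ^^^ v ∈ l) ∧
    (∀ i < 3, ∀ j < i, ∀ u ∈ quadL.getD i [], u = 0 ∨ u ∉ quadL.getD j []) ∧
    (∀ u ∈ sigL, ∃ l ∈ quadL, u ∈ l) ∧
    ∀ a ∈ sigL, ∀ b ∈ sigL, a ≠ b → a ^^^ b ∈ sigL → ∀ c ∈ sigL, c ≠ a → c ≠ b → c ≠ a ^^^ b →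
      a ^^^ c ∈ sigL → b ^^^ c ∈ sigL → a ^^^ b ^^^ c ∈ sigL →
      ∃ l ∈ quadL, a ∈ l ∧ b ∈ l ∧ c ∈ l := by
  have h := quadsOK_true
  simp only [quadsOK, Bool.and_eq_true, List.all_eq_true, List.mem_range, List.any_eq_true, Bool.or_eq_true,
    List.contains_iff_mem, Bool.not_eq_true'] at h
  obtain ⟨⟨⟨⟨h1, h2⟩, h3⟩, h4⟩, h5⟩ := h
  refine ⟨Nat.eq_of_beq_eq_true h1, fun l hl => ?_, fun i hi j hj u hu => ?_, h4, ?_⟩
  · obtain ⟨⟨⟨⟨e1, e2⟩, e3⟩, e4⟩, e5⟩ := h2 l hl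
    exact ⟨Nat.eq_of_beq_eq_true e1, nodupB_spec e2, e3,
      fun u hu => (e4 u hu).imp_left Nat.eq_of_beq_eq_true, e5⟩
  · rcases h3 i hi j hj u hu with h | h
    · exact Or.inl (Nat.eq_of_beq_eq_true h)
    · refine Or.inr fun hm => ?_
      rw [List.contains_iff_mem.2 hm] at h
      exact Bool.false_ne_true h.symm
  · intro a ha b hb hab hab' c hc hca hcb hcab h1' h2' h3'
    have hno : ∀ {p q : ℕ}, p ≠ q → Nat.beq p q ≠ true := fun hpq e => hpq (Nat.eq_of_beq_eq_true e)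
    have hnc : ∀ {p : ℕ}, p ∈ sigL → sigL.contains p ≠ false := fun hp e => by
      rw [List.contains_iff_mem.2 hp] at e
      exact Bool.false_ne_true e.symm
    rcases h5 a ha b hb with (h | h) | h
    · exact absurd h (hno hab)
    · exact absurd h (hnc hab')
    rcases h c hc with (((((h | h) | h) | h) | h) | h) | h
    · exact absurd h (hno hca)
    · exact absurd h (hno hcb)
    · exact absurd h (hno hcab)
    · exact absurd h (hnc h1')
    · exact absurd h (hnc h2')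
    · exact absurd h (hnc h3')
    · obtain ⟨l, hl, ⟨hal, hbl⟩, hcl⟩ := h
      exact ⟨l, hl, hal, hbl, hcl⟩

/-- The subgroup above a member of the shorter orbit's subspaces. -/
noncomputable def quadH (i : Fin 3) : Subgroup Cz[z] where
  carrier := above S (quadL.getD i [])
  one_mem' := ⟨one_mem _, by
    rw [show (⟨1, one_mem _⟩ : pCore 2 Cz[z]) = 1 from rfl, S.D.psi_one, enc_zero']
    exact (quad_facts.2.1 _ (getD_mem [] (by rw [quad_facts.1]; exact i.2))).2.2.1⟩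
  mul_mem' := by
    rintro a b ⟨ha, ha'⟩ ⟨hb, hb'⟩
    refine ⟨mul_mem ha hb, ?_⟩
    rw [show (⟨a * b, mul_mem ha hb⟩ : pCore 2 Cz[z]) = ⟨a, ha⟩ * ⟨b, hb⟩ from rfl, S.D.psi_mul, enc_add]
    exact (quad_facts.2.1 _ (getD_mem [] (by rw [quad_facts.1]; exact i.2))).2.2.2.2 _ ha' _ hb'
  inv_mem' := by
    rintro a ⟨ha, ha'⟩
    refine ⟨inv_mem ha, ?_⟩
    have h := S.D.psi_mul ⟨a, ha⟩ ⟨a⁻¹, inv_mem ha⟩
    rw [show (⟨a, ha⟩ : pCore 2 Cz[z]) * ⟨a⁻¹, inv_mem ha⟩ = 1 from Subtype.ext (mul_inv_cancel a),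
      S.D.psi_one] at h
    rw [show S.psi ⟨a⁻¹, inv_mem ha⟩ = S.psi ⟨a, ha⟩ + (S.psi ⟨a, ha⟩ + S.psi ⟨a⁻¹, inv_mem ha⟩) by
      rw [← add_assoc, LargeFischer.Thompson.vec_self, zero_add], ← h, add_zero]
    exact ha'

include hJ in
/-- **The data at the involution for the recognition.** -/
theorem geo_data (h155 : (zOrbit z (base S)).ncard = 155) : ∃ T : Fin 3 → Subgroup G,
    (∀ i, T i ≤ base S ∧ z ∈ T i ∧ Nat.card (T i) = 16 ∧ ∀ x ∈ T i, x ≠ 1 → x ∈ zOrbit z (base S)) ∧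
    (∀ i j, i ≠ j → ∀ x ∈ T i, x ∈ T j → x = 1 ∨ x = z) ∧
    (∀ U : Subgroup G, U ≤ base S → Nat.card U = 16 → z ∈ U →
      (∀ x ∈ U, x ≠ 1 → x ∈ zOrbit z (base S)) → ∃ i, U = T i) ∧
    (∀ i j, i ≠ j → ∀ x ∈ zOrbit z (base S), x ∈ T i ⊔ T j → ∃ k, x ∈ T k) := by
  classical
  obtain ⟨hin, hsig, hsep⟩ := orbit_struct hJ S h155
  set zC : Cz[z] := ⟨z, Subgroup.mem_centralizer_singleton_iff.2 rfl⟩ with hzC
  obtain ⟨hq3, hql, hqd, hqc, hqt⟩ := quad_facts
  have hmem : ∀ i : Fin 3, quadL.getD i [] ∈ quadL := fun i => getD_mem [] (by rw [hq3]; exact i.2)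
  have hqw : ∀ i : Fin 3, ∀ u ∈ quadL.getD i [], u ∈ wCodes := fun i u hu => by
    rcases (hql _ (hmem i)).2.2.2.1 u hu with h | h
    · rw [h]; exact w_facts.2.2.2.2.1
    · exact (orb_facts.2.2.2.1 u h).1
  have hzero : ∀ {p : Cz[z]} (hp : p ∈ pCore 2 Cz[z]), enc (S.psi ⟨p, hp⟩) = 0 → p = 1 ∨ p = zC :=
    fun hp e => (S.D.psi_ker ⟨_, hp⟩).1 (enc_injective (e.trans enc_zero'.symm))
  have hpre : ∀ i, quadH S i ≤ pre S := fun i p ⟨hp, hpl⟩ => ⟨hp, hqw i _ hpl⟩
  have hzq : ∀ i, zC ∈ quadH S i := fun i => ⟨S.D.z_mem, by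
    rw [(S.D.psi_ker _).2 (Or.inr rfl), enc_zero']
    exact (hql _ (hmem i)).2.2.1⟩
  have hc16 : ∀ i, Nat.card (quadH S i) = 16 := fun i => by
    show Nat.card (above S (quadL.getD i [])) = 16
    rw [Nat.card_coe_set_eq, above_ncard S (hql _ (hmem i)).2.1 (fun u hu => (w_facts.1 u (hqw i u hu)).1),
      (hql _ (hmem i)).1]
  refine ⟨fun i => (quadH S i).map (Subgroup.centralizer ({z} : Set G)).subtype,
    fun i => ⟨?_, ⟨zC, hzq i, rfl⟩, ?_, ?_⟩, ?_, ?_, ?_⟩
  · exact Subgroup.map_mono ((hpre i).trans (pre_le_baseH S))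
  · rw [Subgroup.card_map_of_injective (Subgroup.subtype_injective _), hc16]
  · rintro _ ⟨p, ⟨hp, hpl⟩, rfl⟩ h1
    rcases (hql _ (hmem i)).2.2.2.1 _ hpl with h | h
    · rcases hzero hp h with e | e
      · exact absurd (congrArg Subtype.val e) h1
      · subst e
        exact z_mem_orbit S
    · exact hsig ⟨hp, h⟩
  · rintro i j hij _ ⟨p, ⟨hp, hpi⟩, rfl⟩ ⟨q, ⟨hq, hqj⟩, hqe⟩
    have e : q = p := Subtype.ext hqe
    subst e
    have key : ∀ a b : Fin 3, (b : ℕ) < a → enc (S.psi ⟨q, hp⟩) ∈ quadL.getD a [] →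
        enc (S.psi ⟨q, hp⟩) ∈ quadL.getD b [] → enc (S.psi ⟨q, hp⟩) = 0 := fun a b hba ha hb =>
      (hqd a a.2 b hba _ ha).resolve_right fun hn => hn hb
    have h0 : enc (S.psi ⟨q, hp⟩) = 0 := by
      rcases lt_or_gt_of_ne (fun e => hij (Fin.ext e) : (i : ℕ) ≠ j) with h | h
      · exact key j i h hqj hpi
      · exact key i j h hpi hqj
    rcases hzero hp h0 with e | e
    · exact Or.inl (congrArg Subtype.val e)
    · exact Or.inr (congrArg Subtype.val e)
  · intro U hU hUc hzU hUO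
    set U' : Subgroup Cz[z] := U.subgroupOf (Subgroup.centralizer ({z} : Set G)) with hU'
    have hUle : U ≤ Subgroup.centralizer ({z} : Set G) := hU.trans (base_le S)
    have hU'c : Nat.card U' = 16 := by
      rw [hU', Nat.card_congr (Subgroup.subgroupOfEquivOfLe hUle).toEquiv, hUc]
    have hzU' : zC ∈ U' := Subgroup.mem_subgroupOf.2 hzU
    have hO' : ∀ p ∈ U', p ≠ 1 → p ∈ orbH S := fun p hp h1 =>
      hUO _ (Subgroup.mem_subgroupOf.1 hp) fun e => h1 (Subtype.ext e)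
    have hUQ : U' ≤ pCore 2 Cz[z] := fun p hp => by
      by_contra hq
      have hp1 : p ≠ 1 := fun e => hq (e ▸ one_mem _)
      have hpz : p * zC ≠ 1 := fun e => hq (by
        rw [eq_inv_of_mul_eq_one_left e]
        exact inv_mem S.D.z_mem)
      exact hsep p (hO' p hp hp1) hq (hO' _ (mul_mem hp hzU') hpz)
    set D : Set ℕ := {u | ∃ p, ∃ hp : p ∈ U', enc (S.psi ⟨p, hUQ hp⟩) = u} with hD
    have hDfin : D.Finite := (Set.finite_Iio 4096).subset fun u ⟨p, hp, e⟩ => e ▸ enc_lt _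
    have hDc : D.ncard = 8 := by
      have h := (S.D.card_sub U' hUQ).2 hzU'
      have e : D = enc '' (S.psi '' {a : pCore 2 Cz[z] | (a : Cz[z]) ∈ U'}) := by
        ext u
        constructor
        · rintro ⟨p, hp, rfl⟩
          exact ⟨_, ⟨⟨p, hUQ hp⟩, hp, rfl⟩, rfl⟩
        · rintro ⟨_, ⟨a, ha, rfl⟩, rfl⟩
          exact ⟨a, ha, rfl⟩
      rw [e, Set.ncard_image_of_injective _ enc_injective]
      omega
    have hD0 : (0 : ℕ) ∈ D := ⟨1, one_mem _, by
      rw [show (⟨1, hUQ (one_mem U')⟩ : pCore 2 Cz[z]) = 1 from rfl, S.D.psi_one, enc_zero']⟩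
    have hDx : ∀ u ∈ D, ∀ v ∈ D, u ^^^ v ∈ D := by
      rintro u ⟨p, hp, rfl⟩ v ⟨q, hq, rfl⟩
      refine ⟨p * q, mul_mem hp hq, ?_⟩
      rw [show (⟨p * q, hUQ (mul_mem hp hq)⟩ : pCore 2 Cz[z]) = ⟨p, hUQ hp⟩ * ⟨q, hUQ hq⟩ from rfl,
        S.D.psi_mul, enc_add]
    have hDs : ∀ u ∈ D, u ≠ 0 → u ∈ sigL := by
      rintro u ⟨p, hp, rfl⟩ hu
      have hp1 : p ≠ 1 := fun e => hu (by
        subst e
        rw [show (⟨1, hUQ hp⟩ : pCore 2 Cz[z]) = 1 from rfl, S.D.psi_one, enc_zero'])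
      refine (hin p (hO' p hp hp1) (hUQ hp)).elim (fun e => absurd ?_ hu) fun hab => ?_
      · rw [(S.D.psi_ker ⟨p, hUQ hp⟩).2 (Or.inr e), enc_zero']
      · obtain ⟨hq', hmem'⟩ := hab
        exact hmem'
    have hbig : ∀ s : Set ℕ, s.Finite → s.ncard ≤ 4 → ∃ u ∈ D, u ∉ s := fun s hs hsc =>
      Set.exists_mem_notMem_of_ncard_lt_ncard (by omega) hs
    obtain ⟨a, haD, ha⟩ := hbig {0} (Set.toFinite _) (by simp)
    obtain ⟨b, hbD, hb⟩ := hbig {0, a} (Set.toFinite _)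
      ((Set.ncard_insert_le _ _).trans (by simp))
    obtain ⟨c, hcD, hc⟩ := hbig {0, a, b, a ^^^ b} (Set.toFinite _) (by
      refine (Set.ncard_insert_le _ _).trans (Nat.succ_le_succ ?_)
      refine (Set.ncard_insert_le _ _).trans (Nat.succ_le_succ ?_)
      exact (Set.ncard_insert_le _ _).trans (by simp))
    simp only [Set.mem_insert_iff, Set.mem_singleton_iff, not_or] at ha hb hc
    have hx : ∀ p q : ℕ, p ^^^ q = 0 → p = q := fun p q e => by
      calc p = (p ^^^ q) ^^^ q := by rw [Nat.xor_assoc, Nat.xor_self, Nat.xor_zero]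
        _ = q := by rw [e, Nat.zero_xor]
    have hab : a ^^^ b ≠ 0 := fun e => hb.2 (hx a b e).symm
    obtain ⟨l, hl, hal, hbl, hcl⟩ := hqt a (hDs a haD ha) b (hDs b hbD hb.1) (Ne.symm hb.2)
      (hDs _ (hDx a haD b hbD) hab) c (hDs c hcD hc.1) hc.2.1 hc.2.2.1 hc.2.2.2
      (hDs _ (hDx a haD c hcD) fun e => hc.2.1 (hx a c e).symm)
      (hDs _ (hDx b hbD c hcD) fun e => hc.2.2.1 (hx b c e).symm)
      (hDs _ (hDx _ (hDx a haD b hbD) c hcD) fun e => hc.2.2.2 (hx _ c e).symm)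
    obtain ⟨i, hi, rfl⟩ := exists_getD [] hl
    rw [hq3] at hi
    obtain ⟨hl8, hln, hl0, -, hlx⟩ := hql _ hl
    refine ⟨⟨i, hi⟩, ?_⟩
    have hDl : D ⊆ {u | u ∈ quadL.getD i []} := by
      intro u hu
      by_contra hul
      set five : Set ℕ := {0, a, b, a ^^^ b, c} with hfive
      have hfl : five ⊆ {v | v ∈ quadL.getD i []} := by
        rintro v (rfl | rfl | rfl | rfl | rfl)
        exacts [hl0, hal, hbl, hlx _ hal _ hbl, hcl]
      have hfD : five ⊆ D := by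
        rintro v (rfl | rfl | rfl | rfl | rfl)
        exacts [hD0, haD, hbD, hDx _ haD _ hbD, hcD]
      have h5 : five.ncard = 5 := by
        have hab1 : a ≠ a ^^^ b := fun e => hb.1 (by
          have := congrArg (fun t => a ^^^ t) e
          simpa using this.symm)
        have hab2 : b ≠ a ^^^ b := fun e => ha (by
          have := congrArg (fun t => t ^^^ b) e
          simpa [Nat.xor_assoc] using this.symm)
        obtain ⟨hc0, hca, hcb, hcab⟩ := hc
        rw [hfive, Set.ncard_insert_of_notMem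
            (by simp [Ne.symm ha, Ne.symm hb.1, Ne.symm hab, Ne.symm hc0]),
          Set.ncard_insert_of_notMem (by simp [Ne.symm hb.2, hab1, Ne.symm hca]),
          Set.ncard_insert_of_notMem (by simp [hab2, Ne.symm hcb]), Set.ncard_pair (Ne.symm hcab)]
      have hinj : Function.Injective fun v : ℕ => u ^^^ v := fun p q e => by
        have := congrArg (fun t => u ^^^ t) e
        simpa [← Nat.xor_assoc] using this
      have hdis : Disjoint five ((fun v => u ^^^ v) '' five) := by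
        rw [Set.disjoint_left]
        rintro _ hv ⟨w, hw, rfl⟩
        refine hul ?_
        have := hlx _ (hfl hv) _ (hfl hw)
        simpa [Nat.xor_assoc] using this
      have h10 := Set.ncard_le_ncard (Set.union_subset hfD (show (fun v => u ^^^ v) '' five ⊆ D from by
        rintro _ ⟨w, hw, rfl⟩
        exact hDx u hu w (hfD hw))) hDfin
      rw [Set.ncard_union_eq hdis (Set.toFinite _) (Set.toFinite _), Set.ncard_image_of_injective _ hinj,
        h5, hDc] at h10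
      omega
    refine Subgroup.eq_of_le_of_card_ge (fun x hx => ?_) (by
      rw [Subgroup.card_map_of_injective (Subgroup.subtype_injective _), hc16, hUc])
    refine ⟨⟨x, hUle hx⟩, ?_, rfl⟩
    have hx' : (⟨x, hUle hx⟩ : Cz[z]) ∈ U' := Subgroup.mem_subgroupOf.2 hx
    exact ⟨hUQ hx', hDl ⟨_, hx', rfl⟩⟩
  · intro i j _ x hx hxs
    have hle : (quadH S i).map (Subgroup.centralizer ({z} : Set G)).subtype ⊔
        (quadH S j).map (Subgroup.centralizer ({z} : Set G)).subtype ≤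
        (pre S).map (Subgroup.centralizer ({z} : Set G)).subtype :=
      sup_le (Subgroup.map_mono (hpre i)) (Subgroup.map_mono (hpre j))
    obtain ⟨p, hp, rfl⟩ := hle hxs
    rcases hin p hx hp.1 with e | ⟨hq, hs⟩
    · exact ⟨i, ⟨zC, hzq i, by rw [e]⟩⟩
    · obtain ⟨l, hl, hlp⟩ := hqc _ hs
      obtain ⟨k, hk, rfl⟩ := exists_getD [] hl
      rw [hq3] at hk
      exact ⟨⟨k, hk⟩, ⟨p, ⟨hq, hlp⟩, rfl⟩⟩

end Cfsg.Agent.JFourType.Ten
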