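import Cfsg.Agent.JFourType.TenCert
import Cfsg.Agent.JFourType.InvolClasses

/-!
The singular subspace of dimension six in the model: its stabiliser has order 8064, its pointwise
stabiliser consists of the identity and seven linear involutions.
-/

set_option autoImplicit false
set_option maxRecDepth 100000

namespace Cfsg.Agent.JFourType.Ten

open scoped Pointwise
open Cfsg.Agent.GFour25 Cfsg.Agent.CosetCert
open Cfsg.Agent.SporB.FischerU (Vec vecN enc vecN_enc enc_lt)
open Cfsg.Agent.LargeFischer (IsSemi semiU)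
open Cfsg.Agent.LargeFischer.Thompson
open Cfsg.Agent.TTClass
open Data TenData

/-- The subspace. -/
def wSet : Set Vec := {v | enc v ∈ wCodes}

theorem mem_wSet {v : Vec} : v ∈ wSet ↔ enc v ∈ wCodes := Iff.rfl

theorem w_facts : (∀ u ∈ wCodes, u < 4096 ∧ qN u = true ∧ ∀ v ∈ wCodes, u ^^^ v ∈ wCodes) ∧
    (∀ t ∈ wBas, t ∈ wCodes) ∧ wCodes.length = 64 ∧ wCodes.Nodup ∧ 0 ∈ wCodes ∧ wBas.length = 6 ∧
    ∀ v < 4096, (∀ t ∈ wBas, orth v t = true) → v ∈ wCodes := by
  have h := wOK_true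
  simp only [wOK, Bool.and_eq_true, List.all_eq_true, List.contains_iff_mem, Nat.blt_eq] at h
  obtain ⟨⟨⟨⟨⟨⟨⟨h1, h2⟩, h3⟩, h4⟩, h5⟩, h6⟩, h7⟩, h8⟩ := h
  refine ⟨fun u hu => ⟨(h6 u hu).1.1, ?_, fun v hv => h7 u hu v hv⟩, fun t ht => (h2 t ht).2,
    Nat.eq_of_beq_eq_true h3, nodupB_spec h4, h5, Nat.eq_of_beq_eq_true h1, fun v hv ho => ?_⟩
  · rw [← beq_iff_eq.1 (allB_spec_zero qOK_true (by norm_num : 4096 ≤ 2 ^ 12) (h6 u hu).1.1)]
    exact (h6 u hu).1.2
  · have hv' := allB_spec_zero h8 (by norm_num : 4096 ≤ 2 ^ 12) hv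
    simp only [Bool.or_eq_true, Bool.not_eq_true', List.contains_iff_mem] at hv'
    refine hv'.resolve_left fun hf => ?_
    rw [List.all_eq_true.2 ho] at hf
    exact Bool.false_ne_true hf.symm

theorem qb_eq {v : ℕ} (hv : v < 4096) : qb v = qN v :=
  beq_iff_eq.1 (allB_spec_zero qOK_true (by norm_num : 4096 ≤ 2 ^ 12) hv)

theorem enc_zero' : enc (0 : Vec) = 0 := by
  conv_lhs => rw [show (0 : Vec) = vecN 0 by decide]
  exact enc_vecN (by norm_num)

theorem w_zero : (0 : Vec) ∈ wSet := by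
  show enc (0 : Vec) ∈ wCodes
  rw [enc_zero']
  exact w_facts.2.2.2.2.1

theorem w_add {u v : Vec} (hu : u ∈ wSet) (hv : v ∈ wSet) : u + v ∈ wSet := by
  show enc (u + v) ∈ wCodes
  rw [enc_add]
  exact (w_facts.1 _ hu).2.2 _ hv

theorem w_iso {v : Vec} (hv : v ∈ wSet) : UnitF4.H v v = 0 := (qN_enc v).1 (w_facts.1 _ hv).2.1

/-- The subspace is its own orthogonal space. -/
theorem w_perp {v : Vec} (h : ∀ w ∈ wSet, UnitF4.H (v + w) (v + w) = UnitF4.H v v) : v ∈ wSet := by
  refine w_facts.2.2.2.2.2.2 _ (enc_lt v) fun t ht => ?_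
  have ht' := w_facts.2.1 t ht
  have hlt := (w_facts.1 t ht').1
  have htm : vecN t ∈ wSet := by show enc (vecN t) ∈ wCodes; rwa [enc_vecN hlt]
  have e : Nat.xor (enc v) t = enc (v + vecN t) := by rw [enc_add, enc_vecN hlt]; rfl
  rw [orth, e, beq_iff_eq, qb_eq (enc_lt _), qb_eq (enc_lt _)]
  have h0 := h _ htm
  cases h1 : qN (enc (v + vecN t)) <;> cases h2 : qN (enc v) <;> first | rfl | exfalso
  · rw [Bool.eq_false_iff] at h1
    exact h1 ((qN_enc _).2 (h0.trans ((qN_enc _).1 h2)))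
  · rw [Bool.eq_false_iff] at h2
    exact h2 ((qN_enc _).2 (h0.symm.trans ((qN_enc _).1 h1)))

theorem wSet_ncard : wSet.ncard = 64 := by
  classical
  have e : wSet = ↑(wCodes.toFinset.image vecN) := by
    ext v
    simp only [Finset.coe_image, Set.mem_image, SetLike.mem_coe, List.mem_toFinset]
    refine ⟨fun h => ⟨enc v, h, vecN_enc v⟩, ?_⟩
    rintro ⟨c, hc, rfl⟩
    show enc (vecN c) ∈ wCodes
    rwa [enc_vecN (w_facts.1 c hc).1]
  rw [e, Set.ncard_coe_finset, Finset.card_image_of_injOn, List.toFinset_card_of_nodup w_facts.2.2.2.1,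
    w_facts.2.2.1]
  intro a ha b hb hab
  simp only [Finset.mem_coe, List.mem_toFinset] at ha hb
  rw [← enc_vecN (w_facts.1 a ha).1, hab, enc_vecN (w_facts.1 b hb).1]

/-- A permutation described by a list, on a code. -/
theorem rep_code {g : List ℕ} {σ : Equiv.Perm Vec} (h : Rep g σ) {c : ℕ} (hc : c < 4096) :
    enc (σ (vecN c)) = apL g c := by rw [h, enc_vecN hc]

/-- Every member of the subspace is a combination of the basis. -/
noncomputable def wSpanOK : Bool :=
  wCodes.all fun u => (List.range 64).any fun m => Nat.beq (apL wBas m) u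

set_option maxHeartbeats 4000000 in
theorem wSpanOK_true : wSpanOK = true := by decide +kernel

theorem wCodes_span {u : ℕ} (hu : u ∈ wCodes) : ∃ m, apL wBas m = u := by
  obtain ⟨m, -, hm⟩ := List.any_eq_true.1 (List.all_eq_true.1 wSpanOK_true u hu)
  exact ⟨m, Nat.eq_of_beq_eq_true hm⟩

theorem apL_list_mem {S : Set ℕ} (h0 : 0 ∈ S) (hadd : ∀ a ∈ S, ∀ b ∈ S, a ^^^ b ∈ S) :
    ∀ l : List ℕ, (∀ x ∈ l, x ∈ S) → ∀ m, apL l m ∈ S := by
  intro l
  induction l with
  | nil => intro _ m; rwa [apL_nil]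
  | cons a l ih =>
    intro hl m
    rw [apL_cons]
    refine hadd _ ?_ _ (ih (fun x hx => hl x (List.mem_cons_of_mem _ hx)) _)
    cases m.testBit 0
    · exact h0
    · exact hl a List.mem_cons_self

/-- Maps given by lists that send the basis into the subspace send the subspace into itself. -/
theorem maps_w {g : List ℕ} (hb : ∀ t ∈ wBas, apL g t ∈ wCodes) {σ : Equiv.Perm Vec} (hσ : Rep g σ)
    {w : Vec} (hw : w ∈ wSet) : σ w ∈ wSet := by
  obtain ⟨m, hm⟩ := wCodes_span hw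
  show enc (σ w) ∈ wCodes
  rw [hσ w, ← hm, ← apL_comp]
  refine apL_list_mem (S := {u | u ∈ wCodes}) w_facts.2.2.2.2.1
    (fun a ha b hb => (w_facts.1 a ha).2.2 b hb) _ (fun x hx => ?_) m
  obtain ⟨t, ht, rfl⟩ := List.mem_map.1 hx
  exact hb t ht

/-- Maps given by lists that fix the basis fix the subspace pointwise. -/
theorem fixes_w {g : List ℕ} (hb : ∀ t ∈ wBas, apL g t = t) {σ : Equiv.Perm Vec} (hσ : Rep g σ)
    {w : Vec} (hw : w ∈ wSet) : σ w = w := by
  obtain ⟨m, hm⟩ := wCodes_span hw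
  refine enc_injective ?_
  rw [hσ w, ← hm, ← apL_comp, comp, List.map_congr_left hb, List.map_id']

/-! ### The stabiliser -/

theorem smul_ncard {M α : Type*} [Group M] [MulAction M α] (g : M) (s : Set α) : (g • s).ncard = s.ncard :=
  Set.ncard_image_of_injective s (MulAction.injective g)

/-- The stabiliser of the subspace. -/
noncomputable def wStab : Subgroup (Equiv.Perm Vec) := MulAction.stabilizer (Equiv.Perm Vec) wSet

theorem mem_wStab {σ : Equiv.Perm Vec} : σ ∈ wStab ↔ ∀ w ∈ wSet, σ w ∈ wSet := by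
  rw [wStab, MulAction.mem_stabilizer_iff]
  constructor
  · intro h w hw
    exact h ▸ Set.smul_mem_smul_set hw
  · intro h
    refine Set.eq_of_subset_of_ncard_le (fun x hx => ?_) ?_ (Set.toFinite _)
    · obtain ⟨w, hw, rfl⟩ := hx
      exact h w hw
    · rw [smul_ncard]

/-- A member of the orbit, as a span. -/
noncomputable def span (i : ℕ) : Set Vec := {v | ∃ m, enc v = apL (orbT.getD i []) m}

theorem span_zero : span 0 = wSet := by
  have h := orbTreeOK_true
  simp only [orbTreeOK, Bool.and_eq_true, beq_iff_eq] at h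
  rw [span, h.1.2]
  ext v
  refine ⟨?_, fun hv => ?_⟩
  · rintro ⟨m, hm⟩
    show enc v ∈ wCodes
    rw [hm]
    exact apL_list_mem (S := {u | u ∈ wCodes}) w_facts.2.2.2.2.1
      (fun a ha b hb => (w_facts.1 a ha).2.2 b hb) _ w_facts.2.1 m
  · obtain ⟨m, hm⟩ := wCodes_span hv
    exact ⟨m, hm.symm⟩

theorem smul_span {g : List ℕ} {σ : Equiv.Perm Vec} (hσ : Rep g σ) (i k : ℕ)
    (h : (orbT.getD i []).map (apL g) = orbT.getD k []) : σ • span i = span k := by
  ext x
  constructor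
  · rintro ⟨v, ⟨m, hm⟩, rfl⟩
    refine ⟨m, ?_⟩
    show enc (σ v) = _
    rw [hσ v, hm, ← apL_comp, comp, h]
  · rintro ⟨m, hm⟩
    refine ⟨σ⁻¹ x, ⟨m, ?_⟩, σ.apply_symm_apply x⟩
    by_contra hne
    have hlt : apL (orbT.getD i []) m < 4096 := by
      have ht := orbTreeOK_true
      simp only [orbTreeOK, Bool.and_eq_true, List.all_eq_true, List.mem_range, Nat.blt_eq] at ht
      by_cases hi : i < 330
      · exact apL_lt (List.all_eq_true.2 fun y hy => by rw [Nat.blt_eq]; exact (ht.2 i hi).1.1 y hy) m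
      · rw [List.getD_eq_default _ _ (by have := Nat.eq_of_beq_eq_true ht.1.1; omega), apL_nil]
        norm_num
    refine hne ?_
    have e : σ (vecN (apL (orbT.getD i []) m)) = x := enc_injective (by
      rw [rep_code hσ hlt, ← apL_comp, comp, h, hm])
    rw [← e, show σ⁻¹ (σ (vecN (apL (orbT.getD i []) m))) = _ from σ.symm_apply_apply _, enc_vecN hlt]

theorem comboL_eq_apL (l : List ℕ) : ∀ m, comboL l m = apL l m := by
  induction l with
  | nil => intro m; rw [comboL, apL_nil]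
  | cons a l ih =>
    intro m
    rw [comboL, ih]
    rfl

theorem smul_span_le {i : ℕ} (hi : i < 330) {m : ℕ} (hm : m < 7) :
    ∃ k < 330, Mat.moveP m • span i ⊆ span k := by
  have h := orbClosedOK_true
  simp only [orbClosedOK, List.all_eq_true, List.mem_range, Bool.and_eq_true, Nat.blt_eq] at h
  obtain ⟨hk, hj⟩ := h i hi m hm
  set k := (orbEdge.getD i []).getD m 330
  refine ⟨k, hk, ?_⟩
  have ht := orbTreeOK_true
  simp only [orbTreeOK, Bool.and_eq_true, List.all_eq_true, List.mem_range] at ht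
  have hlen := Nat.eq_of_beq_eq_true (ht.2 i hi).1.2
  rintro x ⟨v, ⟨n, hn⟩, rfl⟩
  show ∃ n', enc (Mat.moveP m v) = apL (orbT.getD k []) n'
  rw [(Mat.moveP_spec m (by omega)).2 v, hn, ← apL_comp]
  refine apL_list_mem (S := {u | ∃ n', u = apL (orbT.getD k []) n'}) ⟨0, (apL_zero _).symm⟩ ?_ _ ?_ n
  · rintro a ⟨p, rfl⟩ b ⟨q, rfl⟩
    exact ⟨p ^^^ q, (apL_xor _ _ _).symm⟩
  · intro y hy
    obtain ⟨t, ht', rfl⟩ := List.mem_map.1 hy
    obtain ⟨j, hj', rfl⟩ := List.getElem_of_mem ht'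
    have := Nat.eq_of_beq_eq_true (hj j (by omega))
    rw [List.getD_eq_getElem _ 0 hj'] at this
    exact ⟨_, this.trans (comboL_eq_apL _ _)⟩

theorem exists_smul_span : ∀ i, i < 330 → ∃ σ ∈ Mat.R22, σ • wSet = span i := by
  intro i
  induction i using Nat.strongRecOn with
  | ind i ih =>
    intro hi
    rcases Nat.eq_zero_or_pos i with h0 | h0
    · exact ⟨1, one_mem _, by rw [one_smul, h0, span_zero]⟩
    have h := orbTreeOK_true
    simp only [orbTreeOK, Bool.and_eq_true, List.all_eq_true, List.mem_range, Bool.or_eq_true, Nat.blt_eq,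
      beq_iff_eq] at h
    rcases (h.2 i hi).2 with hc | ⟨⟨hp, hm⟩, he⟩
    · exact absurd (Nat.eq_of_beq_eq_true hc) (by omega)
    obtain ⟨σ, hσ, hs⟩ := ih _ hp (by omega)
    obtain ⟨hmR, hmr⟩ := Mat.moveP_spec _ (show (orbPar.getD i (0, 0)).2 < 8 by omega)
    refine ⟨_ * σ, mul_mem hmR hσ, ?_⟩
    rw [mul_smul, hs]
    exact smul_span hmr _ _ he.symm

theorem span_ncard {i : ℕ} (hi : i < 330) : (span i).ncard = 64 := by
  obtain ⟨σ, -, h⟩ := exists_smul_span i hi
  rw [← h, smul_ncard, wSet_ncard]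

theorem orbit_eq : MulAction.orbit Mat.R22 wSet = Set.range fun i : Fin 330 => span i := by
  have hinv : ∀ σ ∈ Mat.R22, ∀ i : Fin 330, ∃ k : Fin 330, σ • span i = span k := by
    let D : Subgroup (Equiv.Perm Vec) :=
      MulAction.stabilizer (Equiv.Perm Vec) (Set.range fun i : Fin 330 => span i)
    have hgen : ∀ m, m < 7 → Mat.moveP m ∈ D := fun m hm => by
      refine MulAction.mem_stabilizer_iff.2 (Set.eq_of_subset_of_ncard_le ?_ ?_ (Set.toFinite _))
      · rintro _ ⟨_, ⟨i, rfl⟩, rfl⟩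
        obtain ⟨k, hk, hle⟩ := smul_span_le i.2 hm
        refine ⟨⟨k, hk⟩, (Set.eq_of_subset_of_ncard_le hle ?_ (Set.toFinite _)).symm⟩
        rw [span_ncard hk, smul_ncard, span_ncard i.2]
      · rw [smul_ncard]
    have hle : Mat.R22 ≤ D := by
      refine Mat.R22_le ?_ (hgen 6 (by norm_num))
      rw [K22, Subgroup.closure_le]
      rintro y (rfl | rfl | rfl)
      exacts [hgen 0 (by norm_num), hgen 2 (by norm_num), hgen 4 (by norm_num)]
    intro σ hσ i
    obtain ⟨k, hk⟩ := (MulAction.mem_stabilizer_iff.1 (hle hσ)).le (Set.smul_mem_smul_set (Set.mem_range_self i))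
    exact ⟨k, hk.symm⟩
  ext s
  constructor
  · rintro ⟨σ, rfl⟩
    obtain ⟨k, hk⟩ := hinv σ σ.2 ⟨0, by norm_num⟩
    rw [span_zero] at hk
    exact ⟨k, hk.symm⟩
  · rintro ⟨i, rfl⟩
    obtain ⟨σ, hσ, h⟩ := exists_smul_span i i.2
    exact ⟨⟨σ, hσ⟩, h⟩

theorem semi_R22 {σ : Equiv.Perm Vec} (h : σ ∈ Mat.R22) : σ ∈ semiU :=
  Mat.R22_le (fun k hk => (show ∃ b, IsSemi b k from ⟨_, K22_linear hk⟩))
    (show ∃ b, IsSemi b gP from ⟨_, semi_facts.2.2.2.2.2⟩) h

theorem span_injective : Function.Injective fun i : Fin 330 => span i := by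
  have key : ∀ i l : ℕ, i < 330 → l < i → span i ≠ span l := by
    intro i l hi hl he
    have h := orbDistinctOK_true
    simp only [orbDistinctOK, List.all_eq_true, List.mem_range, List.any_eq_true, Bool.not_eq_true'] at h
    obtain ⟨t, ht, u, hu, hor⟩ := h i hi l hl
    have hmem : ∀ (j : ℕ), j < 330 → ∀ y ∈ orbT.getD j [], y < 4096 ∧ vecN y ∈ span j := by
      intro j hj y hy
      have htr := orbTreeOK_true
      simp only [orbTreeOK, Bool.and_eq_true, List.all_eq_true, List.mem_range, Nat.blt_eq] at htr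
      have hy' := (htr.2 j hj).1.1 y hy
      obtain ⟨p, hp, rfl⟩ := List.getElem_of_mem hy
      refine ⟨hy', 2 ^ p, ?_⟩
      rw [enc_vecN hy']
      have key : ∀ (l : List ℕ) (p : ℕ) (hp : p < l.length), apL l (2 ^ p) = l[p] := by
        intro l
        induction l with
        | nil => intro p hp; exact absurd hp (Nat.not_lt_zero _)
        | cons a l ihl =>
          intro p hp
          rw [apL_cons]
          cases p with
          | zero => simp [apL_zero]
          | succ p =>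
            rw [List.getElem_cons_succ, ← ihl p (by simpa using hp)]
            have h2 : 2 ^ (p + 1) / 2 = 2 ^ p := by rw [pow_succ]; omega
            rw [Nat.testBit_two_pow_of_ne (by omega), cond_false, h2, Nat.zero_xor]
      exact (key _ p hp).symm
    obtain ⟨ht1, ht2⟩ := hmem i hi t ht
    obtain ⟨hu1, hu2⟩ := hmem l (by omega) u hu
    rw [← he] at hu2
    obtain ⟨σ, hσ, hs⟩ := exists_smul_span i hi
    obtain ⟨b, hb⟩ := semi_R22 hσ
    rw [← hs] at ht2 hu2
    obtain ⟨v, hv, hve⟩ := ht2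
    obtain ⟨w, hw, hwe⟩ := hu2
    have hq : ∀ {c : ℕ} {y : Vec}, c < 4096 → y ∈ wSet → enc (σ y) = c → qb c = true := fun {c y} hc hy e => by
      rw [qb_eq hc, ← e, qN_enc, hb.2.2, w_iso hy]
    have h1 : qb (Nat.xor t u) = true := hq (Nat.xor_lt_two_pow (n := 12) ht1 hu1) (w_add hv hw) (by
      rw [hb.1, enc_add, show σ v = vecN t from hve, show σ w = vecN u from hwe, enc_vecN ht1, enc_vecN hu1]
      rfl)
    have h2 : qb t = true := hq ht1 hv (by rw [show σ v = vecN t from hve, enc_vecN ht1])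
    rw [orth, h1, h2] at hor
    exact absurd hor (by decide)
  intro i l h
  rcases Nat.lt_trichotomy (i : ℕ) l with h' | h' | h'
  · exact absurd h.symm (key _ _ l.2 h')
  · exact Fin.ext h'
  · exact absurd h (key _ _ i.2 h')

theorem card_stab (hR : Nat.card Mat.R22 = 2661120) :
    Nat.card ↥(wStab.subgroupOf Mat.R22) = 8064 := by
  have hst : wStab.subgroupOf Mat.R22 = MulAction.stabilizer Mat.R22 wSet := by
    ext σ
    rfl
  have hidx : (MulAction.stabilizer Mat.R22 wSet).index = 330 := by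
    rw [MulAction.index_stabilizer, orbit_eq, Set.ncard_range_of_injective span_injective, Nat.card_fin]
  have h := (MulAction.stabilizer Mat.R22 wSet).card_mul_index
  rw [hidx, hR] at h
  rw [hst]
  omega

/-! ### The pointwise stabiliser -/

/-- The identity and the seven involutions fixing the subspace. -/
def sSet : Set (Equiv.Perm Vec) := {σ | σ = 1 ∨ ∃ g ∈ sList, Rep g σ}

theorem s_facts : sList.length = 7 ∧ sList.Nodup ∧
    (∀ i < 7, sIdx.getD i 256 < 256 ∧ elemsP.getD (sIdx.getD i 256) [] = sList.getD i [] ∧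
      sList.getD i [] ≠ idL ∧ comp (sList.getD i []) (sList.getD i []) = idL ∧
      comp (sList.getD i []) omL = comp omL (sList.getD i [])) ∧
    (∀ a ∈ sList, ∀ b ∈ sList, comp a b = idL ∨ comp a b ∈ sList) ∧
    (∀ g ∈ sList, (∀ t ∈ wBas, apL g t = t) ∧ ∀ e ∈ idL, apL g e ^^^ e ∈ wCodes) ∧
    ∀ i < 7, (imPre.getD i []).length = 16 ∧ (∀ v ∈ imPre.getD i [], v < 4096) ∧
      ((imPre.getD i []).map fun v => apL (sList.getD i []) v ^^^ v).Nodup := by
  have h := sOK_true
  simp only [sOK, Bool.and_eq_true, List.all_eq_true, List.mem_range, Bool.or_eq_true, beq_iff_eq,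
    List.contains_iff_mem, Nat.blt_eq, Bool.not_eq_true', beq_eq_false_iff_ne] at h
  obtain ⟨⟨⟨⟨⟨⟨⟨h1, h2⟩, -⟩, h3⟩, h4⟩, h5⟩, h6⟩, h7⟩ := h
  exact ⟨Nat.eq_of_beq_eq_true h1, distinctB_spec h2,
    fun i hi => ⟨(h3 i hi).1.1.1.1, (h3 i hi).1.1.1.2, (h3 i hi).1.1.2, (h3 i hi).1.2, (h3 i hi).2⟩,
    h4, fun g hg => ⟨fun t ht => Nat.eq_of_beq_eq_true (h5 g hg t ht), h6 g hg⟩,
    fun i hi => ⟨Nat.eq_of_beq_eq_true (h7 i hi).1.1, (h7 i hi).1.2, nodupB_spec (h7 i hi).2⟩⟩

theorem s_rep {g : List ℕ} (hg : g ∈ sList) :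
    ∃ σ ∈ candP gP, Rep g σ ∧ σ * σ = 1 ∧ σ * omP = omP * σ ∧ σ ≠ 1 := by
  obtain ⟨i, hi, rfl⟩ := exists_getD [] hg
  rw [s_facts.1] at hi
  obtain ⟨hx, he, hne, hsq, hom⟩ := s_facts.2.2.1 i hi
  obtain ⟨σ, hσ, hr⟩ := elem_in_candP candJ_ok rep_gP.1 _ hx
  rw [show candJ.elems.getD (sIdx.getD i 256) [] = sList.getD i [] from he] at hr
  have hn : comp (sList.getD i []) idL = sList.getD i [] := by
    rw [← he]
    exact ((normal_facts candJ_ok.normal_elems).2 _ (getD_mem [] (by rw [(par_facts candJ_ok).1]; exact hx))).1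
  refine ⟨σ, hσ, hr, (hr.mul hr).eq (hsq ▸ Rep.one), (hr.mul rep_omP).eq (hom ▸ rep_omP.mul hr), fun e => hne ?_⟩
  exact (e ▸ hr).list_eq Rep.one hn idL_normal

theorem point_candP {σ : Equiv.Perm Vec} (hσ : σ ∈ candP gP) (hfix : ∀ w ∈ wSet, σ w = w) : σ ∈ sSet := by
  obtain ⟨g, hg, hr⟩ := mem_candP_rep candJ_ok rep_gP.1 hσ
  have h := List.all_eq_true.1 pointOK_true g hg
  simp only [Bool.or_eq_true, Bool.not_eq_true', beq_iff_eq, List.contains_iff_mem] at h
  rcases h with (h | h) | h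
  · exfalso
    have hall : (wBas.all fun t => Nat.beq (apL g t) t) = true := List.all_eq_true.2 fun t ht => by
      have htc := w_facts.2.1 t ht
      have hlt := (w_facts.1 t htc).1
      have hm : vecN t ∈ wSet := by show enc (vecN t) ∈ wCodes; rwa [enc_vecN hlt]
      have e := rep_code hr hlt
      rw [hfix _ hm, enc_vecN hlt] at e
      rw [← e]
      exact Nat.beq_refl t
    rw [hall] at h
    exact Bool.false_ne_true h.symm
  · exact Or.inl ((h ▸ hr).eq Rep.one)
  · exact Or.inr ⟨g, h, hr⟩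

theorem sSet_spec {σ : Equiv.Perm Vec} (hσ : σ ∈ sSet) : σ * σ = 1 ∧ σ * omP = omP * σ ∧ σ ∈ candP gP ∧
    (∀ w ∈ wSet, σ w = w) ∧ ∀ v, σ v + v ∈ wSet := by
  rcases hσ with rfl | ⟨g, hg, hr⟩
  · exact ⟨one_mul 1, by rw [one_mul, mul_one], one_mem _, fun _ _ => rfl,
      fun v => by rw [Equiv.Perm.one_apply, LargeFischer.Thompson.vec_self]; exact w_zero⟩
  obtain ⟨τ, hτ, hrτ, hsq, hom, -⟩ := s_rep hg
  rw [hr.eq hrτ]
  refine ⟨hsq, hom, hτ, fun w hw => fixes_w (s_facts.2.2.2.2.1 g hg).1 hrτ hw, fun v => ?_⟩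
  show enc (τ v + v) ∈ wCodes
  rw [enc_add, hrτ v]
  rw [show enc v = apL idL (enc v) from (apL_idL (enc_lt v)).symm]
  have hS : ∀ (l : List ℕ), (∀ e ∈ l, apL g e ^^^ e ∈ wCodes) → ∀ m, apL g (apL l m) ^^^ apL l m ∈ wCodes := by
    intro l
    induction l with
    | nil => intro _ m; rw [apL_nil, apL_zero, Nat.xor_self]; exact w_facts.2.2.2.2.1
    | cons a l ih =>
      intro hl m
      rw [apL_cons, apL_xor, show ∀ p q r s : ℕ, (p ^^^ q) ^^^ (r ^^^ s) = (p ^^^ r) ^^^ (q ^^^ s) from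
        fun p q r s => by simp only [Nat.xor_assoc]; rw [← Nat.xor_assoc q r s, Nat.xor_comm q r, Nat.xor_assoc]]
      refine (w_facts.1 _ ?_).2.2 _ (ih (fun e he => hl e (List.mem_cons_of_mem _ he)) _)
      cases m.testBit 0
      · rw [cond_false, apL_zero, Nat.xor_self]; exact w_facts.2.2.2.2.1
      · exact hl a List.mem_cons_self
  exact hS idL (s_facts.2.2.2.2.1 g hg).2 _

/-- A semilinear isometry fixing the subspace pointwise is an involution or trivial. -/
theorem sq_of_fix {σ : Equiv.Perm Vec} (hσ : σ ∈ semiU) (hfix : ∀ w ∈ wSet, σ w = w) : σ * σ = 1 := by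
  obtain ⟨b, hadd, -, hH⟩ := hσ
  refine Equiv.ext fun v => ?_
  have hd : σ v + v ∈ wSet := w_perp fun w hw => by
    have h1 := hH (v + w)
    rw [hadd, hfix w hw] at h1
    simp only [UnitF4.h_add_left, UnitF4.h_add_right card_F4] at h1 ⊢
    rw [hH v] at h1
    linear_combination h1 + (UnitF4.H v w + UnitF4.H w v) * UnitF4.two_eq_zero card_F4 + w_iso hw
  rw [Equiv.Perm.mul_apply, Equiv.Perm.one_apply]
  calc σ (σ v) = σ ((σ v + v) + v) := by rw [add_assoc, LargeFischer.Thompson.vec_self, add_zero]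
    _ = (σ v + v) + σ v := by rw [hadd, hfix _ hd]
    _ = v := by rw [add_comm (σ v) v, add_assoc, LargeFischer.Thompson.vec_self, add_zero]

theorem card_ge_stab {T : Subgroup (Equiv.Perm Vec)} (hT : ∀ σ ∈ candP gP, σ ∈ wStab → σ ∈ T) :
    128 ≤ Nat.card T := by
  classical
  have h := stabIdxOK_true
  simp only [stabIdxOK, Bool.and_eq_true, List.all_eq_true, List.contains_iff_mem, Nat.blt_eq] at h
  obtain ⟨⟨h1, h2⟩, h3⟩ := h
  choose f hf hr using fun i : {i // i ∈ stabIdx} => elem_in_candP candJ_ok rep_gP.1 i.1 (h3 i.1 i.2).1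
  have hfT : ∀ i, f i ∈ T := fun i => hT _ (hf i)
    (mem_wStab.2 fun w hw => maps_w (h3 i.1 i.2).2 (hr i) hw)
  have hinj : Function.Injective fun i : {i // i ∈ stabIdx} => (⟨f i, hfT i⟩ : T) := fun i j hij => by
    have e : f i = f j := congrArg Subtype.val hij
    have hn := normal_facts candJ_ok.normal_elems
    have hi := (h3 i.1 i.2).1
    have hj := (h3 j.1 j.2).1
    have hl := (par_facts candJ_ok).1
    have e2 := (hr i).list_eq (e ▸ hr j) (hn.2 _ (getD_mem [] (by rw [hl]; exact hi))).1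
      (hn.2 _ (getD_mem [] (by rw [hl]; exact hj))).1
    rw [List.getD_eq_getElem _ [] (show i.1 < candJ.elems.length by rw [hl]; exact hi),
      List.getD_eq_getElem _ [] (show j.1 < candJ.elems.length by rw [hl]; exact hj)] at e2
    exact Subtype.ext ((List.Nodup.getElem_inj_iff hn.1).1 e2)
  refine le_trans (le_of_eq ?_) (Nat.card_le_card_of_injective _ hinj)
  rw [Nat.card_congr (Equiv.subtypeEquivRight (fun i => List.mem_toFinset.symm)),
    Nat.card_eq_fintype_card, Fintype.card_coe, List.toFinset_card_of_nodup (nodupB_spec h2),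
    Nat.eq_of_beq_eq_true h1]

end Cfsg.Agent.JFourType.Ten
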