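import Cfsg.Agent.JFourType.TenLocal
import Cfsg.Agent.JFourType.Mat.Split
import Cfsg.Agent.Modules.Fixed

/-!
A complement of order `2^10` to the elementary abelian subgroup of order `2^10` inside a Sylow
2-subgroup of its normalizer in the centralizer of the involution: up to conjugation it is the
complement of the splitting for the subgroups of order `2^11`.
-/

set_option autoImplicit false
set_option maxRecDepth 100000
set_option maxHeartbeats 1000000

namespace Cfsg.Agent.JFourType.Ten

open Cfsg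
open scoped Pointwise
open Cfsg.Agent.GFour25 Cfsg.Agent.CosetCert
open Cfsg.Agent.SporB.FischerU (Vec vecN enc vecN_enc enc_lt)
open Cfsg.Agent.LargeFischer (IsSemi semiU)
open Cfsg.Agent.LargeFischer.Thompson
open Cfsg.Agent.TTClass
open TenData Data
open Mat.SplitData (wList)
open Mat.Split (gN xN yN sixN sixList powN W0 Wt zc Lp)

/-- The basis of the member of the orbit complementary to the singular space of the splitting. -/
noncomputable def coBas : List ℕ := orbT.getD 5 []

/-- The group of order sixteen preserves it and moves it faithfully; it meets the singular space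
trivially. -/
noncomputable def coOK : Bool :=
  ([gN, xN, yN].all fun g => coBas.all fun t =>
    (List.range 64).any fun m => Nat.beq (apL coBas m) (apL g t)) &&
  (sixList.all fun g => (g == idL) || coBas.any fun t => !(Nat.beq (apL g t) t)) &&
  (coBas.all fun t => Nat.blt t 4096 && qb t) &&
  (wList.all fun u => Nat.beq u 0 || coBas.any fun t => !(orth u t))

theorem coOK_true : coOK = true := by decide +kernel

theorem co_facts : (∀ g ∈ [gN, xN, yN], ∀ t ∈ coBas, ∃ m, apL coBas m = apL g t) ∧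
    (∀ g ∈ sixList, g = idL ∨ ∃ t ∈ coBas, apL g t ≠ t) ∧
    (∀ t ∈ coBas, t < 4096 ∧ qb t = true) ∧
    (∀ u ∈ wList, u = 0 ∨ ∃ t ∈ coBas, orth u t = false) := by
  have h := coOK_true
  simp only [coOK, Bool.and_eq_true, List.all_eq_true, List.any_eq_true, Bool.or_eq_true, Bool.not_eq_true',
    beq_iff_eq, Nat.blt_eq] at h
  obtain ⟨⟨⟨h1, h2⟩, h3⟩, h4⟩ := h
  refine ⟨fun g hg t ht => ?_, fun g hg => ?_, h3, fun u hu => (h4 u hu).imp Nat.eq_of_beq_eq_true id⟩
  · obtain ⟨m, -, hm⟩ := h1 g hg t ht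
    exact ⟨m, Nat.eq_of_beq_eq_true hm⟩
  · refine (h2 g hg).imp id fun ⟨t, ht, hf⟩ => ⟨t, ht, fun e => ?_⟩
    rw [e] at hf
    exact absurd (Nat.beq_refl t) (Bool.eq_false_iff.1 hf)

theorem coBas_mem {t : ℕ} (ht : t ∈ coBas) : vecN t ∈ span 5 := by
  have key : ∀ (l : List ℕ) (p : ℕ) (hp : p < l.length), apL l (2 ^ p) = l[p] := by
    intro l
    induction l with
    | nil => intro p hp; exact absurd hp (Nat.not_lt_zero _)
    | cons a l ihl =>
      intro p hp
      rw [apL_cons]
      cases p with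
      | zero => simp [apL_zero]
      | succ p =>
        rw [List.getElem_cons_succ, ← ihl p (by simpa using hp)]
        have h2 : 2 ^ (p + 1) / 2 = 2 ^ p := by rw [pow_succ]; omega
        rw [Nat.testBit_two_pow_of_ne (by omega), cond_false, h2, Nat.zero_xor]
  obtain ⟨p, hp, he⟩ := List.getElem_of_mem ht
  refine ⟨2 ^ p, ?_⟩
  show enc (vecN t) = apL coBas (2 ^ p)
  rw [enc_vecN (co_facts.2.2.1 t ht).1, key _ p hp, he]

/-- The subspace of the orbit is orthogonal to itself. -/
theorem co_orth {v : Vec} (hv : v ∈ span 5) {t : ℕ} (ht : t ∈ coBas) : orth (enc v) t = true := by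
  obtain ⟨σ, hσ, hs⟩ := exists_smul_span 5 (by norm_num)
  obtain ⟨b, hb⟩ := semi_R22 hσ
  have hiso : ∀ y ∈ span 5, qN (enc y) = true := by
    intro y hy
    rw [← hs] at hy
    obtain ⟨w, hw, rfl⟩ := hy
    show qN (enc (σ w)) = true
    rw [qN_enc, hb.2.2, w_iso hw]
  obtain ⟨hlt, -⟩ := co_facts.2.2.1 t ht
  have ht' := coBas_mem ht
  have hsum : v + vecN t ∈ span 5 := by
    rw [← hs] at hv ht' ⊢
    obtain ⟨a, ha, rfl⟩ := hv
    obtain ⟨c, hc, he⟩ := ht'
    exact ⟨a + c, w_add ha hc, by show σ (a + c) = σ a + vecN t; rw [hb.1]; exact congrArg _ he⟩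
  have e : Nat.xor (enc v) t = enc (v + vecN t) := by rw [enc_add, enc_vecN hlt]; rfl
  rw [orth, e, qb_eq (enc_lt _), qb_eq (enc_lt _), hiso _ hsum, hiso _ hv]
  rfl

theorem co_inter {v : Vec} (hv : v ∈ span 5) (hw : enc v ∈ wList) : v = 0 := by
  rcases co_facts.2.2.2 _ hw with h | ⟨t, ht, h⟩
  · exact enc_injective (h.trans enc_zero'.symm)
  · rw [co_orth hv ht] at h
    exact absurd h (by decide)

theorem co_stab {g : List ℕ} (hg : g ∈ [gN, xN, yN]) {σ : Equiv.Perm Vec} (hσ : Rep g σ) :
    σ ∈ MulAction.stabilizer (Equiv.Perm Vec) (span 5) := by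
  refine MulAction.mem_stabilizer_iff.2 (Set.eq_of_subset_of_ncard_le ?_ ?_ (Set.toFinite _))
  · rintro _ ⟨v, ⟨m, hm⟩, rfl⟩
    show ∃ n, enc (σ v) = apL coBas n
    rw [hσ v, hm, ← apL_comp]
    refine apL_list_mem (S := {u | ∃ n, u = apL coBas n}) ⟨0, (apL_zero _).symm⟩ ?_ _ ?_ m
    · rintro a ⟨p, rfl⟩ b ⟨q, rfl⟩
      exact ⟨p ^^^ q, (apL_xor _ _ _).symm⟩
    · intro y hy
      obtain ⟨t, ht, rfl⟩ := List.mem_map.1 hy
      obtain ⟨n, hn⟩ := co_facts.1 g hg t ht
      exact ⟨n, hn.symm⟩
  · rw [smul_ncard]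

/-- An element of the group of order sixteen fixing the subspace pointwise. -/
theorem co_faithful {g : List ℕ} (hg : g ∈ sixList) {σ : Equiv.Perm Vec} (hσ : Rep g σ)
    (hfix : ∀ v ∈ span 5, σ v = v) : g = idL := by
  refine (co_facts.2.1 g hg).resolve_right ?_
  rintro ⟨t, ht, hne⟩
  refine hne ?_
  have hlt := (co_facts.2.2.1 t ht).1
  have e := rep_code hσ hlt
  rw [hfix _ (coBas_mem ht), enc_vecN hlt] at e
  exact e.symm

/-- The order of a product with a normalised complement. -/
theorem card_sup_of_inf_bot {H : Type*} [Group H] [Finite H] (A B : Subgroup H)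
    (h : B ≤ Subgroup.normalizer (A : Set H)) (hAB : A ⊓ B = ⊥) :
    Nat.card ↥(A ⊔ B) = Nat.card A * Nat.card B := by
  have hs := Modules.card_sup_mul_card_inf h
  rw [inf_comm, hAB, Subgroup.card_bot, mul_one, sup_comm] at hs
  rw [hs, mul_comm]

variable {G : Type*} [Group G] [Finite G] {z : G} {P : Subgroup G}

/-- The centralizer of an element. -/
local notation "Cz[" z "]" => Subgroup.centralizer (({z} : Set _))

/-- The part of the complement mapping faithfully, of order sixteen. -/
theorem exists_six [IsSimpleGroup G] (hJ : IsOfJankoFourTypeWith z P) (S : Invol.Setup z P) :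
    ∃ X0 : Subgroup Cz[z], Nat.card X0 = 16 ∧ X0 ≤ Subgroup.normalizer (W0 S : Set Cz[z]) ∧
      (∀ h ∈ X0, S.rho h ∈ MulAction.stabilizer (Equiv.Perm Vec) (span 5)) ∧
      ∀ h ∈ X0, (∀ v ∈ span 5, S.rho h v = v) → h = 1 := by
  classical
  obtain ⟨x, y, g, hxL, hyL, hgL, hx, hy, hg, x2, y2, g2, u4, hgx, hgy⟩ := Mat.Split.exists_gens hJ S
  obtain ⟨u, hu⟩ : ∃ u, u = x * y := ⟨_, rfl⟩
  rw [← hu] at u4
  have hux : x * u = y := by rw [hu, ← mul_assoc, x2, one_mul]
  have hgu : g * u = u * g := by rw [hu, ← mul_assoc, hgx, mul_assoc, hgy, mul_assoc]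
  set X := Subgroup.closure ({x, y, g} : Set Cz[z]) with hX
  set F : ℕ → Bool → Bool → Cz[z] :=
    fun i j k => u ^ i * (bif j then x else 1) * (bif k then g else 1) with hF
  have hu3 : ∀ i, u ^ (i % 4) = u ^ i := fun i => by
    conv_rhs => rw [← Nat.mod_add_div i 4, pow_add, pow_mul, u4, one_pow, mul_one]
  have hform : ∀ h ∈ X, ∃ i j k, i < 4 ∧ h = F i j k := by
    have hred : ∀ h, (∃ i j k, h = F i j k) → ∃ i j k, i < 4 ∧ h = F i j k := by
      rintro h ⟨i, j, k, rfl⟩
      exact ⟨i % 4, j, k, Nat.mod_lt _ (by norm_num), by simp only [hF, hu3]⟩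
    intro h hh
    apply hred
    have hmem : h ∈ Submonoid.closure ({x, y, g} : Set Cz[z]) := by
      rw [← Subgroup.closure_toSubmonoid_of_finite]
      exact hh
    induction hmem using Submonoid.closure_induction_right with
    | one => exact ⟨0, false, false, by simp [hF]⟩
    | mul_right h hh' s hs ih =>
      obtain ⟨i, j, k, rfl⟩ := ih ((Subgroup.closure_toSubmonoid_of_finite (s := ({x, y, g} : Set Cz[z]))).ge hh')
      have hxg : (bif k then g else 1) * x = x * (bif k then g else 1) := by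
        cases k
        · rw [cond_false, one_mul, mul_one]
        · exact hgx
      have hug : (bif k then g else 1) * u = u * (bif k then g else 1) := by
        cases k
        · rw [cond_false, one_mul, mul_one]
        · exact hgu
      have hxj : ∀ j, (bif j then x else (1 : Cz[z])) * x = bif (!j) then x else 1 := by
        intro j
        cases j
        · exact one_mul x
        · exact x2
      have hxu : x * u = u ^ 3 * x := by
        have h3 : u ^ 3 = u⁻¹ := eq_inv_of_mul_eq_one_left (by rw [← pow_succ]; exact u4)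
        rw [hux, h3, hu, mul_inv_rev, inv_eq_of_mul_eq_one_right y2, inv_eq_of_mul_eq_one_right x2,
          mul_assoc, x2, mul_one]
      rcases hs with e | e | e
      · rw [e]
        refine ⟨i, !j, k, ?_⟩
        simp only [hF]
        rw [mul_assoc, hxg, ← mul_assoc, mul_assoc (u ^ i), hxj]
      · rw [e]
        refine ⟨bif j then i + 1 else i + 3, !j, k, ?_⟩
        simp only [hF]
        rw [← hux]
        generalize hA : (bif j then x else (1 : Cz[z])) = A
        generalize hB : (bif k then g else (1 : Cz[z])) = B at hxg hug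
        rw [show u ^ i * A * B * (x * u) = u ^ i * A * ((B * x) * u) by group, hxg, mul_assoc x, hug,
          show u ^ i * A * (x * (u * B)) = u ^ i * ((A * x) * u) * B by group, ← hA, hxj]
        cases j
        · simp only [Bool.not_false, cond_true, cond_false]
          rw [hxu, ← mul_assoc, ← pow_add]
        · simp only [Bool.not_true, cond_true, cond_false]
          rw [one_mul, mul_one, ← pow_succ]
      · rw [Set.mem_singleton_iff.1 e]
        refine ⟨i, j, !k, ?_⟩
        simp only [hF]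
        rw [mul_assoc]
        congr 1
        cases k
        · exact one_mul g
        · exact g2
  have hrepU : ∀ i, Rep (powN i) (S.rho (u ^ i)) := by
    intro i
    induction i with
    | zero => rw [Mat.Split.powN_zero, pow_zero, map_one]; exact Rep.one
    | succ i ih =>
      rw [Mat.Split.powN_succ, pow_succ, map_mul]
      refine ih.mul ?_
      rw [hu, map_mul]
      exact hx.mul hy
  have hrepF : ∀ i j k, Rep (sixN i j k) (S.rho (F i j k)) := by
    intro i j k
    simp only [hF, map_mul, Mat.Split.sixN_eq]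
    refine ((hrepU i).mul ?_).mul ?_
    · cases j
      · rw [cond_false, cond_false, map_one]; exact Rep.one
      · exact hx
    · cases k
      · rw [cond_false, cond_false, map_one]; exact Rep.one
      · exact hg
  have hmem6 : ∀ i j k, i < 4 → sixN i j k ∈ sixList := by
    intro i j k hi
    rw [sixList, List.mem_flatMap]
    refine ⟨i, List.mem_range.2 hi, ?_⟩
    cases j <;> cases k <;> simp
  have hnorm6 : ∀ s ∈ sixList, comp s idL = s := fun s hs => by
    have := List.all_eq_true.1 Mat.Split.six_normal s hs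
    simpa using this
  have hinj : ∀ i j k i' j' k', i < 4 → i' < 4 → sixN i j k = sixN i' j' k' →
      i = i' ∧ j = j' ∧ k = k' := by
    intro i j k i' j' k' hi hi' e
    have h : ∀ q ∈ ((List.range 4).flatMap fun i => [(i, false, false), (i, false, true),
        (i, true, false), (i, true, true)]), ∀ r ∈ ((List.range 4).flatMap fun i => [(i, false, false),
        (i, false, true), (i, true, false), (i, true, true)]),
        sixN q.1 q.2.1 q.2.2 = sixN r.1 r.2.1 r.2.2 → q = r := by
      refine List.inj_on_of_nodup_map (f := fun q : ℕ × Bool × Bool => sixN q.1 q.2.1 q.2.2) ?_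
      rw [List.map_flatMap]
      exact Mat.Split.six_facts.1
    have hm : ∀ i j k, i < 4 → (i, j, k) ∈ ((List.range 4).flatMap fun i => [(i, false, false),
        (i, false, true), (i, true, false), (i, true, true)]) := by
      intro i j k hi
      rw [List.mem_flatMap]
      exact ⟨i, List.mem_range.2 hi, by cases j <;> cases k <;> simp⟩
    have := h (i, j, k) (hm i j k hi) (i', j', k') (hm i' j' k' hi') e
    simpa only [Prod.mk.injEq] using this
  have hgens : ∀ s ∈ ({x, y, g} : Set Cz[z]), ∃ l ∈ [gN, xN, yN], Rep l (S.rho s) ∧ s ∈ Lp S ∧ s * s = 1 := by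
    rintro s (e | e | e)
    · rw [e]; exact ⟨xN, by simp, hx, hxL, x2⟩
    · rw [e]; exact ⟨yN, by simp, hy, hyL, y2⟩
    · rw [Set.mem_singleton_iff.1 e]; exact ⟨gN, by simp, hg, hgL, g2⟩
  refine ⟨X, ?_, ?_, fun h hh => ?_, fun h hh hfix => ?_⟩
  · have hFX : ∀ i j k, F i j k ∈ X := fun i j k => by
      have hxX : x ∈ X := Subgroup.subset_closure (by simp)
      have hyX : y ∈ X := Subgroup.subset_closure (by simp)
      have hgX : g ∈ X := Subgroup.subset_closure (by simp)
      refine mul_mem (mul_mem (pow_mem (hu.symm ▸ mul_mem hxX hyX) i) ?_) ?_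
      · cases j
        · exact one_mem X
        · exact hxX
      · cases k
        · exact one_mem X
        · exact hgX
    have hb : Function.Bijective (fun q : Fin 4 × Bool × Bool =>
        (⟨F q.1 q.2.1 q.2.2, hFX _ _ _⟩ : X)) := by
      refine ⟨?_, ?_⟩
      · rintro ⟨i, j, k⟩ ⟨i', j', k'⟩ e
        have e' : F i j k = F i' j' k' := congrArg Subtype.val e
        obtain ⟨h1, rfl, rfl⟩ := hinj i j k i' j' k' i.2 i'.2 ((hrepF i j k).list_eq (e' ▸ hrepF i' j' k')
          (hnorm6 _ (hmem6 _ j k i.2)) (hnorm6 _ (hmem6 _ j' k' i'.2)))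
        rw [Fin.ext h1]
      · rintro ⟨h, hh⟩
        obtain ⟨i, j, k, hi, rfl⟩ := hform h hh
        exact ⟨(⟨i, hi⟩, j, k), rfl⟩
    rw [← Nat.card_congr (Equiv.ofBijective _ hb)]
    simp
  · rw [hX, Subgroup.closure_le]
    intro s hs
    obtain ⟨l, hl, hr, hsL, s2⟩ := hgens s hs
    have hW := Mat.Split.conj_W0 S hsL fun a ha v hv => by
      rw [hr v, hv]
      exact (Mat.Split.pres_facts l hl).2.1 a ha
    refine Subgroup.mem_normalizer_iff.2 fun w => ⟨hW w, fun hw => ?_⟩
    have := hW _ hw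
    rwa [show s * (s * w * s⁻¹) * s⁻¹ = (s * s) * w * (s * s)⁻¹ by group, s2, one_mul, inv_one,
      mul_one] at this
  · have hle : X ≤ (MulAction.stabilizer (Equiv.Perm Vec) (span 5)).comap S.rho := by
      rw [hX, Subgroup.closure_le]
      intro s hs
      obtain ⟨l, hl, hr, -, -⟩ := hgens s hs
      exact co_stab hl hr
    exact hle hh
  · obtain ⟨i, j, k, hi, rfl⟩ := hform h hh
    have e := co_faithful (hmem6 i j k hi) (hrepF i j k) hfix
    rw [← Mat.Split.six_facts.2.2.1] at e
    obtain ⟨rfl, rfl, rfl⟩ := hinj i j k 0 false false hi (by norm_num) e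
    simp [hF]

/-- The singular part of the complement has order 64. -/
theorem W0_card_eq (S : Invol.Setup z P) : Nat.card (W0 S) = 64 := by
  refine le_antisymm ?_ (Mat.Split.W0_card S)
  have hd := Subgroup.card_dvd_of_le (Mat.Split.W0_le S)
  have hne : Nat.card (W0 S) ≠ Nat.card (Wt S) := fun e => Mat.Split.zc_not_mem S
    ((Subgroup.eq_of_le_of_card_ge (Mat.Split.W0_le S) e.ge).ge (Mat.Split.zc_mem_Wt S))
  rw [Mat.Split.Wt_card] at hd hne
  obtain ⟨k, hk⟩ := hd
  have h2 : 2 ≤ k := by
    rcases k with - | - | k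
    · omega
    · rw [zero_add, mul_one] at hk; exact absurd hk.symm hne
    · omega
  nlinarith

/-- A complement of order `2^10` inside a Sylow 2-subgroup of the normalizer. -/
theorem exists_complement_two [IsSimpleGroup G] (hJ : IsOfJankoFourTypeWith z P) (S : Invol.Setup z P) :
    ∃ T X : Subgroup G, base S ≤ T ∧
      T ≤ Subgroup.normalizer (base S : Set G) ⊓ Subgroup.centralizer ({z} : Set G) ∧
      Nat.card T = 2 ^ 20 ∧ X ≤ T ∧ X ⊓ base S = ⊥ ∧ Nat.card X = 2 ^ 10 := by
  classical
  obtain ⟨X0, hX0c, hX0n, hX0s, hX0f⟩ := exists_six hJ S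
  obtain ⟨σ, hσ, hσs⟩ := exists_smul_span 5 (by norm_num)
  obtain ⟨h, rfl⟩ : σ ∈ S.rho.range := (range_eq hJ S).ge hσ
  have hdisj : W0 S ⊓ X0 = ⊥ := le_bot_iff.1 fun w ⟨hw, hx⟩ => Subgroup.mem_bot.2
    (hX0f w hx fun v _ => by rw [S.D.rho_q (Mat.Split.Wt_le S (Mat.Split.W0_le S hw))]; rfl)
  set X1 := W0 S ⊔ X0 with hX1
  have hX1c : Nat.card X1 = 2 ^ 10 := by
    rw [hX1, card_sup_of_inf_bot _ _ hX0n hdisj, W0_card_eq S, hX0c]
    norm_num
  set c : Cz[z] →* Cz[z] := (MulAut.conj h⁻¹).toMonoidHom with hc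
  set X2 := X1.map c with hX2
  have hX2c : Nat.card X2 = 2 ^ 10 := by
    rw [hX2, Subgroup.card_map_of_injective (MulAut.conj h⁻¹).injective, hX1c]
  have hmove : ∀ x : Cz[z], S.rho (c x) = (S.rho h)⁻¹ * S.rho x * S.rho h := fun x => by
    show S.rho (h⁻¹ * x * h⁻¹⁻¹) = _
    rw [inv_inv, map_mul, map_mul, map_inv]
  have hX2s : X2 ≤ stabH S := by
    rw [hX2, Subgroup.map_le_iff_le_comap, hX1]
    have key : ∀ x, S.rho x ∈ MulAction.stabilizer (Equiv.Perm Vec) (span 5) → c x ∈ stabH S := fun x hx => by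
      rw [stabH, Subgroup.mem_comap, hmove, wStab, MulAction.mem_stabilizer_iff, mul_smul, mul_smul, hσs,
        MulAction.mem_stabilizer_iff.1 hx, ← hσs, inv_smul_smul]
    refine sup_le (fun w hw => key w ?_) fun x hx => key x (hX0s x hx)
    rw [S.D.rho_q (Mat.Split.Wt_le S (Mat.Split.W0_le S hw))]
    exact one_mem _
  have hbot : X2 ⊓ baseH S = ⊥ := by
    refine le_bot_iff.1 fun y hy => Subgroup.mem_bot.2 ?_
    obtain ⟨⟨x, hx, rfl⟩, hb⟩ := hy
    have hxm : x ∈ (W0 S : Set Cz[z]) * (X0 : Set Cz[z]) := by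
      rw [← Subgroup.coe_mul_of_right_le_normalizer_left _ _ hX0n]
      exact hx
    obtain ⟨w, hw, x0, hx0, rfl⟩ := hxm
    have hwQ := Mat.Split.Wt_le S (Mat.Split.W0_le S hw)
    have hfix : ∀ v ∈ span 5, S.rho (w * x0) v = v := by
      intro v hv
      rw [← hσs] at hv
      obtain ⟨u, hu, rfl⟩ := hv
      have e := fix_of_baseH S hb u hu
      rw [hmove, Equiv.Perm.mul_apply, Equiv.Perm.mul_apply, Equiv.Perm.inv_eq_iff_eq] at e
      exact e
    rw [map_mul, S.D.rho_q hwQ, one_mul] at hfix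
    obtain rfl := hX0f x0 hx0 hfix
    simp only [mul_one] at hb ⊢
    obtain ⟨hq', hw'⟩ := Mat.Split.W0_le S hw
    have hcQ : c w ∈ pCore 2 Cz[z] := (inferInstance : (pCore 2 Cz[z]).Normal).conj_mem _ hwQ h⁻¹
    have hp := centralizing_q S (a := ⟨c w, hcQ⟩) hb
    have hp' := (mem_pre S).1 hp
    rw [show S.psi ⟨c w, hcQ⟩ = S.rho h⁻¹ (S.psi ⟨w, hwQ⟩) from conj_psi S h⁻¹ ⟨w, hwQ⟩, map_inv] at hp'
    have hv : S.psi ⟨w, hwQ⟩ ∈ span 5 := by
      rw [← hσs]
      exact ⟨_, hp', Equiv.apply_symm_apply _ _⟩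
    have h0 : S.psi ⟨w, hwQ⟩ = 0 := co_inter hv hw'
    rcases (S.D.psi_ker ⟨w, hwQ⟩).1 h0 with e | e
    · rw [show w = 1 from e, map_one]
    · exact absurd (show zc z ∈ W0 S by rw [← show w = zc z from e]; exact hw) (Mat.Split.zc_not_mem S)
  have hnorm : X2 ≤ Subgroup.normalizer (baseH S : Set Cz[z]) := fun y hy =>
    Subgroup.mem_normalizer_iff.2 fun b => ⟨fun hb => conj_baseH S (hX2s hy) hb, fun hb => by
      have := conj_baseH S (inv_mem (hX2s hy)) hb
      rwa [show y⁻¹ * (y * b * y⁻¹) * y⁻¹⁻¹ = b by group] at this⟩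
  set T2 := baseH S ⊔ X2 with hT2
  have hT2c : Nat.card T2 = 2 ^ 20 := by
    rw [hT2, card_sup_of_inf_bot _ _ hnorm ((inf_comm _ _).trans hbot), card_baseH hJ S, hX2c]
    norm_num
  have hT2s : T2 ≤ stabH S := sup_le (fun b hb => by
    rw [stabH, Subgroup.mem_comap]
    exact mem_wStab.2 fun w hw => by rw [fix_of_baseH S hb w hw]; exact hw) hX2s
  refine ⟨T2.map (Subgroup.centralizer ({z} : Set G)).subtype,
    X2.map (Subgroup.centralizer ({z} : Set G)).subtype, Subgroup.map_mono le_sup_left, ?_, ?_,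
    Subgroup.map_mono le_sup_right, ?_, ?_⟩
  · rw [normalizer_inf S]
    exact Subgroup.map_mono hT2s
  · rw [Subgroup.card_map_of_injective (Subgroup.subtype_injective _), hT2c]
  · rw [base, ← Subgroup.map_inf _ _ _ (Subgroup.subtype_injective _), hbot, Subgroup.map_bot]
  · rw [Subgroup.card_map_of_injective (Subgroup.subtype_injective _), hX2c]

end Cfsg.Agent.JFourType.Ten
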